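import Mathlib

/-! Conjugacy in `SL₂` over a finite field: non-scalar matrices with equal trace and determinant. -/

set_option autoImplicit false
set_option linter.unusedSimpArgs false
set_option linter.unusedVariables false
set_option linter.unusedSectionVars false

namespace Cfsg.Agent.Lib.ClassMax.ConjTwo

open Matrix

variable {F : Type*} [Field F]

theorem ch (M : Matrix (Fin 2) (Fin 2) F) : M * M = M.trace • M - M.det • (1 : Matrix (Fin 2) (Fin 2) F) := by
  ext i j
  fin_cases i <;> fin_cases j <;>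
    simp [Matrix.mul_apply, Fin.sum_univ_two, Matrix.trace_fin_two, Matrix.det_fin_two] <;> ring

theorem polar (M N : Matrix (Fin 2) (Fin 2) F) :
    M * N + N * M = M.trace • N + N.trace • M + ((M * N).trace - M.trace * N.trace) • (1 : Matrix (Fin 2) (Fin 2) F) := by
  ext i j
  fin_cases i <;> fin_cases j <;>
    simp [Matrix.mul_apply, Fin.sum_univ_two, Matrix.trace_fin_two] <;> ring

theorem exists_companion (u : Matrix (Fin 2) (Fin 2) F) (hu : ∀ z : F, u ≠ z • (1 : Matrix (Fin 2) (Fin 2) F)) :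
    ∃ g : Matrix (Fin 2) (Fin 2) F, g.det ≠ 0 ∧ u * g = g * !![0, -u.det; 1, u.trace] := by
  have key : ∀ v0 v1 : F, u 1 0 * v0 ^ 2 + (u 1 1 - u 0 0) * v0 * v1 - u 0 1 * v1 ^ 2 ≠ 0 →
      ∃ g : Matrix (Fin 2) (Fin 2) F, g.det ≠ 0 ∧ u * g = g * !![0, -u.det; 1, u.trace] := by
    intro v0 v1 h
    refine ⟨!![v0, u 0 0 * v0 + u 0 1 * v1; v1, u 1 0 * v0 + u 1 1 * v1], ?_, ?_⟩
    · rw [Matrix.det_fin_two_of]
      intro h2
      apply h
      linear_combination h2
    · ext i j
      fin_cases i <;> fin_cases j <;>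
        simp [Matrix.mul_apply, Fin.sum_univ_two, Matrix.trace_fin_two, Matrix.det_fin_two] <;> ring
  by_cases h10 : u 1 0 = 0
  · by_cases h01 : u 0 1 = 0
    · have h : u 1 1 - u 0 0 ≠ 0 := by
        intro h
        apply hu (u 0 0)
        ext i j
        fin_cases i <;> fin_cases j <;> simp [h10, h01]
        exact sub_eq_zero.mp h
      exact key 1 1 (by simpa [h10, h01] using h)
    · exact key 0 1 (by simpa [h10, h01] using h01)
  · exact key 1 0 (by simpa using h10)

theorem exists_conj (u v : Matrix (Fin 2) (Fin 2) F)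
    (hu : ∀ z : F, u ≠ z • (1 : Matrix (Fin 2) (Fin 2) F)) (hv : ∀ z : F, v ≠ z • (1 : Matrix (Fin 2) (Fin 2) F))
    (ht : u.trace = v.trace) (hd : u.det = v.det) :
    ∃ h : Matrix (Fin 2) (Fin 2) F, h.det ≠ 0 ∧ u * h = h * v := by
  obtain ⟨g₁, hg₁, h₁⟩ := exists_companion u hu
  obtain ⟨g₂, hg₂, h₂⟩ := exists_companion v hv
  have hu2 : IsUnit g₂.det := isUnit_iff_ne_zero.mpr hg₂
  have hinv : g₂ * g₂⁻¹ = 1 := Matrix.mul_nonsing_inv _ hu2
  have hinv' : g₂⁻¹ * g₂ = 1 := Matrix.nonsing_inv_mul _ hu2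
  refine ⟨g₁ * g₂⁻¹, ?_, ?_⟩
  · rw [Matrix.det_mul]
    refine mul_ne_zero hg₁ ?_
    intro h0
    have := congrArg Matrix.det hinv
    rw [Matrix.det_mul, h0, mul_zero, Matrix.det_one] at this
    exact zero_ne_one this
  · have e : g₂⁻¹ * v = !![0, -u.det; 1, u.trace] * g₂⁻¹ := by
      rw [ht, hd]
      calc g₂⁻¹ * v = g₂⁻¹ * (v * g₂) * g₂⁻¹ := by
            rw [mul_assoc, mul_assoc, hinv, mul_one]
        _ = !![0, -v.det; 1, v.trace] * g₂⁻¹ := by
            rw [h₂, ← mul_assoc, hinv', one_mul]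
    calc u * (g₁ * g₂⁻¹) = (u * g₁) * g₂⁻¹ := by rw [mul_assoc]
      _ = g₁ * (!![0, -u.det; 1, u.trace] * g₂⁻¹) := by rw [h₁, mul_assoc]
      _ = g₁ * g₂⁻¹ * v := by rw [← e, mul_assoc]

theorem det_add_smul (v : Matrix (Fin 2) (Fin 2) F) (a b : F) :
    (a • (1 : Matrix (Fin 2) (Fin 2) F) + b • v).det = a ^ 2 + a * b * v.trace + b ^ 2 * v.det := by
  simp [Matrix.det_fin_two, Matrix.trace_fin_two]
  ring

/-- The norm form of `F[v]` is surjective when `v` has nonzero discriminant and `F` is finite of odd order. -/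
theorem exists_commuting_det [Fintype F] (hodd : Fintype.card F % 2 = 1) (v : Matrix (Fin 2) (Fin 2) F)
    (hdisc : v.trace ^ 2 - 4 * v.det ≠ 0) (e : F) :
    ∃ c : Matrix (Fin 2) (Fin 2) F, c.det = e ∧ c * v = v * c := by
  have h2 : (2 : F) ≠ 0 := by
    intro h
    have hc : ringChar F = 2 := by
      have := (ringChar.spec F 2).mp (by exact_mod_cast h)
      exact (Nat.prime_dvd_prime_iff_eq (CharP.char_is_prime_or_zero F (ringChar F) |>.resolve_right (by
        intro h0
        have := CharP.cast_eq_zero_iff F (ringChar F) 0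
        exact (CharP.char_ne_zero_of_finite F (ringChar F)) h0)) Nat.prime_two).mp this |>.symm ▸ rfl
    have := FiniteField.even_card_iff_char_two.mp hc
    omega
  set κ : F := v.det - v.trace ^ 2 / 4 with hκ
  have hκ0 : κ ≠ 0 := by
    intro h
    apply hdisc
    have h4 : (4 : F) ≠ 0 := by
      have : (4 : F) = 2 * 2 := by norm_num
      rw [this]; exact mul_ne_zero h2 h2
    rw [hκ] at h
    field_simp at h
    linear_combination -h
  have hf : (Polynomial.X ^ 2 - Polynomial.C e : Polynomial F).degree = 2 := by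
    exact Polynomial.degree_X_pow_sub_C (by norm_num) e
  have hg : (Polynomial.C κ * Polynomial.X ^ 2 : Polynomial F).degree = 2 := by
    rw [Polynomial.degree_C_mul_X_pow 2 hκ0]; rfl
  obtain ⟨s, b, hsb⟩ := FiniteField.exists_root_sum_quadratic hf hg hodd
  simp only [Polynomial.eval_sub, Polynomial.eval_pow, Polynomial.eval_X, Polynomial.eval_C, Polynomial.eval_mul] at hsb
  refine ⟨(s - v.trace * b / 2) • 1 + b • v, ?_, ?_⟩
  · rw [det_add_smul]
    have h4 : (4 : F) ≠ 0 := by
      have : (4 : F) = 2 * 2 := by norm_num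
      rw [this]; exact mul_ne_zero h2 h2
    rw [hκ] at hsb
    field_simp at hsb ⊢
    linear_combination hsb
  · simp [add_mul, mul_add, Matrix.smul_mul, Matrix.mul_smul]

/-- Non-scalar matrices with the same trace and determinant, of nonzero discriminant, over a finite field of odd order,
are conjugate in `SL₂`. -/
theorem exists_sl_conj [Fintype F] (hodd : Fintype.card F % 2 = 1) (u v : Matrix (Fin 2) (Fin 2) F)
    (hu : ∀ z : F, u ≠ z • (1 : Matrix (Fin 2) (Fin 2) F)) (hv : ∀ z : F, v ≠ z • (1 : Matrix (Fin 2) (Fin 2) F))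
    (ht : u.trace = v.trace) (hd : u.det = v.det) (hdisc : v.trace ^ 2 - 4 * v.det ≠ 0) :
    ∃ h : Matrix (Fin 2) (Fin 2) F, h.det = 1 ∧ u * h = h * v := by
  obtain ⟨h, hh, huh⟩ := exists_conj u v hu hv ht hd
  obtain ⟨c, hc, hcv⟩ := exists_commuting_det hodd v hdisc (h.det)⁻¹
  refine ⟨h * c, ?_, ?_⟩
  · rw [Matrix.det_mul, hc, mul_inv_cancel₀ hh]
  · rw [← mul_assoc, huh, mul_assoc, ← hcv, mul_assoc]

end Cfsg.Agent.Lib.ClassMax.ConjTwo
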