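import Mathlib
import Cfsg.Agent.Lib.ClassMax.EluConj
import Cfsg.Agent.Lib.Classical.Card

/-!
Elements of prime order `r` in `GL_n(q)`: the order of `q` modulo `r`, and an irreducible block of order `r`.
-/

set_option autoImplicit false
set_option linter.unusedSimpArgs false
set_option linter.unusedVariables false
set_option linter.unusedSectionVars false

namespace Cfsg.Agent.Lib.ClassMax.EluOrder

open Module Polynomial Cfsg.Agent.Lib.ClassMax.EluConj

variable {F : Type*} [Field F] [Fintype F]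

theorem pow_eq_one_iff_dvd {r q m : ℕ} (hq : 0 < q) : (q : ZMod r) ^ m = 1 ↔ r ∣ q ^ m - 1 := by
  rw [← ZMod.natCast_eq_zero_iff, Nat.cast_sub (Nat.one_le_pow _ _ hq)]
  simp [sub_eq_zero]

theorem order_pos {r q : ℕ} [Fact r.Prime] (hrq : ¬ r ∣ q) : 0 < orderOf (q : ZMod r) := by
  rw [orderOf_pos_iff, isOfFinOrder_iff_pow_eq_one]
  refine ⟨r - 1, by have := (Fact.out : r.Prime).two_le; omega, ?_⟩
  apply ZMod.pow_card_sub_one_eq_one
  rwa [Ne, ZMod.natCast_eq_zero_iff]

theorem order_le_of_dvd {r : ℕ} [Fact r.Prime] (hrq : ¬ r ∣ Fintype.card F) {n : ℕ} (h : r ∣ Nat.card (GL (Fin n) F)) :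
    orderOf ((Fintype.card F : ℕ) : ZMod r) ≤ n := by
  classical
  have hr : r.Prime := Fact.out
  set q := Fintype.card F with hq
  have hq0 : 0 < q := Fintype.card_pos
  rw [Matrix.card_GL_field] at h
  obtain ⟨j, -, hj⟩ := (hr.prime.dvd_finset_prod_iff _).mp h
  change r ∣ q ^ n - q ^ (j : ℕ) at hj
  have hjn := j.2
  obtain ⟨t, ht⟩ : ∃ t, n = j + t := ⟨n - j, by omega⟩
  have e : q ^ n - q ^ (j : ℕ) = q ^ (j : ℕ) * (q ^ t - 1) := by
    have h9 : q ^ n = q ^ (j : ℕ) * q ^ t := by rw [← pow_add, ← ht]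
    rw [h9, Nat.mul_sub, mul_one]
  rw [e] at hj
  have h3 : r ∣ q ^ t - 1 := by
    rcases (hr.dvd_mul).mp hj with h4 | h4
    · exact absurd (hr.dvd_of_dvd_pow h4) hrq
    · exact h4
  have h4 : (q : ZMod r) ^ t = 1 := (pow_eq_one_iff_dvd hq0).mpr h3
  have h5 := orderOf_dvd_of_pow_eq_one h4
  have h6 := Nat.le_of_dvd (by omega) h5
  omega

theorem ratFree_cast_ne {r : ℕ} (hr : r.Prime) (hrq : ¬ r ∣ Fintype.card F) : (r : F) ≠ 0 := by
  intro h
  have h1 := (ringChar.spec F r).mp h
  have hne : ringChar F ≠ 1 := CharP.ringChar_ne_one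
  have h2 : ringChar F = r := (hr.eq_one_or_self_of_dvd _ h1).resolve_left hne
  haveI : Fact (ringChar F).Prime := ⟨h2 ▸ hr⟩
  obtain ⟨k, -, hk⟩ := FiniteField.card F (ringChar F)
  apply hrq
  rw [hk, ← h2]
  exact dvd_pow_self _ k.ne_zero

/-- An irreducible factor acting non-injectively. -/
theorem exists_irreducible_non_inj {V : Type*} [AddCommGroup V] [Module F V] (A : Module.End F V) (h : F[X]) (h0 : h ≠ 0)
    (hn : ¬ Function.Injective (aeval A h)) : ∃ f : F[X], Irreducible f ∧ f ∣ h ∧ ¬ Function.Injective (aeval A f) := by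
  classical
  induction h using WfDvdMonoid.induction_on_irreducible with
  | zero => exact absurd rfl h0
  | unit u hu =>
    exfalso
    apply hn
    obtain ⟨v, hv1, hv2⟩ := Polynomial.isUnit_iff.mp hu
    rw [← hv2, aeval_C]
    intro x y hxy
    simp only [Module.algebraMap_end_apply] at hxy
    exact smul_right_injective _ (hv1.ne_zero) hxy
  | mul a i ha hi ih =>
    by_cases hfi : Function.Injective (aeval A i)
    · have hna : ¬ Function.Injective (aeval A a) := by
        intro hinj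
        apply hn
        rw [map_mul]
        exact hfi.comp hinj
      obtain ⟨f, hf, hfa, hfn⟩ := ih (by exact ha) hna
      exact ⟨f, hf, hfa.trans (Dvd.intro_left _ rfl), hfn⟩
    · exact ⟨i, hi, Dvd.intro _ rfl, hfi⟩

/-- A block of order `r`. -/
theorem exists_block {r : ℕ} [Fact r.Prime] (hrq : ¬ r ∣ Fintype.card F) (hrq1 : ¬ r ∣ Fintype.card F - 1) :
    ∃ (y₀ : Matrix (Fin (orderOf ((Fintype.card F : ℕ) : ZMod r))) (Fin (orderOf ((Fintype.card F : ℕ) : ZMod r))) F) (f : F[X]),
      Irreducible f ∧ f.natDegree = orderOf ((Fintype.card F : ℕ) : ZMod r) ∧ aeval y₀ f = 0 ∧ f.eval 1 ≠ 0 ∧ y₀ ^ r = 1 ∧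
        y₀.det = 1 ∧ y₀ ≠ 1 := by
  classical
  have hr : r.Prime := Fact.out
  set q := Fintype.card F with hq
  have hq0 : 0 < q := Fintype.card_pos
  set i := orderOf ((q : ℕ) : ZMod r) with hi
  have hi0 : 0 < i := order_pos hrq
  have hri : r ∣ q ^ i - 1 := (pow_eq_one_iff_dvd hq0).mp (pow_orderOf_eq_one _)
  have hGL : r ∣ Nat.card (GL (Fin i) F) := by
    rw [Matrix.card_GL_field]
    refine hri.trans ?_
    have := Finset.dvd_prod_of_mem (fun j : Fin i => q ^ i - q ^ (j : ℕ)) (Finset.mem_univ (⟨0, hi0⟩ : Fin i))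
    simpa using this
  haveI : Nonempty (Fin i) := ⟨⟨0, hi0⟩⟩
  have hSL : r ∣ Nat.card (Matrix.SpecialLinearGroup (Fin i) F) := by
    have h1 := Cfsg.Agent.Lib.Classical.card_GL_eq_mul_card_SL (F := F) (Fin i)
    rw [Nat.card_eq_fintype_card (α := F)] at h1
    rw [h1] at hGL
    rcases (hr.dvd_mul).mp hGL with h | h
    · exact absurd h hrq1
    · exact h
  obtain ⟨y, hy⟩ := exists_prime_orderOf_dvd_card' r hSL
  set Y : Matrix (Fin i) (Fin i) F := (y : Matrix (Fin i) (Fin i) F) with hY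
  have hYr : Y ^ r = 1 := by
    have h1 : y ^ r = 1 := by rw [← hy, pow_orderOf_eq_one]
    have h2 := congrArg (fun g : Matrix.SpecialLinearGroup (Fin i) F => (g : Matrix (Fin i) (Fin i) F)) h1
    simpa [Matrix.SpecialLinearGroup.coe_pow] using h2
  have hY1 : Y ≠ 1 := by
    intro h
    have h1 : y = 1 := Subtype.ext h
    rw [h1, orderOf_one] at hy
    exact hr.one_lt.ne hy
  have hYdet : Y.det = 1 := y.2
  set A : Module.End F (Fin i → F) := Matrix.toLinAlgEquiv' Y with hA
  have hconv : ∀ (p : F[X]), aeval A p = Matrix.toLin' (aeval Y p) := by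
    intro p
    exact aeval_algHom_apply (Matrix.toLinAlgEquiv' (R := F) (n := Fin i)) Y p
  set Φ : F[X] := ∑ j ∈ Finset.range r, X ^ j with hΦ
  have hΦX : Φ * (X - 1) = X ^ r - 1 := geom_sum_mul X r
  have hr0 : (r : F) ≠ 0 := ratFree_cast_ne hr hrq
  have hΦ1 : Φ.eval 1 = r := by
    simp [hΦ, eval_finset_sum]
  have hΦ0 : Φ ≠ 0 := by
    rintro h
    rw [h] at hΦ1
    simp at hΦ1
    exact hr0 hΦ1.symm
  have hAr : A ^ r = 1 := by
    rw [hA, ← map_pow, hYr, map_one]
  have hA1 : A ≠ 1 := by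
    intro h
    apply hY1
    apply (Matrix.toLinAlgEquiv' (R := F) (n := Fin i)).injective
    rw [map_one]
    exact h
  have hnon : ¬ Function.Injective (aeval A Φ) := by
    intro hinj
    apply hA1
    have h1 : aeval A Φ * (A - 1) = 0 := by
      have := congrArg (aeval A) hΦX
      simp only [map_mul, map_sub, aeval_X, map_one, map_pow] at this
      rw [this, hAr, sub_self]
    apply sub_eq_zero.mp
    apply LinearMap.ext
    intro v
    apply hinj
    have := congrArg (fun M : Module.End F (Fin i → F) => M v) h1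
    simpa using this
  obtain ⟨f, hf, hfΦ, hfn⟩ := exists_irreducible_non_inj A Φ hΦ0 hnon
  -- the kernel
  set K₀ := LinearMap.ker (aeval A f) with hK₀
  have hK₀ne : K₀ ≠ ⊥ := by
    intro h
    apply hfn
    exact LinearMap.ker_eq_bot.mp h
  have hinv := ker_aeval_invariant A f
  have hdvd : f.natDegree ∣ finrank F K₀ := by
    apply natDegree_dvd_finrank hf (A.restrict hinv)
    apply LinearMap.ext
    intro u
    apply Subtype.ext
    rw [aeval_restrict A hinv f u]
    exact u.2
  have hK₀pos : 0 < finrank F K₀ := by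
    rw [Nat.pos_iff_ne_zero]
    intro h
    exact hK₀ne (Submodule.finrank_eq_zero.mp h)
  have hdle : f.natDegree ≤ finrank F K₀ := Nat.le_of_dvd hK₀pos hdvd
  have hKle : finrank F K₀ ≤ i := by
    have := Submodule.finrank_le K₀
    rwa [finrank_fin_fun] at this
  -- the adjoined root
  have hfdeg : 0 < f.natDegree := hf.natDegree_pos
  haveI : Fact (Irreducible f) := ⟨hf⟩
  let E := AdjoinRoot f
  haveI : Module.Finite F E := (AdjoinRoot.powerBasis hf.ne_zero).finite
  haveI : Finite E := Module.finite_of_finite F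
  letI : Fintype E := Fintype.ofFinite E
  have hfinE : finrank F E = f.natDegree := by
    have := (AdjoinRoot.powerBasis hf.ne_zero).finrank
    rwa [AdjoinRoot.powerBasis_dim] at this
  have hcardE : Fintype.card E = q ^ f.natDegree := by
    rw [← Nat.card_eq_fintype_card, Module.natCard_eq_pow_finrank (K := F), hfinE, Nat.card_eq_fintype_card]
  set ρ : E := AdjoinRoot.root f with hρ
  have hρf : aeval ρ f = 0 := by rw [hρ, AdjoinRoot.aeval_eq, AdjoinRoot.mk_self]
  obtain ⟨g, hg⟩ := hfΦ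
  have hρΦ : aeval ρ Φ = 0 := by rw [hg, map_mul, hρf, zero_mul]
  have hρr : ρ ^ r = 1 := by
    have := congrArg (aeval ρ) hΦX
    simp only [map_mul, map_sub, aeval_X, map_one, map_pow, hρΦ, zero_mul] at this
    exact (sub_eq_zero.mp this.symm)
  have hρ1 : ρ ≠ 1 := by
    intro h
    have h3 : aeval (algebraMap F E 1) Φ = algebraMap F E (aeval (1 : F) Φ) := aeval_algebraMap_apply E 1 Φ
    rw [map_one, ← h, hρΦ] at h3
    have h4 : aeval (1 : F) Φ = r := by
      rw [← hΦ1]
      simp [aeval_def, eval₂_eq_eval_map]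
    rw [h4] at h3
    apply hr0
    apply (algebraMap F E).injective
    rw [← h3, map_zero]
  have hordρ : orderOf ρ = r := orderOf_eq_prime hρr hρ1
  have hρ0 : ρ ≠ 0 := by
    intro h
    rw [h, zero_pow hr.ne_zero] at hρr
    exact zero_ne_one hρr
  have hρq : ρ ^ (Fintype.card E - 1) = 1 := FiniteField.pow_card_sub_one_eq_one ρ hρ0
  have hrd : r ∣ q ^ f.natDegree - 1 := by
    rw [← hcardE, ← hordρ]
    exact orderOf_dvd_of_pow_eq_one hρq
  have hid : i ∣ f.natDegree := orderOf_dvd_of_pow_eq_one ((pow_eq_one_iff_dvd hq0).mpr hrd)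
  have hi_le : i ≤ f.natDegree := Nat.le_of_dvd hfdeg hid
  have hKtop : K₀ = ⊤ := Submodule.eq_top_of_finrank_eq (by rw [finrank_fin_fun]; omega)
  have hAf : aeval A f = 0 := LinearMap.ker_eq_top.mp hKtop
  have hYf : aeval Y f = 0 := by
    apply (Matrix.toLin' (R := F) (m := Fin i) (n := Fin i)).injective
    rw [← hconv, hAf, map_zero]
  refine ⟨Y, f, hf, by omega, hYf, ?_, hYr, hYdet, hY1⟩
  intro h
  apply hr0
  rw [← hΦ1, hg, eval_mul, h, zero_mul]

end Cfsg.Agent.Lib.ClassMax.EluOrder
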