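import Mathlib
import Cfsg.Prelude.Def_GeometricClasses
import Cfsg.Agent.Lib.ClassMax.EluQuad

/-!
Kronecker products reindexed to `Fin n`: ranks of `A ⊗ B - λ` and kernels of `1 ⊗ M`.
-/

set_option autoImplicit false
set_option linter.unusedSimpArgs false
set_option linter.unusedVariables false
set_option linter.unusedSectionVars false

namespace Cfsg.Agent.Lib.ClassMax.EluTensor

open Module Polynomial Cfsg.Geo Cfsg.Agent.Lib.ClassMax.EluConj Cfsg.Agent.Lib.ClassMax.EluQuad
open scoped Kronecker Matrix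

variable {F : Type*} [Field F] {n a b : ℕ}

/-- The Kronecker product reindexed to `Fin n`. -/
def tens (A : Matrix (Fin a) (Fin a) F) (B : Matrix (Fin b) (Fin b) F) (e : Fin n ≃ Fin a × Fin b) : Matrix (Fin n) (Fin n) F :=
  (A ⊗ₖ B).submatrix e e

theorem tens_apply (A : Matrix (Fin a) (Fin a) F) (B : Matrix (Fin b) (Fin b) F) (e : Fin n ≃ Fin a × Fin b) (i j : Fin n) :
    tens A B e i j = A (e i).1 (e j).1 * B (e i).2 (e j).2 := rfl

theorem tens_mul (A C : Matrix (Fin a) (Fin a) F) (B D : Matrix (Fin b) (Fin b) F) (e : Fin n ≃ Fin a × Fin b) :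
    tens A B e * tens C D e = tens (A * C) (B * D) e := by
  unfold tens
  rw [Matrix.submatrix_mul_equiv, ← Matrix.mul_kronecker_mul]

theorem tens_one (e : Fin n ≃ Fin a × Fin b) : tens (1 : Matrix (Fin a) (Fin a) F) 1 e = 1 := by
  unfold tens
  rw [Matrix.one_kronecker_one]
  simp

theorem tens_smul_left (c : F) (A : Matrix (Fin a) (Fin a) F) (B : Matrix (Fin b) (Fin b) F) (e : Fin n ≃ Fin a × Fin b) :
    tens (c • A) B e = c • tens A B e := by
  ext i j
  simp [tens_apply, mul_assoc]

theorem tens_smul_right (c : F) (A : Matrix (Fin a) (Fin a) F) (B : Matrix (Fin b) (Fin b) F) (e : Fin n ≃ Fin a × Fin b) :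
    tens A (c • B) e = c • tens A B e := by
  ext i j
  simp only [tens_apply, Matrix.smul_apply, smul_eq_mul]
  ring

theorem tens_add_right (A : Matrix (Fin a) (Fin a) F) (B C : Matrix (Fin b) (Fin b) F) (e : Fin n ≃ Fin a × Fin b) :
    tens A (B + C) e = tens A B e + tens A C e := by
  ext i j
  simp only [tens_apply, Matrix.add_apply]
  ring

theorem tens_zero_right (A : Matrix (Fin a) (Fin a) F) (e : Fin n ≃ Fin a × Fin b) :
    tens A (0 : Matrix (Fin b) (Fin b) F) e = 0 := by
  ext i j
  simp [tens_apply]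

theorem tens_swap (A : Matrix (Fin a) (Fin a) F) (B : Matrix (Fin b) (Fin b) F) (e : Fin n ≃ Fin a × Fin b) :
    tens B A (e.trans (Equiv.prodComm _ _)) = tens A B e := by
  ext i j
  simp [tens_apply, mul_comm]

/-- The invertible Kronecker product. -/
def tensGL (A : GL (Fin a) F) (B : GL (Fin b) F) : GL (Fin a × Fin b) F where
  val := (A : Matrix (Fin a) (Fin a) F) ⊗ₖ (B : Matrix (Fin b) (Fin b) F)
  inv := ((A⁻¹ : GL (Fin a) F) : Matrix (Fin a) (Fin a) F) ⊗ₖ ((B⁻¹ : GL (Fin b) F) : Matrix (Fin b) (Fin b) F)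
  val_inv := by
    rw [← Matrix.mul_kronecker_mul, ← Units.val_mul, ← Units.val_mul, mul_inv_cancel, mul_inv_cancel, Units.val_one, Units.val_one,
      Matrix.one_kronecker_one]
  inv_val := by
    rw [← Matrix.mul_kronecker_mul, ← Units.val_mul, ← Units.val_mul, inv_mul_cancel, inv_mul_cancel, Units.val_one, Units.val_one,
      Matrix.one_kronecker_one]

/-- Membership in a tensor subgroup. -/
theorem mem_tensor_iff (e : Fin n ≃ Fin a × Fin b) (P g : GL (Fin n) F) :
    g ∈ tensorProductSubgroup a b e P ↔ ∃ (A : GL (Fin a) F) (B : GL (Fin b) F),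
      (g : Matrix (Fin n) (Fin n) F) = (P : Matrix (Fin n) (Fin n) F) * tens A B e * ((P⁻¹ : GL (Fin n) F) : Matrix (Fin n) (Fin n) F) := by
  unfold tensorProductSubgroup
  constructor
  · rintro ⟨_, ⟨h, ⟨A, B, hAB⟩, rfl⟩, rfl⟩
    refine ⟨A, B, ?_⟩
    show (P : Matrix (Fin n) (Fin n) F) * (((glReindex e.symm h : GL (Fin n) F)) : Matrix (Fin n) (Fin n) F) * ((P⁻¹ : GL (Fin n) F) : Matrix (Fin n) (Fin n) F) = _
    congr 2
    show Matrix.reindexAlgEquiv F F e.symm (h : Matrix (Fin a × Fin b) (Fin a × Fin b) F) = _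
    rw [hAB]
    rfl
  · rintro ⟨A, B, hg⟩
    refine ⟨_, ⟨tensGL A B, ⟨A, B, rfl⟩, rfl⟩, ?_⟩
    apply Units.ext
    rw [hg]
    rfl

theorem exists_indep (A : Matrix (Fin a) (Fin a) F) (hA : ∀ c : F, A ≠ c • 1) :
    ∃ u : Fin a → F, ∀ x y : F, x • u + y • (A *ᵥ u) = 0 → x = 0 ∧ y = 0 := by
  classical
  by_contra hcon
  push Not at hcon
  have hev : ∀ u : Fin a → F, u ≠ 0 → ∃ c : F, A *ᵥ u = c • u := by
    intro u hu
    obtain ⟨x, y, h1, h2⟩ := hcon u
    by_cases hy : y = 0
    · subst hy
      simp only [zero_smul, add_zero] at h1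
      have hx : x = 0 := (smul_eq_zero.mp h1).resolve_right hu
      exact absurd rfl (h2 hx)
    · refine ⟨-(x / y), ?_⟩
      have h3 : y • (A *ᵥ u) = -(x • u) := eq_neg_of_add_eq_zero_right h1
      have h4 : A *ᵥ u = y⁻¹ • (y • (A *ᵥ u)) := by rw [smul_smul, inv_mul_cancel₀ hy, one_smul]
      rw [h4, h3, smul_neg, smul_smul, neg_smul]
      congr 2
      field_simp
  have hsingle : ∀ i : Fin a, (Pi.single i 1 : Fin a → F) ≠ 0 := by
    intro i h
    have := congrFun h i
    simp at this
  choose c hc using fun i : Fin a => hev _ (hsingle i)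
  have hall : ∀ i j : Fin a, c i = c j := by
    intro i j
    by_cases hij : i = j
    · rw [hij]
    have hne : (Pi.single i 1 + Pi.single j 1 : Fin a → F) ≠ 0 := by
      intro h
      have := congrFun h i
      simp [Pi.single_eq_of_ne hij, Pi.single_eq_of_ne (Ne.symm hij)] at this
    obtain ⟨d, hd⟩ := hev _ hne
    rw [Matrix.mulVec_add, hc i, hc j] at hd
    have h1 := congrFun hd i
    have h2 := congrFun hd j
    simp [Pi.single_eq_of_ne hij, Pi.single_eq_of_ne (Ne.symm hij)] at h1 h2
    rw [h1, h2]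
  by_cases ha : a = 0
  · subst ha
    apply hA 0
    ext i
    exact i.elim0
  · let i₀ : Fin a := ⟨0, by omega⟩
    apply hA (c i₀)
    ext s t
    have h1 := congrFun (hc t) s
    have h2 : (A *ᵥ Pi.single t 1) s = A s t := by simp
    rw [h2] at h1
    rw [h1, hall t i₀]
    by_cases hst : s = t
    · subst hst; simp
    · simp [Pi.single_eq_of_ne hst, Matrix.one_apply_ne hst]

/-- The action on a pure tensor. -/
theorem tens_mulVec_pure (A : Matrix (Fin a) (Fin a) F) (B : Matrix (Fin b) (Fin b) F) (e : Fin n ≃ Fin a × Fin b)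
    (u : Fin a → F) (w : Fin b → F) (i : Fin n) :
    (tens A B e *ᵥ (fun j => u (e j).1 * w (e j).2)) i = (A *ᵥ u) (e i).1 * (B *ᵥ w) (e i).2 := by
  simp only [Matrix.mulVec, dotProduct, tens_apply]
  rw [← Equiv.sum_comp e.symm, Fintype.sum_prod_type, Finset.sum_mul_sum]
  apply Finset.sum_congr rfl
  intro s _
  apply Finset.sum_congr rfl
  intro t _
  simp
  ring

/-- The rank of `A ⊗ B - λ` is at least `b` when `A` is not scalar. -/
theorem rank_ge_left (A : Matrix (Fin a) (Fin a) F) (B : Matrix (Fin b) (Fin b) F) (B' : Matrix (Fin b) (Fin b) F) (hB : B' * B = 1)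
    (e : Fin n ≃ Fin a × Fin b) (l : F) (hA : ∀ c : F, A ≠ c • 1) :
    b ≤ finrank F (LinearMap.range (Matrix.toLin' (tens A B e - l • 1))) := by
  classical
  obtain ⟨u, hu⟩ := exists_indep A hA
  let L₀ : (Fin b → F) →ₗ[F] (Fin n → F) :=
    { toFun := fun w j => u (e j).1 * w (e j).2
      map_add' := fun x y => by ext j; simp [mul_add]
      map_smul' := fun c x => by ext j; simp; ring }
  let L : (Fin b → F) →ₗ[F] (Fin n → F) := (Matrix.toLin' (tens A B e - l • 1)).comp L₀
  have hL : ∀ w i, L w i = (A *ᵥ u) (e i).1 * (B *ᵥ w) (e i).2 - l * (u (e i).1 * w (e i).2) := by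
    intro w i
    show ((tens A B e - l • 1) *ᵥ (fun j => u (e j).1 * w (e j).2)) i = _
    rw [Matrix.sub_mulVec, Pi.sub_apply, tens_mulVec_pure, Matrix.smul_mulVec, Matrix.one_mulVec]
    rfl
  have hinj : Function.Injective L := by
    rw [injective_iff_map_eq_zero]
    intro w hw
    have h1 : ∀ t : Fin b, (B *ᵥ w) t = 0 := by
      intro t
      have h2 : (-(l * w t)) • u + (B *ᵥ w) t • (A *ᵥ u) = 0 := by
        ext s
        have h3 := congrFun hw (e.symm (s, t))
        rw [hL] at h3
        simp only [Equiv.apply_symm_apply, Pi.zero_apply] at h3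
        simp only [Pi.add_apply, Pi.smul_apply, smul_eq_mul, Pi.zero_apply]
        linear_combination h3
      exact (hu _ _ h2).2
    have h4 : B *ᵥ w = 0 := funext h1
    calc w = (B' * B) *ᵥ w := by rw [hB, Matrix.one_mulVec]
      _ = 0 := by rw [← Matrix.mulVec_mulVec, h4, Matrix.mulVec_zero]
  have h5 := LinearMap.finrank_range_of_inj hinj
  rw [finrank_fin_fun] at h5
  calc b = finrank F (LinearMap.range L) := h5.symm
    _ ≤ _ := Submodule.finrank_mono (LinearMap.range_comp_le_range _ _)

/-- The rank of `A ⊗ B - λ` is at least `a` when `B` is not scalar. -/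
theorem rank_ge_right (A : Matrix (Fin a) (Fin a) F) (A' : Matrix (Fin a) (Fin a) F) (hA : A' * A = 1) (B : Matrix (Fin b) (Fin b) F)
    (e : Fin n ≃ Fin a × Fin b) (l : F) (hB : ∀ c : F, B ≠ c • 1) :
    a ≤ finrank F (LinearMap.range (Matrix.toLin' (tens A B e - l • 1))) := by
  have h := rank_ge_left B A A' hA (e.trans (Equiv.prodComm _ _)) l hB
  have e1 : tens B A (e.trans (Equiv.prodComm _ _)) - l • 1 = tens A B e - l • 1 := by rw [tens_swap]
  rwa [e1] at h

/-- The kernel of `1 ⊗ M`. -/
theorem finrank_ker_tens (M : Matrix (Fin b) (Fin b) F) (e : Fin n ≃ Fin a × Fin b) :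
    finrank F (LinearMap.ker (Matrix.toLin' (tens (1 : Matrix (Fin a) (Fin a) F) M e))) = a * finrank F (LinearMap.ker (Matrix.toLin' M)) := by
  classical
  have hact : ∀ (v : Fin n → F) (s : Fin a) (t : Fin b), (tens (1 : Matrix (Fin a) (Fin a) F) M e *ᵥ v) (e.symm (s, t)) =
      (M *ᵥ (fun t' => v (e.symm (s, t')))) t := by
    intro v s t
    have hten : ∀ i j, tens (1 : Matrix (Fin a) (Fin a) F) M e i j = (if (e i).1 = (e j).1 then 1 else 0) * M (e i).2 (e j).2 := by
      intro i j
      rw [tens_apply, Matrix.one_apply]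
    simp only [Matrix.mulVec, dotProduct, hten]
    rw [← Equiv.sum_comp e.symm, Fintype.sum_prod_type]
    simp only [Equiv.apply_symm_apply]
    rw [Finset.sum_eq_single s]
    · simp
    · intro s' _ hs'
      simp [Ne.symm hs']
    · intro h; exact absurd (Finset.mem_univ _) h
  let Ψ : LinearMap.ker (Matrix.toLin' (tens (1 : Matrix (Fin a) (Fin a) F) M e)) ≃ₗ[F] (Fin a → LinearMap.ker (Matrix.toLin' M)) :=
    { toFun := fun v s => ⟨fun t => (v : Fin n → F) (e.symm (s, t)), by
        have hv := v.2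
        rw [LinearMap.mem_ker, Matrix.toLin'_apply] at hv ⊢
        ext t
        rw [← hact, hv]
        rfl⟩
      map_add' := fun x y => by ext s t; simp
      map_smul' := fun c x => by ext s t; simp
      invFun := fun g => ⟨fun i => ((g (e i).1 : Fin b → F)) (e i).2, by
        rw [LinearMap.mem_ker, Matrix.toLin'_apply]
        ext i
        have h1 := hact (fun i => ((g (e i).1 : Fin b → F)) (e i).2) (e i).1 (e i).2
        simp only [Prod.mk.eta, Equiv.symm_apply_apply, Equiv.apply_symm_apply] at h1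
        rw [h1]
        have h2 := (g (e i).1).2
        rw [LinearMap.mem_ker, Matrix.toLin'_apply] at h2
        exact congrFun h2 _⟩
      left_inv := fun v => by ext i; simp
      right_inv := fun g => by ext s t; simp }
  rw [Ψ.finrank_eq, Module.finrank_pi_fintype]
  simp

/-- Polynomials in a conjugate of `1 ⊗ M`. -/
theorem aeval_conj_tens (Q Q' : Matrix (Fin n) (Fin n) F) (h1 : Q * Q' = 1) (h2 : Q' * Q = 1) (M : Matrix (Fin b) (Fin b) F)
    (e : Fin n ≃ Fin a × Fin b) (f : F[X]) :
    aeval (Q * tens (1 : Matrix (Fin a) (Fin a) F) M e * Q') f = Q * tens (1 : Matrix (Fin a) (Fin a) F) (aeval M f) e * Q' := by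
  let φ : Matrix (Fin b) (Fin b) F →ₐ[F] Matrix (Fin n) (Fin n) F :=
    { toFun := fun X => Q * tens (1 : Matrix (Fin a) (Fin a) F) X e * Q'
      map_one' := by rw [tens_one, mul_one, h1]
      map_mul' := fun X Y => by
        have : tens (1 : Matrix (Fin a) (Fin a) F) (X * Y) e = tens 1 X e * tens 1 Y e := by
          rw [tens_mul, one_mul]
        rw [this]
        calc Q * (tens 1 X e * tens 1 Y e) * Q' = Q * tens 1 X e * (Q' * Q) * tens 1 Y e * Q' := by
              rw [h2, mul_one]; simp only [mul_assoc]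
          _ = _ := by simp only [mul_assoc]
      map_zero' := by rw [tens_zero_right]; simp
      map_add' := fun X Y => by rw [tens_add_right]; simp only [mul_add, add_mul]
      commutes' := fun c => by
        simp only [Algebra.algebraMap_eq_smul_one]
        rw [tens_smul_right, tens_one, Matrix.mul_smul, Matrix.smul_mul, mul_one, h1] }
  exact aeval_algHom_apply φ M f

/-- If the first factor is scalar, the dimension of a kernel of a polynomial cannot be the degree of an irreducible
polynomial. -/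
theorem finrank_ne_of_scalar (ha : 2 ≤ a) (Q Q' : Matrix (Fin n) (Fin n) F) (h1 : Q * Q' = 1) (h2 : Q' * Q = 1)
    (c : F) (B : Matrix (Fin b) (Fin b) F) (e : Fin n ≃ Fin a × Fin b) {f : F[X]} (hf : Irreducible f) :
    finrank F (LinearMap.ker (Matrix.toLin' (aeval (Q * tens (c • (1 : Matrix (Fin a) (Fin a) F)) B e * Q') f))) ≠ f.natDegree := by
  classical
  have e1 : tens (c • (1 : Matrix (Fin a) (Fin a) F)) B e = tens 1 (c • B) e := by
    rw [tens_smul_left, tens_smul_right]
  rw [e1, aeval_conj_tens Q Q' h1 h2, finrank_ker_conj Q Q' _ h1 h2, finrank_ker_tens]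
  set M := c • B with hM
  set A : Module.End F (Fin b → F) := Matrix.toLinAlgEquiv' M with hA
  have hconv : ∀ (p : F[X]), aeval A p = Matrix.toLin' (aeval M p) := by
    intro p
    exact aeval_algHom_apply (Matrix.toLinAlgEquiv' (R := F) (n := Fin b)) M p
  have hinv := ker_aeval_invariant A f
  have hdvd : f.natDegree ∣ finrank F (LinearMap.ker (aeval A f)) := by
    apply natDegree_dvd_finrank hf (A.restrict hinv)
    apply LinearMap.ext
    intro u
    apply Subtype.ext
    rw [aeval_restrict A hinv f u]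
    exact u.2
  rw [hconv] at hdvd
  obtain ⟨s, hs⟩ := hdvd
  rw [hs]
  intro h
  have hd : 0 < f.natDegree := hf.natDegree_pos
  have h3 : f.natDegree * (a * s) = f.natDegree * 1 := by
    rw [mul_one]
    calc f.natDegree * (a * s) = a * (f.natDegree * s) := by ring
      _ = _ := h
  have h4 := Nat.eq_of_mul_eq_mul_left hd h3
  have := Nat.eq_one_of_mul_eq_one_right h4
  omega

/-- A bound for the rank by the number of non-zero rows. -/
theorem rank_le_rows {t : ℕ} (M : Matrix (Fin n) (Fin n) F) (g : Fin t → Fin n)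
    (hg : ∀ k : Fin n, (∀ l, g l ≠ k) → ∀ j, M k j = 0) :
    finrank F (LinearMap.range (Matrix.toLin' M)) ≤ t := by
  classical
  let π : (Fin n → F) →ₗ[F] (Fin t → F) :=
    { toFun := fun v l => v (g l)
      map_add' := fun x y => rfl
      map_smul' := fun c x => rfl }
  have hinj : Function.Injective (π.comp (LinearMap.range (Matrix.toLin' M)).subtype) := by
    rw [injective_iff_map_eq_zero]
    rintro ⟨_, v, rfl⟩ h
    apply Subtype.ext
    ext k
    by_cases hk : ∀ l, g l ≠ k
    · simp [Matrix.toLin'_apply, Matrix.mulVec, dotProduct, hg k hk]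
    · push Not at hk
      obtain ⟨l, rfl⟩ := hk
      exact congrFun h l
  have := LinearMap.finrank_le_finrank_of_injective hinj
  rwa [finrank_fin_fun] at this

/-- The kernel of a diagonal matrix. -/
theorem finrank_ker_diagonal (d : Fin n → F) :
    finrank F (LinearMap.ker (Matrix.toLin' (Matrix.diagonal d))) = Nat.card {k : Fin n // d k = 0} := by
  classical
  have hr := LinearMap.finrank_range_add_finrank_ker (Matrix.toLin' (Matrix.diagonal d))
  have hrank : finrank F (LinearMap.range (Matrix.toLin' (Matrix.diagonal d))) = Fintype.card {k : Fin n // d k ≠ 0} := by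
    have : finrank F (LinearMap.range (Matrix.toLin' (Matrix.diagonal d))) = (Matrix.diagonal d).rank := by
      rw [Matrix.rank]; rfl
    rw [this, Matrix.rank_diagonal]
  rw [hrank, finrank_fin_fun] at hr
  have h2 := Fintype.card_subtype_compl (fun k : Fin n => d k = 0)
  have h3 : Fintype.card {k : Fin n // d k = 0} ≤ n := by
    simpa using Fintype.card_subtype_le (fun k : Fin n => d k = 0)
  simp only [Fintype.card_fin] at h2
  have h4 : Fintype.card {k : Fin n // d k ≠ 0} = n - Fintype.card {k : Fin n // d k = 0} := h2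
  rw [Nat.card_eq_fintype_card]
  omega

end Cfsg.Agent.Lib.ClassMax.EluTensor
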