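import Mathlib
import Cfsg.Agent.Lib.ClassMax.EluOrder
import Cfsg.Agent.Lib.ClassMax.EluTensor

/-!
Block elements of prime order: polynomials in block matrices, roots in finite fields, and explicit elements with a large
fixed space.
-/

set_option autoImplicit false
set_option linter.unusedSimpArgs false
set_option linter.unusedVariables false
set_option linter.unusedSectionVars false

namespace Cfsg.Agent.Lib.ClassMax.EluBlock

open Module Polynomial Cfsg.Agent.Lib.ClassMax.EluOrder Cfsg.Agent.Lib.ClassMax.EluTensor Cfsg.Agent.Lib.ClassMax.EluConj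
open scoped Matrix

variable {F : Type*} [Field F] {n : ℕ}

theorem aeval_submatrix {κ : Type*} [Fintype κ] [DecidableEq κ] (ε : Fin n ≃ κ) (M : Matrix κ κ F) (p : F[X]) :
    aeval (M.submatrix ε ε) p = (aeval M p).submatrix ε ε :=
  aeval_algHom_apply (Matrix.reindexAlgEquiv F F ε.symm).toAlgHom M p

theorem aeval_fromBlocks {c d : ℕ} (A : Matrix (Fin c) (Fin c) F) (D : Matrix (Fin d) (Fin d) F) (p : F[X]) :
    aeval (Matrix.fromBlocks A 0 0 D) p = Matrix.fromBlocks (aeval A p) 0 0 (aeval D p) := by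
  have hpow : ∀ k, (Matrix.fromBlocks A 0 0 D) ^ k = Matrix.fromBlocks (A ^ k) 0 0 (D ^ k) := by
    intro k
    induction k with
    | zero => simp [Matrix.fromBlocks_one]
    | succ k ih =>
      rw [pow_succ, ih, Matrix.fromBlocks_multiply, pow_succ, pow_succ]
      simp
  induction p using Polynomial.induction_on' with
  | add p q hp hq =>
    rw [map_add, map_add, map_add, hp, hq, Matrix.fromBlocks_add]
    simp
  | monomial k c' =>
    simp only [aeval_monomial, Algebra.algebraMap_eq_smul_one, Matrix.smul_mul, one_mul, hpow]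
    rw [Matrix.fromBlocks_smul]
    simp

/-- An `r`-th root in a field when `r` does not divide the order of the group of units. -/
theorem exists_root [Fintype F] {r : ℕ} (hr : r.Prime) (hrq1 : ¬ r ∣ Fintype.card F - 1) {w : F} (hw : w ≠ 0) : ∃ β : F, β ≠ 0 ∧ β ^ r = w := by
  classical
  have hco : Nat.Coprime (Nat.card Fˣ) r := by
    rw [Nat.card_eq_fintype_card, Fintype.card_units]
    exact ((Nat.Prime.coprime_iff_not_dvd hr).mpr hrq1).symm
  obtain ⟨β, hβ⟩ := (powCoprime hco).surjective (Units.mk0 w hw)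
  refine ⟨β, β.ne_zero, ?_⟩
  have := congrArg Units.val hβ
  simpa using this

theorem root_unity_trivial [Fintype F] {r : ℕ} (hr : r.Prime) (hrq1 : ¬ r ∣ Fintype.card F - 1) {z : F} (hz : z ^ r = 1) : z = 1 := by
  classical
  have hz0 : z ≠ 0 := by
    rintro rfl
    rw [zero_pow hr.ne_zero] at hz
    exact zero_ne_one hz
  have hz1 : z ^ (Fintype.card F - 1) = 1 := FiniteField.pow_card_sub_one_eq_one z hz0
  have hco : Nat.Coprime r (Fintype.card F - 1) := (Nat.Prime.coprime_iff_not_dvd hr).mpr hrq1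
  have h : z ^ Nat.gcd r (Fintype.card F - 1) = 1 := pow_gcd_eq_one.mpr ⟨hz, hz1⟩
  rwa [hco.gcd_eq_one, pow_one] at h

/-- The block `y₀ ⊕ 1`. -/
theorem exists_block_elt [Fintype F] {r : ℕ} [Fact r.Prime] (hrq : ¬ r ∣ Fintype.card F) (hrq1 : ¬ r ∣ Fintype.card F - 1)
    (hi : orderOf ((Fintype.card F : ℕ) : ZMod r) ≤ n) :
    ∃ X₀ : Matrix (Fin n) (Fin n) F, X₀.det = 1 ∧ X₀ ^ r = 1 ∧ X₀ ≠ 1 ∧
      finrank F (LinearMap.range (Matrix.toLin' (X₀ - 1))) ≤ orderOf ((Fintype.card F : ℕ) : ZMod r) ∧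
      ∃ f : F[X], Irreducible f ∧ f.natDegree = orderOf ((Fintype.card F : ℕ) : ZMod r) ∧
        finrank F (LinearMap.ker (Matrix.toLin' (aeval X₀ f))) = f.natDegree := by
  classical
  have hblock := exists_block hrq hrq1
  generalize orderOf ((Fintype.card F : ℕ) : ZMod r) = i at hi hblock ⊢
  obtain ⟨y₀, f, hf, hfd, hy₀f, hf1, hy₀r, hy₀d, hy₀1⟩ := hblock
  obtain ⟨t, ht⟩ : ∃ t, n = i + t := ⟨n - i, by omega⟩
  let ε : Fin n ≃ Fin i ⊕ Fin t := (finCongr ht).trans finSumFinEquiv.symm
  set Y : Matrix (Fin i ⊕ Fin t) (Fin i ⊕ Fin t) F := Matrix.fromBlocks y₀ 0 0 1 with hY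
  set X₀ : Matrix (Fin n) (Fin n) F := Y.submatrix ε ε with hX₀
  have hdet : X₀.det = 1 := by
    rw [hX₀, Matrix.det_submatrix_equiv_self, hY, Matrix.det_fromBlocks_zero₂₁, hy₀d]
    simp
  have hXf : ∀ p' : F[X], aeval X₀ p' = (Matrix.fromBlocks (aeval y₀ p') 0 0 (aeval (1 : Matrix (Fin t) (Fin t) F) p')).submatrix ε ε := by
    intro p'
    rw [hX₀, aeval_submatrix, hY, aeval_fromBlocks]
  have hXr : X₀ ^ r = 1 := by
    have h3 := hXf (X ^ r)
    simp only [map_pow, aeval_X, one_pow, hy₀r] at h3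
    rw [h3, Matrix.fromBlocks_one]
    simp
  have hX1 : X₀ ≠ 1 := by
    intro hz
    apply hy₀1
    ext s s'
    have h6 := congrFun (congrFun hz (ε.symm (Sum.inl s))) (ε.symm (Sum.inl s'))
    simp only [hX₀, hY, Matrix.submatrix_apply, Equiv.apply_symm_apply, Matrix.fromBlocks_apply₁₁] at h6
    rw [h6]
    by_cases hss : s = s'
    · subst hss; simp
    · have h7 : ε.symm (Sum.inl s) ≠ ε.symm (Sum.inl s') := by
        intro h8
        exact hss (Sum.inl_injective (ε.symm.injective h8))
      simp [Matrix.one_apply_ne hss, Matrix.one_apply_ne h7]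
  refine ⟨X₀, hdet, hXr, hX1, ?_, f, hf, hfd, ?_⟩
  · apply rank_le_rows _ (fun s : Fin i => ε.symm (Sum.inl s))
    intro k hk j
    have hk' : ∃ s', ε k = Sum.inr s' := by
      rcases hεk : ε k with s | s'
      · exfalso
        apply hk s
        rw [← hεk, Equiv.symm_apply_apply]
      · exact ⟨s', rfl⟩
    obtain ⟨s', hs'⟩ := hk'
    rw [Matrix.sub_apply]
    simp only [hX₀, hY, Matrix.submatrix_apply, hs']
    rcases hεj : ε j with s | s''
    · have hkj : k ≠ j := by
        intro h
        rw [h, hεj] at hs'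
        exact Sum.inl_ne_inr hs'
      simp [Matrix.one_apply_ne hkj]
    · by_cases hs : s' = s''
      · subst hs
        have hkj : k = j := ε.injective (by rw [hs', hεj])
        subst hkj
        simp
      · have hkj : k ≠ j := by
          intro h
          rw [h, hεj] at hs'
          exact hs (Sum.inr_injective hs').symm
        simp [Matrix.one_apply_ne hs, Matrix.one_apply_ne hkj]
  · rw [hXf, hy₀f, hfd]
    have h1m : aeval (1 : Matrix (Fin t) (Fin t) F) f = (f.eval 1) • 1 := by
      have h3 : aeval (algebraMap F (Matrix (Fin t) (Fin t) F) 1) f = algebraMap F _ (aeval (1 : F) f) := aeval_algebraMap_apply _ 1 f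
      rw [map_one] at h3
      rw [h3, coe_aeval_eq_eval, Algebra.algebraMap_eq_smul_one]
    rw [h1m]
    have e1 : (Matrix.fromBlocks 0 0 0 ((f.eval 1) • (1 : Matrix (Fin t) (Fin t) F)) : Matrix (Fin i ⊕ Fin t) (Fin i ⊕ Fin t) F).submatrix ε ε =
        Matrix.diagonal (fun k => Sum.elim (fun _ => (0 : F)) (fun _ => f.eval 1) (ε k)) := by
      ext s s'
      simp only [Matrix.submatrix_apply]
      rcases hs : ε s with u | u <;> rcases hs' : ε s' with u' | u'
      · by_cases hss : s = s'
        · subst hss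
          simp [hs]
        · simp [Matrix.diagonal_apply_ne _ hss]
      · have hss : s ≠ s' := by
          intro h
          rw [h, hs'] at hs
          exact Sum.inr_ne_inl hs
        simp [Matrix.diagonal_apply_ne _ hss]
      · have hss : s ≠ s' := by
          intro h
          rw [h, hs'] at hs
          exact Sum.inl_ne_inr hs
        simp [Matrix.diagonal_apply_ne _ hss]
      · by_cases hss : s = s'
        · subst hss
          rw [hs] at hs'
          have := Sum.inr_injective hs'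
          subst this
          simp [hs]
        · have huu : u ≠ u' := by
            intro h
            apply hss
            apply ε.injective
            rw [hs, hs', h]
          simp [Matrix.diagonal_apply_ne _ hss, Matrix.one_apply_ne huu]
    rw [e1, finrank_ker_diagonal]
    have hequiv : Fin i ≃ {k : Fin n // Sum.elim (fun _ => (0 : F)) (fun _ => f.eval 1) (ε k) = 0} :=
      Equiv.ofBijective (fun u : Fin i => ⟨ε.symm (Sum.inl u), by simp⟩) (by
        constructor
        · intro u u' h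
          have h3 := congrArg Subtype.val h
          exact Sum.inl_injective (ε.symm.injective h3)
        · rintro ⟨k, hk⟩
          rcases hεk : ε k with u | u
          · refine ⟨u, ?_⟩
            apply Subtype.ext
            show ε.symm (Sum.inl u) = k
            rw [← hεk, Equiv.symm_apply_apply]
          · exfalso
            rw [hεk] at hk
            exact hf1 hk)
    rw [← Nat.card_congr hequiv]
    simp

/-- The element `diag(ζ, ζ⁻¹, 1, …, 1)`. -/
theorem exists_diag_elt (hn : 2 ≤ n) {ζ : F} (hζ0 : ζ ≠ 0) {r : ℕ} (hζr : ζ ^ r = 1) (hζ1 : ζ ≠ 1) (hζ2 : ζ ≠ ζ⁻¹) :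
    ∃ X₀ : Matrix (Fin n) (Fin n) F, X₀.det = 1 ∧ X₀ ^ r = 1 ∧ X₀ ≠ 1 ∧
      finrank F (LinearMap.range (Matrix.toLin' (X₀ - 1))) ≤ 2 ∧
        finrank F (LinearMap.ker (Matrix.toLin' (X₀ - ζ • 1))) = 1 := by
  classical
  let i₀ : Fin n := ⟨0, by omega⟩
  let i₁ : Fin n := ⟨1, by omega⟩
  have hi01 : i₀ ≠ i₁ := by simp [i₀, i₁, Fin.ext_iff]
  have hζi1 : ζ⁻¹ ≠ 1 := by
    intro h
    apply hζ1
    have := inv_inv ζ
    rw [h, inv_one] at this
    exact this.symm
  set d : Fin n → F := fun k => if k = i₀ then ζ else if k = i₁ then ζ⁻¹ else 1 with hd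
  set X₀ : Matrix (Fin n) (Fin n) F := Matrix.diagonal d with hX₀
  have hdi₀ : d i₀ = ζ := by simp [hd]
  have hdi₁ : d i₁ = ζ⁻¹ := by simp [hd, hi01.symm]
  have hdo : ∀ k, k ≠ i₀ → k ≠ i₁ → d k = 1 := by
    intro k h0 h1
    simp [hd, h0, h1]
  refine ⟨X₀, ?_, ?_, ?_, ?_, ?_⟩
  · rw [hX₀, Matrix.det_diagonal]
    rw [← Finset.mul_prod_erase Finset.univ d (Finset.mem_univ i₀), hdi₀]
    rw [← Finset.mul_prod_erase _ d (Finset.mem_erase.mpr ⟨hi01.symm, Finset.mem_univ i₁⟩), hdi₁]
    rw [Finset.prod_eq_one]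
    · field_simp
    · intro k hk
      simp only [Finset.mem_erase, Finset.mem_univ, and_true] at hk
      exact hdo k hk.2 hk.1
  · rw [hX₀, Matrix.diagonal_pow, ← Matrix.diagonal_one]
    congr 1
    ext k
    simp only [Pi.pow_apply]
    by_cases h0 : k = i₀
    · subst h0
      rw [hdi₀, hζr]
    · by_cases h1 : k = i₁
      · subst h1
        rw [hdi₁, inv_pow, hζr, inv_one]
      · rw [hdo k h0 h1, one_pow]
  · intro h
    have h0 := congrFun (congrFun h i₀) i₀
    simp only [hX₀, Matrix.diagonal_apply_eq, Matrix.one_apply_eq, hdi₀] at h0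
    exact hζ1 h0
  · apply rank_le_rows _ (![i₀, i₁])
    intro k hk j
    have hk0 : k ≠ i₀ := fun h => hk 0 h.symm
    have hk1' : k ≠ i₁ := fun h => hk 1 h.symm
    by_cases hkj : k = j
    · subst hkj
      simp [hX₀, hdo k hk0 hk1']
    · simp [hX₀, Matrix.diagonal_apply_ne _ hkj, Matrix.one_apply_ne hkj]
  · have e1 : Matrix.diagonal d - ζ • 1 = Matrix.diagonal (fun k => d k - ζ) := by
      ext s t
      by_cases hst : s = t
      · subst hst; simp
      · simp [Matrix.diagonal_apply_ne _ hst, Matrix.one_apply_ne hst]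
    rw [hX₀, e1, finrank_ker_diagonal]
    have hcardone : {k : Fin n // d k - ζ = 0} ≃ Unit :=
      { toFun := fun _ => ()
        invFun := fun _ => ⟨i₀, by rw [hdi₀, sub_self]⟩
        left_inv := by
          rintro ⟨k, hk⟩
          apply Subtype.ext
          show i₀ = k
          by_contra hne'
          by_cases h1 : k = i₁
          · subst h1
            rw [hdi₁] at hk
            exact hζ2 (sub_eq_zero.mp hk).symm
          · rw [hdo k (Ne.symm hne') h1] at hk
            exact hζ1 (sub_eq_zero.mp hk).symm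
        right_inv := fun _ => rfl }
    rw [Nat.card_congr hcardone]
    simp

/-- A field element of prime order. -/
theorem exists_order_elt [Fintype F] {r : ℕ} [Fact r.Prime] (hr2 : r ≠ 2) (hrq1 : r ∣ Fintype.card F - 1) :
    ∃ ζ : F, ζ ≠ 0 ∧ ζ ^ r = 1 ∧ ζ ≠ 1 ∧ ζ ≠ ζ⁻¹ := by
  classical
  have hr : r.Prime := Fact.out
  have hcard : r ∣ Nat.card Fˣ := by
    rw [Nat.card_eq_fintype_card, Fintype.card_units]
    exact hrq1
  obtain ⟨u, hu⟩ := exists_prime_orderOf_dvd_card' r hcard
  have hζ0 : (u : F) ≠ 0 := u.ne_zero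
  have hζr : (u : F) ^ r = 1 := by
    have h1 : u ^ r = 1 := by rw [← hu, pow_orderOf_eq_one]
    have := congrArg Units.val h1
    simpa using this
  have hζ1 : (u : F) ≠ 1 := by
    intro h
    have h1 : u = 1 := Units.ext h
    rw [h1, orderOf_one] at hu
    exact hr.one_lt.ne hu
  refine ⟨u, hζ0, hζr, hζ1, ?_⟩
  intro h
  have h1 : (u : F) ^ 2 = 1 := by
    rw [pow_two]
    nth_rewrite 2 [h]
    exact mul_inv_cancel₀ hζ0
  have h2 : u ^ 2 = 1 := Units.ext (by simpa only [Units.val_pow_eq_pow_val, Units.val_one] using h1)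
  have h3 := orderOf_dvd_of_pow_eq_one h2
  rw [hu] at h3
  exact hr2 ((Nat.prime_dvd_prime_iff_eq hr Nat.prime_two).mp h3)

/-- An irreducible factor of the geometric polynomial has degree divisible by the order of `q`. -/
theorem order_dvd_natDegree [Fintype F] {r : ℕ} [Fact r.Prime] (hrq : ¬ r ∣ Fintype.card F) {f : F[X]} (hf : Irreducible f)
    (hfΦ : f ∣ ∑ j ∈ Finset.range r, X ^ j) : orderOf ((Fintype.card F : ℕ) : ZMod r) ∣ f.natDegree := by
  classical
  have hr : r.Prime := Fact.out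
  have hq0 : 0 < Fintype.card F := Fintype.card_pos
  have hr0 : (r : F) ≠ 0 := ratFree_cast_ne hr hrq
  set Φ : F[X] := ∑ j ∈ Finset.range r, X ^ j with hΦ
  have hΦX : Φ * (X - 1) = X ^ r - 1 := geom_sum_mul X r
  have hΦ1 : Φ.eval 1 = r := by
    simp [hΦ, eval_finset_sum]
  haveI : Fact (Irreducible f) := ⟨hf⟩
  let E := AdjoinRoot f
  haveI : Module.Finite F E := (AdjoinRoot.powerBasis hf.ne_zero).finite
  haveI : Finite E := Module.finite_of_finite F
  letI : Fintype E := Fintype.ofFinite E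
  have hfinE : finrank F E = f.natDegree := by
    have := (AdjoinRoot.powerBasis hf.ne_zero).finrank
    rwa [AdjoinRoot.powerBasis_dim] at this
  have hcardE : Fintype.card E = Fintype.card F ^ f.natDegree := by
    rw [← Nat.card_eq_fintype_card, Module.natCard_eq_pow_finrank (K := F), hfinE, Nat.card_eq_fintype_card]
  set ρ : E := AdjoinRoot.root f with hρ
  have hρf : aeval ρ f = 0 := by rw [hρ, AdjoinRoot.aeval_eq, AdjoinRoot.mk_self]
  obtain ⟨g, hg⟩ := hfΦ
  have hρΦ : aeval ρ Φ = 0 := by rw [hg, map_mul, hρf, zero_mul]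
  have hρr : ρ ^ r = 1 := by
    have := congrArg (aeval ρ) hΦX
    simp only [map_mul, map_sub, aeval_X, map_one, map_pow, hρΦ, zero_mul] at this
    exact (sub_eq_zero.mp this.symm)
  have hρ1 : ρ ≠ 1 := by
    intro h
    have h3 : aeval (algebraMap F E 1) Φ = algebraMap F E (aeval (1 : F) Φ) := aeval_algebraMap_apply E 1 Φ
    rw [map_one, ← h, hρΦ] at h3
    have h4 : aeval (1 : F) Φ = r := by
      rw [← hΦ1]
      simp [aeval_def, eval₂_eq_eval_map]
    rw [h4] at h3
    apply hr0
    apply (algebraMap F E).injective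
    rw [← h3, map_zero]
  have hordρ : orderOf ρ = r := orderOf_eq_prime hρr hρ1
  have hρ0 : ρ ≠ 0 := by
    intro h
    rw [h, zero_pow hr.ne_zero] at hρr
    exact zero_ne_one hρr
  have hρq : ρ ^ (Fintype.card E - 1) = 1 := FiniteField.pow_card_sub_one_eq_one ρ hρ0
  have hrd : r ∣ Fintype.card F ^ f.natDegree - 1 := by
    rw [← hcardE, ← hordρ]
    exact orderOf_dvd_of_pow_eq_one hρq
  exact orderOf_dvd_of_pow_eq_one ((pow_eq_one_iff_dvd hq0).mpr hrd)

theorem natDegree_geom {r : ℕ} (hr : 0 < r) : (∑ j ∈ Finset.range r, (X : F[X]) ^ j).natDegree = r - 1 := by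
  obtain ⟨s, rfl⟩ : ∃ s, r = s + 1 := ⟨r - 1, by omega⟩
  rw [Finset.sum_range_succ]
  have h1 : (∑ j ∈ Finset.range s, (X : F[X]) ^ j).degree < ((X : F[X]) ^ s).degree := by
    rw [degree_X_pow]
    refine lt_of_le_of_lt (degree_sum_le _ _) ?_
    rw [Finset.sup_lt_iff (by exact_mod_cast WithBot.bot_lt_coe s)]
    intro j hj
    rw [degree_X_pow]
    exact_mod_cast Finset.mem_range.mp hj
  rw [add_comm, natDegree_add_eq_left_of_degree_lt h1, natDegree_X_pow]
  simp

/-- The geometric polynomial is irreducible when the order of `q` is maximal. -/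
theorem geom_irreducible [Fintype F] {r : ℕ} [Fact r.Prime] (h3 : 3 ≤ r) (hrq : ¬ r ∣ Fintype.card F)
    (hord : orderOf ((Fintype.card F : ℕ) : ZMod r) = r - 1) : Irreducible (∑ j ∈ Finset.range r, (X : F[X]) ^ j) := by
  classical
  set Φ : F[X] := ∑ j ∈ Finset.range r, X ^ j with hΦ
  have hdeg : Φ.natDegree = r - 1 := natDegree_geom (by omega)
  obtain ⟨f, hf, g, hg⟩ := exists_irreducible_of_natDegree_ne_zero (f := Φ) (by omega)
  have hdvd := order_dvd_natDegree hrq hf ⟨g, hg⟩
  rw [hord] at hdvd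
  have hf0 := hf.natDegree_pos
  have hle := Nat.le_of_dvd hf0 hdvd
  have hΦ0 : Φ ≠ 0 := by
    intro h
    rw [h] at hdeg
    simp at hdeg
    omega
  have hg0 : g ≠ 0 := by
    rintro rfl
    rw [mul_zero] at hg
    exact hΦ0 hg
  have hdeg2 : Φ.natDegree = f.natDegree + g.natDegree := by
    rw [hg, natDegree_mul hf.ne_zero hg0]
  have hg1 : g.natDegree = 0 := by omega
  obtain ⟨c, rfl⟩ := natDegree_eq_zero.mp hg1
  have hc : c ≠ 0 := by
    rintro rfl
    simp at hg0
  rw [hg, mul_comm]
  exact (irreducible_isUnit_mul (Polynomial.isUnit_C.mpr (IsUnit.mk0 c hc))).mpr hf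

end Cfsg.Agent.Lib.ClassMax.EluBlock
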