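import Mathlib
import Cfsg.Agent.Lib.Classical.Frames
import Cfsg.Agent.Lib.ClassMax.EluConj
import Cfsg.Agent.Lib.ClassMax.EluOrder
import Cfsg.Agent.Lib.ClassMax.EluBlock

/-!
Invariant subspaces of semisimple endomorphisms, counts of subspaces, and block models.
-/

set_option autoImplicit false
set_option linter.unusedSimpArgs false
set_option linter.unusedVariables false
set_option linter.unusedSectionVars false

namespace Cfsg.Agent.Lib.ClassMax.EluFix

open Module Polynomial Matrix Cfsg.Agent.Lib.ClassMax.EluConj Cfsg.Agent.Lib.ClassMax.EluOrder Cfsg.Agent.Lib.ClassMax.EluBlock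

section count

variable {F : Type*} [Field F] [Fintype F]

theorem count_mul (n m : ℕ) (hm : m ≤ n) :
    Nat.card {W : Submodule F (Fin n → F) // finrank F W = m} * ∏ i : Fin m, (Fintype.card F ^ m - Fintype.card F ^ (i : ℕ)) =
      ∏ i : Fin m, (Fintype.card F ^ n - Fintype.card F ^ (i : ℕ)) := by
  have h1 := Cfsg.Agent.Lib.Classical.card_subspaces_mul (F := F) (V := Fin n → F) m (fun _ => True)
  have h2 := card_linearIndependent (K := F) (V := Fin n → F) (k := m) (by rw [finrank_fin_fun]; exact hm)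
  rw [finrank_fin_fun] at h2
  rw [← h2]
  have e1 : Nat.card {W : Submodule F (Fin n → F) // finrank F W = m} = Nat.card {W : Submodule F (Fin n → F) // finrank F W = m ∧ True} :=
    Nat.card_congr (Equiv.subtypeEquivRight (fun W => by simp))
  have e2 : Nat.card {s : Fin m → (Fin n → F) // LinearIndependent F s} =
      Nat.card {s : Fin m → (Fin n → F) // LinearIndependent F s ∧ True} :=
    Nat.card_congr (Equiv.subtypeEquivRight (fun W => by simp))
  rw [e1, e2]
  exact h1

theorem pow_sub_factor {q n j : ℕ} (hj : j ≤ n) : q ^ n - q ^ j = q ^ j * (q ^ (n - j) - 1) := by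
  rw [Nat.mul_sub, mul_one, ← pow_add]
  congr 2
  omega

/-- The characteristic does not divide the number of subspaces. -/
theorem not_char_dvd_count {p : ℕ} (hp : p.Prime) (hpq : p ∣ Fintype.card F) (n m : ℕ) (hm : m ≤ n) :
    ¬ p ∣ Nat.card {W : Submodule F (Fin n → F) // finrank F W = m} := by
  intro h
  have hq0 : 0 < Fintype.card F := Fintype.card_pos
  have hc := count_mul (F := F) n m hm
  have e1 : ∀ N, m ≤ N → ∏ i : Fin m, (Fintype.card F ^ N - Fintype.card F ^ (i : ℕ)) =
      (∏ i : Fin m, Fintype.card F ^ (i : ℕ)) * ∏ i : Fin m, (Fintype.card F ^ (N - (i : ℕ)) - 1) := by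
    intro N hN
    rw [← Finset.prod_mul_distrib]
    apply Finset.prod_congr rfl
    intro i _
    exact pow_sub_factor (by have := i.2; omega)
  rw [e1 m le_rfl, e1 n hm] at hc
  have hpos : 0 < ∏ i : Fin m, Fintype.card F ^ (i : ℕ) := Finset.prod_pos (fun i _ => pow_pos hq0 _)
  have hc' : Nat.card {W : Submodule F (Fin n → F) // finrank F W = m} * ∏ i : Fin m, (Fintype.card F ^ (m - (i : ℕ)) - 1) =
      ∏ i : Fin m, (Fintype.card F ^ (n - (i : ℕ)) - 1) := by
    apply Nat.eq_of_mul_eq_mul_left hpos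
    rw [← hc]
    ring
  have h3 : p ∣ ∏ i : Fin m, (Fintype.card F ^ (n - (i : ℕ)) - 1) := by
    rw [← hc']
    exact h.mul_right _
  obtain ⟨i, -, hi⟩ := (hp.prime.dvd_finset_prod_iff _).mp h3
  have hi' := i.2
  have h4 : p ∣ Fintype.card F ^ (n - (i : ℕ)) := dvd_pow hpq (by omega)
  have h5 : 1 ≤ Fintype.card F ^ (n - (i : ℕ)) := Nat.one_le_pow _ _ hq0
  have h6 : p ∣ 1 := by
    have := Nat.dvd_sub h4 hi
    rwa [Nat.sub_sub_self h5] at this
  exact hp.one_lt.ne' (Nat.dvd_one.mp h6)

/-- A prime `r` does not divide the number of subspaces in the small case. -/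
theorem not_dvd_count {r : ℕ} [Fact r.Prime] (hrq : ¬ r ∣ Fintype.card F) (n m : ℕ) (hm : m ≤ n)
    (hmi : m < orderOf ((Fintype.card F : ℕ) : ZMod r)) (hk : m ≤ n % orderOf ((Fintype.card F : ℕ) : ZMod r)) :
    ¬ r ∣ Nat.card {W : Submodule F (Fin n → F) // finrank F W = m} := by
  intro h
  have hr : r.Prime := Fact.out
  have hq0 : 0 < Fintype.card F := Fintype.card_pos
  have hc := count_mul (F := F) n m hm
  have h3 : r ∣ ∏ i : Fin m, (Fintype.card F ^ n - Fintype.card F ^ (i : ℕ)) := by
    rw [← hc]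
    exact h.mul_right _
  obtain ⟨j, -, hj⟩ := (hr.prime.dvd_finset_prod_iff _).mp h3
  have hj' := j.2
  rw [pow_sub_factor (by omega : (j : ℕ) ≤ n)] at hj
  have h4 : r ∣ Fintype.card F ^ (n - (j : ℕ)) - 1 := by
    rcases (hr.dvd_mul).mp hj with h5 | h5
    · exact absurd (hr.dvd_of_dvd_pow h5) hrq
    · exact h5
  have h5 : orderOf ((Fintype.card F : ℕ) : ZMod r) ∣ n - (j : ℕ) :=
    orderOf_dvd_of_pow_eq_one ((pow_eq_one_iff_dvd hq0).mpr h4)
  set i := orderOf ((Fintype.card F : ℕ) : ZMod r) with hi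
  have hi0 : 0 < i := by omega
  have h6 : (n - (j : ℕ)) % i = n % i - j := by
    have hd := Nat.div_add_mod n i
    have : n - (j : ℕ) = n % i - j + i * (n / i) := by omega
    rw [this, Nat.add_mul_mod_self_left]
    have h8 := Nat.mod_lt n hi0
    exact Nat.mod_eq_of_lt (by omega)
  have h7 := Nat.mod_eq_zero_of_dvd h5
  omega

end count

section fix

variable {F V : Type*} [Field F] [AddCommGroup V] [Module F V]

/-- Invariance under an endomorphism. -/
def Inv (T : Module.End F V) (W : Submodule F V) : Prop := ∀ w ∈ W, T w ∈ W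

theorem aeval_mem {T : Module.End F V} {W : Submodule F V} (h : Inv T W) (g : F[X]) {w : V} (hw : w ∈ W) : aeval T g w ∈ W := by
  induction g using Polynomial.induction_on' with
  | add p q hp hq =>
    rw [map_add, LinearMap.add_apply]
    exact W.add_mem hp hq
  | monomial n a =>
    rw [aeval_monomial, Module.End.mul_apply, Module.algebraMap_end_apply]
    apply W.smul_mem
    induction n with
    | zero => simpa using hw
    | succ n ih =>
      rw [pow_succ', Module.End.mul_apply]
      exact h _ ih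

theorem inv_sup {T : Module.End F V} {W W' : Submodule F V} (h : Inv T W) (h' : Inv T W') : Inv T (W ⊔ W') := by
  intro w hw
  obtain ⟨a, ha, b, hb, rfl⟩ := Submodule.mem_sup.mp hw
  rw [map_add]
  exact Submodule.add_mem_sup (h a ha) (h' b hb)

theorem inv_ker (T : Module.End F V) (g : F[X]) : Inv T (LinearMap.ker (aeval T g)) := ker_aeval_invariant T g

theorem inv_of_le_ker {T : Module.End F V} {W : Submodule F V} {μ : F} (h : W ≤ LinearMap.ker (aeval T (X - C μ))) : Inv T W := by
  intro w hw
  have h1 := h hw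
  rw [LinearMap.mem_ker, map_sub, aeval_X, aeval_C, LinearMap.sub_apply, Module.algebraMap_end_apply, sub_eq_zero] at h1
  rw [h1]
  exact W.smul_mem _ hw

variable [FiniteDimensional F V]

theorem exists_sub_dim {U : Submodule F V} {a : ℕ} (ha : a ≤ finrank F U) : ∃ W : Submodule F V, W ≤ U ∧ finrank F W = a := by
  obtain ⟨s, hs⟩ := exists_linearIndependent_of_le_finrank (R := F) ha
  refine ⟨(Submodule.span F (Set.range s)).map U.subtype, ?_, ?_⟩
  · rintro _ ⟨x, -, rfl⟩
    exact x.2
  · rw [LinearEquiv.finrank_eq (Submodule.equivMapOfInjective U.subtype U.injective_subtype _).symm, finrank_span_eq_card hs]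
    simp

/-- Adding a block to an invariant subspace. -/
theorem step {T : Module.End F V} {f : F[X]} (hf : Irreducible f) {W : Submodule F V} (hW : Inv T W) {v : V}
    (hv : aeval T f v = 0) (hvW : v ∉ W) :
    ∃ W' : Submodule F V, Inv T W' ∧ W ≤ W' ∧ finrank F W' = finrank F W + f.natDegree ∧
      W' ≤ W ⊔ LinearMap.ker (aeval T f) := by
  classical
  have hv0 : v ≠ 0 := by
    rintro rfl
    exact hvW W.zero_mem
  have hmul : ∀ g h : F[X], aeval T (g * h) v = aeval T g (aeval T h v) := by
    intro g h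
    rw [map_mul, Module.End.mul_apply]
  have hkill : ∀ g : F[X], f ∣ g → aeval T g v = 0 := by
    rintro g ⟨h, rfl⟩
    rw [mul_comm, hmul, hv, map_zero]
  have hnot : ∀ g : F[X], ¬ f ∣ g → aeval T g v ∉ W := by
    intro g hg hmem
    have hco : IsCoprime g f := ((hf.coprime_iff_not_dvd).mpr hg).symm
    obtain ⟨a, b, hab⟩ := hco
    apply hvW
    have h1 : aeval T (a * g + b * f) v = v := by
      rw [hab, map_one, Module.End.one_apply]
    rw [map_add, LinearMap.add_apply, hmul, hmul, hv, map_zero, add_zero] at h1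
    rw [← h1]
    exact aeval_mem hW a hmem
  let ψ : F[X] →ₗ[F] V :=
    { toFun := fun g => aeval T g v
      map_add' := by intro a b; rw [map_add, LinearMap.add_apply]
      map_smul' := by intro c a; rw [map_smul, LinearMap.smul_apply, RingHom.id_apply] }
  have hψ : ∀ g, ψ g = aeval T g v := fun g => rfl
  let C' : Submodule F V := LinearMap.range ψ
  have hCinv : Inv T C' := by
    rintro _ ⟨g, rfl⟩
    refine ⟨X * g, ?_⟩
    rw [hψ, hψ, hmul, aeval_X]
  have hdis : Disjoint C' W := by
    rw [Submodule.disjoint_def]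
    rintro _ ⟨g, rfl⟩ hmem
    by_cases hg : f ∣ g
    · exact hkill g hg
    · exact absurd hmem (hnot g hg)
  have hCdim : finrank F C' = f.natDegree := by
    have hf0 : f ≠ 0 := hf.ne_zero
    let ψ₀ : Polynomial.degreeLT F f.natDegree →ₗ[F] V := ψ.comp (Polynomial.degreeLT F f.natDegree).subtype
    have hinj : Function.Injective ψ₀ := by
      rw [← LinearMap.ker_eq_bot, LinearMap.ker_eq_bot']
      rintro ⟨g, hg⟩ h0
      have h1 : aeval T g v = 0 := h0
      have hdvd : f ∣ g := by
        by_contra hn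
        apply hnot g hn
        rw [h1]
        exact W.zero_mem
      have hdeg : g.degree < f.degree := by
        rw [degree_eq_natDegree hf0]
        exact Polynomial.mem_degreeLT.mp hg
      apply Subtype.ext
      exact Polynomial.eq_zero_of_dvd_of_degree_lt hdvd hdeg
    have hrange : LinearMap.range ψ₀ = C' := by
      apply le_antisymm
      · rintro _ ⟨g, rfl⟩
        exact ⟨g.1, rfl⟩
      · rintro _ ⟨g, rfl⟩
        have hdeg : (g % f).degree < (f.natDegree : WithBot ℕ) := by
          rw [← degree_eq_natDegree hf0]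
          exact Polynomial.degree_mod_lt g hf0
        refine ⟨⟨g % f, Polynomial.mem_degreeLT.mpr hdeg⟩, ?_⟩
        show aeval T (g % f) v = aeval T g v
        have h2 : f ∣ g - g % f := ⟨g / f, by
          have := EuclideanDomain.div_add_mod g f
          rw [sub_eq_iff_eq_add]
          exact this.symm⟩
        have h3 := hkill _ h2
        rw [map_sub, LinearMap.sub_apply, sub_eq_zero] at h3
        exact h3.symm
    rw [← hrange, LinearMap.finrank_range_of_inj hinj, LinearEquiv.finrank_eq (Polynomial.degreeLTEquiv F f.natDegree), finrank_fin_fun]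
  refine ⟨W ⊔ C', inv_sup hW hCinv, le_sup_left, ?_, ?_⟩
  · have h3 := Submodule.finrank_sup_add_finrank_inf_eq W C'
    rw [hdis.symm.eq_bot, finrank_bot, add_zero, hCdim] at h3
    exact h3
  · apply sup_le_sup_left
    rintro _ ⟨g, rfl⟩
    rw [LinearMap.mem_ker, hψ, ← hmul, mul_comm, hmul, hv, map_zero]

/-- A non-invariant kernel gives a non-invariant irreducible factor. -/
theorem exists_factor {T : Module.End F V} {W : Submodule F V} : ∀ (n : ℕ) (g : F[X]), g.natDegree = n → Squarefree g →
    ¬ LinearMap.ker (aeval T g) ≤ W → ∃ f : F[X], Irreducible f ∧ f ∣ g ∧ ¬ LinearMap.ker (aeval T f) ≤ W := by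
  intro n
  induction n using Nat.strong_induction_on with
  | _ n ih =>
    intro g hn hg hne
    by_cases hu : IsUnit g
    · exfalso
      apply hne
      have h1 : IsUnit (aeval T g) := hu.map (aeval T)
      have h2 : LinearMap.ker (aeval T g) = ⊥ := by
        rw [LinearMap.ker_eq_bot]
        exact ((Module.End.isUnit_iff _).mp h1).1
      rw [h2]
      exact bot_le
    · obtain ⟨f, hf, h, rfl⟩ := WfDvdMonoid.exists_irreducible_factor hu hg.ne_zero
      have hnd : ¬ f ∣ h := by
        rintro ⟨h', rfl⟩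
        have := hg f ⟨h', by ring⟩
        exact hf.not_isUnit this
      have hcop : IsCoprime f h := (hf.coprime_iff_not_dvd).mpr hnd
      have hsup := Polynomial.sup_ker_aeval_eq_ker_aeval_mul_of_coprime T hcop
      by_cases hf' : LinearMap.ker (aeval T f) ≤ W
      · have hh' : ¬ LinearMap.ker (aeval T h) ≤ W := by
          intro hle
          apply hne
          rw [← hsup]
          exact sup_le hf' hle
        have hh0 : h ≠ 0 := by
          rintro rfl
          exact hg.ne_zero (mul_zero f)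
        have hdeg : h.natDegree < n := by
          rw [← hn, natDegree_mul hf.ne_zero hh0]
          have := hf.natDegree_pos
          omega
        obtain ⟨f', h1, h2, h3⟩ := ih _ hdeg h rfl (hg.squarefree_of_dvd ⟨f, by ring⟩) hh'
        exact ⟨f', h1, h2.trans ⟨f, by ring⟩, h3⟩
      · exact ⟨f, hf, ⟨h, rfl⟩, hf'⟩

section chain

variable {T : Module.End F V} {g : F[X]} {d : ℕ}

theorem chain_step (hg : Squarefree g) (hd : ∀ f : F[X], Irreducible f → f ∣ g → f.natDegree = d)
    {W : Submodule F V} (hW : Inv T W) (hWU : W ≤ LinearMap.ker (aeval T g)) (hne : W ≠ LinearMap.ker (aeval T g)) :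
    ∃ W' : Submodule F V, Inv T W' ∧ W ≤ W' ∧ W' ≤ LinearMap.ker (aeval T g) ∧ finrank F W' = finrank F W + d := by
  have hnot : ¬ LinearMap.ker (aeval T g) ≤ W := fun h => hne (le_antisymm hWU h)
  obtain ⟨f, hf, hfg, hfW⟩ := exists_factor _ g rfl hg hnot
  obtain ⟨v, hv, hvW⟩ := SetLike.not_le_iff_exists.mp hfW
  obtain ⟨W', h1, h2, h3, h4⟩ := step hf hW (LinearMap.mem_ker.mp hv) hvW
  refine ⟨W', h1, h2, ?_, by rw [h3, hd f hf hfg]⟩
  apply h4.trans
  apply sup_le hWU
  obtain ⟨h, rfl⟩ := hfg
  intro u hu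
  rw [LinearMap.mem_ker] at hu ⊢
  rw [mul_comm, map_mul, Module.End.mul_apply, hu, map_zero]

theorem dvd_finrank_ker (hg : Squarefree g) (hd : ∀ f : F[X], Irreducible f → f ∣ g → f.natDegree = d) (hd0 : 0 < d) :
    d ∣ finrank F (LinearMap.ker (aeval T g)) := by
  have key : ∀ (k : ℕ) (W : Submodule F V), finrank F (LinearMap.ker (aeval T g)) - finrank F W = k → Inv T W → W ≤ LinearMap.ker (aeval T g) →
      d ∣ finrank F W → d ∣ finrank F (LinearMap.ker (aeval T g)) := by
    intro k
    induction k using Nat.strong_induction_on with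
    | _ k ih =>
      intro W hk hW hWU hdW
      by_cases hne : W = LinearMap.ker (aeval T g)
      · rw [← hne]; exact hdW
      · obtain ⟨W', h1, h2, h3, h4⟩ := chain_step hg hd hW hWU hne
        have h5 := Submodule.finrank_mono h3
        exact ih _ (by omega) W' rfl h1 h3 (by rw [h4]; exact dvd_add hdW dvd_rfl)
  apply key _ ⊥ rfl
  · intro w hw
    rw [Submodule.mem_bot] at hw ⊢
    rw [hw, map_zero]
  · exact bot_le
  · simp

/-- Invariant subspaces of all multiples of the block size, extending a given one. -/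
theorem chain (hg : Squarefree g) (hd : ∀ f : F[X], Irreducible f → f ∣ g → f.natDegree = d) (hd0 : 0 < d)
    {W : Submodule F V} (hW : Inv T W) (hWU : W ≤ LinearMap.ker (aeval T g)) (b : ℕ)
    (hb : finrank F W + b * d ≤ finrank F (LinearMap.ker (aeval T g))) :
    ∃ W' : Submodule F V, Inv T W' ∧ W ≤ W' ∧ W' ≤ LinearMap.ker (aeval T g) ∧ finrank F W' = finrank F W + b * d := by
  induction b with
  | zero => exact ⟨W, hW, le_rfl, hWU, by simp⟩
  | succ b ih =>
    have e : (b + 1) * d = b * d + d := by ring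
    rw [e] at hb
    obtain ⟨W₁, h1, h2, h3, h4⟩ := ih (by omega)
    have hne : W₁ ≠ LinearMap.ker (aeval T g) := by
      intro h
      rw [← h, h4] at hb
      omega
    obtain ⟨W₂, h5, h6, h7, h8⟩ := chain_step hg hd h1 h3 hne
    exact ⟨W₂, h5, h2.trans h6, h7, by rw [h8, h4, e]; ring⟩

end chain

/-- The dimension of an invariant subspace for a two-block endomorphism. -/
theorem dim_split {T : Module.End F V} {f : F[X]} (hf : Irreducible f) (hc : IsCoprime (X - C (1 : F)) f)
    (hz : aeval T ((X - C (1 : F)) * f) = 0) {W : Submodule F V} (hW : Inv T W) :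
    ∃ a b : ℕ, finrank F W = a + b * f.natDegree ∧ a ≤ finrank F (LinearMap.ker (aeval T (X - C (1 : F)))) := by
  set T' : Module.End F W := T.restrict hW with hT'
  have hr : ∀ (p : F[X]) (u : W), ((aeval T' p) u : V) = aeval T p (u : V) := fun p u => aeval_restrict T hW p u
  have hz' : aeval T' ((X - C (1 : F)) * f) = 0 := by
    apply LinearMap.ext
    intro u
    apply Subtype.ext
    rw [hr, hz]
    rfl
  have hcompl := ker_isCompl T' hc hz'
  have hsum := Submodule.finrank_add_eq_of_isCompl hcompl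
  have hinv := ker_aeval_invariant T' f
  have hdvd : f.natDegree ∣ finrank F (LinearMap.ker (aeval T' f)) := by
    apply natDegree_dvd_finrank hf (T'.restrict hinv)
    apply LinearMap.ext
    intro u
    apply Subtype.ext
    rw [aeval_restrict T' hinv f u]
    exact u.2
  obtain ⟨b, hb⟩ := hdvd
  refine ⟨finrank F (LinearMap.ker (aeval T' (X - C (1 : F)))), b, ?_, ?_⟩
  · rw [← hsum, hb, mul_comm]
  · let L : LinearMap.ker (aeval T' (X - C (1 : F))) →ₗ[F] LinearMap.ker (aeval T (X - C (1 : F))) :=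
      { toFun := fun u => ⟨((u : W) : V), by
          rw [LinearMap.mem_ker, ← hr]
          have := LinearMap.mem_ker.mp u.2
          rw [this]
          rfl⟩
        map_add' := fun a b => rfl
        map_smul' := fun c a => rfl }
    apply LinearMap.finrank_le_finrank_of_injective (f := L)
    intro a b hab
    apply Subtype.ext
    apply Subtype.ext
    have h := congrArg Subtype.val hab
    exact h

end fix

section models

variable {F : Type*} [Field F]

/-- Kronecker multiplication by the identity. -/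
noncomputable def krHom (d t : ℕ) : Matrix (Fin d) (Fin d) F →ₐ[F] Matrix (Fin d × Fin t) (Fin d × Fin t) F where
  toFun A := Matrix.kroneckerMap (· * ·) A 1
  map_one' := by
    rw [Matrix.kroneckerMap_one_one _ (by simp) (by simp) (by simp)]
  map_mul' A B := by
    have h := Matrix.mul_kronecker_mul A B (1 : Matrix (Fin t) (Fin t) F) (1 : Matrix (Fin t) (Fin t) F)
    rw [mul_one] at h
    exact h
  map_zero' := by
    rw [Matrix.kroneckerMap_zero_left]
    intro b; simp
  map_add' A B := by
    ext i j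
    simp [Matrix.kroneckerMap_apply, add_mul]
  commutes' r := by
    ext i j
    simp only [Matrix.kroneckerMap_apply, Matrix.algebraMap_matrix_apply, Prod.ext_iff, Matrix.one_apply]
    by_cases h1 : i.1 = j.1 <;> by_cases h2 : i.2 = j.2 <;> simp [h1, h2]

theorem krHom_apply (d t : ℕ) (A : Matrix (Fin d) (Fin d) F) : krHom d t A = Matrix.kroneckerMap (· * ·) A 1 := rfl

theorem krHom_det (d t : ℕ) (A : Matrix (Fin d) (Fin d) F) : (krHom d t A).det = A.det ^ t := by
  rw [krHom_apply]
  have h := Matrix.det_kronecker A (1 : Matrix (Fin t) (Fin t) F)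
  rw [Matrix.det_one, one_pow, mul_one, Fintype.card_fin] at h
  exact h

/-- An irreducible polynomial has a matrix root. -/
theorem exists_matrix_root {f : F[X]} (hf : Irreducible f) : ∃ M : Matrix (Fin f.natDegree) (Fin f.natDegree) F, aeval M f = 0 := by
  classical
  haveI : Fact (Irreducible f) := ⟨hf⟩
  let K := AdjoinRoot f
  haveI : Module.Finite F K := (AdjoinRoot.powerBasis hf.ne_zero).finite
  have hdim : finrank F K = f.natDegree := by
    rw [(AdjoinRoot.powerBasis hf.ne_zero).finrank]
    rfl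
  let b := Module.finBasisOfFinrankEq F K hdim
  refine ⟨Algebra.leftMulMatrix b (AdjoinRoot.root f), ?_⟩
  have h := aeval_algHom_apply (Algebra.leftMulMatrix b) (AdjoinRoot.root f) f
  rw [h]
  have h2 : aeval (AdjoinRoot.root f) f = 0 := by
    have := AdjoinRoot.aeval_eq (f := f) f
    rw [AdjoinRoot.mk_self] at this
    exact this
  rw [h2, map_zero]

/-- The determinant of a matrix with irreducible `X^d - c` annihilating it. -/
theorem det_of_irr {d : ℕ} {M : Matrix (Fin d) (Fin d) F} {c : F} (hd : 0 < d) (hirr : Irreducible (X ^ d - C c)) (hM : aeval M (X ^ d - C c) = 0) :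
    M.det = (-1) ^ d * (-c) := by
  classical
  haveI : Nonempty (Fin d) := ⟨⟨0, hd⟩⟩
  have hmonic : (X ^ d - C c).Monic := monic_X_pow_sub_C c hd.ne'
  have hmin := minpoly.eq_of_irreducible_of_monic hirr hM hmonic
  have hdvd : minpoly F M ∣ M.charpoly := Matrix.minpoly_dvd_charpoly M
  have hchar : M.charpoly = X ^ d - C c :=
    eq_of_monic_of_dvd_of_natDegree_le hmonic M.charpoly_monic (by rw [hmin]; exact hdvd)
      (by rw [Matrix.charpoly_natDegree_eq_dim, natDegree_X_pow_sub_C]; simp)
  rw [Matrix.det_eq_sign_charpoly_coeff, hchar, Fintype.card_fin]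
  congr 1
  simp [hd.ne', hd.ne]

end models

section matrices

variable {F : Type*} [Field F] {n : ℕ}

theorem aeval_toLin (M : Matrix (Fin n) (Fin n) F) (p : F[X]) : aeval (Matrix.toLinAlgEquiv' M) p = Matrix.toLin' (aeval M p) :=
  aeval_algHom_apply (Matrix.toLinAlgEquiv' (R := F) (n := Fin n)) M p

theorem aeval_fromBlocks' {α β : Type*} [Fintype α] [Fintype β] [DecidableEq α] [DecidableEq β] (A : Matrix α α F) (D : Matrix β β F) (p : F[X]) :
    aeval (Matrix.fromBlocks A 0 0 D) p = Matrix.fromBlocks (aeval A p) 0 0 (aeval D p) := by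
  have hpow : ∀ k, (Matrix.fromBlocks A 0 0 D) ^ k = Matrix.fromBlocks (A ^ k) 0 0 (D ^ k) := by
    intro k
    induction k with
    | zero => simp [Matrix.fromBlocks_one]
    | succ k ih =>
      rw [pow_succ, ih, Matrix.fromBlocks_multiply, pow_succ, pow_succ]
      simp
  induction p using Polynomial.induction_on' with
  | add p q hp hq =>
    rw [map_add, map_add, map_add, hp, hq, Matrix.fromBlocks_add]
    simp
  | monomial k a =>
    rw [aeval_monomial, aeval_monomial, aeval_monomial, hpow]
    simp only [Algebra.algebraMap_eq_smul_one, Matrix.smul_mul, one_mul]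
    rw [Matrix.fromBlocks_smul]
    simp

theorem inv_iff {A : Matrix (Fin n) (Fin n) F} {W : Submodule F (Fin n → F)} : Inv (Matrix.toLinAlgEquiv' A) W ↔ W.map (Matrix.toLin' A) ≤ W := by
  constructor
  · rintro h _ ⟨w, hw, rfl⟩
    exact h w hw
  · intro h w hw
    exact h ⟨w, hw, rfl⟩

theorem inv_smul {A : Matrix (Fin n) (Fin n) F} {W : Submodule F (Fin n → F)} {c : F} (h : Inv (Matrix.toLinAlgEquiv' A) W) :
    Inv (Matrix.toLinAlgEquiv' (c • A)) W := by
  intro w hw
  rw [map_smul, LinearMap.smul_apply]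
  exact W.smul_mem _ (h w hw)

theorem inv_unsmul {A : Matrix (Fin n) (Fin n) F} {W : Submodule F (Fin n → F)} {c : F} (hc : c ≠ 0) (h : Inv (Matrix.toLinAlgEquiv' (c • A)) W) :
    Inv (Matrix.toLinAlgEquiv' A) W := by
  have h' := inv_smul (c := c⁻¹) h
  rwa [smul_smul, inv_mul_cancel₀ hc, one_smul] at h'

end matrices

section degrees

variable {F : Type*} [Field F] [Fintype F]

theorem natDegree_dvd_order {r : ℕ} [Fact r.Prime] (hrq : ¬ r ∣ Fintype.card F) {f : F[X]} (hf : Irreducible f)
    (hd : f ∣ X ^ r - 1) : f.natDegree ∣ orderOf ((Fintype.card F : ℕ) : ZMod r) := by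
  classical
  haveI : Fact (Irreducible f) := ⟨hf⟩
  let K := AdjoinRoot f
  haveI : Module.Finite F K := (AdjoinRoot.powerBasis hf.ne_zero).finite
  haveI : Finite K := Module.finite_of_finite F
  have hdim : finrank F K = f.natDegree := by
    rw [(AdjoinRoot.powerBasis hf.ne_zero).finrank]
    rfl
  set i := orderOf ((Fintype.card F : ℕ) : ZMod r) with hi
  have hq0 : 0 < Fintype.card F := Fintype.card_pos
  have hQ : r ∣ Fintype.card F ^ i - 1 := (pow_eq_one_iff_dvd hq0).mp (pow_orderOf_eq_one _)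
  let α : K := AdjoinRoot.root f
  have hαr : α ^ r = 1 := by
    have h1 : aeval α f = 0 := by
      have := AdjoinRoot.aeval_eq (f := f) f
      rw [AdjoinRoot.mk_self] at this
      exact this
    obtain ⟨g, hg⟩ := hd
    have h2 := congrArg (aeval α) hg
    rw [map_mul, h1, zero_mul, map_sub, map_pow, aeval_X, map_one, sub_eq_zero] at h2
    exact h2
  have hαQ : α ^ (Fintype.card F ^ i) = α := by
    obtain ⟨s, hs⟩ := hQ
    have h1 : 1 ≤ Fintype.card F ^ i := Nat.one_le_pow _ _ hq0
    have h2 : Fintype.card F ^ i = r * s + 1 := by omega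
    rw [h2, pow_succ, pow_mul, hαr, one_pow, one_mul]
  let φ : K →ₐ[F] K := FiniteField.frobeniusAlgHom F K
  have hφ1 : ∀ l : K, φ l = l ^ Fintype.card F := fun l => rfl
  have hφ : ∀ (k : ℕ) (l : K), (φ ^ k) l = l ^ (Fintype.card F ^ k) := by
    intro k l
    induction k with
    | zero => simp
    | succ k ih =>
      rw [pow_succ', AlgHom.mul_apply, ih, hφ1, ← pow_mul, pow_succ]
  have hφi : φ ^ i = 1 := by
    apply AdjoinRoot.algHom_ext
    rw [hφ]
    exact hαQ
  have hord : orderOf φ = finrank F K := FiniteField.orderOf_frobeniusAlgHom F K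
  rw [← hdim, ← hord]
  exact orderOf_dvd_of_pow_eq_one hφi

theorem natDegree_of_geom {r : ℕ} [Fact r.Prime] (hrq : ¬ r ∣ Fintype.card F) {f : F[X]} (hf : Irreducible f)
    (hd : f ∣ ∑ j ∈ Finset.range r, X ^ j) : f.natDegree = orderOf ((Fintype.card F : ℕ) : ZMod r) := by
  have hΦ : (∑ j ∈ Finset.range r, (X : F[X]) ^ j) ∣ X ^ r - 1 := ⟨X - 1, by rw [geom_sum_mul]⟩
  exact Nat.dvd_antisymm (natDegree_dvd_order hrq hf (hd.trans hΦ)) (order_dvd_natDegree hrq hf hd)

theorem squarefree_pow_sub {r : ℕ} (hr : (r : F) ≠ 0) {c : F} (hc : c ≠ 0) : Squarefree (X ^ r - C c : F[X]) :=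
  (separable_X_pow_sub_C c hr hc).squarefree

theorem sq_arith {m n i t u v : ℕ} (hi : 0 < i) (hmn : m ≤ n) (hk : m % i ≤ n % i) (hu : u = t * i) (hv : v + u = n) :
    ∃ a b, a + b * i = m ∧ a ≤ v ∧ b * i ≤ u := by
  by_cases ht : m / i ≤ t
  · refine ⟨m % i, m / i, ?_, ?_, ?_⟩
    · rw [mul_comm]
      exact Nat.mod_add_div m i
    · refine le_trans hk ?_
      have hn : n = v + t * i := by omega
      rw [hn, Nat.add_mul_mod_self_right]
      exact Nat.mod_le _ _
    · rw [hu]
      exact Nat.mul_le_mul_right _ ht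
  · push Not at ht
    have h1 : t * i ≤ m := by
      have h2 := Nat.div_add_mod m i
      have h3 : t * i ≤ i * (m / i) := by
        rw [mul_comm]
        exact Nat.mul_le_mul_left _ ht.le
      omega
    refine ⟨m - t * i, t, by omega, by omega, by omega⟩

/-- A power-type element has an invariant subspace of the right dimensions. -/
theorem exists_fixed_power {r : ℕ} [Fact r.Prime] (hrq : ¬ r ∣ Fintype.card F) {n m : ℕ} (hmn : m ≤ n) (A : Matrix (Fin n) (Fin n) F) (hA : A ^ r = 1)
    (hi : orderOf ((Fintype.card F : ℕ) : ZMod r) = 1 ∨ m % orderOf ((Fintype.card F : ℕ) : ZMod r) ≤ n % orderOf ((Fintype.card F : ℕ) : ZMod r)) :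
    ∃ W : Submodule F (Fin n → F), finrank F W = m ∧ Inv (Matrix.toLinAlgEquiv' A) W := by
  classical
  have hr : r.Prime := Fact.out
  have hcast : (r : F) ≠ 0 := ratFree_cast_ne hr hrq
  set T : Module.End F (Fin n → F) := Matrix.toLinAlgEquiv' A with hT
  have hi0 : 0 < orderOf ((Fintype.card F : ℕ) : ZMod r) := order_pos hrq
  have hg : Squarefree (X ^ r - C (1 : F)) := squarefree_pow_sub hcast one_ne_zero
  have hz : aeval T (X ^ r - C (1 : F)) = 0 := by
    rw [aeval_toLin]
    have : aeval A (X ^ r - C (1 : F)) = 0 := by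
      rw [map_sub, map_pow, aeval_X, hA, aeval_C, map_one, sub_self]
    rw [this, map_zero]
  have hbot : Inv T (⊥ : Submodule F (Fin n → F)) := by
    intro w hw
    rw [Submodule.mem_bot] at hw ⊢
    rw [hw, map_zero]
  by_cases hi1 : orderOf ((Fintype.card F : ℕ) : ZMod r) = 1
  · have hd : ∀ f : F[X], Irreducible f → f ∣ X ^ r - C (1 : F) → f.natDegree = 1 := by
      intro f hf hdvd
      have h1 := natDegree_dvd_order hrq hf (by rwa [C_1] at hdvd)
      rw [hi1] at h1
      exact Nat.dvd_one.mp h1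
    obtain ⟨W, h1, -, -, h4⟩ := chain (T := T) hg hd one_pos hbot bot_le m (by
      rw [hz, LinearMap.ker_zero, finrank_top, finrank_fin_fun, finrank_bot]
      omega)
    exact ⟨W, by rw [h4, finrank_bot]; omega, h1⟩
  · have hk := hi.resolve_left hi1
    set i := orderOf ((Fintype.card F : ℕ) : ZMod r) with hidef
    set Φ : F[X] := ∑ j ∈ Finset.range r, X ^ j with hΦ
    have hΦX : (X - C (1 : F)) * Φ = X ^ r - C (1 : F) := by
      rw [mul_comm, C_1]
      exact geom_sum_mul X r
    have hcop : IsCoprime (X - C (1 : F)) Φ := by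
      rw [(irreducible_X_sub_C (1 : F)).coprime_iff_not_dvd]
      rw [dvd_iff_isRoot]
      simp only [IsRoot, hΦ, eval_finset_sum, eval_pow, eval_X, one_pow, Finset.sum_const, Finset.card_range, nsmul_eq_mul, mul_one]
      exact hcast
    have hz' : aeval T ((X - C (1 : F)) * Φ) = 0 := by rw [hΦX, hz]
    have hcompl := ker_isCompl T hcop hz'
    have hsum := Submodule.finrank_add_eq_of_isCompl hcompl
    rw [finrank_fin_fun] at hsum
    have hgΦ : Squarefree Φ := hg.squarefree_of_dvd ⟨X - C (1 : F), by rw [← hΦX]; ring⟩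
    have hd : ∀ f : F[X], Irreducible f → f ∣ Φ → f.natDegree = i := fun f hf hdvd => natDegree_of_geom hrq hf hdvd
    obtain ⟨t, ht⟩ := dvd_finrank_ker (T := T) hgΦ hd hi0
    obtain ⟨a, b, h1, h2, h3⟩ := sq_arith hi0 hmn hk (ht.trans (mul_comm _ _)) hsum
    obtain ⟨W₀, h4, h5⟩ := exists_sub_dim h2
    obtain ⟨W₁, h6, -, h7, h8⟩ := chain (T := T) hgΦ hd hi0 hbot bot_le b (by rw [finrank_bot]; omega)
    rw [finrank_bot, zero_add] at h8
    refine ⟨W₀ ⊔ W₁, ?_, inv_sup (inv_of_le_ker h4) h6⟩
    have hdis : Disjoint W₀ W₁ := hcompl.disjoint.mono h4 h7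
    have h9 := Submodule.finrank_sup_add_finrank_inf_eq W₀ W₁
    rw [hdis.eq_bot, finrank_bot, add_zero, h5, h8, h1] at h9
    exact h9

/-- A non-power element has invariant subspaces of all multiples of `r`. -/
theorem exists_fixed_irr {r n m : ℕ} (hr : 0 < r) (hrm : r ∣ m) (hmn : m ≤ n) {c : F} (hirr : Irreducible (X ^ r - C c)) (A : Matrix (Fin n) (Fin n) F) (hA : A ^ r = c • 1) :
    ∃ W : Submodule F (Fin n → F), finrank F W = m ∧ Inv (Matrix.toLinAlgEquiv' A) W := by
  classical
  set T : Module.End F (Fin n → F) := Matrix.toLinAlgEquiv' A with hT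
  have hz : aeval T (X ^ r - C c) = 0 := by
    rw [aeval_toLin]
    have : aeval A (X ^ r - C c) = 0 := by
      rw [map_sub, map_pow, aeval_X, hA, aeval_C, Algebra.algebraMap_eq_smul_one, sub_self]
    rw [this, map_zero]
  have hbot : Inv T (⊥ : Submodule F (Fin n → F)) := by
    intro w hw
    rw [Submodule.mem_bot] at hw ⊢
    rw [hw, map_zero]
  have hd : ∀ f : F[X], Irreducible f → f ∣ X ^ r - C c → f.natDegree = r := by
    intro f hf hdvd
    have h1 := (hf.associated_of_dvd hirr hdvd)
    have h2 := natDegree_eq_of_degree_eq (degree_eq_degree_of_associated h1)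
    rw [h2, natDegree_X_pow_sub_C]
  obtain ⟨s, rfl⟩ := hrm
  obtain ⟨W, h1, -, -, h4⟩ := chain (T := T) hirr.squarefree hd hr hbot bot_le s (by
    rw [hz, LinearMap.ker_zero, finrank_top, finrank_fin_fun, finrank_bot, mul_comm]
    omega)
  exact ⟨W, by rw [h4, finrank_bot, mul_comm]; omega, h1⟩

/-- Roots are detected by powers. -/
theorem exists_root_of_pow {r : ℕ} (hr : r.Prime) (hrq1 : r ∣ Fintype.card F - 1) {c : F} (hc : c ≠ 0) (h : c ^ ((Fintype.card F - 1) / r) = 1) :
    ∃ y : F, y ^ r = c := by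
  classical
  obtain ⟨γ, hγ⟩ := IsCyclic.exists_generator (α := Fˣ)
  have hordγ : orderOf γ = Nat.card Fˣ := orderOf_eq_card_of_forall_mem_zpowers hγ
  have hcard : Nat.card Fˣ = Fintype.card F - 1 := by
    rw [Nat.card_eq_fintype_card, Fintype.card_units]
  obtain ⟨k, hk0⟩ := (mem_powers_iff_mem_zpowers.mpr (hγ (Units.mk0 c hc)))
  have hk : γ ^ k = Units.mk0 c hc := hk0
  have hq : 0 < Fintype.card F - 1 := by
    have := Fintype.one_lt_card (α := F)
    omega
  have h1 : γ ^ (k * ((Fintype.card F - 1) / r)) = 1 := by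
    rw [pow_mul, hk]
    apply Units.ext
    simp [h]
  have h2 := orderOf_dvd_of_pow_eq_one h1
  rw [hordγ, hcard] at h2
  obtain ⟨s, hs⟩ := hrq1
  have hr0 := hr.pos
  rw [hs, Nat.mul_div_cancel_left _ hr0] at h2
  have hs0 : 0 < s := by
    rcases Nat.eq_zero_or_pos s with h0 | h0
    · rw [h0] at hs; omega
    · exact h0
  have h3 : r ∣ k := by
    rw [mul_comm] at h2
    exact Nat.dvd_of_mul_dvd_mul_left hs0 (by simpa [mul_comm] using h2)
  obtain ⟨l, rfl⟩ := h3
  refine ⟨((γ ^ l : Fˣ) : F), ?_⟩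
  have h4 : ((γ ^ (r * l) : Fˣ) : F) = c := by
    rw [hk]
    rfl
  rw [← h4, ← Units.val_pow_eq_pow_val, ← pow_mul, mul_comm]

end degrees

section blockmodel

variable {F : Type*} [Field F] [Fintype F]

/-- The block model: `t` blocks and `k` fixed points. -/
theorem exists_block_model {r : ℕ} [Fact r.Prime] (hrq : ¬ r ∣ Fintype.card F) (hrq1 : ¬ r ∣ Fintype.card F - 1) {n t k : ℕ}
    (hn : n = orderOf ((Fintype.card F : ℕ) : ZMod r) * t + k) (ht : 0 < t) :
    ∃ (X₀ : Matrix (Fin n) (Fin n) F) (f : F[X]), X₀.det = 1 ∧ X₀ ^ r = 1 ∧ Irreducible f ∧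
      f.natDegree = orderOf ((Fintype.card F : ℕ) : ZMod r) ∧ aeval X₀ ((X - C (1 : F)) * f) = 0 ∧ IsCoprime (X - C (1 : F)) f ∧
      orderOf ((Fintype.card F : ℕ) : ZMod r) * t ≤ finrank F (LinearMap.ker (Matrix.toLin' (aeval X₀ f))) ∧
      finrank F (LinearMap.ker (Matrix.toLin' (aeval X₀ (X - C (1 : F))))) ≤ k := by
  classical
  have hblock := exists_block hrq hrq1
  generalize orderOf ((Fintype.card F : ℕ) : ZMod r) = i at hn hblock ⊢
  obtain ⟨y₀, f, hf, hfd, hy₀f, hf1, hy₀r, hy₀d, hy₀1⟩ := hblock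
  have hcard : n = Fintype.card ((Fin i × Fin t) ⊕ Fin k) := by simp [hn]
  let ε : Fin n ≃ (Fin i × Fin t) ⊕ Fin k := (Fintype.equivFinOfCardEq hcard.symm).symm
  set A : Matrix (Fin i × Fin t) (Fin i × Fin t) F := krHom i t y₀ with hA
  set Y : Matrix ((Fin i × Fin t) ⊕ Fin k) ((Fin i × Fin t) ⊕ Fin k) F := Matrix.fromBlocks A 0 0 1 with hY
  set X₀ : Matrix (Fin n) (Fin n) F := Y.submatrix ε ε with hX₀
  have hsub : ∀ p' : F[X], aeval (Y.submatrix ε ε) p' = (aeval Y p').submatrix ε ε := fun p' =>
    aeval_algHom_apply (Matrix.reindexAlgEquiv F F ε.symm).toAlgHom Y p'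
  have hXf : ∀ p' : F[X], aeval X₀ p' = (Matrix.fromBlocks (krHom i t (aeval y₀ p')) 0 0 (aeval (1 : Matrix (Fin k) (Fin k) F) p')).submatrix ε ε := by
    intro p'
    rw [hX₀, hsub, hY, aeval_fromBlocks', hA]
    congr 2
    exact aeval_algHom_apply (krHom i t) y₀ p'
  have hdet : X₀.det = 1 := by
    rw [hX₀, Matrix.det_submatrix_equiv_self, hY, Matrix.det_fromBlocks_zero₂₁, hA, krHom_det, hy₀d]
    simp
  have hXr : X₀ ^ r = 1 := by
    have h3 := hXf (X ^ r)
    simp only [map_pow, aeval_X, one_pow, hy₀r, map_one] at h3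
    rw [h3, Matrix.fromBlocks_one]
    simp
  have h1m : ∀ (p' : F[X]), aeval (1 : Matrix (Fin k) (Fin k) F) p' = (p'.eval 1) • 1 := by
    intro p'
    have h3 : aeval (algebraMap F (Matrix (Fin k) (Fin k) F) 1) p' = algebraMap F _ (aeval (1 : F) p') := aeval_algebraMap_apply _ 1 p'
    rw [map_one] at h3
    rw [h3, coe_aeval_eq_eval, Algebra.algebraMap_eq_smul_one]
  have hcop : IsCoprime (X - C (1 : F)) f := by
    rw [(irreducible_X_sub_C (1 : F)).coprime_iff_not_dvd, dvd_iff_isRoot]
    exact hf1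
  have hz : aeval X₀ ((X - C (1 : F)) * f) = 0 := by
    rw [hXf, h1m, map_mul, hy₀f, mul_zero, map_zero]
    simp
  have hker : i * t ≤ finrank F (LinearMap.ker (Matrix.toLin' (aeval X₀ f))) := by
    let L : (Fin i × Fin t → F) →ₗ[F] LinearMap.ker (Matrix.toLin' (aeval X₀ f)) :=
      { toFun := fun u => ⟨(Sum.elim u 0) ∘ ε, by
          have e : ((Sum.elim u 0) ∘ ε) ∘ ε.symm = Sum.elim u (0 : Fin k → F) := by
            ext s
            simp
          rw [LinearMap.mem_ker, Matrix.toLin'_apply, hXf, hy₀f, map_zero, Matrix.submatrix_mulVec_equiv, e, Matrix.fromBlocks_mulVec,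
            Sum.elim_comp_inl, Sum.elim_comp_inr, Matrix.mulVec_zero]
          simp⟩
        map_add' := by
          intro a b
          apply Subtype.ext
          ext s
          simp only [Function.comp, Submodule.coe_add, Pi.add_apply]
          rcases ε s with a' | b' <;> simp
        map_smul' := by
          intro c a
          apply Subtype.ext
          ext s
          simp only [Function.comp, Submodule.coe_smul, Pi.smul_apply, RingHom.id_apply]
          rcases ε s with a' | b' <;> simp }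
    have hinj : Function.Injective L := by
      rw [← LinearMap.ker_eq_bot, LinearMap.ker_eq_bot']
      intro u hu
      ext s
      have h2 := congrFun (congrArg Subtype.val hu) (ε.symm (Sum.inl s))
      simpa [L, Function.comp] using h2
    have h3 := LinearMap.finrank_le_finrank_of_injective hinj
    rw [finrank_fintype_fun_eq_card] at h3
    simpa using h3
  refine ⟨X₀, f, hdet, hXr, hf, hfd, hz, hcop, hker, ?_⟩
  have hT : aeval (Matrix.toLinAlgEquiv' X₀) ((X - C (1 : F)) * f) = 0 := by
    rw [aeval_toLin, hz, map_zero]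
  have hcompl := ker_isCompl _ hcop hT
  have hsum := Submodule.finrank_add_eq_of_isCompl hcompl
  rw [finrank_fin_fun, aeval_toLin, aeval_toLin] at hsum
  omega

/-- The model of a non-power element. -/
theorem exists_irr_model {r n : ℕ} (hr : 0 < r) (hrn : r ∣ n) {c : F} (hirr : Irreducible (X ^ r - C c)) :
    ∃ X₀ : Matrix (Fin n) (Fin n) F, X₀ ^ r = c • 1 ∧ X₀.det = ((-1) ^ r * (-c)) ^ (n / r) := by
  classical
  obtain ⟨t, rfl⟩ := hrn
  have h := exists_matrix_root hirr
  rw [natDegree_X_pow_sub_C] at h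
  obtain ⟨M, hM⟩ := h
  have hcard : r * t = Fintype.card (Fin r × Fin t) := by simp
  let ε : Fin (r * t) ≃ Fin r × Fin t := (Fintype.equivFinOfCardEq hcard.symm).symm
  have hMr : M ^ r = c • 1 := by
    rw [map_sub, map_pow, aeval_X, aeval_C, Algebra.algebraMap_eq_smul_one, sub_eq_zero] at hM
    exact hM
  have hdet : M.det = (-1) ^ r * (-c) := det_of_irr hr hirr hM
  refine ⟨(krHom r t M).submatrix ε ε, ?_, ?_⟩
  · have h1 : ((krHom r t M).submatrix ε ε) ^ r = (krHom r t (M ^ r)).submatrix ε ε := by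
      have h2 := map_pow (Matrix.reindexAlgEquiv F F ε.symm) (krHom r t M) r
      rw [map_pow]
      exact h2.symm
    rw [h1, hMr, map_smul, map_one]
    ext i j
    simp [Matrix.one_apply]
  · rw [Matrix.det_submatrix_equiv_self, krHom_det, hdet, Nat.mul_div_cancel_left _ hr]

/-- The determinant of a non-power element. -/
theorem det_irr {r n : ℕ} (hr : 0 < r) {c : F} (hirr : Irreducible (X ^ r - C c)) {A : Matrix (Fin n) (Fin n) F} (hA : A ^ r = c • 1) :
    r ∣ n ∧ A.det = ((-1) ^ r * (-c)) ^ (n / r) := by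
  classical
  have hz : aeval A (X ^ r - C c) = 0 := by
    rw [map_sub, map_pow, aeval_X, hA, aeval_C, Algebra.algebraMap_eq_smul_one, sub_self]
  have hrn : r ∣ n := by
    have h1 := natDegree_dvd_finrank hirr (Matrix.toLinAlgEquiv' A) (by rw [aeval_toLin, hz, map_zero])
    rwa [natDegree_X_pow_sub_C, finrank_fin_fun] at h1
  refine ⟨hrn, ?_⟩
  obtain ⟨X₀, h1, h2⟩ := exists_irr_model hr hrn hirr
  have hz0 : aeval X₀ (X ^ r - C c) = 0 := by
    rw [map_sub, map_pow, aeval_X, h1, aeval_C, Algebra.algebraMap_eq_smul_one, sub_self]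
  obtain ⟨P, hP, hAP⟩ := exists_conj_matrix ({X ^ r - C c} : Finset F[X]) (by
      intro f hf
      rw [Finset.mem_singleton.mp hf]
      exact hirr) (by
      intro f hf g hg hfg
      rw [Finset.mem_singleton.mp hf, Finset.mem_singleton.mp hg] at hfg
      exact absurd rfl hfg) A X₀ (by rw [Finset.prod_singleton]; exact hz) (by rw [Finset.prod_singleton]; exact hz0) (by
      intro f hf
      rw [Finset.mem_singleton.mp hf, hz, hz0])
  have h3 := congrArg Matrix.det hAP
  rw [Matrix.det_mul, Matrix.det_mul, mul_comm] at h3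
  rw [mul_left_cancel₀ hP h3, h2]

end blockmodel

end Cfsg.Agent.Lib.ClassMax.EluFix
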