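import Mathlib

/-!
Jordan types through ranks: the model of a nilpotent map with prescribed block sizes; a direct
summand has a Jordan type contained in the Jordan type of the whole space.
-/

set_option autoImplicit false
set_option linter.unusedSectionVars false

namespace Cfsg.Agent.Lib.ClassMax.JordanType

open Module

universe u

section shift

variable {F : Type u} [Field F]

/-- The shift on functions on `Fin e`. -/
def shift (F : Type u) [Field F] (e : ℕ) : (Fin e → F) →ₗ[F] (Fin e → F) where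
  toFun f := fun i => if h : (i : ℕ) + 1 < e then f ⟨i + 1, h⟩ else 0
  map_add' f g := by
    ext i
    by_cases h : (i : ℕ) + 1 < e <;> simp [h]
  map_smul' c f := by
    ext i
    by_cases h : (i : ℕ) + 1 < e <;> simp [h]

theorem shift_pow_apply (e k : ℕ) (f : Fin e → F) (i : Fin e) :
    ((shift F e) ^ k) f i = if h : (i : ℕ) + k < e then f ⟨i + k, h⟩ else 0 := by
  induction k generalizing f with
  | zero =>
    have : (i : ℕ) + 0 < e := by simpa using i.2
    simp [this]
  | succ k ih =>
    rw [pow_succ, Module.End.mul_apply, ih]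
    by_cases h : (i : ℕ) + k < e
    · rw [dif_pos h]
      show (if h' : (i : ℕ) + k + 1 < e then f ⟨(i : ℕ) + k + 1, h'⟩ else 0) = _
      by_cases h' : (i : ℕ) + k + 1 < e
      · rw [dif_pos h', dif_pos (by omega)]
        rfl
      · rw [dif_neg h', dif_neg (by omega)]
    · rw [dif_neg h, dif_neg (by omega)]

theorem finrank_range_shift_pow (e k : ℕ) :
    finrank F (LinearMap.range ((shift F e) ^ k)) = e - k := by
  let ι : (Fin (e - k) → F) →ₗ[F] (Fin e → F) :=
    { toFun := fun h i => if hi : (i : ℕ) < e - k then h ⟨i, hi⟩ else 0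
      map_add' := fun f g => by
        ext i
        by_cases h : (i : ℕ) < e - k <;> simp [h]
      map_smul' := fun c f => by
        ext i
        by_cases h : (i : ℕ) < e - k <;> simp [h] }
  have hι : ∀ (h : Fin (e - k) → F) (i : Fin e), ι h i = if hi : (i : ℕ) < e - k then h ⟨i, hi⟩ else 0 := fun _ _ => rfl
  have hinj : Function.Injective ι := by
    intro f g hfg
    ext j
    have h1 := congrFun hfg ⟨j, by have := j.2; omega⟩
    rw [hι, hι, dif_pos j.2, dif_pos j.2] at h1
    exact h1
  have hrange : LinearMap.range ((shift F e) ^ k) = LinearMap.range ι := by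
    apply le_antisymm
    · rintro _ ⟨f, rfl⟩
      refine ⟨fun j => ((shift F e) ^ k) f ⟨j, by have := j.2; omega⟩, ?_⟩
      ext i
      rw [hι]
      by_cases h : (i : ℕ) < e - k
      · rw [dif_pos h]
      · rw [dif_neg h, shift_pow_apply, dif_neg (by omega)]
    · rintro _ ⟨h, rfl⟩
      refine ⟨fun i => if h1 : k ≤ (i : ℕ) ∧ (i : ℕ) - k < e - k then h ⟨i - k, h1.2⟩ else 0, ?_⟩
      ext i
      rw [shift_pow_apply, hι]
      by_cases h2 : (i : ℕ) + k < e
      · have h3 : (i : ℕ) < e - k := by omega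
        have h4 : k ≤ (i : ℕ) + k ∧ (i : ℕ) + k - k < e - k := ⟨by omega, by omega⟩
        rw [dif_pos h2, dif_pos h3, dif_pos (by exact h4)]
        congr 1
        apply Fin.ext
        simp
      · rw [dif_neg h2, dif_neg (by omega)]
  rw [hrange, LinearMap.finrank_range_of_inj hinj, Module.finrank_fin_fun]

end shift

section product

variable {F : Type u} [Field F] {V V' : Type u} [AddCommGroup V] [Module F V] [AddCommGroup V'] [Module F V']
  [FiniteDimensional F V] [FiniteDimensional F V']

theorem prodMap_pow' (f : V →ₗ[F] V) (g : V' →ₗ[F] V') (k : ℕ) :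
    (f.prodMap g) ^ k = (f ^ k).prodMap (g ^ k) := by
  induction k with
  | zero =>
    ext <;> simp
  | succ k ih =>
    rw [pow_succ, pow_succ, pow_succ, ih]
    ext <;> simp

theorem finrank_range_prodMap (f : V →ₗ[F] V) (g : V' →ₗ[F] V') :
    finrank F (LinearMap.range (f.prodMap g)) = finrank F (LinearMap.range f) + finrank F (LinearMap.range g) := by
  rw [LinearMap.range_prodMap]
  have e : ((LinearMap.range f).prod (LinearMap.range g)) ≃ₗ[F] (LinearMap.range f) × (LinearMap.range g) :=
    { toFun := fun x => (⟨x.1.1, x.2.1⟩, ⟨x.1.2, x.2.2⟩)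
      invFun := fun y => ⟨(y.1.1, y.2.1), ⟨y.1.2, y.2.2⟩⟩
      map_add' := fun _ _ => rfl
      map_smul' := fun _ _ => rfl
      left_inv := fun _ => rfl
      right_inv := fun _ => rfl }
  rw [e.finrank_eq, Module.finrank_prod]

end product

/-- The nilpotent model with prescribed block sizes. -/
theorem exists_model (F : Type u) [Field F] (μ : Multiset ℕ) :
    ∃ (V : Type u) (_ : AddCommGroup V) (_ : Module F V) (_ : FiniteDimensional F V) (N : V →ₗ[F] V),
      finrank F V = μ.sum ∧ ∀ k, finrank F (LinearMap.range (N ^ k)) = (μ.map (fun e => e - k)).sum := by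
  induction μ using Multiset.induction_on with
  | empty =>
    refine ⟨PUnit, inferInstance, inferInstance, inferInstance, 0, by rw [finrank_zero_of_subsingleton]; simp, ?_⟩
    intro k
    rw [finrank_zero_of_subsingleton]
    simp
  | cons e μ ih =>
    obtain ⟨V, i1, i2, i3, N, h1, h2⟩ := ih
    refine ⟨(Fin e → F) × V, inferInstance, inferInstance, inferInstance, (shift F e).prodMap N, ?_, ?_⟩
    · rw [Module.finrank_prod, h1, Module.finrank_fin_fun, Multiset.sum_cons]
    · intro k
      rw [prodMap_pow', finrank_range_prodMap, h2, finrank_range_shift_pow, Multiset.map_cons, Multiset.sum_cons]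

/-- The model on a coordinate space. -/
theorem exists_model_fin (F : Type u) [Field F] (μ : Multiset ℕ) {n : ℕ} (hn : μ.sum = n) :
    ∃ N : (Fin n → F) →ₗ[F] (Fin n → F),
      ∀ k, finrank F (LinearMap.range (N ^ k)) = (μ.map (fun e => e - k)).sum := by
  obtain ⟨V, i1, i2, i3, N, h1, h2⟩ := exists_model F μ
  have hd : finrank F V = finrank F (Fin n → F) := by
    rw [h1, Module.finrank_fin_fun, hn]
  let φ : V ≃ₗ[F] (Fin n → F) := LinearEquiv.ofFinrankEq V (Fin n → F) hd
  refine ⟨φ.toLinearMap ∘ₗ N ∘ₗ φ.symm.toLinearMap, ?_⟩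
  intro k
  have hpow : ∀ k, (φ.toLinearMap ∘ₗ N ∘ₗ φ.symm.toLinearMap) ^ k = φ.toLinearMap ∘ₗ (N ^ k) ∘ₗ φ.symm.toLinearMap := by
    intro k
    induction k with
    | zero =>
      ext v
      simp
    | succ k ih =>
      rw [pow_succ, ih, pow_succ]
      ext v
      simp
  rw [hpow, ← h2]
  have hr : LinearMap.range (φ.toLinearMap ∘ₗ (N ^ k) ∘ₗ φ.symm.toLinearMap) = (LinearMap.range (N ^ k)).map φ.toLinearMap := by
    apply le_antisymm
    · rintro _ ⟨v, rfl⟩
      exact ⟨(N ^ k) (φ.symm v), ⟨_, rfl⟩, rfl⟩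
    · rintro _ ⟨_, ⟨v, rfl⟩, rfl⟩
      exact ⟨φ v, by simp⟩
  rw [hr]
  exact LinearEquiv.finrank_map_eq φ _

section ranks

variable {F V : Type*} [Field F] [AddCommGroup V] [Module F V] [FiniteDimensional F V]

/-- The rank of `N ^ k` on a subspace. -/
noncomputable def rk (N : V →ₗ[F] V) (W : Submodule F V) (k : ℕ) : ℕ := finrank F (W.map (N ^ k))

theorem finrank_map_add_inf_ker (f : V →ₗ[F] V) (A : Submodule F V) :
    finrank F (A.map f) + finrank F (A ⊓ LinearMap.ker f : Submodule F V) = finrank F A := by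
  have h1 := LinearMap.finrank_range_add_finrank_ker (f.domRestrict A)
  rw [LinearMap.range_domRestrict, LinearMap.ker_domRestrict] at h1
  rw [← h1]
  congr 1
  have e : (Submodule.comap A.subtype (LinearMap.ker f)) ≃ₗ[F] (A ⊓ LinearMap.ker f : Submodule F V) :=
    { toFun := fun x => ⟨x.1.1, x.1.2, x.2⟩
      invFun := fun y => ⟨⟨y.1, y.2.1⟩, y.2.2⟩
      map_add' := fun _ _ => rfl
      map_smul' := fun _ _ => rfl
      left_inv := fun _ => rfl
      right_inv := fun _ => rfl }
  exact e.finrank_eq.symm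

theorem map_pow_succ (N : V →ₗ[F] V) (W : Submodule F V) (k : ℕ) :
    W.map (N ^ (k + 1)) = (W.map (N ^ k)).map N := by
  rw [pow_succ', Module.End.mul_eq_comp, Submodule.map_comp]

theorem map_pow_le (N : V →ₗ[F] V) {W : Submodule F V} (hW : W.map N ≤ W) (k : ℕ) :
    W.map (N ^ k) ≤ W := by
  induction k with
  | zero =>
    rw [pow_zero, Module.End.one_eq_id, Submodule.map_id]
  | succ k ih =>
    rw [map_pow_succ]
    exact (Submodule.map_mono ih).trans hW

theorem map_pow_anti (N : V →ₗ[F] V) {W : Submodule F V} (hW : W.map N ≤ W) (k : ℕ) :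
    W.map (N ^ (k + 1)) ≤ W.map (N ^ k) := by
  rw [pow_succ, Module.End.mul_eq_comp, Submodule.map_comp]
  exact Submodule.map_mono hW

/-- Convexity of the rank sequence. -/
theorem rk_convex (N : V →ₗ[F] V) {W : Submodule F V} (hW : W.map N ≤ W) (k : ℕ) :
    2 * rk N W (k + 1) ≤ rk N W k + rk N W (k + 2) := by
  have h1 := finrank_map_add_inf_ker N (W.map (N ^ k))
  have h2 := finrank_map_add_inf_ker N (W.map (N ^ (k + 1)))
  rw [← map_pow_succ] at h1 h2
  have h5 : W.map (N ^ (k + 1 + 1)) = W.map (N ^ (k + 2)) := rfl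
  rw [h5] at h2
  have h3 : (W.map (N ^ (k + 1)) ⊓ LinearMap.ker N : Submodule F V) ≤ W.map (N ^ k) ⊓ LinearMap.ker N :=
    inf_le_inf_right _ (map_pow_anti N hW k)
  have h4 := Submodule.finrank_mono h3
  unfold rk
  omega

/-- Additivity of the ranks for an invariant decomposition. -/
theorem rk_add (N : V →ₗ[F] V) {W W' : Submodule F V} (hc : IsCompl W W') (hW : W.map N ≤ W)
    (hW' : W'.map N ≤ W') (k : ℕ) : rk N ⊤ k = rk N W k + rk N W' k := by
  have h1 : (⊤ : Submodule F V).map (N ^ k) = W.map (N ^ k) ⊔ W'.map (N ^ k) := by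
    rw [← Submodule.map_sup, hc.sup_eq_top]
  have h2 : W.map (N ^ k) ⊓ W'.map (N ^ k) = ⊥ := by
    apply le_bot_iff.mp
    calc W.map (N ^ k) ⊓ W'.map (N ^ k) ≤ W ⊓ W' := inf_le_inf (map_pow_le N hW k) (map_pow_le N hW' k)
      _ = ⊥ := hc.inf_eq_bot
  have h3 := Submodule.finrank_sup_add_finrank_inf_eq (W.map (N ^ k)) (W'.map (N ^ k))
  rw [h2, finrank_bot, add_zero, ← h1] at h3
  exact h3

theorem rk_zero (N : V →ₗ[F] V) (W : Submodule F V) : rk N W 0 = finrank F W := by
  unfold rk
  rw [pow_zero, Module.End.one_eq_id, Submodule.map_id]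

/-- The partial sums of the multiplicities. -/
theorem sum_mult (r : ℕ → ℕ) (hr : ∀ k, 2 * r (k + 1) ≤ r k + r (k + 2)) (j : ℕ) :
    ((∑ k ∈ Finset.Icc 1 j, (r (k - 1) + r (k + 1) - 2 * r k) * k : ℕ) : ℤ)
      = (r 0 : ℤ) - r j - j * ((r j : ℤ) - r (j + 1)) := by
  have hc : ∀ k, 1 ≤ k → (((r (k - 1) + r (k + 1) - 2 * r k : ℕ)) : ℤ) = (r (k - 1) : ℤ) + r (k + 1) - 2 * r k := by
    intro k hk
    obtain ⟨l, rfl⟩ : ∃ l, k = l + 1 := ⟨k - 1, by omega⟩
    have h1 : 2 * r (l + 1) ≤ r l + r (l + 1 + 1) := hr l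
    simp only [Nat.add_sub_cancel]
    omega
  induction j with
  | zero => simp
  | succ j ih =>
    rw [Finset.sum_Icc_succ_top (by omega), Nat.cast_add, ih, Nat.cast_mul, hc (j + 1) (by omega)]
    simp only [Nat.add_sub_cancel]
    push_cast
    ring

/-- The multiset sum identity for block multiplicities. -/
theorem map_sub_identity (μ : Multiset ℕ) {a : ℕ} (ha : 1 ≤ a) :
    (μ.map (fun e => e - (a - 1))).sum + (μ.map (fun e => e - (a + 1))).sum
      = 2 * (μ.map (fun e => e - a)).sum + μ.count a := by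
  induction μ using Multiset.induction_on with
  | empty => simp
  | cons e μ ih =>
    simp only [Multiset.map_cons, Multiset.sum_cons, Multiset.count_cons]
    by_cases h : a = e
    · subst h
      rw [if_pos rfl]
      omega
    · rw [if_neg h]
      omega

/-- A direct summand has a Jordan type contained in the whole Jordan type. -/
theorem exists_sub_multiset (N : V →ₗ[F] V) (μ : Multiset ℕ)
    (hμ : ∀ k, finrank F (LinearMap.range (N ^ k)) = (μ.map (fun e => e - k)).sum) {p : ℕ}
    (hp : N ^ p = 0) (hμp : ∀ e ∈ μ, 0 < e ∧ e ≤ p) {W W' : Submodule F V} (hc : IsCompl W W') (hW : W.map N ≤ W)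
    (hW' : W'.map N ≤ W') : ∃ ν : Multiset ℕ, ν ≤ μ ∧ ν.sum = finrank F W := by
  classical
  set r := rk N W with hr
  set r' := rk N W' with hr'
  have hconv : ∀ k, 2 * r (k + 1) ≤ r k + r (k + 2) := rk_convex N hW
  have hconv' : ∀ k, 2 * r' (k + 1) ≤ r' k + r' (k + 2) := rk_convex N hW'
  have hadd : ∀ k, (μ.map (fun e => e - k)).sum = r k + r' k := by
    intro k
    rw [← hμ k, hr, hr', ← rk_add N hc hW hW' k]
    unfold rk
    rw [Submodule.map_top]
  set m : ℕ → ℕ := fun k => r (k - 1) + r (k + 1) - 2 * r k with hm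
  refine ⟨∑ k ∈ Finset.Icc 1 p, m k • ({k} : Multiset ℕ), ?_, ?_⟩
  · rw [Multiset.le_iff_count]
    intro a
    rw [Multiset.count_sum']
    simp only [Multiset.count_nsmul, Multiset.count_singleton]
    by_cases ha : a ∈ Finset.Icc 1 p
    · rw [Finset.sum_eq_single a]
      · rw [if_pos rfl, mul_one]
        have h1 := map_sub_identity μ (Finset.mem_Icc.mp ha).1
        rw [hadd, hadd, hadd] at h1
        obtain ⟨l, rfl⟩ : ∃ l, a = l + 1 := ⟨a - 1, by have := (Finset.mem_Icc.mp ha).1; omega⟩
        have h2 : 2 * r (l + 1) ≤ r l + r (l + 1 + 1) := hconv l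
        have h3 : 2 * r' (l + 1) ≤ r' l + r' (l + 1 + 1) := hconv' l
        simp only [hm, Nat.add_sub_cancel] at h1 ⊢
        omega
      · intro b _ hb
        rw [if_neg (Ne.symm hb), mul_zero]
      · intro h
        exact absurd ha h
    · rw [Finset.sum_eq_zero]
      · exact Nat.zero_le _
      · intro b hb
        rw [if_neg, mul_zero]
        rintro rfl
        exact ha hb
  · have h0 : r p = 0 := by
      rw [hr]
      unfold rk
      rw [hp]
      simp
    have h1 : r (p + 1) = 0 := by
      rw [hr]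
      unfold rk
      rw [pow_succ, hp]
      simp
    have h2 := sum_mult r hconv p
    rw [h0, h1] at h2
    simp only [Nat.cast_zero, sub_zero, mul_zero] at h2
    have h3 : (∑ k ∈ Finset.Icc 1 p, (r (k - 1) + r (k + 1) - 2 * r k) * k) = r 0 := by
      exact_mod_cast h2
    rw [hr, rk_zero] at h3
    rw [← h3, Multiset.sum_sum]
    apply Finset.sum_congr rfl
    intro k _
    simp only [Multiset.sum_nsmul, Multiset.sum_singleton, smul_eq_mul]
    rfl

/-- The number of top blocks. -/
theorem map_sub_top (μ : Multiset ℕ) {p : ℕ} (hp : 1 ≤ p) (hμ : ∀ e ∈ μ, e ≤ p) :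
    (μ.map (fun e => e - (p - 1))).sum = μ.count p := by
  induction μ using Multiset.induction_on with
  | empty => simp
  | cons e μ ih =>
    have h1 := hμ e (Multiset.mem_cons_self _ _)
    have h2 := ih (fun x hx => hμ x (Multiset.mem_cons_of_mem hx))
    simp only [Multiset.map_cons, Multiset.sum_cons, Multiset.count_cons]
    rw [h2]
    by_cases h : p = e
    · subst h
      rw [if_pos rfl]
      omega
    · rw [if_neg h]
      omega

/-- A power of `L - 1` is injective on a block whose images under `L` lie in distinct blocks. -/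
theorem cycle_injective {t : ℕ} (D : Fin t → Submodule F V) (hind : iSupIndep D) (L : V →ₗ[F] V)
    (hL : Function.Injective L) (σ : Equiv.Perm (Fin t)) (hσ : ∀ j, (D j).map L = D (σ j)) (j : Fin t) (m : ℕ)
    (hdist : ∀ i < m, (σ ^ i) j ≠ (σ ^ m) j) {v : V} (hv : v ∈ D j) (h0 : ((L - 1) ^ m) v = 0) : v = 0 := by
  classical
  have hLmem : ∀ (k : ℕ) {u : V}, u ∈ D j → (L ^ k) u ∈ D ((σ ^ k) j) := by
    intro k u hu
    induction k with
    | zero => simpa using hu
    | succ k ih =>
      rw [pow_succ' L, Module.End.mul_apply, pow_succ' σ, Equiv.Perm.mul_apply, ← hσ]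
      exact Submodule.mem_map_of_mem ih
  let S : ℕ → Submodule F V := fun m => ⨆ i ∈ Finset.range m, D ((σ ^ i) j)
  have hSmono : ∀ m, S m ≤ S (m + 1) := by
    intro m
    apply iSup₂_le
    intro i hi
    exact le_iSup₂_of_le i (Finset.mem_range.mpr (by have := Finset.mem_range.mp hi; omega)) le_rfl
  have hSL : ∀ m, (S m).map L ≤ S (m + 1) := by
    intro m
    show (⨆ i ∈ Finset.range m, D ((σ ^ i) j)).map L ≤ _
    simp only [Submodule.map_iSup]
    apply iSup₂_le
    intro i hi
    rw [hσ, ← Equiv.Perm.mul_apply, ← pow_succ']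
    exact le_iSup₂_of_le (i + 1) (Finset.mem_range.mpr (by have := Finset.mem_range.mp hi; omega)) le_rfl
  have hclaim : ∀ m, ∃ w ∈ S m, ((L - 1) ^ m) v = (L ^ m) v + w := by
    intro m
    induction m with
    | zero => exact ⟨0, Submodule.zero_mem _, by simp⟩
    | succ m ih =>
      obtain ⟨w, hw, he⟩ := ih
      refine ⟨L w - w - (L ^ m) v, ?_, ?_⟩
      · apply Submodule.sub_mem
        · apply Submodule.sub_mem
          · exact hSL m (Submodule.mem_map_of_mem hw)
          · exact hSmono m hw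
        · exact (le_iSup₂_of_le m (Finset.mem_range.mpr (Nat.lt_succ_self m)) le_rfl : D ((σ ^ m) j) ≤ S (m + 1)) (hLmem m hv)
      · rw [pow_succ' (L - 1), Module.End.mul_apply, he, pow_succ' L, Module.End.mul_apply]
        simp only [LinearMap.sub_apply, map_add, Module.End.one_apply]
        abel
  obtain ⟨w, hw, he⟩ := hclaim m
  rw [h0] at he
  have h1 : (L ^ m) v = - w := eq_neg_of_add_eq_zero_left he.symm
  have h2 : (L ^ m) v ∈ D ((σ ^ m) j) := hLmem m hv
  have h3 : S m ≤ ⨆ i, ⨆ (_ : i ≠ (σ ^ m) j), D i := by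
    apply iSup₂_le
    intro i hi
    exact le_iSup₂_of_le ((σ ^ i) j) (hdist i (Finset.mem_range.mp hi)) le_rfl
  have h4 : (L ^ m) v ∈ ⨆ i, ⨆ (_ : i ≠ (σ ^ m) j), D i := by
    rw [h1]
    exact Submodule.neg_mem _ (h3 hw)
  have h5 := Submodule.disjoint_def.mp (hind ((σ ^ m) j)) _ h2 h4
  have hLp : Function.Injective (L ^ m) := by
    rw [Module.End.coe_pow]
    exact hL.iterate m
  exact hLp (by rw [h5, map_zero])

end ranks

end Cfsg.Agent.Lib.ClassMax.JordanType
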