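import Mathlib
import Cfsg.Agent.Lib.ClassMax.EluFix
import Cfsg.Agent.Lib.ClassMax.EluNil
import Cfsg.Agent.Lib.ClassMax.JordanType

/-!
# Complementary pairs of subspaces

The number of complements of a subspace, and the splitting of a nilpotent endomorphism into Jordan
blocks at the level of invariant complementary pairs.
-/

set_option autoImplicit false

open Module Polynomial

namespace Cfsg.Agent.Lib.ClassMax.EluCompl

section count

variable {F V : Type*} [Field F] [AddCommGroup V] [Module F V]

/-- Complements of `U` correspond to linear maps out of a fixed complement. -/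
theorem card_complements (U W₀ : Submodule F V) (h : IsCompl U W₀) :
    Nat.card {W : Submodule F V // IsCompl U W} = Nat.card (W₀ →ₗ[F] U) := by
  classical
  refine Nat.card_congr ((Submodule.isComplEquivProj U).trans ?_)
  refine
    { toFun := fun f => f.1 ∘ₗ W₀.subtype
      invFun := fun g => ⟨U.projectionOnto W₀ h + g ∘ₗ (W₀.projectionOnto U h.symm), ?_⟩
      left_inv := ?_
      right_inv := ?_ }
  · intro x
    simp [Submodule.projectionOnto_apply_left, Submodule.projectionOnto_apply_right]
  · rintro ⟨f, hf⟩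
    apply Subtype.ext
    apply LinearMap.ext
    intro v
    obtain ⟨u, w, rfl, -⟩ := Submodule.existsUnique_add_of_isCompl h v
    simp [Submodule.projectionOnto_apply_left, Submodule.projectionOnto_apply_right, hf]
  · intro g
    apply LinearMap.ext
    intro w
    simp [Submodule.projectionOnto_apply_left, Submodule.projectionOnto_apply_right]

end count

section count2

variable {F : Type*} [Field F] [Fintype F]

/-- The number of ordered complementary pairs. -/
theorem card_pairs (n m : ℕ) (hm : m ≤ n) :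
    Nat.card {P : Submodule F (Fin n → F) × Submodule F (Fin n → F) // IsCompl P.1 P.2 ∧ finrank F P.1 = m} =
      Nat.card {U : Submodule F (Fin n → F) // finrank F U = m} * Fintype.card F ^ ((n - m) * m) := by
  classical
  have e : {P : Submodule F (Fin n → F) × Submodule F (Fin n → F) // IsCompl P.1 P.2 ∧ finrank F P.1 = m} ≃
      Σ U : {U : Submodule F (Fin n → F) // finrank F U = m}, {W : Submodule F (Fin n → F) // IsCompl U.1 W} :=
    { toFun := fun P => ⟨⟨P.1.1, P.2.2⟩, ⟨P.1.2, P.2.1⟩⟩
      invFun := fun Q => ⟨(Q.1.1, Q.2.1), Q.2.2, Q.1.2⟩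
      left_inv := fun P => rfl
      right_inv := fun Q => rfl }
  rw [Nat.card_congr e, Nat.card_sigma]
  have hfib : ∀ U : {U : Submodule F (Fin n → F) // finrank F U = m},
      Nat.card {W : Submodule F (Fin n → F) // IsCompl U.1 W} = Fintype.card F ^ ((n - m) * m) := by
    intro U
    obtain ⟨W₀, hW₀⟩ := Submodule.exists_isCompl U.1
    rw [card_complements U.1 W₀ hW₀, Module.natCard_eq_pow_finrank (K := F), Nat.card_eq_fintype_card, Module.finrank_linearMap, U.2]
    have h1 := Submodule.finrank_add_eq_of_isCompl hW₀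
    rw [finrank_fin_fun, U.2] at h1
    congr 1
    have h2 : finrank F W₀ = n - m := by omega
    rw [h2]
  rw [Finset.sum_congr rfl (fun U _ => hfib U), Finset.sum_const, smul_eq_mul, Finset.card_univ]
  congr 1
  exact Nat.card_eq_fintype_card.symm

end count2

section jordan

variable {F V : Type*} [Field F] [AddCommGroup V] [Module F V] [FiniteDimensional F V]

/-- Glue a block to a splitting of its complement. -/
theorem glue {A₀ B₀ A' B' W : Submodule F V} (h1 : Disjoint A₀ B₀) (h2 : A₀ ⊔ B₀ = W) (h3 : Disjoint A' B') (h4 : A' ⊔ B' = B₀) :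
    Disjoint (A₀ ⊔ A') B' ∧ (A₀ ⊔ A') ⊔ B' = W ∧ finrank F ((A₀ ⊔ A' : Submodule F V)) = finrank F A₀ + finrank F A' := by
  refine ⟨?_, ?_, ?_⟩
  · apply Disjoint.disjoint_sup_left_of_disjoint_sup_right h3
    rw [h4]
    exact h1
  · rw [sup_assoc, h4, h2]
  · have h5 : Disjoint A₀ A' := h1.mono_right (by rw [← h4]; exact le_sup_left)
    have h6 := Submodule.finrank_sup_add_finrank_inf_eq A₀ A'
    rw [h5.eq_bot, finrank_bot, add_zero] at h6
    exact h6

/-- A nilpotent endomorphism splits into blocks: each sub-multiset of the blocks gives an invariant complementary pair. -/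
theorem jordan_split (N : Module.End F V) {p : ℕ} (hN : N ^ p = 0) :
    ∀ (d : ℕ) (W : Submodule F V), finrank F W = d → (∀ w ∈ W, N w ∈ W) →
      ∃ μ : Multiset ℕ, (∀ e ∈ μ, 0 < e ∧ e ≤ p) ∧ μ.sum = d ∧ ∀ ν ≤ μ, ∃ A B : Submodule F V,
        Disjoint A B ∧ A ⊔ B = W ∧ (∀ a ∈ A, N a ∈ A) ∧ (∀ b ∈ B, N b ∈ B) ∧ finrank F A = ν.sum := by
  classical
  intro d
  induction d using Nat.strong_induction_on with
  | _ d ih =>
    intro W hW hinv
    rcases Nat.eq_zero_or_pos d with rfl | hd
    · refine ⟨0, by simp, by simp, ?_⟩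
      intro ν hν
      have hν0 : ν = 0 := Multiset.le_zero.mp hν
      refine ⟨⊥, ⊥, disjoint_bot_left, ?_, by simp, by simp, by simp [hν0]⟩
      rw [bot_sup_eq]
      exact (Submodule.finrank_eq_zero.mp hW).symm
    · set T : Module.End F W := N.restrict hinv with hT
      have hpow : ∀ (k : ℕ) (w : W), ((T ^ k) w : V) = (N ^ k) (w : V) := by
        intro k w
        induction k generalizing w with
        | zero => simp
        | succ k ih2 =>
          rw [pow_succ, Module.End.mul_apply, ih2, pow_succ, Module.End.mul_apply]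
          rfl
      have hTp : T ^ p = 0 := by
        apply LinearMap.ext
        intro w
        apply Subtype.ext
        rw [hpow, hN]
        rfl
      haveI : Nontrivial W := by
        apply Module.nontrivial_of_finrank_pos (R := F)
        omega
      have hexists : ∃ k, T ^ k = 0 := ⟨p, hTp⟩
      set k := Nat.find hexists with hk
      have hk0 : T ^ k = 0 := Nat.find_spec hexists
      have hkp : k ≤ p := Nat.find_min' hexists hTp
      have hkpos : k ≠ 0 := by
        intro h0
        rw [h0, pow_zero] at hk0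
        exact one_ne_zero hk0
      obtain ⟨e, he⟩ : ∃ e, k = e + 1 := ⟨k - 1, by omega⟩
      have hne : T ^ e ≠ 0 := Nat.find_min hexists (m := e) (by omega)
      obtain ⟨v, hv⟩ : ∃ v, (T ^ e) v ≠ 0 := by
        by_contra hcon
        push Not at hcon
        exact hne (LinearMap.ext hcon)
      rw [he] at hk0
      obtain ⟨U', W', hc, hU', hW', hdim⟩ := Cfsg.Agent.Lib.ClassMax.EluNil.exists_block T hk0 hv
      have hfr : ∀ S : Submodule F W, finrank F (S.map W.subtype) = finrank F S := fun S =>
        LinearEquiv.finrank_eq (Submodule.equivMapOfInjective W.subtype W.injective_subtype _).symm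
      have hinvmap : ∀ S : Submodule F W, (∀ u ∈ S, T u ∈ S) → ∀ u ∈ S.map W.subtype, N u ∈ S.map W.subtype := by
        rintro S hS _ ⟨u, hu, rfl⟩
        exact ⟨T u, hS u hu, rfl⟩
      have hsup : U'.map W.subtype ⊔ W'.map W.subtype = W := by
        rw [← Submodule.map_sup, hc.sup_eq_top, Submodule.map_top, Submodule.range_subtype]
      have hdis : Disjoint (U'.map W.subtype) (W'.map W.subtype) := by
        exact Submodule.disjoint_map W.injective_subtype hc.disjoint
      have hdimW' : finrank F (W'.map W.subtype) = d - (e + 1) := by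
        have h1 := Submodule.finrank_add_eq_of_isCompl hc
        rw [hfr, ← hW, ← h1, hdim]
        omega
      obtain ⟨μ', hμ1, hμ2, hμ3⟩ := ih (d - (e + 1)) (by omega) (W'.map W.subtype) hdimW' (hinvmap W' hW')
      refine ⟨(e + 1) ::ₘ μ', ?_, ?_, ?_⟩
      · intro a ha
        rcases Multiset.mem_cons.mp ha with rfl | ha
        · exact ⟨by omega, by omega⟩
        · exact hμ1 a ha
      · rw [Multiset.sum_cons, hμ2]
        have h1 := Submodule.finrank_add_eq_of_isCompl hc
        rw [← hW, ← h1, hdim]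
        omega
      · intro ν hν
        by_cases hmem : e + 1 ∈ ν
        · obtain ⟨ν', rfl⟩ := Multiset.exists_cons_of_mem hmem
          have hν' : ν' ≤ μ' := (Multiset.cons_le_cons_iff _).mp hν
          obtain ⟨A, B, h1, h2, h3, h4, h5⟩ := hμ3 ν' hν'
          obtain ⟨g1, g2, g3⟩ := glue hdis hsup h1 h2
          refine ⟨U'.map W.subtype ⊔ A, B, g1, g2, ?_, h4, ?_⟩
          · intro a ha
            obtain ⟨u, hu, a', ha', rfl⟩ := Submodule.mem_sup.mp ha
            rw [map_add]
            exact Submodule.add_mem _ (Submodule.mem_sup_left (hinvmap U' hU' u hu)) (Submodule.mem_sup_right (h3 a' ha'))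
          · rw [g3, hfr, hdim, h5, Multiset.sum_cons]
        · have hν' : ν ≤ μ' := (Multiset.le_cons_of_notMem hmem).mp hν
          obtain ⟨A, B, h1, h2, h3, h4, h5⟩ := hμ3 ν hν'
          obtain ⟨g1, g2, g3⟩ := glue hdis hsup h1.symm (by rw [sup_comm]; exact h2)
          refine ⟨A, U'.map W.subtype ⊔ B, g1.symm, ?_, h3, ?_, h5⟩
          · rw [sup_comm]; exact g2
          · intro a ha
            obtain ⟨u, hu, a', ha', rfl⟩ := Submodule.mem_sup.mp ha
            rw [map_add]
            exact Submodule.add_mem _ (Submodule.mem_sup_left (hinvmap U' hU' u hu)) (Submodule.mem_sup_right (h4 a' ha'))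

end jordan

/-- Multisets with parts at most `2`. -/
theorem sub_of_two : ∀ (μ : Multiset ℕ), (∀ e ∈ μ, 0 < e ∧ e ≤ 2) → ∀ m, m ≤ μ.sum → (Odd μ.sum ∨ Even m) → ∃ ν ≤ μ, ν.sum = m := by
  intro μ
  induction μ using Multiset.induction_on with
  | empty =>
    intro _ m hm _
    refine ⟨0, le_rfl, ?_⟩
    simpa using (Nat.le_zero.mp (by simpa using hm)).symm
  | cons e μ ih =>
    intro hμ m hm hpar
    have he := hμ e (Multiset.mem_cons_self _ _)
    have hμ' : ∀ a ∈ μ, 0 < a ∧ a ≤ 2 := fun a ha => hμ a (Multiset.mem_cons_of_mem ha)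
    rw [Multiset.sum_cons] at hm hpar
    have he12 : e = 1 ∨ e = 2 := by omega
    have hleft : ∀ m', m' ≤ μ.sum → (Odd μ.sum ∨ Even m') → m' = m → ∃ ν ≤ e ::ₘ μ, ν.sum = m := by
      rintro m' h1 h2 rfl
      obtain ⟨ν, h3, h4⟩ := ih hμ' m' h1 h2
      exact ⟨ν, h3.trans (Multiset.le_cons_self _ _), h4⟩
    have hright : ∀ m', m' ≤ μ.sum → (Odd μ.sum ∨ Even m') → m' + e = m → ∃ ν ≤ e ::ₘ μ, ν.sum = m := by
      rintro m' h1 h2 h3
      obtain ⟨ν, h4, h5⟩ := ih hμ' m' h1 h2
      refine ⟨e ::ₘ ν, (Multiset.cons_le_cons_iff _).mpr h4, ?_⟩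
      rw [Multiset.sum_cons, h5]
      omega
    rcases he12 with rfl | rfl
    · rcases Nat.even_or_odd m with hev | hodd
      · by_cases h1 : m ≤ μ.sum
        · exact hleft m h1 (Or.inr hev) rfl
        · refine hright (m - 1) (by omega) ?_ (by omega)
          have : m - 1 = μ.sum := by omega
          rw [this]
          exact (Nat.even_or_odd _).symm
      · have hp1 : Odd (1 + μ.sum) := by
          rcases hpar with h | h
          · exact h
          · exact absurd h (Nat.not_even_iff_odd.mpr hodd)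
        have hev : Even μ.sum := by
          rcases Nat.even_or_odd μ.sum with h | h
          · exact h
          · exfalso
            have : Even (1 + μ.sum) := odd_one.add_odd h
            exact (Nat.not_even_iff_odd.mpr hp1) this
        have hm0 : 1 ≤ m := hodd.pos
        refine hright (m - 1) (by omega) (Or.inr ?_) (by omega)
        obtain ⟨c, hc⟩ := hodd
        exact ⟨c, by omega⟩
    · have hpar' : Odd μ.sum ∨ Even m := by
        rcases hpar with h | h
        · left
          obtain ⟨c, hc⟩ := h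
          exact ⟨c - 1, by omega⟩
        · exact Or.inr h
      by_cases h1 : m ≤ μ.sum
      · exact hleft m h1 hpar' rfl
      · have hm2 : 2 ≤ m := by
          by_contra h2
          have hm1 : m = 1 := by omega
          have hs : μ.sum = 0 := by omega
          rw [hm1, hs] at hpar'
          simp at hpar'
        refine hright (m - 2) (by omega) ?_ (by omega)
        rcases hpar' with h | h
        · exact Or.inl h
        · right
          obtain ⟨c, hc⟩ := h
          exact ⟨c - 1, by omega⟩

section model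

variable {F : Type*} [Field F] [Fintype F] {p : ℕ} [Fact p.Prime] [CharP F p]

/-- The invariant pairs for all elements of order `p` produce the partition condition. -/
theorem sub_of_all {n m : ℕ} (hn : 0 < n) (hm : m ≤ n)
    (hall : ∀ x : Matrix.SpecialLinearGroup (Fin n) F,
      (∃ c : F, ((x ^ p : Matrix.SpecialLinearGroup (Fin n) F) : Matrix (Fin n) (Fin n) F) = c • (1 : Matrix (Fin n) (Fin n) F)) →
      (∀ c : F, (x : Matrix (Fin n) (Fin n) F) ≠ c • (1 : Matrix (Fin n) (Fin n) F)) →
      ∃ U W : Submodule F (Fin n → F), IsCompl U W ∧ finrank F U = m ∧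
        U.map (Matrix.toLin' (x : Matrix (Fin n) (Fin n) F)) ≤ U ∧ W.map (Matrix.toLin' (x : Matrix (Fin n) (Fin n) F)) ≤ W)
    (μ : Multiset ℕ) (hμ : ∀ a ∈ μ, 0 < a ∧ a ≤ p) (hsum : μ.sum = n) : ∃ ν : Multiset ℕ, ν ≤ μ ∧ ν.sum = m := by
  classical
  have hpp : p.Prime := Fact.out
  haveI : Nonempty (Fin n) := ⟨⟨0, hn⟩⟩
  obtain ⟨N, hNk⟩ := Cfsg.Agent.Lib.ClassMax.JordanType.exists_model_fin F μ hsum
  have hNp : N ^ p = 0 := by
    have h1 := hNk p
    have h2 : (μ.map (fun e => e - p)).sum = 0 := by
      apply Multiset.sum_eq_zero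
      intro x hx
      obtain ⟨a, ha, rfl⟩ := Multiset.mem_map.mp hx
      have := (hμ a ha).2
      omega
    rw [h2, Submodule.finrank_eq_zero, LinearMap.range_eq_bot] at h1
    exact h1
  by_cases hN0 : N = 0
  · -- all parts are `1`
    have h1 := hNk 1
    rw [hN0, pow_one, LinearMap.range_zero, finrank_bot] at h1
    have hall1 : ∀ a ∈ μ, a = 1 := by
      intro a ha
      have h2 : a - 1 ∈ μ.map (fun e => e - 1) := Multiset.mem_map.mpr ⟨a, ha, rfl⟩
      have h3 := Multiset.le_sum_of_mem h2
      have := (hμ a ha).1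
      omega
    have h4 : μ = Multiset.replicate (Multiset.card μ) 1 := Multiset.eq_replicate.mpr ⟨rfl, hall1⟩
    have h5 : Multiset.card μ = n := by
      rw [← hsum]
      conv_rhs => rw [h4]
      simp
    refine ⟨Multiset.replicate m 1, ?_, by simp⟩
    rw [h4, h5]
    exact (Multiset.replicate_le_replicate _).mpr hm
  · set M : Matrix (Fin n) (Fin n) F := LinearMap.toMatrix' N with hM
    have hMN : Matrix.toLin' M = N := by simp [hM]
    have hMp : M ^ p = 0 := by
      have h1 : (LinearMap.toMatrixAlgEquiv' N) ^ p = 0 := by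
        rw [← map_pow, hNp, map_zero]
      exact h1
    have hXp : (1 + M) ^ p = 1 := by
      rw [add_pow_char_of_commute p (Commute.one_left _)]
      simp [hMp]
    have hXdet : (1 + M).det = 1 := by
      have h1 := congrArg Matrix.det hXp
      rw [Matrix.det_pow, Matrix.det_one] at h1
      have h2 : frobenius F p (1 + M).det = frobenius F p 1 := by
        rw [frobenius_def, frobenius_def, h1, one_pow]
      exact frobenius_inj F p h2
    let x : Matrix.SpecialLinearGroup (Fin n) F := ⟨1 + M, hXdet⟩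
    have hns : ∀ c : F, (x : Matrix (Fin n) (Fin n) F) ≠ c • (1 : Matrix (Fin n) (Fin n) F) := by
      intro c hc
      have hc' : 1 + M = c • 1 := hc
      have hM' : M = (c - 1) • 1 := by
        rw [sub_smul, one_smul, ← hc']
        abel
      apply hN0
      rw [← hMN, hM']
      rw [hM', _root_.smul_pow, one_pow] at hMp
      have h3 := congrFun (congrFun hMp ⟨0, hn⟩) ⟨0, hn⟩
      simp only [Matrix.smul_apply, Matrix.one_apply_eq, smul_eq_mul, mul_one, Matrix.zero_apply] at h3
      have h4 : c - 1 = 0 := by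
        exact pow_eq_zero_iff hpp.ne_zero |>.mp h3
      rw [h4, zero_smul, map_zero]
    obtain ⟨U, W, hc, hU, hinvU, hinvW⟩ := hall x ⟨1, by
      rw [Matrix.SpecialLinearGroup.coe_pow, one_smul]
      exact hXp⟩ hns
    have hsub : ∀ S : Submodule F (Fin n → F), S.map (Matrix.toLin' (x : Matrix (Fin n) (Fin n) F)) ≤ S → S.map N ≤ S := by
      rintro S hS _ ⟨v, hv, rfl⟩
      have h1 : Matrix.toLin' (x : Matrix (Fin n) (Fin n) F) v ∈ S := hS ⟨v, hv, rfl⟩
      have h2 : N v = Matrix.toLin' (x : Matrix (Fin n) (Fin n) F) v - v := by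
        have h3 : (x : Matrix (Fin n) (Fin n) F) = 1 + M := rfl
        rw [h3, map_add, LinearMap.add_apply, hMN, Matrix.toLin'_one, LinearMap.id_apply]
        abel
      rw [h2]
      exact S.sub_mem h1 hv
    obtain ⟨ν, h1, h2⟩ := Cfsg.Agent.Lib.ClassMax.JordanType.exists_sub_multiset N μ hNk hNp hμ hc (hsub U hinvU) (hsub W hinvW)
    exact ⟨ν, h1, by rw [h2, hU]⟩

/-- The invariant pairs of an element of order `p` modulo scalars. -/
theorem jordan_pair {n : ℕ} (hn : 0 < n) (A : Matrix (Fin n) (Fin n) F) {c : F} (hA : A ^ p = c • 1) (hc : c ≠ 0) :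
    ∃ μ : Multiset ℕ, (∀ e ∈ μ, 0 < e ∧ e ≤ p) ∧ μ.sum = n ∧ ∀ ν ≤ μ, ∃ U W : Submodule F (Fin n → F),
      IsCompl U W ∧ finrank F U = ν.sum ∧ U.map (Matrix.toLin' A) ≤ U ∧ W.map (Matrix.toLin' A) ≤ W := by
  classical
  have hpp : p.Prime := Fact.out
  haveI : Nonempty (Fin n) := ⟨⟨0, hn⟩⟩
  obtain ⟨c', hc'⟩ := (Finite.injective_iff_surjective.mp (frobenius_inj F p)) c
  rw [frobenius_def] at hc'
  have hc'0 : c' ≠ 0 := by
    rintro rfl
    rw [zero_pow hpp.ne_zero] at hc'
    exact hc hc'.symm
  set M : Matrix (Fin n) (Fin n) F := c'⁻¹ • A - 1 with hM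
  have hMp : M ^ p = 0 := by
    rw [hM, sub_pow_char_of_commute p (Commute.one_right _), _root_.smul_pow, hA, smul_smul, inv_pow, hc', inv_mul_cancel₀ hc, one_smul, one_pow, sub_self]
  set T : Module.End F (Fin n → F) := Matrix.toLinAlgEquiv' M with hT
  have hTp : T ^ p = 0 := by
    rw [hT, ← map_pow, hMp, map_zero]
  have hAT : ∀ v, Matrix.toLin' A v = c' • (v + T v) := by
    intro v
    have h1 : A = c' • (1 + M) := by
      rw [hM, add_sub_cancel, smul_smul, mul_inv_cancel₀ hc'0, one_smul]
    have h2 : T v = Matrix.toLin' M v := rfl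
    rw [h2]
    conv_lhs => rw [h1]
    rw [map_smul, LinearMap.smul_apply, map_add, LinearMap.add_apply, Matrix.toLin'_one, LinearMap.id_apply]
  obtain ⟨μ, h1, h2, h3⟩ := jordan_split T hTp n ⊤ (by rw [finrank_top, finrank_fin_fun]) (fun _ _ => Submodule.mem_top)
  refine ⟨μ, h1, h2, ?_⟩
  intro ν hν
  obtain ⟨U, W, g1, g2, g3, g4, g5⟩ := h3 ν hν
  have hinv : ∀ S : Submodule F (Fin n → F), (∀ a ∈ S, T a ∈ S) → S.map (Matrix.toLin' A) ≤ S := by
    rintro S hS _ ⟨v, hv, rfl⟩
    rw [hAT]
    exact S.smul_mem _ (S.add_mem hv (hS v hv))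
  exact ⟨U, W, ⟨g1, codisjoint_iff.mpr g2⟩, g5, hinv U g3, hinv W g4⟩

end model

/-- The complement of an invariant subspace of a semisimple element. -/
theorem exists_invariant_compl {F : Type*} [Field F] [Fintype F] {n r : ℕ} (hr : (r : F) ≠ 0) (A : Matrix (Fin n) (Fin n) F) {c : F} (hA : A ^ r = c • 1) (hc : c ≠ 0)
    {U : Submodule F (Fin n → F)} (hU : U.map (Matrix.toLin' A) ≤ U) :
    ∃ W : Submodule F (Fin n → F), IsCompl U W ∧ W.map (Matrix.toLin' A) ≤ W := by
  set T : Module.End F (Fin n → F) := Matrix.toLinAlgEquiv' A with hT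
  have hz : aeval T (X ^ r - C c) = 0 := by
    rw [Cfsg.Agent.Lib.ClassMax.EluFix.aeval_toLin]
    have : aeval A (X ^ r - C c) = 0 := by
      rw [map_sub, map_pow, aeval_X, hA, aeval_C, Algebra.algebraMap_eq_smul_one, sub_self]
    rw [this, map_zero]
  have hss : T.IsSemisimple := Module.End.isSemisimple_of_squarefree_aeval_eq_zero (Cfsg.Agent.Lib.ClassMax.EluFix.squarefree_pow_sub hr hc) hz
  have hinv : U ∈ Module.End.invtSubmodule T := by
    rw [Module.End.mem_invtSubmodule]
    intro v hv
    exact hU ⟨v, hv, rfl⟩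
  obtain ⟨W, hW1, hW2⟩ := Module.End.isSemisimple_iff.mp hss U hinv
  refine ⟨W, hW2, ?_⟩
  rintro _ ⟨v, hv, rfl⟩
  exact (Module.End.mem_invtSubmodule T).mp hW1 hv

end Cfsg.Agent.Lib.ClassMax.EluCompl
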