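import Mathlib
import Cfsg.Agent.Lib.ClassMax.EluFix

/-!
Flags of invariant subspaces `U ≤ W`.
-/

set_option autoImplicit false
set_option linter.unusedSimpArgs false
set_option linter.unusedVariables false
set_option linter.unusedSectionVars false

namespace Cfsg.Agent.Lib.ClassMax.EluFlag

open Module Polynomial Matrix Cfsg.Agent.Lib.ClassMax.EluConj Cfsg.Agent.Lib.ClassMax.EluOrder Cfsg.Agent.Lib.ClassMax.EluBlock Cfsg.Agent.Lib.ClassMax.EluFix

section count

variable {F : Type*} [Field F] [Fintype F]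

/-- The product of `q^j - 1`. -/
def Pq (q t : ℕ) : ℕ := ∏ j ∈ Finset.range t, (q ^ (j + 1) - 1)

theorem Pq_succ (q t : ℕ) : Pq q (t + 1) = Pq q t * (q ^ (t + 1) - 1) := Finset.prod_range_succ _ _

theorem Pq_pos {q : ℕ} (hq : 1 < q) (t : ℕ) : 0 < Pq q t := by
  apply Finset.prod_pos
  intro j _
  have : q ^ 1 < q ^ (j + 1) ∨ j = 0 := by
    rcases Nat.eq_zero_or_pos j with h | h
    · exact Or.inr h
    · exact Or.inl (Nat.pow_lt_pow_right hq (by omega))
  rcases this with h | h
  · have h5 : q ^ 1 = q := pow_one _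
    omega
  · subst h
    simp
    omega

theorem prod_tail (q n : ℕ) : ∀ k, k ≤ n → (∏ i ∈ Finset.range k, (q ^ (n - i) - 1)) * Pq q (n - k) = Pq q n := by
  intro k
  induction k with
  | zero => simp
  | succ k ih =>
    intro hk
    rw [Finset.prod_range_succ]
    have e : n - k = (n - (k + 1)) + 1 := by omega
    have h := ih (by omega)
    rw [e, Pq_succ, ← e] at h
    rw [← h]
    ring

theorem prod_reflect (q k : ℕ) : ∏ i ∈ Finset.range k, (q ^ (k - i) - 1) = Pq q k := by
  have h := prod_tail q k k le_rfl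
  simpa [Pq] using h

theorem count_P (n k : ℕ) (hk : k ≤ n) :
    Nat.card {W : Submodule F (Fin n → F) // finrank F W = k} * Pq (Fintype.card F) k * Pq (Fintype.card F) (n - k) = Pq (Fintype.card F) n := by
  have hq0 : 0 < Fintype.card F := Fintype.card_pos
  have hq2 : 1 < Fintype.card F := Fintype.one_lt_card
  have hc := count_mul (F := F) n k hk
  have e1 : ∀ N, k ≤ N → ∏ i : Fin k, (Fintype.card F ^ N - Fintype.card F ^ (i : ℕ)) =
      (∏ i : Fin k, Fintype.card F ^ (i : ℕ)) * ∏ i ∈ Finset.range k, (Fintype.card F ^ (N - i) - 1) := by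
    intro N hN
    rw [← Fin.prod_univ_eq_prod_range (fun i => Fintype.card F ^ (N - i) - 1) k, ← Finset.prod_mul_distrib]
    apply Finset.prod_congr rfl
    intro i _
    exact pow_sub_factor (by have := i.2; omega)
  rw [e1 k le_rfl, e1 n hk, prod_reflect] at hc
  have hpos : 0 < ∏ i : Fin k, Fintype.card F ^ (i : ℕ) := Finset.prod_pos (fun i _ => pow_pos hq0 _)
  have hc' : Nat.card {W : Submodule F (Fin n → F) // finrank F W = k} * Pq (Fintype.card F) k =
      ∏ i ∈ Finset.range k, (Fintype.card F ^ (n - i) - 1) := by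
    apply Nat.eq_of_mul_eq_mul_left hpos
    rw [← hc]
    ring
  rw [hc', prod_tail _ _ _ hk]

theorem count_comm (n k : ℕ) (hk : k ≤ n) :
    Nat.card {W : Submodule F (Fin n → F) // finrank F W = n - k} = Nat.card {W : Submodule F (Fin n → F) // finrank F W = k} := by
  have hq2 : 1 < Fintype.card F := Fintype.one_lt_card
  have h1 := count_P (F := F) n k hk
  have h2 := count_P (F := F) n (n - k) (by omega)
  rw [Nat.sub_sub_self hk] at h2
  have hp1 := Pq_pos hq2 k
  have hp2 := Pq_pos hq2 (n - k)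
  have e : Nat.card {W : Submodule F (Fin n → F) // finrank F W = n - k} * (Pq (Fintype.card F) k * Pq (Fintype.card F) (n - k)) =
      Nat.card {W : Submodule F (Fin n → F) // finrank F W = k} * (Pq (Fintype.card F) k * Pq (Fintype.card F) (n - k)) := by
    calc _ = Pq (Fintype.card F) n := by rw [← h2]; ring
      _ = _ := by rw [← h1]; ring
  exact Nat.eq_of_mul_eq_mul_right (Nat.mul_pos hp1 hp2) e

/-- Subspaces of a subspace. -/
theorem count_in {n : ℕ} (W : Submodule F (Fin n → F)) (m : ℕ) :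
    Nat.card {U : Submodule F (Fin n → F) // U ≤ W ∧ finrank F U = m} =
      Nat.card {U : Submodule F (Fin (finrank F W) → F) // finrank F U = m} := by
  classical
  let e : W ≃ₗ[F] (Fin (finrank F W) → F) := LinearEquiv.ofFinrankEq _ _ (by rw [finrank_fin_fun])
  apply Nat.card_congr
  refine
    { toFun := fun U => ⟨((U.1.comap W.subtype).map (e : W →ₗ[F] (Fin (finrank F W) → F))), ?_⟩
      invFun := fun U => ⟨(U.1.map (e.symm : (Fin (finrank F W) → F) →ₗ[F] W)).map W.subtype, ?_, ?_⟩
      left_inv := ?_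
      right_inv := ?_ }
  · have h1 : finrank F ((U.1.comap W.subtype).map (e : W →ₗ[F] (Fin (finrank F W) → F))) = finrank F (U.1.comap W.subtype) :=
      LinearEquiv.finrank_map_eq e _
    have h2 : finrank F ((U.1.comap W.subtype).map W.subtype) = finrank F (U.1.comap W.subtype) :=
      LinearEquiv.finrank_eq (Submodule.equivMapOfInjective W.subtype W.injective_subtype _).symm
    rw [h1, ← h2, Submodule.map_comap_subtype, inf_eq_right.mpr U.2.1]
    exact U.2.2
  · rintro _ ⟨x, -, rfl⟩
    exact x.2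
  · have h1 : finrank F ((U.1.map (e.symm : (Fin (finrank F W) → F) →ₗ[F] W)).map W.subtype) = finrank F (U.1.map (e.symm : (Fin (finrank F W) → F) →ₗ[F] W)) :=
      LinearEquiv.finrank_eq (Submodule.equivMapOfInjective W.subtype W.injective_subtype _).symm
    rw [h1, LinearEquiv.finrank_map_eq e.symm]
    exact U.2
  · intro U
    apply Subtype.ext
    show (((U.1.comap W.subtype).map (e : W →ₗ[F] (Fin (finrank F W) → F))).map (e.symm : (Fin (finrank F W) → F) →ₗ[F] W)).map W.subtype = U.1
    have h1 : ((U.1.comap W.subtype).map (e : W →ₗ[F] (Fin (finrank F W) → F))).map (e.symm : (Fin (finrank F W) → F) →ₗ[F] W) = U.1.comap W.subtype := by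
      ext x
      simp
    rw [h1, Submodule.map_comap_subtype, inf_eq_right.mpr U.2.1]
  · intro U
    apply Subtype.ext
    show (((U.1.map (e.symm : (Fin (finrank F W) → F) →ₗ[F] W)).map W.subtype).comap W.subtype).map (e : W →ₗ[F] (Fin (finrank F W) → F)) = U.1
    rw [Submodule.comap_map_eq_self (by simp)]
    ext x
    simp

/-- The number of flags. -/
theorem card_flags (n m k : ℕ) :
    Nat.card {P : Submodule F (Fin n → F) × Submodule F (Fin n → F) // P.1 ≤ P.2 ∧ finrank F P.1 = m ∧ finrank F P.2 = k} =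
      Nat.card {W : Submodule F (Fin n → F) // finrank F W = k} * Nat.card {U : Submodule F (Fin k → F) // finrank F U = m} := by
  classical
  have e : {P : Submodule F (Fin n → F) × Submodule F (Fin n → F) // P.1 ≤ P.2 ∧ finrank F P.1 = m ∧ finrank F P.2 = k} ≃
      Σ W : {W : Submodule F (Fin n → F) // finrank F W = k}, {U : Submodule F (Fin n → F) // U ≤ W.1 ∧ finrank F U = m} :=
    { toFun := fun P => ⟨⟨P.1.2, P.2.2.2⟩, ⟨P.1.1, P.2.1, P.2.2.1⟩⟩
      invFun := fun Q => ⟨(Q.2.1, Q.1.1), Q.2.2.1, Q.2.2.2, Q.1.2⟩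
      left_inv := fun P => rfl
      right_inv := fun Q => rfl }
  rw [Nat.card_congr e, Nat.card_sigma]
  have hfib : ∀ W : {W : Submodule F (Fin n → F) // finrank F W = k},
      Nat.card {U : Submodule F (Fin n → F) // U ≤ W.1 ∧ finrank F U = m} = Nat.card {U : Submodule F (Fin k → F) // finrank F U = m} := by
    rintro ⟨W, rfl⟩
    exact count_in W m
  rw [Finset.sum_congr rfl (fun W _ => hfib W), Finset.sum_const, smul_eq_mul, Finset.card_univ]
  congr 1
  exact Nat.card_eq_fintype_card.symm

theorem flag_arith {m n i t u v : ℕ} (hi : 0 < i) (hmn : 2 * m < n) (hk : 2 * (m % i) ≤ n % i) (hu : u = t * i) (hv : v + u = n) :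
    ∃ a b a' b', a + b * i = m ∧ a' + b' * i = n - m ∧ a ≤ a' ∧ a' ≤ v ∧ b ≤ b' ∧ b' * i ≤ u := by
  have hm := Nat.div_add_mod m i
  have hn := Nat.div_add_mod n i
  have hkl := Nat.mod_lt n hi
  set m' := m / i with hm'
  set n' := n / i with hn'
  set l := m % i with hl
  set k := n % i with hk'
  rw [mul_comm] at hm hn
  have h2m : 2 * m' ≤ n' := by
    by_contra h
    push Not at h
    have h3 : (n' + 1) * i ≤ (2 * m') * i := Nat.mul_le_mul_right _ h
    have e1 : (n' + 1) * i = n' * i + i := by ring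
    have e2 : (2 * m') * i = 2 * (m' * i) := by ring
    omega
  have htn : t ≤ n' := by
    by_contra h
    push Not at h
    have h3 : (n' + 1) * i ≤ t * i := Nat.mul_le_mul_right _ h
    have e1 : (n' + 1) * i = n' * i + i := by ring
    omega
  have es : (n' - m') * i = n' * i - m' * i := Nat.sub_mul _ _ _
  by_cases h1 : n' - m' ≤ t
  · have h3 : (n' - m') * i ≤ t * i := Nat.mul_le_mul_right _ h1
    have h4 : m' * i ≤ n' * i := Nat.mul_le_mul_right _ (by omega)
    refine ⟨l, m', k - l, n' - m', by omega, by omega, by omega, ?_, by omega, by omega⟩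
    have h5 : t * i ≤ n' * i := Nat.mul_le_mul_right _ htn
    omega
  · push Not at h1
    by_cases h2 : m' ≤ t
    · have h3 : m' * i ≤ t * i := Nat.mul_le_mul_right _ h2
      have h4 : t * i ≤ (n' - m') * i := Nat.mul_le_mul_right _ h1.le
      refine ⟨l, m', n - m - t * i, t, by omega, ?_, ?_, by omega, h2, by omega⟩
      · have h5 : t * i ≤ n - m := by omega
        omega
      · omega
    · push Not at h2
      have h3 : t * i ≤ m' * i := Nat.mul_le_mul_right _ h2.le
      refine ⟨m - t * i, t, n - m - t * i, t, by omega, ?_, ?_, by omega, le_rfl, by omega⟩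
      · omega
      · omega

end count

section fix

variable {F V : Type*} [Field F] [AddCommGroup V] [Module F V] [FiniteDimensional F V]

/-- The dimension of an invariant subspace for a two-block endomorphism, with its fixed part. -/
theorem dim_split' {T : Module.End F V} {f : F[X]} (hf : Irreducible f) (hc : IsCoprime (X - C (1 : F)) f)
    (hz : aeval T ((X - C (1 : F)) * f) = 0) {W : Submodule F V} (hW : Inv T W) :
    ∃ b : ℕ, finrank F W = finrank F ((W ⊓ LinearMap.ker (aeval T (X - C (1 : F))) : Submodule F V)) + b * f.natDegree := by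
  set T' : Module.End F W := T.restrict hW with hT'
  have hr : ∀ (p : F[X]) (u : W), ((aeval T' p) u : V) = aeval T p (u : V) := fun p u => aeval_restrict T hW p u
  have hz' : aeval T' ((X - C (1 : F)) * f) = 0 := by
    apply LinearMap.ext
    intro u
    apply Subtype.ext
    rw [hr, hz]
    rfl
  have hcompl := ker_isCompl T' hc hz'
  have hsum := Submodule.finrank_add_eq_of_isCompl hcompl
  have hinv := ker_aeval_invariant T' f
  have hdvd : f.natDegree ∣ finrank F (LinearMap.ker (aeval T' f)) := by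
    apply natDegree_dvd_finrank hf (T'.restrict hinv)
    apply LinearMap.ext
    intro u
    apply Subtype.ext
    rw [aeval_restrict T' hinv f u]
    exact u.2
  obtain ⟨b, hb⟩ := hdvd
  refine ⟨b, ?_⟩
  have e : finrank F (LinearMap.ker (aeval T' (X - C (1 : F)))) = finrank F ((W ⊓ LinearMap.ker (aeval T (X - C (1 : F))) : Submodule F V)) := by
    let L : LinearMap.ker (aeval T' (X - C (1 : F))) →ₗ[F] V := W.subtype ∘ₗ (LinearMap.ker (aeval T' (X - C (1 : F)))).subtype
    have hinj : Function.Injective L := by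
      intro a b hab
      apply Subtype.ext
      apply Subtype.ext
      exact hab
    have hrange : LinearMap.range L = W ⊓ LinearMap.ker (aeval T (X - C (1 : F))) := by
      apply le_antisymm
      · rintro _ ⟨u, rfl⟩
        refine ⟨(u : W).2, ?_⟩
        show aeval T (X - C (1 : F)) ((u : W) : V) = 0
        rw [← hr, LinearMap.mem_ker.mp u.2]
        rfl
      · rintro v ⟨hv, hv'⟩
        refine ⟨⟨⟨v, hv⟩, ?_⟩, rfl⟩
        rw [LinearMap.mem_ker]
        apply Subtype.ext
        rw [hr]
        exact hv'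
    rw [← hrange, LinearMap.finrank_range_of_inj hinj]
  rw [← e, ← hsum, hb, mul_comm]

end fix

section flags

variable {F : Type*} [Field F] [Fintype F]

/-- A power-type element has an invariant flag of the right dimensions. -/
theorem exists_flag_power {r : ℕ} [Fact r.Prime] (hrq : ¬ r ∣ Fintype.card F) {n m : ℕ} (hmn : 2 * m < n) (A : Matrix (Fin n) (Fin n) F) (hA : A ^ r = 1)
    (hi : orderOf ((Fintype.card F : ℕ) : ZMod r) = 1 ∨ 2 * (m % orderOf ((Fintype.card F : ℕ) : ZMod r)) ≤ n % orderOf ((Fintype.card F : ℕ) : ZMod r)) :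
    ∃ U W : Submodule F (Fin n → F), U ≤ W ∧ finrank F U = m ∧ finrank F W = n - m ∧ Inv (Matrix.toLinAlgEquiv' A) U ∧ Inv (Matrix.toLinAlgEquiv' A) W := by
  classical
  have hr : r.Prime := Fact.out
  have hcast : (r : F) ≠ 0 := ratFree_cast_ne hr hrq
  set T : Module.End F (Fin n → F) := Matrix.toLinAlgEquiv' A with hT
  have hi0 : 0 < orderOf ((Fintype.card F : ℕ) : ZMod r) := order_pos hrq
  have hg : Squarefree (X ^ r - C (1 : F)) := squarefree_pow_sub hcast one_ne_zero
  have hz : aeval T (X ^ r - C (1 : F)) = 0 := by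
    rw [aeval_toLin]
    have : aeval A (X ^ r - C (1 : F)) = 0 := by
      rw [map_sub, map_pow, aeval_X, hA, aeval_C, map_one, sub_self]
    rw [this, map_zero]
  have hbot : Inv T (⊥ : Submodule F (Fin n → F)) := by
    intro w hw
    rw [Submodule.mem_bot] at hw ⊢
    rw [hw, map_zero]
  by_cases hi1 : orderOf ((Fintype.card F : ℕ) : ZMod r) = 1
  · have hd : ∀ f : F[X], Irreducible f → f ∣ X ^ r - C (1 : F) → f.natDegree = 1 := by
      intro f hf hdvd
      have h1 := natDegree_dvd_order hrq hf (by rwa [C_1] at hdvd)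
      rw [hi1] at h1
      exact Nat.dvd_one.mp h1
    have htop : finrank F (LinearMap.ker (aeval T (X ^ r - C (1 : F)))) = n := by
      rw [hz, LinearMap.ker_zero, finrank_top, finrank_fin_fun]
    obtain ⟨U, h1, -, h3, h4⟩ := chain (T := T) hg hd one_pos hbot bot_le m (by rw [htop, finrank_bot]; omega)
    rw [finrank_bot, mul_one, zero_add] at h4
    obtain ⟨W, h5, h6, -, h8⟩ := chain (T := T) hg hd one_pos h1 h3 (n - 2 * m) (by rw [htop, h4]; omega)
    refine ⟨U, W, h6, h4, ?_, h1, h5⟩
    rw [h8, h4]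
    omega
  · have hk := hi.resolve_left hi1
    set i := orderOf ((Fintype.card F : ℕ) : ZMod r) with hidef
    set Φ : F[X] := ∑ j ∈ Finset.range r, X ^ j with hΦ
    have hΦX : (X - C (1 : F)) * Φ = X ^ r - C (1 : F) := by
      rw [mul_comm, C_1]
      exact geom_sum_mul X r
    have hcop : IsCoprime (X - C (1 : F)) Φ := by
      rw [(irreducible_X_sub_C (1 : F)).coprime_iff_not_dvd]
      rw [dvd_iff_isRoot]
      simp only [IsRoot, hΦ, eval_finset_sum, eval_pow, eval_X, one_pow, Finset.sum_const, Finset.card_range, nsmul_eq_mul, mul_one]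
      exact hcast
    have hz' : aeval T ((X - C (1 : F)) * Φ) = 0 := by rw [hΦX, hz]
    have hcompl := ker_isCompl T hcop hz'
    have hsum := Submodule.finrank_add_eq_of_isCompl hcompl
    rw [finrank_fin_fun] at hsum
    have hgΦ : Squarefree Φ := hg.squarefree_of_dvd ⟨X - C (1 : F), by rw [← hΦX]; ring⟩
    have hd : ∀ f : F[X], Irreducible f → f ∣ Φ → f.natDegree = i := fun f hf hdvd => natDegree_of_geom hrq hf hdvd
    obtain ⟨t, ht⟩ := dvd_finrank_ker (T := T) hgΦ hd hi0
    obtain ⟨a, b, a', b', h1, h2, haa, ha'v, hbb, hb'u⟩ := flag_arith hi0 hmn hk (ht.trans (mul_comm _ _)) hsum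
    obtain ⟨W₀, h4, h5⟩ := exists_sub_dim ha'v
    -- `U₀ ≤ W₀`
    obtain ⟨U₀, h4', h5'⟩ : ∃ U₀ : Submodule F (Fin n → F), U₀ ≤ W₀ ∧ finrank F U₀ = a := exists_sub_dim (by rw [h5]; exact haa)
    have hbi : b * i ≤ b' * i := Nat.mul_le_mul_right _ hbb
    obtain ⟨U₁, h6, -, h7, h8⟩ := chain (T := T) hgΦ hd hi0 hbot bot_le b (by rw [finrank_bot]; omega)
    rw [finrank_bot, zero_add] at h8
    obtain ⟨s, hs⟩ : ∃ s, b' = b + s := ⟨b' - b, by omega⟩
    obtain ⟨W₁, h9, h10, h11, h12⟩ := chain (T := T) hgΦ hd hi0 h6 h7 s (by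
      rw [h8, ← add_mul, ← hs]
      exact hb'u)
    rw [h8, ← add_mul, ← hs] at h12
    have hinvU₀ : Inv T U₀ := inv_of_le_ker (h4'.trans h4)
    have hinvW₀ : Inv T W₀ := inv_of_le_ker h4
    refine ⟨U₀ ⊔ U₁, W₀ ⊔ W₁, sup_le_sup h4' h10, ?_, ?_, inv_sup hinvU₀ h6, inv_sup hinvW₀ h9⟩
    · have hdis : Disjoint U₀ U₁ := hcompl.disjoint.mono (h4'.trans h4) h7
      have h9' := Submodule.finrank_sup_add_finrank_inf_eq U₀ U₁
      rw [hdis.eq_bot, finrank_bot, add_zero, h5', h8, h1] at h9'
      exact h9'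
    · have hdis : Disjoint W₀ W₁ := hcompl.disjoint.mono h4 h11
      have h9' := Submodule.finrank_sup_add_finrank_inf_eq W₀ W₁
      rw [hdis.eq_bot, finrank_bot, add_zero, h5, h12, h2] at h9'
      exact h9'

/-- A non-power element has invariant flags of all multiples of `r`. -/
theorem exists_flag_irr {r n m : ℕ} (hr : 0 < r) (hrm : r ∣ m) (hrn : r ∣ n) (hmn : 2 * m < n) {c : F} (hirr : Irreducible (X ^ r - C c)) (A : Matrix (Fin n) (Fin n) F) (hA : A ^ r = c • 1) :
    ∃ U W : Submodule F (Fin n → F), U ≤ W ∧ finrank F U = m ∧ finrank F W = n - m ∧ Inv (Matrix.toLinAlgEquiv' A) U ∧ Inv (Matrix.toLinAlgEquiv' A) W := by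
  classical
  set T : Module.End F (Fin n → F) := Matrix.toLinAlgEquiv' A with hT
  have hz : aeval T (X ^ r - C c) = 0 := by
    rw [aeval_toLin]
    have : aeval A (X ^ r - C c) = 0 := by
      rw [map_sub, map_pow, aeval_X, hA, aeval_C, Algebra.algebraMap_eq_smul_one, sub_self]
    rw [this, map_zero]
  have hbot : Inv T (⊥ : Submodule F (Fin n → F)) := by
    intro w hw
    rw [Submodule.mem_bot] at hw ⊢
    rw [hw, map_zero]
  have hd : ∀ f : F[X], Irreducible f → f ∣ X ^ r - C c → f.natDegree = r := by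
    intro f hf hdvd
    have h1 := (hf.associated_of_dvd hirr hdvd)
    have h2 := natDegree_eq_of_degree_eq (degree_eq_degree_of_associated h1)
    rw [h2, natDegree_X_pow_sub_C]
  have htop : finrank F (LinearMap.ker (aeval T (X ^ r - C c))) = n := by
    rw [hz, LinearMap.ker_zero, finrank_top, finrank_fin_fun]
  obtain ⟨s, rfl⟩ := hrm
  obtain ⟨w, rfl⟩ := hrn
  have hsw : 2 * s < w := by
    have : r * (2 * s) < r * w := by
      calc r * (2 * s) = 2 * (r * s) := by ring
        _ < r * w := hmn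
    exact Nat.lt_of_mul_lt_mul_left this
  obtain ⟨U, h1, -, h3, h4⟩ := chain (T := T) hirr.squarefree hd hr hbot bot_le s (by
    rw [htop, finrank_bot, mul_comm]
    have hle : s ≤ w := by omega
    have := Nat.mul_le_mul_left r hle
    simpa using this)
  rw [finrank_bot, zero_add] at h4
  obtain ⟨W, h5, h6, -, h8⟩ := chain (T := T) hirr.squarefree hd hr h1 h3 (w - 2 * s) (by
    rw [htop, h4, ← add_mul, mul_comm]
    have hle : s + (w - 2 * s) ≤ w := by omega
    exact Nat.mul_le_mul_left r hle)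
  refine ⟨U, W, h6, by rw [h4, mul_comm], ?_, h1, h5⟩
  rw [h8, h4, ← add_mul]
  have e : r * w - r * s = r * (w - s) := (Nat.mul_sub _ _ _).symm
  rw [e, mul_comm]
  congr 1
  omega

end flags

end Cfsg.Agent.Lib.ClassMax.EluFlag
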