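import Mathlib
import Cfsg.Agent.Lib.ClassMax.EluFix
import Cfsg.Agent.Lib.ClassMax.Elusive

/-!
# Decompositions permuted by an element of prime order

Bounds for the fixed space of an element permuting the parts of a decomposition, and counts of decompositions.
-/

set_option autoImplicit false
set_option linter.unusedSimpArgs false
set_option linter.unusedVariables false
set_option linter.unusedSectionVars false

namespace Cfsg.Agent.Lib.ClassMax.EluImpr

open scoped MatrixGroups
open Module Polynomial Matrix Cfsg.Agent.Lib.ClassMax.EluConj Cfsg.Agent.Lib.ClassMax.EluOrder Cfsg.Agent.Lib.ClassMax.EluBlock Cfsg.Agent.Lib.ClassMax.EluFix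

section general

variable {F V : Type*} [Field F] [AddCommGroup V] [Module F V]

/-- The projection onto a part of a decomposition. -/
theorem exists_part_proj {t : ℕ} {D : Fin t → Submodule F V} (hind : iSupIndep D) (hsup : iSup D = ⊤) (l : Fin t) :
    ∃ ψ : V →ₗ[F] V, (∀ v ∈ D l, ψ v = v) ∧ ∀ k, k ≠ l → ∀ v ∈ D k, ψ v = 0 := by
  have hc : IsCompl (D l) (⨆ k, ⨆ (_ : k ≠ l), D k) := by
    refine ⟨hind l, codisjoint_iff.mpr ?_⟩
    rw [← iSup_split_single D l, hsup]
  refine ⟨(D l).subtype ∘ₗ Submodule.projectionOnto _ _ hc, ?_, ?_⟩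
  · intro v hv
    simp [Submodule.projectionOnto_apply_of_mem_left hc hv]
  · intro k hk v hv
    have h1 : v ∈ ⨆ k, ⨆ (_ : k ≠ l), D k := (le_iSup₂_of_le k hk le_rfl : D k ≤ _) hv
    simp [Submodule.projectionOnto_apply_of_mem_right hc h1]

/-- Subspaces of the parts of a decomposition contained in a fixed subspace have bounded total dimension. -/
theorem sum_le {t : ℕ} {D : Fin t → Submodule F V} [FiniteDimensional F V] (hind : iSupIndep D) (hsup : iSup D = ⊤)
    (S : Fin t → Submodule F V) (hS : ∀ j, S j ≤ D j) (U : Submodule F V) (hU : ∀ j, S j ≤ U) :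
    ∑ j, finrank F (S j) ≤ finrank F U := by
  classical
  let L : (Π j, S j) →ₗ[F] V := ∑ j, (S j).subtype ∘ₗ LinearMap.proj j
  have hL : ∀ d, L d = ∑ j, (d j : V) := by
    intro d
    simp [L, LinearMap.sum_apply]
  have hinj : Function.Injective L := by
    rw [← LinearMap.ker_eq_bot, LinearMap.ker_eq_bot']
    intro d hd
    funext l
    obtain ⟨ψ, h1, h2⟩ := exists_part_proj hind hsup l
    have h3 := congrArg ψ hd
    rw [hL, map_zero, map_sum, Finset.sum_eq_single l] at h3
    · apply Subtype.ext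
      rw [h1 _ (hS l (d l).2)] at h3
      exact h3
    · intro k _ hk
      exact h2 k hk _ (hS k (d k).2)
    · intro h
      exact absurd (Finset.mem_univ l) h
  have hr : LinearMap.range L ≤ U := by
    rintro _ ⟨d, rfl⟩
    rw [hL]
    exact Submodule.sum_mem _ (fun j _ => hU j (d j).2)
  have h1 := Submodule.finrank_mono hr
  rw [LinearMap.finrank_range_of_inj hinj, Module.finrank_pi_fintype] at h1
  exact h1

section perm

variable {T : Module.End F V} {t a r : ℕ} {D : Fin t → Submodule F V} {σ : Equiv.Perm (Fin t)}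

theorem map_pow_part (hσ : ∀ j, (D j).map T = D (σ j)) (k : ℕ) (j : Fin t) : (D j).map (T ^ k) = D ((σ ^ k) j) := by
  induction k with
  | zero => simp [Module.End.one_eq_id]
  | succ k ih =>
    rw [pow_succ', Module.End.mul_eq_comp, Submodule.map_comp, ih, hσ, pow_succ', Equiv.Perm.mul_apply]

theorem mem_pow_part (hσ : ∀ j, (D j).map T = D (σ j)) (k : ℕ) {j : Fin t} {v : V} (hv : v ∈ D j) : (T ^ k) v ∈ D ((σ ^ k) j) := by
  rw [← map_pow_part hσ]
  exact Submodule.mem_map_of_mem hv

theorem sigma_pow (hind : iSupIndep D) (hne : ∀ j, D j ≠ ⊥) (hσ : ∀ j, (D j).map T = D (σ j)) (hT : T ^ r = 1) : σ ^ r = 1 := by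
  ext j
  have h1 := map_pow_part hσ r j
  rw [hT, Module.End.one_eq_id, Submodule.map_id] at h1
  have h2 := hind.injective hne h1
  rw [← h2]
  rfl

theorem orbit_ne (hr : r.Prime) (hσr : σ ^ r = 1) {j : Fin t} (hj : σ j ≠ j) {i i' : ℕ} (hi : i < r) (hi' : i' < r) (hne : i ≠ i') :
    (σ ^ i) j ≠ (σ ^ i') j := by
  have key : ∀ {i i' : ℕ}, i < i' → i' < r → (σ ^ i) j ≠ (σ ^ i') j := by
    intro i i' hlt hi' heq
    have h1 : (σ ^ (i' - i)) j = j := by
      have h2 : σ ^ i' = σ ^ i * σ ^ (i' - i) := by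
        rw [← pow_add]
        congr 1
        omega
      rw [h2, Equiv.Perm.mul_apply] at heq
      exact ((σ ^ i).injective heq).symm
    have h2 : Function.IsPeriodicPt σ (i' - i) j := by
      show σ^[i' - i] j = j
      rw [← Equiv.Perm.iterate_eq_pow] at h1
      exact h1
    have h3 : Function.IsPeriodicPt σ r j := by
      show σ^[r] j = j
      have h4 : (σ ^ r) j = j := by rw [hσr]; rfl
      rw [← Equiv.Perm.iterate_eq_pow] at h4
      exact h4
    have h4 := h2.gcd h3
    have h5 : Nat.gcd (i' - i) r = 1 := by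
      rw [Nat.gcd_comm]
      apply (Nat.Prime.coprime_iff_not_dvd hr).mpr
      intro h6
      have := Nat.le_of_dvd (by omega) h6
      omega
    rw [h5] at h4
    exact hj h4
  rcases lt_or_gt_of_ne hne with h | h
  · exact key h hi'
  · exact (key h hi).symm

theorem P_fixed (hT : T ^ r = 1) (v : V) : (T - 1) ((∑ i ∈ Finset.range r, T ^ i) v) = 0 := by
  have h := mul_geom_sum T r
  rw [hT, sub_self] at h
  have h2 := congrArg (fun M : Module.End F V => M v) h
  simpa using h2

variable [FiniteDimensional F V]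

theorem bound_orbits (hr : r.Prime) (hind : iSupIndep D) (hsup : iSup D = ⊤) (hdim : ∀ j, finrank F (D j) = a) (ha : 0 < a)
    (hσ : ∀ j, (D j).map T = D (σ j)) (hT : T ^ r = 1) (hrF : (r : F) ≠ 0) (hfix : ∀ j, σ j = j → ∀ v ∈ D j, T v = v) :
    t * a ≤ r * finrank F (LinearMap.ker (T - 1)) := by
  classical
  have hne : ∀ j, D j ≠ ⊥ := by
    intro j h
    have := hdim j
    rw [h, finrank_bot] at this
    omega
  have hσr : σ ^ r = 1 := sigma_pow hind hne hσ hT
  let J : Finset (Fin t) := Finset.univ.filter (fun j => ∀ i : ℕ, j ≤ (σ ^ i) j)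
  have hpowmod : ∀ (m : ℕ) (j : Fin t), (σ ^ m) j = (σ ^ (m % r)) j := by
    intro m j
    conv_lhs => rw [← Nat.div_add_mod m r, pow_add, pow_mul, hσr, one_pow, one_mul]
  have hcover : ∀ l, ∃ j ∈ J, ∃ i, i < r ∧ (σ ^ i) j = l := by
    intro l
    obtain ⟨i₀, hi₀, hmin⟩ := Finset.exists_min_image (Finset.range r) (fun i => (σ ^ i) l) ⟨0, Finset.mem_range.mpr hr.pos⟩
    rw [Finset.mem_range] at hi₀
    refine ⟨(σ ^ i₀) l, ?_, (r - i₀) % r, Nat.mod_lt _ hr.pos, ?_⟩
    · rw [Finset.mem_filter]
      refine ⟨Finset.mem_univ _, fun i => ?_⟩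
      have h1 := hmin ((i + i₀) % r) (Finset.mem_range.mpr (Nat.mod_lt _ hr.pos))
      rw [← hpowmod, pow_add, Equiv.Perm.mul_apply] at h1
      exact h1
    · rw [← hpowmod, ← Equiv.Perm.mul_apply, ← pow_add]
      have : r - i₀ + i₀ = r := by omega
      rw [this, hσr]
      rfl
  have hdisj : ∀ j ∈ J, ∀ j' ∈ J, ∀ i i' : ℕ, (σ ^ i) j = (σ ^ i') j' → j = j' := by
    intro j hj j' hj' i i' h
    have hinv : ∀ (m : ℕ) (x : Fin t), (σ ^ ((r - 1) * m)) ((σ ^ m) x) = x := by
      intro m x
      rw [← Equiv.Perm.mul_apply, ← pow_add]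
      have : (r - 1) * m + m = r * m := by
        obtain ⟨s, rfl⟩ : ∃ s, r = s + 1 := ⟨r - 1, by have := hr.pos; omega⟩
        simp only [Nat.add_sub_cancel]
        ring
      rw [this, pow_mul, hσr, one_pow]
      rfl
    have h1 : j' = (σ ^ ((r - 1) * i' + i)) j := by
      rw [pow_add, Equiv.Perm.mul_apply, h, hinv]
    have h2 : j = (σ ^ ((r - 1) * i + i')) j' := by
      rw [pow_add, Equiv.Perm.mul_apply, ← h, hinv]
    have h3 := (Finset.mem_filter.mp hj).2 ((r - 1) * i' + i)
    have h4 := (Finset.mem_filter.mp hj').2 ((r - 1) * i + i')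
    rw [← h1] at h3
    rw [← h2] at h4
    exact le_antisymm h3 h4
  have hcard : t ≤ J.card * r := by
    have hsub : (Finset.univ : Finset (Fin t)) ⊆ (J ×ˢ Finset.range r).image (fun p : Fin t × ℕ => (σ ^ p.2) p.1) := by
      intro l _
      obtain ⟨j, hj, i, hi, rfl⟩ := hcover l
      exact Finset.mem_image.mpr ⟨(j, i), Finset.mem_product.mpr ⟨hj, Finset.mem_range.mpr hi⟩, rfl⟩
    have h1 := Finset.card_le_card hsub
    have h2 := Finset.card_image_le (s := J ×ˢ Finset.range r) (f := fun p : Fin t × ℕ => (σ ^ p.2) p.1)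
    rw [Finset.card_product, Finset.card_range] at h2
    simpa using h1.trans h2
  set P : Module.End F V := ∑ i ∈ Finset.range r, T ^ i with hP
  let L : (Π j : J, D j) →ₗ[F] V := ∑ j : J, P ∘ₗ (D j).subtype ∘ₗ LinearMap.proj j
  have hL : ∀ d, L d = ∑ j : J, P (d j : V) := by
    intro d
    simp [L, LinearMap.sum_apply]
  have hinj : Function.Injective L := by
    rw [← LinearMap.ker_eq_bot, LinearMap.ker_eq_bot']
    intro d hd
    funext ⟨j₀, hj₀⟩
    obtain ⟨ψ, h1, h2⟩ := exists_part_proj hind hsup j₀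
    have h3 := congrArg ψ hd
    rw [hL, map_zero, map_sum, Finset.sum_eq_single (⟨j₀, hj₀⟩ : J)] at h3
    · apply Subtype.ext
      set d₀ : V := (d ⟨j₀, hj₀⟩ : V) with hd₀
      have hd₀m : d₀ ∈ D j₀ := (d ⟨j₀, hj₀⟩).2
      show d₀ = 0
      by_cases hfj : σ j₀ = j₀
      · have hpow : ∀ i : ℕ, (T ^ i) d₀ = d₀ := by
          intro i
          induction i with
          | zero => simp
          | succ i ih => rw [pow_succ, Module.End.mul_apply, hfix j₀ hfj d₀ hd₀m, ih]
        have h4 : P d₀ = (r : F) • d₀ := by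
          rw [hP, LinearMap.sum_apply, Finset.sum_congr rfl (fun i _ => hpow i), Finset.sum_const, Finset.card_range, Nat.cast_smul_eq_nsmul]
        rw [h4, map_smul, h1 d₀ hd₀m] at h3
        exact (smul_eq_zero.mp h3).resolve_left hrF
      · have h4 : ψ (P d₀) = d₀ := by
          rw [hP, LinearMap.sum_apply, map_sum, Finset.sum_eq_single 0]
          · simp [h1 d₀ hd₀m]
          · intro i hi hi0
            exact h2 ((σ ^ i) j₀) (orbit_ne hr hσr hfj (Finset.mem_range.mp hi) hr.pos hi0) _ (mem_pow_part hσ i hd₀m)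
          · intro h
            exact absurd (Finset.mem_range.mpr hr.pos) h
        rw [h4] at h3
        exact h3
    · intro k _ hk
      rw [hP, LinearMap.sum_apply, map_sum]
      apply Finset.sum_eq_zero
      intro i _
      apply h2 ((σ ^ i) k) ?_ _ (mem_pow_part hσ i (d k).2)
      intro h4
      apply hk
      apply Subtype.ext
      exact hdisj _ k.2 _ hj₀ i 0 (by simpa using h4)
    · intro h
      exact absurd (Finset.mem_univ _) h
  have hrange : LinearMap.range L ≤ LinearMap.ker (T - 1) := by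
    rintro _ ⟨d, rfl⟩
    rw [hL]
    apply Submodule.sum_mem
    intro j _
    rw [LinearMap.mem_ker]
    exact P_fixed hT _
  have h1 := Submodule.finrank_mono hrange
  rw [LinearMap.finrank_range_of_inj hinj, Module.finrank_pi_fintype] at h1
  have h2 : ∑ j : J, finrank F (D j) = J.card * a := by
    simp [hdim]
  rw [h2] at h1
  calc t * a ≤ (J.card * r) * a := Nat.mul_le_mul_right _ hcard
    _ = r * (J.card * a) := by ring
    _ ≤ _ := Nat.mul_le_mul_left _ h1

theorem rank_bound (hr : r.Prime) (hind : iSupIndep D) (hsup : iSup D = ⊤) (hdim : ∀ j, finrank F (D j) = a) (ha : 0 < a)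
    (hσ : ∀ j, (D j).map T = D (σ j)) (hT : T ^ r = 1) {j : Fin t} (hj : σ j ≠ j) :
    (r - 1) * a ≤ finrank F (LinearMap.range (T - 1)) := by
  classical
  have hne : ∀ j, D j ≠ ⊥ := by
    intro j h
    have := hdim j
    rw [h, finrank_bot] at this
    omega
  have hσr : σ ^ r = 1 := sigma_pow hind hne hσ hT
  let L : (Fin (r - 1) → D j) →ₗ[F] V := ∑ i : Fin (r - 1), (T ^ ((i : ℕ) + 1) - 1) ∘ₗ (D j).subtype ∘ₗ LinearMap.proj i
  have hL : ∀ d, L d = ∑ i : Fin (r - 1), (T ^ ((i : ℕ) + 1) - 1) (d i : V) := by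
    intro d
    simp [L, LinearMap.sum_apply]
  have hinj : Function.Injective L := by
    rw [← LinearMap.ker_eq_bot, LinearMap.ker_eq_bot']
    intro d hd
    funext i₀
    have hi₀ : (i₀ : ℕ) + 1 < r := by
      have := i₀.2
      have := hr.two_le
      omega
    obtain ⟨ψ, h1, h2⟩ := exists_part_proj hind hsup ((σ ^ ((i₀ : ℕ) + 1)) j)
    have hjl : j ≠ (σ ^ ((i₀ : ℕ) + 1)) j := by
      have := orbit_ne hr hσr hj hr.pos hi₀ (by omega : 0 ≠ (i₀ : ℕ) + 1)
      simpa using this
    have h3 := congrArg ψ hd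
    rw [hL, map_zero, map_sum, Finset.sum_eq_single i₀] at h3
    · rw [LinearMap.sub_apply, map_sub, h1 _ (mem_pow_part hσ _ (d i₀).2), Module.End.one_apply, h2 j hjl _ (d i₀).2, sub_zero] at h3
      apply Subtype.ext
      have h4 : (T ^ (r - ((i₀ : ℕ) + 1))) ((T ^ ((i₀ : ℕ) + 1)) (d i₀ : V)) = (d i₀ : V) := by
        rw [← Module.End.mul_apply, ← pow_add]
        have : r - ((i₀ : ℕ) + 1) + ((i₀ : ℕ) + 1) = r := by omega
        rw [this, hT]
        rfl
      rw [h3, map_zero] at h4
      exact h4.symm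
    · intro i _ hi
      rw [LinearMap.sub_apply, map_sub, Module.End.one_apply, h2 j hjl _ (d i).2, sub_zero]
      have hi1 : (i : ℕ) + 1 < r := by
        have := i.2
        have := hr.two_le
        omega
      refine h2 ((σ ^ ((i : ℕ) + 1)) j) (orbit_ne hr hσr hj hi1 hi₀ ?_) _ (mem_pow_part hσ _ (d i).2)
      intro h5
      apply hi
      apply Fin.ext
      omega
    · intro h
      exact absurd (Finset.mem_univ _) h
  have hrange : LinearMap.range L ≤ LinearMap.range (T - 1) := by
    rintro _ ⟨d, rfl⟩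
    rw [hL]
    apply Submodule.sum_mem
    intro i _
    have h1 := mul_geom_sum T ((i : ℕ) + 1)
    rw [← h1, Module.End.mul_apply]
    exact LinearMap.mem_range_self _ _
  have h1 := Submodule.finrank_mono hrange
  rw [LinearMap.finrank_range_of_inj hinj, Module.finrank_pi_fintype] at h1
  simpa [hdim] using h1

end perm

end general

section field

variable {F V : Type*} [Field F] [Fintype F] [AddCommGroup V] [Module F V] [FiniteDimensional F V]

/-- The dimension of an invariant subspace of an element of order `r`, with its fixed part. -/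
theorem dim_split_pow {r : ℕ} [Fact r.Prime] (hrq : ¬ r ∣ Fintype.card F) {T : Module.End F V} (hT : T ^ r = 1) {W : Submodule F V} (hW : Inv T W) :
    ∃ b : ℕ, finrank F W = finrank F ((W ⊓ LinearMap.ker (T - 1) : Submodule F V)) + b * orderOf ((Fintype.card F : ℕ) : ZMod r) := by
  classical
  have hr : r.Prime := Fact.out
  have hcast : (r : F) ≠ 0 := ratFree_cast_ne hr hrq
  have hi0 : 0 < orderOf ((Fintype.card F : ℕ) : ZMod r) := order_pos hrq
  set T' : Module.End F W := T.restrict hW with hT'
  have hres : ∀ (p : F[X]) (u : W), ((aeval T' p) u : V) = aeval T p (u : V) := fun p u => aeval_restrict T hW p u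
  have hz : aeval T (X ^ r - C (1 : F)) = 0 := by
    rw [map_sub, map_pow, aeval_X, hT, aeval_C, map_one, sub_self]
  have hz' : aeval T' (X ^ r - C (1 : F)) = 0 := by
    apply LinearMap.ext
    intro u
    apply Subtype.ext
    rw [hres, hz]
    rfl
  set Φ : F[X] := ∑ j ∈ Finset.range r, X ^ j with hΦ
  have hΦX : (X - C (1 : F)) * Φ = X ^ r - C (1 : F) := by
    rw [mul_comm, C_1]
    exact geom_sum_mul X r
  have hcop : IsCoprime (X - C (1 : F)) Φ := by
    rw [(irreducible_X_sub_C (1 : F)).coprime_iff_not_dvd]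
    rw [dvd_iff_isRoot]
    simp only [IsRoot, hΦ, eval_finset_sum, eval_pow, eval_X, one_pow, Finset.sum_const, Finset.card_range, nsmul_eq_mul, mul_one]
    exact hcast
  have hg : Squarefree (X ^ r - C (1 : F)) := squarefree_pow_sub hcast one_ne_zero
  have hgΦ : Squarefree Φ := hg.squarefree_of_dvd ⟨X - C (1 : F), by rw [← hΦX]; ring⟩
  have hd : ∀ f : F[X], Irreducible f → f ∣ Φ → f.natDegree = orderOf ((Fintype.card F : ℕ) : ZMod r) := fun f hf hdvd => natDegree_of_geom hrq hf hdvd
  obtain ⟨b, hb⟩ := dvd_finrank_ker (T := T') hgΦ hd hi0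
  have hz2 : aeval T' ((X - C (1 : F)) * Φ) = 0 := by rw [hΦX, hz']
  have hcompl := ker_isCompl T' hcop hz2
  have hsum := Submodule.finrank_add_eq_of_isCompl hcompl
  refine ⟨b, ?_⟩
  have hX1 : aeval T (X - C (1 : F)) = T - 1 := by simp
  have e : finrank F (LinearMap.ker (aeval T' (X - C (1 : F)))) = finrank F ((W ⊓ LinearMap.ker (T - 1) : Submodule F V)) := by
    let L : LinearMap.ker (aeval T' (X - C (1 : F))) →ₗ[F] V := W.subtype ∘ₗ (LinearMap.ker (aeval T' (X - C (1 : F)))).subtype
    have hinj : Function.Injective L := by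
      intro a b hab
      apply Subtype.ext
      apply Subtype.ext
      exact hab
    have hrange : LinearMap.range L = W ⊓ LinearMap.ker (T - 1) := by
      apply le_antisymm
      · rintro _ ⟨u, rfl⟩
        refine ⟨(u : W).2, ?_⟩
        have h5 : aeval T' (X - C (1 : F)) (u : W) = 0 := u.2
        have h6 := congrArg (Subtype.val) h5
        rw [hres, hX1] at h6
        exact h6
      · rintro v ⟨hv1, hv2⟩
        have h5 : aeval T' (X - C (1 : F)) (⟨v, hv1⟩ : W) = 0 := by
          apply Subtype.ext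
          rw [hres, hX1]
          exact hv2
        exact ⟨⟨⟨v, hv1⟩, h5⟩, rfl⟩
    rw [← hrange, LinearMap.finrank_range_of_inj hinj]
  rw [← e, ← hsum, hb, mul_comm]

end field

section basis

variable {F V : Type*} [Field F] [AddCommGroup V] [Module F V]

/-- The parts attached to a basis. -/
theorem decomp_of_basis [FiniteDimensional F V] {t a : ℕ} (B : Module.Basis (Fin t × Fin a) F V) :
    (∀ k, finrank F (Submodule.span F (Set.range fun l => B (k, l))) = a) ∧
      iSupIndep (fun k => Submodule.span F (Set.range fun l => B (k, l))) ∧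
      (⨆ k, Submodule.span F (Set.range fun l => B (k, l))) = ⊤ := by
  classical
  refine ⟨?_, ?_, ?_⟩
  · intro k
    have h1 : LinearIndependent F (fun l => B (k, l)) :=
      B.linearIndependent.comp (fun l => (k, l)) (fun l l' h => (Prod.ext_iff.mp h).2)
    rw [finrank_span_eq_card h1]
    simp
  · apply Cfsg.Agent.Lib.ClassMax.Elusive.iSupIndep_span_parts
    · intro i j hij
      rw [Set.disjoint_left]
      rintro _ ⟨l, rfl⟩ ⟨l', h⟩
      have := B.injective h
      exact hij (Prod.ext_iff.mp this).1.symm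
    · have h1 : LinearIndepOn F id (Set.range B) := B.linearIndependent.linearIndepOn_id
      apply h1.mono
      intro x hx
      obtain ⟨k, l, rfl⟩ := by simpa using hx
      exact ⟨_, rfl⟩
  · rw [eq_top_iff, ← B.span_eq, Submodule.span_le]
    rintro _ ⟨⟨k, l⟩, rfl⟩
    exact (le_iSup (fun k => Submodule.span F (Set.range fun l => B (k, l))) k) (Submodule.subset_span ⟨l, rfl⟩)

/-- An injective map carrying each basis vector of a part into another part maps the parts onto each other. -/
theorem map_part_eq [FiniteDimensional F V] {t a : ℕ} (B : Module.Basis (Fin t × Fin a) F V) (T : Module.End F V) (hT : Function.Injective T)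
    (σ : Equiv.Perm (Fin t)) (h : ∀ k l, T (B (k, l)) ∈ Submodule.span F (Set.range fun l => B (σ k, l))) (k : Fin t) :
    (Submodule.span F (Set.range fun l => B (k, l))).map T = Submodule.span F (Set.range fun l => B (σ k, l)) := by
  apply Submodule.eq_of_le_of_finrank_eq
  · rw [Submodule.map_span, Submodule.span_le]
    rintro _ ⟨_, ⟨l, rfl⟩, rfl⟩
    exact h k l
  · rw [← LinearEquiv.finrank_eq (Submodule.equivMapOfInjective T hT _), (decomp_of_basis B).1, (decomp_of_basis B).1]

end basis

section count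

open Cfsg.Geo

variable {F : Type*} [Field F] [Fintype F]

/-- Two decompositions with parts of the same dimension are conjugate. -/
theorem exists_equiv_decomp {n t a : ℕ} {D D' : Fin t → Submodule F (Fin n → F)} (hD : IsMDecomposition a D) (hD' : IsMDecomposition a D') :
    ∃ g : (Fin n → F) ≃ₗ[F] (Fin n → F), ∀ j, (D j).map (g : (Fin n → F) →ₗ[F] (Fin n → F)) = D' j := by
  classical
  have hI := DirectSum.isInternal_submodule_of_iSupIndep_of_iSup_eq_top hD.indep hD.iSup_eq_top
  have hI' := DirectSum.isInternal_submodule_of_iSupIndep_of_iSup_eq_top hD'.indep hD'.iSup_eq_top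
  have hb : ∀ j, ∃ _b : Module.Basis (Fin a) F (D j), True := fun j => ⟨Module.finBasisOfFinrankEq F (D j) (hD.finrank_eq j), trivial⟩
  have hb' : ∀ j, ∃ _b : Module.Basis (Fin a) F (D' j), True := fun j => ⟨Module.finBasisOfFinrankEq F (D' j) (hD'.finrank_eq j), trivial⟩
  choose b _ using hb
  choose b' _ using hb'
  have hex : ∃ g : (Fin n → F) ≃ₗ[F] (Fin n → F), ∀ j l, g (b j l : Fin n → F) = (b' j l : Fin n → F) := by
    refine ⟨(hI.collectedBasis b).equiv (hI'.collectedBasis b') (Equiv.refl _), fun j l => ?_⟩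
    have h1 : (hI.collectedBasis b) ⟨j, l⟩ = (b j l : Fin n → F) := by
      rw [DirectSum.IsInternal.collectedBasis_coe]
    have h2 : (hI'.collectedBasis b') ⟨j, l⟩ = (b' j l : Fin n → F) := by
      rw [DirectSum.IsInternal.collectedBasis_coe]
    rw [← h1, ← h2, Module.Basis.equiv_apply]
    rfl
  obtain ⟨g, hg⟩ := hex
  refine ⟨g, fun j => ?_⟩
  have hspan : D j = Submodule.span F (Set.range fun l => (b j l : Fin n → F)) := by
    have h1 := congrArg (Submodule.map (D j).subtype) (b j).span_eq
    rw [Submodule.map_span, Submodule.map_top, Submodule.range_subtype, ← Set.range_comp] at h1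
    exact h1.symm
  apply Submodule.eq_of_le_of_finrank_eq
  · rw [hspan, Submodule.map_span, Submodule.span_le]
    rintro _ ⟨_, ⟨l, rfl⟩, rfl⟩
    show g (b j l : Fin n → F) ∈ D' j
    rw [hg]
    exact (b' j l).2
  · rw [LinearEquiv.finrank_map_eq g, hD.finrank_eq, hD'.finrank_eq]

theorem map_decomp {n t a : ℕ} {D : Fin t → Submodule F (Fin n → F)} (hD : IsMDecomposition a D) (g : (Fin n → F) ≃ₗ[F] (Fin n → F)) :
    IsMDecomposition a (fun j => (D j).map (g : (Fin n → F) →ₗ[F] (Fin n → F))) := by
  refine ⟨hD.two_le, hD.pos, ?_, ?_, ?_⟩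
  · intro j
    rw [LinearEquiv.finrank_map_eq g, hD.finrank_eq]
  · exact hD.indep.map_orderIso (Submodule.orderIsoMapComap g)
  · rw [← Submodule.map_iSup, hD.iSup_eq_top, Submodule.map_top]
    exact LinearEquiv.range g

/-- The number of decompositions divides the order of the general linear group. -/
theorem card_decomp_dvd {n t a : ℕ} {D₀ : Fin t → Submodule F (Fin n → F)} (hD₀ : IsMDecomposition a D₀) :
    Nat.card {D : Fin t → Submodule F (Fin n → F) // IsMDecomposition a D} ∣ Nat.card (GL (Fin n) F) := by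
  classical
  let act : MulAction (GL (Fin n) F) (Fin t → Submodule F (Fin n → F)) :=
    { smul := fun g D j => (D j).map (Matrix.toLin' (g : Matrix (Fin n) (Fin n) F))
      one_smul := by
        intro D
        funext j
        show (D j).map (Matrix.toLin' ((1 : GL (Fin n) F) : Matrix (Fin n) (Fin n) F)) = D j
        rw [Units.val_one, Matrix.toLin'_one, Submodule.map_id]
      mul_smul := by
        intro g h D
        funext j
        show (D j).map (Matrix.toLin' ((g * h : GL (Fin n) F) : Matrix (Fin n) (Fin n) F)) = ((D j).map (Matrix.toLin' (h : Matrix (Fin n) (Fin n) F))).map (Matrix.toLin' (g : Matrix (Fin n) (Fin n) F))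
        rw [Units.val_mul, Matrix.toLin'_mul, Submodule.map_comp] }
  have hset : {D : Fin t → Submodule F (Fin n → F) | IsMDecomposition a D} = MulAction.orbit (GL (Fin n) F) D₀ := by
    ext D
    constructor
    · intro hD
      obtain ⟨g, hg⟩ := exists_equiv_decomp hD₀ hD
      let G : GL (Fin n) F :=
        ⟨LinearMap.toMatrix' (g : (Fin n → F) →ₗ[F] (Fin n → F)), LinearMap.toMatrix' (g.symm : (Fin n → F) →ₗ[F] (Fin n → F)),
          by rw [← LinearMap.toMatrix'_comp]; simp, by rw [← LinearMap.toMatrix'_comp]; simp⟩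
      refine ⟨G, ?_⟩
      funext j
      show (D₀ j).map (Matrix.toLin' (LinearMap.toMatrix' (g : (Fin n → F) →ₗ[F] (Fin n → F)))) = D j
      rw [Matrix.toLin'_toMatrix', hg]
    · rintro ⟨g, rfl⟩
      let e : (Fin n → F) ≃ₗ[F] (Fin n → F) := Matrix.toLin'OfInv (M := ((g⁻¹ : GL (Fin n) F) : Matrix (Fin n) (Fin n) F)) (M' := (g : Matrix (Fin n) (Fin n) F))
        (by rw [← Units.val_mul, inv_mul_cancel, Units.val_one]) (by rw [← Units.val_mul, mul_inv_cancel, Units.val_one])
      have h2 := map_decomp hD₀ e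
      show IsMDecomposition a (fun j => (D₀ j).map (Matrix.toLin' (g : Matrix (Fin n) (Fin n) F)))
      have he : (e : (Fin n → F) →ₗ[F] (Fin n → F)) = Matrix.toLin' (g : Matrix (Fin n) (Fin n) F) := LinearMap.ext (fun v => rfl)
      simp only [he] at h2
      exact h2
  have h1 : Nat.card {D : Fin t → Submodule F (Fin n → F) // IsMDecomposition a D} = (MulAction.stabilizer (GL (Fin n) F) D₀).index := by
    rw [MulAction.index_stabilizer, ← hset]
    exact Nat.card_coe_set_eq _
  rw [h1]
  exact Subgroup.index_dvd_card _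

/-- The symmetric group acts freely on decompositions. -/
theorem factorial_dvd_card_decomp {n t a : ℕ} :
    t.factorial ∣ Nat.card {D : Fin t → Submodule F (Fin n → F) // IsMDecomposition a D} := by
  classical
  let X := {D : Fin t → Submodule F (Fin n → F) // IsMDecomposition a D}
  let G := Equiv.Perm (Fin t)
  let act : MulAction G X :=
    { smul := fun σ D => ⟨fun j => D.1 (σ⁻¹ j), by
        refine ⟨D.2.two_le, D.2.pos, fun j => D.2.finrank_eq _, D.2.indep.comp (σ⁻¹).injective, ?_⟩
        have := (σ⁻¹ : Equiv.Perm (Fin t)).iSup_comp (g := D.1)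
        rw [← D.2.iSup_eq_top, ← this]⟩
      one_smul := fun D => rfl
      mul_smul := fun σ τ D => by
        apply Subtype.ext
        funext j
        show D.1 ((σ * τ)⁻¹ j) = D.1 (τ⁻¹ (σ⁻¹ j))
        rw [_root_.mul_inv_rev, Equiv.Perm.mul_apply] }
  have hstab : ∀ x : X, MulAction.stabilizer G x = ⊥ := by
    intro x
    rw [eq_bot_iff]
    intro σ hσ
    rw [MulAction.mem_stabilizer_iff] at hσ
    rw [Subgroup.mem_bot]
    have hne : ∀ j, x.1 j ≠ ⊥ := by
      intro j h
      have h1 := x.2.finrank_eq j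
      rw [h, finrank_bot] at h1
      have := x.2.pos
      omega
    have hinj := x.2.indep.injective hne
    apply Equiv.ext
    intro j
    have h1 : x.1 (σ⁻¹ (σ j)) = x.1 (σ j) := congrFun (congrArg Subtype.val hσ) (σ j)
    have h2 := hinj h1
    have h3 : σ⁻¹ (σ j) = j := Equiv.symm_apply_apply σ j
    rw [h3] at h2
    exact h2.symm
  haveI : Fintype (MulAction.orbitRel.Quotient G X) := Fintype.ofFinite _
  rw [show Nat.card {D : Fin t → Submodule F (Fin n → F) // IsMDecomposition a D} = Nat.card X from rfl,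
    Nat.card_congr (MulAction.selfEquivSigmaOrbitsQuotientStabilizer G X), Nat.card_sigma]
  apply Finset.dvd_sum
  intro ω _
  rw [hstab, ← Subgroup.index_eq_card, Subgroup.index_bot, Nat.card_perm]
  simp

/-- A prime dividing the number of unordered decompositions divides the order of the general linear group. -/
theorem order_le_of_dvd_count {r : ℕ} [Fact r.Prime] (hrq : ¬ r ∣ Fintype.card F) {n a t : ℕ} (hat : n = a * t) (ha : 1 ≤ a) (ht : 2 ≤ t)
    (hΩ : r ∣ Nat.card {D : Fin t → Submodule F (Fin n → F) // IsMDecomposition a D} / Nat.factorial t) :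
    orderOf ((Fintype.card F : ℕ) : ZMod r) ≤ n := by
  classical
  apply order_le_of_dvd hrq
  have hcard : Fintype.card (Fin t × Fin a) = n := by simp [hat, mul_comm]
  let e : Fin t × Fin a ≃ Fin n := Fintype.equivFinOfCardEq hcard
  let B : Module.Basis (Fin t × Fin a) F (Fin n → F) := (Pi.basisFun F (Fin n)).reindex e.symm
  obtain ⟨h1, h2, h3⟩ := decomp_of_basis B
  have hD₀ : IsMDecomposition a (fun k => Submodule.span F (Set.range fun l => B (k, l))) := ⟨ht, ha, h1, h2, h3⟩
  have h4 := card_decomp_dvd hD₀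
  have h5 := factorial_dvd_card_decomp (F := F) (n := n) (t := t) (a := a)
  exact (hΩ.trans (Nat.div_dvd_of_dvd h5)).trans h4

end count

end Cfsg.Agent.Lib.ClassMax.EluImpr
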