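import Mathlib
import Cfsg.Agent.Lib.ClassMax.EluImpr

/-!
# Constructions of decompositions permuted by an element of prime order
-/

set_option autoImplicit false
set_option linter.unusedSimpArgs false
set_option linter.unusedVariables false
set_option linter.unusedSectionVars false

namespace Cfsg.Agent.Lib.ClassMax.EluImpr2

open scoped MatrixGroups
open Module Polynomial Matrix Cfsg.Agent.Lib.ClassMax.EluConj Cfsg.Agent.Lib.ClassMax.EluOrder Cfsg.Agent.Lib.ClassMax.EluBlock Cfsg.Agent.Lib.ClassMax.EluFix Cfsg.Agent.Lib.ClassMax.EluImpr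

section invariant

variable {F V : Type*} [Field F] [AddCommGroup V] [Module F V]

theorem exists_inv_compl {T : Module.End F V} (hss : T.IsSemisimple) {W D₀ : Submodule F V} (hW : Inv T W) (hD₀ : Inv T D₀) (hle : D₀ ≤ W) :
    ∃ W₁ : Submodule F V, W₁ ≤ W ∧ Inv T W₁ ∧ Disjoint D₀ W₁ ∧ D₀ ⊔ W₁ = W := by
  have hinv : D₀ ∈ Module.End.invtSubmodule T := by
    rw [Module.End.mem_invtSubmodule]
    intro v hv
    exact hD₀ v hv
  obtain ⟨C, hC1, hC2⟩ := Module.End.isSemisimple_iff.mp hss D₀ hinv
  refine ⟨C ⊓ W, inf_le_right, ?_, hC2.disjoint.mono_right inf_le_left, ?_⟩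
  · rintro v ⟨hv1, hv2⟩
    exact ⟨(Module.End.mem_invtSubmodule T).mp hC1 hv1, hW v hv2⟩
  · rw [← sup_inf_assoc_of_le C hle, hC2.sup_eq_top, top_inf_eq]

theorem cons_decomp {t : ℕ} {D₀ W₁ : Submodule F V} {D' : Fin t → Submodule F V} (hd : Disjoint D₀ W₁) (hind : iSupIndep D') (hsup : iSup D' = W₁) :
    iSupIndep (Fin.cons D₀ D' : Fin (t + 1) → Submodule F V) ∧ iSup (Fin.cons D₀ D' : Fin (t + 1) → Submodule F V) = D₀ ⊔ W₁ := by
  classical
  refine ⟨?_, ?_⟩
  · intro j
    refine Fin.cases ?_ (fun i => ?_) j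
    · show Disjoint D₀ _
      apply hd.mono_right
      apply iSup₂_le
      intro k hk
      refine Fin.cases (fun h => absurd rfl h) (fun i _ => ?_) k hk
      rw [← hsup]
      exact le_iSup D' i
    · show Disjoint (D' i) _
      have h1 : (⨆ k, ⨆ (_ : k ≠ i.succ), (Fin.cons D₀ D' : Fin (t + 1) → Submodule F V) k) ≤ (⨆ k, ⨆ (_ : k ≠ i), D' k) ⊔ D₀ := by
        apply iSup₂_le
        intro k hk
        refine Fin.cases (fun _ => le_sup_right) (fun i' h' => ?_) k hk
        apply le_sup_of_le_left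
        exact le_iSup₂_of_le i' (fun h => h' (by rw [h])) le_rfl
      apply Disjoint.mono_right h1
      apply Disjoint.disjoint_sup_right_of_disjoint_sup_left (hind i)
      rw [← iSup_split_single D' i, hsup]
      exact hd.symm
  · apply le_antisymm
    · apply iSup_le
      intro k
      refine Fin.cases le_sup_left (fun i => ?_) k
      apply le_sup_of_le_right
      rw [← hsup]
      exact le_iSup D' i
    · apply sup_le
      · exact le_iSup (Fin.cons D₀ D' : Fin (t + 1) → Submodule F V) 0
      · rw [← hsup]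
        apply iSup_le
        intro i
        exact le_iSup (Fin.cons D₀ D' : Fin (t + 1) → Submodule F V) i.succ

/-- Invariant decompositions of an invariant subspace of a semisimple endomorphism. -/
theorem invariant_decomp [FiniteDimensional F V] {T : Module.End F V} (hss : T.IsSemisimple) {a : ℕ} (Good : ℕ → Prop) (hgood : ∀ t, Good (t + 1) → Good t)
    (hstep : ∀ t (W : Submodule F V), Good (t + 1) → Inv T W → finrank F W = (t + 1) * a → ∃ D₀ : Submodule F V, D₀ ≤ W ∧ Inv T D₀ ∧ finrank F D₀ = a) :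
    ∀ t (W : Submodule F V), Good t → Inv T W → finrank F W = t * a →
      ∃ D : Fin t → Submodule F V, (∀ j, Inv T (D j)) ∧ (∀ j, finrank F (D j) = a) ∧ iSupIndep D ∧ iSup D = W := by
  classical
  intro t
  induction t with
  | zero =>
    intro W _ hW hdim
    refine ⟨Fin.elim0, fun j => j.elim0, fun j => j.elim0, fun j => j.elim0, ?_⟩
    have : W = ⊥ := by
      apply Submodule.finrank_eq_zero.mp
      simpa using hdim
    rw [this]
    simp
  | succ t ih =>
    intro W hG hW hdim
    obtain ⟨D₀, h1, h2, h3⟩ := hstep t W hG hW hdim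
    obtain ⟨W₁, h4, h5, h6, h7⟩ := exists_inv_compl hss hW h2 h1
    have hW₁ : finrank F W₁ = t * a := by
      have h8 := Submodule.finrank_sup_add_finrank_inf_eq D₀ W₁
      rw [h6.eq_bot, finrank_bot, add_zero, h7, hdim, h3] at h8
      have h9 : (t + 1) * a = a + t * a := by ring
      omega
    obtain ⟨D', g1, g2, g3, g4⟩ := ih W₁ (hgood t hG) h5 hW₁
    obtain ⟨g5, g6⟩ := cons_decomp h6 g3 g4
    refine ⟨Fin.cons D₀ D', ?_, ?_, g5, ?_⟩
    · intro j
      refine Fin.cases h2 (fun i => ?_) j
      exact g1 i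
    · intro j
      refine Fin.cases h3 (fun i => ?_) j
      exact g2 i
    · rw [g6, h7]

end invariant

section fixed

variable {F V : Type*} [Field F] [Fintype F] [AddCommGroup V] [Module F V] [FiniteDimensional F V]

/-- Invariant subspaces of a prescribed dimension, for an abstract endomorphism of order `r`. -/
theorem exists_fixed_end {r : ℕ} [Fact r.Prime] (hrq : ¬ r ∣ Fintype.card F) {m : ℕ} (hmn : m ≤ finrank F V) {T : Module.End F V} (hT : T ^ r = 1)
    (hi : orderOf ((Fintype.card F : ℕ) : ZMod r) = 1 ∨ m % orderOf ((Fintype.card F : ℕ) : ZMod r) ≤ finrank F V % orderOf ((Fintype.card F : ℕ) : ZMod r)) :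
    ∃ W : Submodule F V, finrank F W = m ∧ Inv T W := by
  classical
  have hr : r.Prime := Fact.out
  have hcast : (r : F) ≠ 0 := ratFree_cast_ne hr hrq
  have hi0 : 0 < orderOf ((Fintype.card F : ℕ) : ZMod r) := order_pos hrq
  have hg : Squarefree (X ^ r - C (1 : F)) := squarefree_pow_sub hcast one_ne_zero
  have hz : aeval T (X ^ r - C (1 : F)) = 0 := by
    rw [map_sub, map_pow, aeval_X, hT, aeval_C, map_one, sub_self]
  have hbot : Inv T (⊥ : Submodule F V) := by
    intro w hw
    rw [Submodule.mem_bot] at hw ⊢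
    rw [hw, map_zero]
  by_cases hi1 : orderOf ((Fintype.card F : ℕ) : ZMod r) = 1
  · have hd : ∀ f : F[X], Irreducible f → f ∣ X ^ r - C (1 : F) → f.natDegree = 1 := by
      intro f hf hdvd
      have h1 := natDegree_dvd_order hrq hf (by rwa [C_1] at hdvd)
      rw [hi1] at h1
      exact Nat.dvd_one.mp h1
    obtain ⟨W, h1, -, -, h4⟩ := chain (T := T) hg hd one_pos hbot bot_le m (by
      rw [hz, LinearMap.ker_zero, finrank_top, finrank_bot]
      omega)
    exact ⟨W, by rw [h4, finrank_bot]; omega, h1⟩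
  · have hk := hi.resolve_left hi1
    set i := orderOf ((Fintype.card F : ℕ) : ZMod r) with hidef
    set Φ : F[X] := ∑ j ∈ Finset.range r, X ^ j with hΦ
    have hΦX : (X - C (1 : F)) * Φ = X ^ r - C (1 : F) := by
      rw [mul_comm, C_1]
      exact geom_sum_mul X r
    have hcop : IsCoprime (X - C (1 : F)) Φ := by
      rw [(irreducible_X_sub_C (1 : F)).coprime_iff_not_dvd]
      rw [dvd_iff_isRoot]
      simp only [IsRoot, hΦ, eval_finset_sum, eval_pow, eval_X, one_pow, Finset.sum_const, Finset.card_range, nsmul_eq_mul, mul_one]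
      exact hcast
    have hz' : aeval T ((X - C (1 : F)) * Φ) = 0 := by rw [hΦX, hz]
    have hcompl := ker_isCompl T hcop hz'
    have hsum := Submodule.finrank_add_eq_of_isCompl hcompl
    have hgΦ : Squarefree Φ := hg.squarefree_of_dvd ⟨X - C (1 : F), by rw [← hΦX]; ring⟩
    have hd : ∀ f : F[X], Irreducible f → f ∣ Φ → f.natDegree = i := fun f hf hdvd => natDegree_of_geom hrq hf hdvd
    obtain ⟨t, ht⟩ := dvd_finrank_ker (T := T) hgΦ hd hi0
    obtain ⟨a, b, h1, h2, h3⟩ := sq_arith hi0 hmn hk (ht.trans (mul_comm _ _)) hsum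
    obtain ⟨W₀, h4, h5⟩ := exists_sub_dim h2
    obtain ⟨W₁, h6, -, h7, h8⟩ := chain (T := T) hgΦ hd hi0 hbot bot_le b (by rw [finrank_bot]; omega)
    rw [finrank_bot, zero_add] at h8
    refine ⟨W₀ ⊔ W₁, ?_, inv_sup (inv_of_le_ker h4) h6⟩
    have hdis : Disjoint W₀ W₁ := hcompl.disjoint.mono h4 h7
    have h9 := Submodule.finrank_sup_add_finrank_inf_eq W₀ W₁
    rw [hdis.eq_bot, finrank_bot, add_zero, h5, h8, h1] at h9
    exact h9

/-- Pushing an invariant subspace of a restriction back to the whole space. -/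
theorem push_inv {T : Module.End F V} {W : Submodule F V} (hW : Inv T W) {D : Submodule F W} (hD : Inv (T.restrict hW) D) :
    D.map W.subtype ≤ W ∧ Inv T (D.map W.subtype) ∧ finrank F (D.map W.subtype) = finrank F D := by
  refine ⟨?_, ?_, ?_⟩
  · rintro _ ⟨x, -, rfl⟩
    exact x.2
  · rintro _ ⟨x, hx, rfl⟩
    exact ⟨(T.restrict hW) x, hD x hx, rfl⟩
  · exact LinearEquiv.finrank_eq (Submodule.equivMapOfInjective W.subtype W.injective_subtype _).symm

theorem restrict_pow {T : Module.End F V} {W : Submodule F V} (hW : Inv T W) (k : ℕ) (w : W) : (((T.restrict hW) ^ k) w : V) = (T ^ k) (w : V) := by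
  induction k generalizing w with
  | zero => simp
  | succ k ih =>
    rw [pow_succ, Module.End.mul_apply, ih, pow_succ, Module.End.mul_apply]
    rfl

/-- The invariant decomposition for an element of order `r`. -/
theorem exists_invariant_parts_power {r : ℕ} [Fact r.Prime] (hrq : ¬ r ∣ Fintype.card F) {T : Module.End F V} (hT : T ^ r = 1) {t a : ℕ}
    (hdim : finrank F V = t * a) (hc : t * (a % orderOf ((Fintype.card F : ℕ) : ZMod r)) < orderOf ((Fintype.card F : ℕ) : ZMod r)) :
    ∃ D : Fin t → Submodule F V, (∀ j, Inv T (D j)) ∧ (∀ j, finrank F (D j) = a) ∧ iSupIndep D ∧ iSup D = ⊤ := by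
  classical
  have hr : r.Prime := Fact.out
  have hcast : (r : F) ≠ 0 := ratFree_cast_ne hr hrq
  have hi0 : 0 < orderOf ((Fintype.card F : ℕ) : ZMod r) := order_pos hrq
  set c := orderOf ((Fintype.card F : ℕ) : ZMod r) with hcdef
  have hz : aeval T (X ^ r - C (1 : F)) = 0 := by
    rw [map_sub, map_pow, aeval_X, hT, aeval_C, map_one, sub_self]
  have hss : T.IsSemisimple := Module.End.isSemisimple_of_squarefree_aeval_eq_zero (squarefree_pow_sub hcast one_ne_zero) hz
  have htop : Inv T (⊤ : Submodule F V) := fun _ _ => Submodule.mem_top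
  apply invariant_decomp hss (a := a) (fun s => s * (a % c) < c) _ _ t ⊤ hc htop (by rw [finrank_top, hdim])
  · intro s hs
    have h1 : (s + 1) * (a % c) = s * (a % c) + a % c := by ring
    show s * (a % c) < c
    have h2 : (s + 1) * (a % c) < c := hs
    omega
  · intro s W hs hW hdimW
    have hs' : (s + 1) * (a % c) < c := hs
    have hT' : (T.restrict hW) ^ r = 1 := by
      apply LinearMap.ext
      intro w
      apply Subtype.ext
      rw [restrict_pow, hT]
      rfl
    have hle : a ≤ finrank F W := by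
      rw [hdimW, add_mul, one_mul]
      omega
    have hmod : finrank F W % c = (s + 1) * (a % c) := by
      have h1 : (s + 1) * a = (s + 1) * (a % c) + c * ((s + 1) * (a / c)) := by
        have h2 := Nat.div_add_mod a c
        calc (s + 1) * a = (s + 1) * (c * (a / c) + a % c) := by rw [h2]
          _ = _ := by ring
      rw [hdimW, h1, Nat.add_mul_mod_self_left, Nat.mod_eq_of_lt hs']
    obtain ⟨D₁, h1, h2⟩ := exists_fixed_end hrq hle hT' (Or.inr (by
      rw [← hcdef, hmod]
      nlinarith [Nat.zero_le s, Nat.zero_le (a % c)]))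
    obtain ⟨h3, h4, h5⟩ := push_inv hW h2
    exact ⟨_, h3, h4, by rw [h5, h1]⟩

end fixed

section cyclic

variable {F V : Type*} [Field F] [AddCommGroup V] [Module F V] [FiniteDimensional F V]

/-- A basis made of the powers of an element with irreducible `X ^ r - z` applied to generators. -/
theorem exists_cyclic_basis {r : ℕ} {z : F} (hirr : Irreducible (X ^ r - C z)) (hr : 0 < r) {T : Module.End F V} (hT : aeval T (X ^ r - C z) = 0) :
    ∃ (u : ℕ) (b : Fin u → V) (B : Module.Basis (Fin r × Fin u) F V), ∀ i j, B (i, j) = (T ^ (i : ℕ)) (b j) := by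
  classical
  set f : F[X] := X ^ r - C z with hf
  haveI : Fact (Irreducible f) := ⟨hirr⟩
  let K := AdjoinRoot f
  let pb := AdjoinRoot.powerBasis hirr.ne_zero
  haveI : Module.Finite F K := pb.finite
  let φ : K →ₐ[F] Module.End F V := Ideal.Quotient.liftₐ (Ideal.span {f}) (aeval T) (aeval_span_zero T hT)
  have hφ : ∀ g : F[X], φ (AdjoinRoot.mk f g) = aeval T g := fun g => rfl
  haveI : Module.Finite K (Syn φ) := Module.Finite.of_restrictScalars_finite F K _
  let c := Module.finBasis K (Syn φ)
  have hdim : pb.dim = r := by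
    show (AdjoinRoot.powerBasis hirr.ne_zero).dim = r
    rw [AdjoinRoot.powerBasis_dim, hf, natDegree_X_pow_sub_C]
  let S := pb.basis.smulTower c
  let ι : Syn φ ≃ₗ[F] V := LinearEquiv.refl F V
  let e : Fin r × Fin (finrank K (Syn φ)) ≃ Fin pb.dim × Fin (finrank K (Syn φ)) := Equiv.prodCongr (finCongr hdim.symm) (Equiv.refl _)
  refine ⟨finrank K (Syn φ), fun j => (c j : V), (S.map ι).reindex e.symm, fun i j => ?_⟩
  rw [Module.Basis.reindex_apply, Module.Basis.map_apply, Equiv.symm_symm]
  show pb.basis.smulTower c (e (i, j)) = _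
  rw [Module.Basis.smulTower_apply]
  show φ (pb.basis (finCongr hdim.symm i)) (c j) = _
  rw [PowerBasis.coe_basis]
  have h1 : pb.gen = AdjoinRoot.mk f X := by
    show (AdjoinRoot.powerBasis hirr.ne_zero).gen = _
    rw [AdjoinRoot.powerBasis_gen]
    rfl
  have h3 : φ (pb.gen ^ (i : ℕ)) = T ^ (i : ℕ) := by
    rw [h1, ← map_pow, hφ, map_pow, aeval_X]
  exact LinearMap.congr_fun h3 _

/-- Equivalences of index types for a tower of products. -/
theorem exists_parts_irr {r : ℕ} (hr : r.Prime) {z : F} (hirr : Irreducible (X ^ r - C z)) {T : Module.End F V} (hT : T ^ r = z • 1) (hz : z ≠ 0) {t a : ℕ}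
    (hdim : finrank F V = t * a) :
    ∃ D : Fin t → Submodule F V, (∀ j, finrank F (D j) = a) ∧ iSupIndep D ∧ iSup D = ⊤ ∧ ∃ σ : Equiv.Perm (Fin t), ∀ j, (D j).map T = D (σ j) := by
  classical
  have hz' : aeval T (X ^ r - C z) = 0 := by
    rw [map_sub, map_pow, aeval_X, hT, aeval_C, Algebra.algebraMap_eq_smul_one, sub_self]
  obtain ⟨u, b, B, hB⟩ := exists_cyclic_basis hirr hr.pos hz'
  have hcard : finrank F V = r * u := by
    rw [Module.finrank_eq_card_basis B]
    simp
  have hinj : Function.Injective T := by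
    intro v w hvw
    have h1 : (T ^ r) v = (T ^ r) w := by
      obtain ⟨s, hs⟩ : ∃ s, r = s + 1 := ⟨r - 1, by have := hr.pos; omega⟩
      rw [hs, pow_succ, Module.End.mul_apply, Module.End.mul_apply, hvw]
    rw [hT] at h1
    simp only [LinearMap.smul_apply, Module.End.one_apply] at h1
    exact smul_right_injective V hz h1
  -- the action on the basis
  obtain ⟨s, hs⟩ : ∃ s, r = s + 1 := ⟨r - 1, by have := hr.pos; omega⟩
  subst hs
  have hact : ∀ i j, ∃ c : F, T (B (i, j)) = c • B (finRotate (s + 1) i, j) := by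
    intro i j
    by_cases hi : i = Fin.last s
    · subst hi
      refine ⟨z, ?_⟩
      rw [hB, hB, finRotate_last]
      simp only [Fin.val_last, Fin.val_zero, pow_zero, Module.End.one_apply]
      rw [← Module.End.mul_apply, ← pow_succ', hT]
      rfl
    · refine ⟨1, ?_⟩
      rw [one_smul, hB, hB, coe_finRotate_of_ne_last hi, ← Module.End.mul_apply, ← pow_succ']
  have hrd : (s + 1) ∣ t * a := ⟨u, by rw [← hdim, hcard]⟩
  rcases (Nat.Prime.dvd_mul hr).mp hrd with hrt | hra
  · -- the element permutes the parts cyclically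
    obtain ⟨t', rfl⟩ := hrt
    have hu : u = t' * a := by
      have h1 : (s + 1) * u = (s + 1) * (t' * a) := by
        rw [← hcard, hdim]
        ring
      exact Nat.eq_of_mul_eq_mul_left hr.pos h1
    let e₁ : Fin u ≃ Fin t' × Fin a := (finCongr hu).trans finProdFinEquiv.symm
    let e₂ : Fin ((s + 1) * t') ≃ Fin (s + 1) × Fin t' := finProdFinEquiv.symm
    let ε : Fin ((s + 1) * t') × Fin a ≃ Fin (s + 1) × Fin u :=
      { toFun := fun p => ((e₂ p.1).1, e₁.symm ((e₂ p.1).2, p.2))
        invFun := fun q => (e₂.symm (q.1, (e₁ q.2).1), (e₁ q.2).2)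
        left_inv := by
          rintro ⟨k, l⟩
          simp
        right_inv := by
          rintro ⟨i, j⟩
          simp }
    let B' := B.reindex ε.symm
    have hB' : ∀ k l, B' (k, l) = B ((e₂ k).1, e₁.symm ((e₂ k).2, l)) := by
      intro k l
      rw [Module.Basis.reindex_apply, Equiv.symm_symm]
      rfl
    let σ : Equiv.Perm (Fin ((s + 1) * t')) := e₂.trans ((Equiv.prodCongr (finRotate (s + 1)) (Equiv.refl _)).trans e₂.symm)
    have hσ : ∀ k, e₂ (σ k) = (finRotate (s + 1) (e₂ k).1, (e₂ k).2) := by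
      intro k
      have h1 : e₂ (σ k) = e₂ (e₂.symm (Equiv.prodCongr (finRotate (s + 1)) (Equiv.refl _) (e₂ k))) := rfl
      rw [h1, e₂.apply_symm_apply]
      rfl
    obtain ⟨g1, g2, g3⟩ := decomp_of_basis B'
    refine ⟨fun k => Submodule.span F (Set.range fun l => B' (k, l)), g1, g2, g3, σ, fun j => ?_⟩
    apply map_part_eq B' T hinj σ
    intro k l
    rw [hB']
    obtain ⟨c, hc⟩ := hact (e₂ k).1 (e₁.symm ((e₂ k).2, l))
    rw [hc]
    apply Submodule.smul_mem
    apply Submodule.subset_span
    refine ⟨l, ?_⟩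
    show B' (σ k, l) = _
    rw [hB', hσ]
  · -- all parts are invariant
    obtain ⟨a', rfl⟩ := hra
    have hu : u = t * a' := by
      have h1 : (s + 1) * u = (s + 1) * (t * a') := by
        rw [← hcard, hdim]
        ring
      exact Nat.eq_of_mul_eq_mul_left hr.pos h1
    let e₁ : Fin u ≃ Fin t × Fin a' := (finCongr hu).trans finProdFinEquiv.symm
    let e₂ : Fin ((s + 1) * a') ≃ Fin (s + 1) × Fin a' := finProdFinEquiv.symm
    let ε : Fin t × Fin ((s + 1) * a') ≃ Fin (s + 1) × Fin u :=
      { toFun := fun p => ((e₂ p.2).1, e₁.symm (p.1, (e₂ p.2).2))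
        invFun := fun q => ((e₁ q.2).1, e₂.symm (q.1, (e₁ q.2).2))
        left_inv := by
          rintro ⟨k, l⟩
          simp
        right_inv := by
          rintro ⟨i, j⟩
          simp }
    let B' := B.reindex ε.symm
    have hB' : ∀ k l, B' (k, l) = B ((e₂ l).1, e₁.symm (k, (e₂ l).2)) := by
      intro k l
      rw [Module.Basis.reindex_apply, Equiv.symm_symm]
      rfl
    obtain ⟨g1, g2, g3⟩ := decomp_of_basis B'
    refine ⟨fun k => Submodule.span F (Set.range fun l => B' (k, l)), g1, g2, g3, 1, fun j => ?_⟩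
    apply map_part_eq B' T hinj 1
    intro k l
    rw [hB']
    obtain ⟨c, hc⟩ := hact (e₂ l).1 (e₁.symm (k, (e₂ l).2))
    rw [hc]
    apply Submodule.smul_mem
    apply Submodule.subset_span
    refine ⟨e₂.symm (finRotate (s + 1) (e₂ l).1, (e₂ l).2), ?_⟩
    show B' (k, e₂.symm (finRotate (s + 1) (e₂ l).1, (e₂ l).2)) = _
    rw [hB', e₂.apply_symm_apply]

end cyclic

section moved

variable {F V : Type*} [Field F] [AddCommGroup V] [Module F V] [FiniteDimensional F V]

/-- A moved part gives fixed vectors. -/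
theorem le_of_moved {T : Module.End F V} {t a r : ℕ} {D : Fin t → Submodule F V} {σ : Equiv.Perm (Fin t)} (hr : r.Prime) (hind : iSupIndep D) (hsup : iSup D = ⊤)
    (hdim : ∀ j, finrank F (D j) = a) (ha : 0 < a) (hσ : ∀ j, (D j).map T = D (σ j)) (hT : T ^ r = 1) {j : Fin t} (hj : σ j ≠ j) :
    a ≤ finrank F (LinearMap.ker (T - 1)) := by
  classical
  have hne : ∀ j, D j ≠ ⊥ := by
    intro j h
    have := hdim j
    rw [h, finrank_bot] at this
    omega
  have hσr : σ ^ r = 1 := sigma_pow hind hne hσ hT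
  set P : Module.End F V := ∑ i ∈ Finset.range r, T ^ i with hP
  let L : D j →ₗ[F] V := P ∘ₗ (D j).subtype
  obtain ⟨ψ, h1, h2⟩ := exists_part_proj hind hsup j
  have hinj : Function.Injective L := by
    rw [← LinearMap.ker_eq_bot, LinearMap.ker_eq_bot']
    intro d hd
    apply Subtype.ext
    have h3 : ψ (P (d : V)) = 0 := by
      have h4 : L d = P (d : V) := rfl
      rw [← h4, hd, map_zero]
    have h4 : ψ (P (d : V)) = (d : V) := by
      rw [hP, LinearMap.sum_apply, map_sum, Finset.sum_eq_single 0]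
      · simp [h1 _ d.2]
      · intro i hi hi0
        exact h2 ((σ ^ i) j) (orbit_ne hr hσr hj (Finset.mem_range.mp hi) hr.pos hi0) _ (mem_pow_part hσ i d.2)
      · intro h
        exact absurd (Finset.mem_range.mpr hr.pos) h
    rw [← h4, h3]
    rfl
  have hrange : LinearMap.range L ≤ LinearMap.ker (T - 1) := by
    rintro _ ⟨d, rfl⟩
    rw [LinearMap.mem_ker]
    exact P_fixed hT _
  have h3 := Submodule.finrank_mono hrange
  rw [LinearMap.finrank_range_of_inj hinj, hdim] at h3
  exact h3

end moved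

section perm

universe u

variable {F : Type u} [Field F] [Fintype F]

/-- An element of order `r` with a full-order `q` is conjugate to a permutation. -/
theorem exists_parts_perm {r : ℕ} [Fact r.Prime] (h3 : 3 ≤ r) (hrq : ¬ r ∣ Fintype.card F) (hord : orderOf ((Fintype.card F : ℕ) : ZMod r) = r - 1) {n : ℕ}
    (hb : n ≤ (n % (r - 1)) * r) (A : Matrix (Fin n) (Fin n) F) (hA : A ^ r = 1) :
    ∃ D : Fin n → Submodule F (Fin n → F), (∀ j, finrank F (D j) = 1) ∧ iSupIndep D ∧ iSup D = ⊤ ∧ ∃ σ : Equiv.Perm (Fin n), ∀ j, (D j).map (Matrix.toLin' A) = D (σ j) := by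
  classical
  have hr : r.Prime := Fact.out
  have hcast : (r : F) ≠ 0 := ratFree_cast_ne hr hrq
  set T : Module.End F (Fin n → F) := Matrix.toLinAlgEquiv' A with hT
  have hTr : T ^ r = 1 := by
    rw [hT, ← map_pow, hA, map_one]
  set Φ : F[X] := ∑ j ∈ Finset.range r, X ^ j with hΦ
  have hirrΦ : Irreducible Φ := geom_irreducible h3 hrq hord
  have hdeg : Φ.natDegree = r - 1 := natDegree_geom hr.pos
  have hΦX : (X - C (1 : F)) * Φ = X ^ r - C (1 : F) := by
    rw [mul_comm, C_1]
    exact geom_sum_mul X r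
  have hcop : IsCoprime (X - C (1 : F)) Φ := by
    rw [(irreducible_X_sub_C (1 : F)).coprime_iff_not_dvd]
    rw [dvd_iff_isRoot]
    simp only [IsRoot, hΦ, eval_finset_sum, eval_pow, eval_X, one_pow, Finset.sum_const, Finset.card_range, nsmul_eq_mul, mul_one]
    exact hcast
  have hz : aeval T ((X - C (1 : F)) * Φ) = 0 := by
    rw [hΦX, map_sub, map_pow, aeval_X, hTr, aeval_C, map_one, sub_self]
  have hcompl := ker_isCompl T hcop hz
  have hsum := Submodule.finrank_add_eq_of_isCompl hcompl
  rw [finrank_fin_fun] at hsum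
  have hinv := ker_aeval_invariant T Φ
  have hdvd : Φ.natDegree ∣ finrank F (LinearMap.ker (aeval T Φ)) := by
    apply natDegree_dvd_finrank hirrΦ (T.restrict hinv)
    apply LinearMap.ext
    intro u
    apply Subtype.ext
    rw [aeval_restrict T hinv Φ u]
    exact u.2
  rw [hdeg] at hdvd
  obtain ⟨s, hs⟩ := hdvd
  -- arithmetic
  have hrs : r * s ≤ n := by
    have hc0 : 0 < r - 1 := by omega
    have h1 := Nat.div_add_mod n (r - 1)
    have h2 : (r - 1) * s ≤ n := by omega
    have h5 : s ≤ n / (r - 1) := (Nat.le_div_iff_mul_le hc0).mpr (by rwa [mul_comm])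
    have h6 : n / (r - 1) ≤ n % (r - 1) := by
      have h7 : (n % (r - 1)) * r = (n % (r - 1)) * (r - 1) + n % (r - 1) := by
        calc (n % (r - 1)) * r = (n % (r - 1)) * ((r - 1) + 1) := by rw [Nat.sub_add_cancel (by omega)]
          _ = _ := by ring
      have h8 : (r - 1) * (n / (r - 1)) ≤ (r - 1) * (n % (r - 1)) := by
        rw [mul_comm (r - 1) (n % (r - 1))]
        omega
      exact Nat.le_of_mul_le_mul_left h8 hc0
    have h7 : r * s = (r - 1) * s + s := by
      calc r * s = ((r - 1) + 1) * s := by rw [Nat.sub_add_cancel (by omega)]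
        _ = _ := by ring
    have h8 : (r - 1) * s ≤ (r - 1) * (n / (r - 1)) := Nat.mul_le_mul_left _ h5
    omega
  obtain ⟨k', hk'⟩ : ∃ k', n = r * s + k' := ⟨n - r * s, by omega⟩
  haveI : NeZero r := ⟨hr.ne_zero⟩
  let ι := (ZMod r × Fin s) ⊕ Fin k'
  have hcardι : Fintype.card ι = n := by
    simp [ι, ZMod.card, hk']
  let τ : Equiv.Perm ι := Equiv.sumCongr (Equiv.prodCongr (Equiv.addRight (1 : ZMod r)) (Equiv.refl _)) (Equiv.refl _)
  let B : Module.End F (ι → F) := LinearMap.funLeft F F τ
  have hBapp : ∀ v x, B v x = v (τ x) := fun v x => rfl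
  have hτl : ∀ i l, τ (Sum.inl (i, l)) = Sum.inl (i + 1, l) := fun _ _ => rfl
  have hτk : ∀ (k : ℕ) (x : ι), (τ ^ k) x = Sum.elim (fun p => Sum.inl (p.1 + (k : ZMod r), p.2)) Sum.inr x := by
    intro k x
    induction k with
    | zero =>
      rcases x with ⟨i, l⟩ | m <;> simp
    | succ k ih =>
      rw [pow_succ', Equiv.Perm.mul_apply, ih]
      rcases x with ⟨i, l⟩ | m
      · show τ (Sum.inl (i + (k : ZMod r), l)) = Sum.inl (i + ((k + 1 : ℕ) : ZMod r), l)
        rw [hτl]
        push_cast
        congr 2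
        ring
      · rfl
  have hτr : τ ^ r = 1 := by
    apply Equiv.ext
    intro x
    rw [hτk]
    rcases x with ⟨i, l⟩ | m <;> simp
  have hBk : ∀ (k : ℕ) (v : ι → F) (x : ι), (B ^ k) v x = v ((τ ^ k) x) := by
    intro k v x
    induction k generalizing v with
    | zero => simp
    | succ k ih =>
      rw [pow_succ, Module.End.mul_apply, ih, hBapp, pow_succ', Equiv.Perm.mul_apply]
  have hBr : B ^ r = 1 := by
    apply LinearMap.ext
    intro v
    funext x
    rw [hBk, hτr]
    rfl
  have hzB : aeval B ((X - C (1 : F)) * Φ) = 0 := by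
    rw [hΦX, map_sub, map_pow, aeval_X, hBr, aeval_C, map_one, sub_self]
  have hX1 : aeval B (X - C (1 : F)) = B - 1 := by simp
  -- the fixed vectors of the model
  let proj : ι → Fin s ⊕ Fin k' := Sum.elim (fun p => Sum.inl p.2) Sum.inr
  let sect : Fin s ⊕ Fin k' → ι := Sum.elim (fun l => Sum.inl (0, l)) Sum.inr
  have hprojτ : ∀ x, proj (τ x) = proj x := by
    rintro (⟨i, l⟩ | m) <;> rfl
  have hfixk : ∀ v ∈ LinearMap.ker (B - 1), ∀ x, v (τ x) = v x := by
    intro v hv x
    have h1 : B v - v = 0 := hv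
    have h2 := congrFun h1 x
    simp only [Pi.sub_apply, Pi.zero_apply, hBapp] at h2
    exact sub_eq_zero.mp h2
  have hconst : ∀ v ∈ LinearMap.ker (B - 1), ∀ x, v (sect (proj x)) = v x := by
    intro v hv x
    rcases x with ⟨i, l⟩ | m
    · have h1 : ∀ k : ℕ, v (Sum.inl ((k : ZMod r), l)) = v (Sum.inl (0, l)) := by
        intro k
        induction k with
        | zero => simp
        | succ k ih =>
          rw [← ih, ← hfixk v hv (Sum.inl ((k : ZMod r), l)), hτl]
          push_cast
          rfl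
      have h2 := h1 i.val
      rw [ZMod.natCast_zmod_val] at h2
      exact h2.symm
    · rfl
  let E : LinearMap.ker (B - 1) ≃ₗ[F] (Fin s ⊕ Fin k' → F) :=
    { toFun := fun v y => (v : ι → F) (sect y)
      map_add' := fun v w => rfl
      map_smul' := fun c v => rfl
      invFun := fun w => ⟨fun x => w (proj x), by
        rw [LinearMap.mem_ker, LinearMap.sub_apply, Module.End.one_apply, sub_eq_zero]
        funext x
        rw [hBapp, hprojτ]⟩
      left_inv := by
        intro v
        apply Subtype.ext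
        funext x
        exact hconst v v.2 x
      right_inv := by
        intro w
        funext y
        rcases y with l | m <;> rfl }
  have hdimC : finrank F (LinearMap.ker (aeval B (X - C (1 : F)))) = s + k' := by
    rw [hX1, LinearEquiv.finrank_eq E, finrank_fintype_fun_eq_card]
    simp
  have hdimΦ : finrank F (LinearMap.ker (aeval B Φ)) = (r - 1) * s := by
    have hcomplB := ker_isCompl B hcop hzB
    have hsumB := Submodule.finrank_add_eq_of_isCompl hcomplB
    rw [finrank_fintype_fun_eq_card, hcardι, hdimC] at hsumB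
    have h7 : r * s = (r - 1) * s + s := by
      calc r * s = ((r - 1) + 1) * s := by rw [Nat.sub_add_cancel (by omega)]
        _ = _ := by ring
    omega
  have hne : (X - C (1 : F)) ≠ Φ := by
    intro h
    have h1 := congrArg natDegree h
    rw [hdeg, natDegree_X_sub_C] at h1
    omega
  obtain ⟨T₀, hT₀⟩ := conj_of_family ({X - C (1 : F), Φ} : Finset F[X])
    (by
      intro f hf
      rcases Finset.mem_insert.mp hf with rfl | hf'
      · exact irreducible_X_sub_C _
      · rw [Finset.mem_singleton.mp hf']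
        exact hirrΦ)
    (by
      intro f hf g hg hfg
      rcases Finset.mem_insert.mp hf with rfl | hf'
      · rcases Finset.mem_insert.mp hg with rfl | hg'
        · exact absurd rfl hfg
        · rw [Finset.mem_singleton.mp hg']
          exact hcop
      · rw [Finset.mem_singleton.mp hf'] at hfg ⊢
        rcases Finset.mem_insert.mp hg with rfl | hg'
        · exact hcop.symm
        · rw [Finset.mem_singleton.mp hg'] at hfg
          exact absurd rfl hfg)
    (Fin n → F) (ι → F) T B
    (by rw [Finset.prod_pair hne]; exact hz)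
    (by rw [Finset.prod_pair hne]; exact hzB)
    (by rw [finrank_fin_fun, finrank_fintype_fun_eq_card, hcardι])
    (by
      intro f hf
      rcases Finset.mem_insert.mp hf with rfl | hf'
      · rw [hdimC]
        have h7 : r * s = (r - 1) * s + s := by
          calc r * s = ((r - 1) + 1) * s := by rw [Nat.sub_add_cancel (by omega)]
            _ = _ := by ring
        have h8 : (r - 1) * s = finrank F (LinearMap.ker (aeval T Φ)) := by rw [hs]
        omega
      · rw [Finset.mem_singleton.mp hf', hdimΦ, hs])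
  let e' : Fin n ≃ ι := (Fintype.equivFinOfCardEq hcardι).symm
  let B₀ : Module.Basis ι F (Fin n → F) := (Pi.basisFun F ι).map T₀
  have hB₀ : ∀ x, B₀ x = T₀ (Pi.single x 1) := by
    intro x
    show T₀ ((Pi.basisFun F ι) x) = _
    rw [Pi.basisFun_apply]
  let e₁ : Fin n × Fin 1 ≃ ι := (Equiv.prodUnique _ _).trans e'
  let B₁ := B₀.reindex e₁.symm
  have hB₁ : ∀ k l, B₁ (k, l) = B₀ (e' k) := by
    intro k l
    rw [Module.Basis.reindex_apply, Equiv.symm_symm]
    rfl
  obtain ⟨g1, g2, g3⟩ := decomp_of_basis B₁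
  let σ : Equiv.Perm (Fin n) := e'.trans ((τ⁻¹).trans e'.symm)
  have hσ : ∀ k, e' (σ k) = τ⁻¹ (e' k) := by
    intro k
    show e' (e'.symm (τ⁻¹ (e' k))) = _
    rw [e'.apply_symm_apply]
  have hinj : Function.Injective (Matrix.toLin' A) := by
    intro v w hvw
    have h1 : (T ^ r) v = (T ^ r) w := by
      obtain ⟨m, hm⟩ : ∃ m, r = m + 1 := ⟨r - 1, by omega⟩
      rw [hm, pow_succ, Module.End.mul_apply, Module.End.mul_apply]
      congr 1
    rw [hTr] at h1
    exact h1
  refine ⟨fun k => Submodule.span F (Set.range fun l => B₁ (k, l)), g1, g2, g3, σ, fun j => ?_⟩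
  apply map_part_eq B₁ (Matrix.toLin' A) hinj σ
  intro k l
  apply Submodule.subset_span
  refine ⟨l, ?_⟩
  show B₁ (σ k, l) = _
  rw [hB₁, hB₁, hB₀, hB₀, hσ]
  have h1 : Matrix.toLin' A (T₀ (Pi.single (e' k) 1)) = T₀ (B (Pi.single (e' k) 1)) := hT₀ _
  rw [h1]
  congr 1
  funext y
  rw [hBapp]
  by_cases hy : τ y = e' k
  · have hy' : y = τ⁻¹ (e' k) := by
      rw [← hy]
      exact (Equiv.symm_apply_apply τ y).symm
    rw [hy, Pi.single_eq_same, ← hy', Pi.single_eq_same]
  · have hy' : y ≠ τ⁻¹ (e' k) := by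
      intro h
      apply hy
      rw [h]
      exact Equiv.apply_symm_apply τ _
    rw [Pi.single_eq_of_ne hy, Pi.single_eq_of_ne hy']

end perm

end Cfsg.Agent.Lib.ClassMax.EluImpr2
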