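import Mathlib
import Cfsg.Prelude.Def_GeometricClasses
import Cfsg.Prelude.Def_ClassicalGeometry
import Cfsg.Agent.Lib.ClassMax.EluSymp
import Cfsg.Agent.Lib.ClassMax.WittFun
import Cfsg.Agent.Lib.ClassMax.EluQuad
import Cfsg.Agent.Lib.ClassMax.EluOrder
import Cfsg.Agent.Lib.ClassMax.SpOver
import Cfsg.Agent.Lib.Classical.SpOrder
import Cfsg.Agent.Lib.Classical.HermOrder
import Cfsg.Agent.Lib.KnownSimple.SympForm

/-!
Similarities of an alternating form: eigenspace multiplicities, fixed spaces of isometries,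
and the order of the isometry group of an arbitrary non-degenerate alternating form.
-/

set_option autoImplicit false
set_option linter.unusedSimpArgs false
set_option linter.unusedVariables false
set_option linter.unusedSectionVars false

namespace Cfsg.Agent.Lib.ClassMax.EluSimForm

open Module Matrix Cfsg.Geo Cfsg.Agent.Lib.ClassMax Cfsg.Agent.Lib.ClassMax.ElusiveSp Cfsg.Agent.Lib.ClassMax.EluSymp

variable {F : Type*} [Field F] {n : ℕ} {f : (Fin n → F) → (Fin n → F) → F}

theorem orth_add (hf : IsSymplecticForm f) (T : Submodule F (Fin n → F)) :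
    finrank F ((bilinOf f hf.bilinear).orthogonal T) + finrank F T = n := by
  have h1 := LinearMap.BilinForm.finrank_orthogonal (bilinOf_nondegenerate hf.bilinear hf.nondegenerate) T
  have h2 := Submodule.finrank_le T
  simp only [finrank_fin_fun] at h1 h2
  omega

theorem mem_orth_iff (hf : IsSymplecticForm f) (T : Submodule F (Fin n → F)) (u : Fin n → F) :
    u ∈ (bilinOf f hf.bilinear).orthogonal T ↔ ∀ t ∈ T, f t u = 0 := by
  rw [LinearMap.BilinForm.mem_orthogonal_iff]
  rfl

theorem form_sub_left (hf : IsSymplecticForm f) (x y v : Fin n → F) : f (x - y) v = f x v - f y v := by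
  have h : x - y = x + (-1 : F) • y := by simp [sub_eq_add_neg]
  rw [h, hf.bilinear.add_left, hf.bilinear.smul_left]
  ring

theorem ker_le_orth (hf : IsSymplecticForm f) {G : Matrix (Fin n) (Fin n) F} {c μ κ : F}
    (hG : ∀ u v, f (G *ᵥ u) (G *ᵥ v) = c * f u v) (hμ : μ ≠ 0) (hκ : μ * κ = c) :
    LinearMap.ker (toLin' (G - μ • 1)) ≤ (bilinOf f hf.bilinear).orthogonal (LinearMap.range (toLin' (G - κ • 1))) := by
  intro u hu
  rw [LinearMap.mem_ker, toLin'_apply, sub_mulVec, smul_mulVec, one_mulVec, sub_eq_zero] at hu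
  rw [mem_orth_iff hf]
  rintro _ ⟨w, rfl⟩
  rw [toLin'_apply, sub_mulVec, smul_mulVec, one_mulVec, form_sub_left hf, hf.bilinear.smul_left]
  have h1 : f (G *ᵥ w) (G *ᵥ u) = c * f w u := hG w u
  rw [hu, hf.bilinear.smul_right] at h1
  have h2 : f (G *ᵥ w) u = κ * f w u := by
    apply mul_left_cancel₀ hμ
    rw [h1, ← hκ, mul_assoc]
  rw [h2, sub_self]

/-- Multiplicities of eigenvalues of similarities are symmetric. -/
theorem ker_le_mult (hf : IsSymplecticForm f) {G : Matrix (Fin n) (Fin n) F} {c μ κ : F}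
    (hG : ∀ u v, f (G *ᵥ u) (G *ᵥ v) = c * f u v) (hμ : μ ≠ 0) (hκ : μ * κ = c) :
    finrank F (LinearMap.ker (toLin' (G - μ • 1))) ≤ finrank F (LinearMap.ker (toLin' (G - κ • 1))) := by
  have h1 := Submodule.finrank_mono (ker_le_orth hf hG hμ hκ)
  have h2 := orth_add hf (LinearMap.range (toLin' (G - κ • 1)))
  have h3 := LinearMap.finrank_range_add_finrank_ker (toLin' (G - κ • 1))
  rw [finrank_fin_fun] at h3
  omega

theorem ker_eq_mult (hf : IsSymplecticForm f) {G : Matrix (Fin n) (Fin n) F} {c μ κ : F}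
    (hG : ∀ u v, f (G *ᵥ u) (G *ᵥ v) = c * f u v) (hμ : μ ≠ 0) (hκ0 : κ ≠ 0) (hκ : μ * κ = c) :
    finrank F (LinearMap.ker (toLin' (G - μ • 1))) = finrank F (LinearMap.ker (toLin' (G - κ • 1))) :=
  le_antisymm (ker_le_mult hf hG hμ hκ) (ker_le_mult hf hG hκ0 (by rw [mul_comm]; exact hκ))

/-- Alternating forms non-degenerate on a subspace force even dimension. -/
theorem even_of_nd {V : Type*} [AddCommGroup V] [Module F V] [FiniteDimensional F V] {B : LinearMap.BilinForm F V}
    (halt : ∀ v, B v v = 0) {W : Submodule F V} (hnd : Nd B W) : Even (finrank F W) := by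
  obtain ⟨s, h1, -, h3, -⟩ := exists_family halt (LinearMap.id : V →ₗ[F] V) (by simp) (one_ne_zero (α := F)) (by simp)
    (RAny (LinearMap.id : V →ₗ[F] V)) (fun ω ω' h => h)
    (fun W hbot hW hinv => step_any halt LinearMap.id (by simp) (one_ne_zero (α := F)) (by simp) W hbot hW hinv)
    (finrank F W) W rfl hnd (by simp)
  have := finrank_span_pts halt h1
  rw [h3] at this
  exact ⟨s.card, by omega⟩

section isom

variable {G : Matrix (Fin n) (Fin n) F}

theorem ker_eq_orth (hf : IsSymplecticForm f) (hG : ∀ u v, f (G *ᵥ u) (G *ᵥ v) = f u v) :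
    LinearMap.ker (toLin' (G - 1)) = (bilinOf f hf.bilinear).orthogonal (LinearMap.range (toLin' (G - 1))) := by
  have h0 : ∀ u v, f (G *ᵥ u) (G *ᵥ v) = (1 : F) * f u v := fun u v => by rw [hG, one_mul]
  have h1 := ker_le_orth hf h0 (one_ne_zero (α := F)) (mul_one (1 : F))
  rw [one_smul] at h1
  apply Submodule.eq_of_le_of_finrank_le h1
  have h2 := orth_add hf (LinearMap.range (toLin' (G - 1)))
  have h3 := LinearMap.finrank_range_add_finrank_ker (toLin' (G - 1))
  rw [finrank_fin_fun] at h3
  omega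

/-- The Jordan type `(3, 1, ..., 1)` does not occur in the isometry group. -/
theorem no_J3 (hf : IsSymplecticForm f) (hG : ∀ u v, f (G *ᵥ u) (G *ᵥ v) = f u v) (hN3 : (G - 1) ^ 3 = 0) (hN2 : (G - 1) ^ 2 ≠ 0)
    (hrk : n ≤ finrank F (LinearMap.ker (toLin' (G - 1))) + 2) : False := by
  classical
  set N := G - 1 with hN
  have hK := ker_eq_orth hf hG
  rw [← hN] at hK
  obtain ⟨u₀, hu₀⟩ : ∃ u₀, (N ^ 2) *ᵥ u₀ ≠ 0 := by
    by_contra h
    push Not at h
    apply hN2
    apply (toLin' (R := F) (m := Fin n) (n := Fin n)).injective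
    apply LinearMap.ext
    intro v
    rw [toLin'_apply, h v, map_zero, LinearMap.zero_apply]
  set a := N *ᵥ u₀ with ha
  set b := N *ᵥ a with hb
  have hb0 : b ≠ 0 := by
    rw [hb, ha, mulVec_mulVec, ← pow_two]
    exact hu₀
  have hNb : N *ᵥ b = 0 := by
    rw [hb, ha, mulVec_mulVec, mulVec_mulVec]
    have : N * N * N = N ^ 3 := by rw [pow_succ, pow_two]
    rw [this, hN3, zero_mulVec]
  set R := LinearMap.range (toLin' N) with hR
  have haR : a ∈ R := ⟨u₀, by rw [toLin'_apply]⟩
  have hbR : b ∈ R := ⟨a, by rw [toLin'_apply]⟩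
  have hbK : b ∈ LinearMap.ker (toLin' N) := by
    rw [LinearMap.mem_ker, toLin'_apply, hNb]
  have hbO : b ∈ (bilinOf f hf.bilinear).orthogonal R := by rw [← hK]; exact hbK
  have hab : f a b = 0 := (mem_orth_iff hf R b).mp hbO a haR
  have hli : LinearIndependent F ![a, b] := by
    rw [LinearIndependent.pair_iff]
    intro s t hst
    have h1 : N *ᵥ (s • a + t • b) = s • b := by
      rw [mulVec_add, mulVec_smul, mulVec_smul, hNb, smul_zero, add_zero]
    rw [hst, mulVec_zero] at h1
    have hs : s = 0 := (smul_eq_zero.mp h1.symm).resolve_right hb0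
    rw [hs, zero_smul, zero_add] at hst
    exact ⟨hs, (smul_eq_zero.mp hst).resolve_right hb0⟩
  have hfin : finrank F (Submodule.span F (Set.range ![a, b])) = 2 := by
    rw [finrank_span_eq_card hli]
    simp
  have hle : Submodule.span F (Set.range ![a, b]) ≤ R := by
    rw [Submodule.span_le]
    rintro _ ⟨i, rfl⟩
    fin_cases i
    · exact haR
    · exact hbR
  have hRdim : finrank F R ≤ 2 := by
    have h3 := LinearMap.finrank_range_add_finrank_ker (toLin' N)
    rw [finrank_fin_fun, ← hR] at h3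
    omega
  have hRspan : Submodule.span F (Set.range ![a, b]) = R :=
    Submodule.eq_of_le_of_finrank_le hle (by rw [hfin]; exact hRdim)
  have haO : a ∈ (bilinOf f hf.bilinear).orthogonal R := by
    rw [mem_orth_iff hf]
    intro t ht
    rw [← hRspan, Submodule.mem_span_range_iff_exists_fun] at ht
    obtain ⟨c, rfl⟩ := ht
    rw [Fin.sum_univ_two]
    simp only [Matrix.cons_val_zero, Matrix.cons_val_one]
    rw [hf.bilinear.add_left, hf.bilinear.smul_left, hf.bilinear.smul_left, hf.alternating, hf.skew b a, hab]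
    simp
  rw [← hK, LinearMap.mem_ker, toLin'_apply] at haO
  exact hb0 haO

theorem pow_fix {u : Fin n → F} (hu : G *ᵥ u = u) (j : ℕ) : (G ^ j) *ᵥ u = u := by
  induction j with
  | zero => simp
  | succ j ih => rw [pow_succ, ← mulVec_mulVec, hu, ih]

/-- The commutator space of a semisimple isometry of an alternating form is non-degenerate of even dimension. -/
theorem even_rank (hf : IsSymplecticForm f) (hG : ∀ u v, f (G *ᵥ u) (G *ᵥ v) = f u v) {r : ℕ} (hr : (r : F) ≠ 0) (hGr : G ^ r = 1) :
    Even (finrank F (LinearMap.range (toLin' (G - 1)))) := by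
  classical
  set N := G - 1 with hN
  have hK := ker_eq_orth hf hG
  rw [← hN] at hK
  apply even_of_nd (B := bilinOf f hf.bilinear) hf.alternating
  intro u hu hu0
  by_contra hcon
  push Not at hcon
  have huO : u ∈ (bilinOf f hf.bilinear).orthogonal (LinearMap.range (toLin' N)) := by
    rw [mem_orth_iff hf]
    intro t ht
    have h := hcon t ht
    have h' : f u t = 0 := h
    rw [hf.skew, h', neg_zero]
  rw [← hK, LinearMap.mem_ker, toLin'_apply, hN, sub_mulVec, one_mulVec, sub_eq_zero] at huO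
  obtain ⟨w, rfl⟩ := hu
  rw [toLin'_apply] at huO hu0
  set u := N *ᵥ w with hu
  apply hu0
  have h1 : (∑ j ∈ Finset.range r, G ^ j) *ᵥ u = (r : F) • u := by
    rw [Matrix.sum_mulVec]
    simp only [pow_fix huO, Finset.sum_const, Finset.card_range]
    exact (Nat.cast_smul_eq_nsmul F r u).symm
  have h2 : (∑ j ∈ Finset.range r, G ^ j) *ᵥ u = 0 := by
    rw [hu, mulVec_mulVec, hN, geom_sum_mul, hGr, sub_self, zero_mulVec]
  rw [h2] at h1
  exact (smul_eq_zero.mp h1.symm).resolve_left hr

/-- Multipliers of elements of finite order. -/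
theorem mult_pow (hf : IsSymplecticForm f) {c : F} (hG : ∀ u v, f (G *ᵥ u) (G *ᵥ v) = c * f u v) (k : ℕ) (u v : Fin n → F) :
    f ((G ^ k) *ᵥ u) ((G ^ k) *ᵥ v) = c ^ k * f u v := by
  induction k generalizing u v with
  | zero => simp
  | succ k ih =>
    rw [pow_succ, ← mulVec_mulVec, ← mulVec_mulVec, ih, hG, pow_succ]
    ring

theorem mult_root (hf : IsSymplecticForm f) (hn : 0 < n) {c : F} (hG : ∀ u v, f (G *ᵥ u) (G *ᵥ v) = c * f u v) {r : ℕ} {z : F}
    (hGr : G ^ r = z • 1) : c ^ r = z ^ 2 := by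
  have hne : ∃ u v : Fin n → F, f u v ≠ 0 := by
    let v : Fin n → F := Pi.single ⟨0, hn⟩ 1
    have hv : v ≠ 0 := by
      intro h
      have := congrFun h ⟨0, hn⟩
      simp [v] at this
    obtain ⟨⟨x, hx⟩, -⟩ := hf.nondegenerate v hv
    exact ⟨x, v, hx⟩
  obtain ⟨u, v, huv⟩ := hne
  have h := mult_pow hf hG r u v
  rw [hGr, smul_mulVec, smul_mulVec, one_mulVec, one_mulVec, hf.bilinear.smul_left, hf.bilinear.smul_right] at h
  have h' : z ^ 2 * f u v = c ^ r * f u v := by rw [← h]; ring
  exact (mul_right_cancel₀ huv h').symm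

end isom

section card

variable [Fintype F]

/-- An isometry between an alternating form and the standard one. -/
theorem exists_isometry (hf : IsSymplecticForm f) {m : ℕ} (hn : n = m + m) :
    ∃ e : (Fin m ⊕ Fin m → F) ≃ₗ[F] (Fin n → F), ∀ u v, f (e u) (e v) = Cfsg.sympForm m F u v := by
  classical
  set B := formOf f hf.bilinear with hB
  have halt : ∀ v, B v v = 0 := hf.alternating
  obtain ⟨s, hs, hspan⟩ := exists_family_of_form halt (nd_of_symplectic f hf)
  have hcard := finrank_family halt hs hspan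
  rw [finrank_fin_fun] at hcard
  have hsm : s.card = m := by omega
  let eq : s ≃ Fin m := Finset.equivFinOfCardEq hsm
  let w : Fin m → (Fin n → F) × (Fin n → F) := fun i => (eq.symm i : (Fin n → F) × (Fin n → F))
  have hw : ∀ i, w i ∈ s := fun i => (eq.symm i).2
  have hinj : ∀ i j, w i = w j → i = j := by
    intro i j h
    exact eq.symm.injective (Subtype.ext h)
  let L : (Fin m ⊕ Fin m → F) →ₗ[F] (Fin n → F) :=
    { toFun := fun u => ∑ i, (u (Sum.inr i) • (w i).1 + u (Sum.inl i) • (w i).2)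
      map_add' := by
        intro a b
        rw [← Finset.sum_add_distrib]
        apply Finset.sum_congr rfl
        intro i _
        simp only [Pi.add_apply, add_smul]
        abel
      map_smul' := by
        intro c a
        rw [Finset.smul_sum]
        apply Finset.sum_congr rfl
        intro i _
        simp only [Pi.smul_apply, smul_eq_mul, RingHom.id_apply, smul_add, mul_smul] }
  have hL : ∀ u, L u = ∑ i, (u (Sum.inr i) • (w i).1 + u (Sum.inl i) • (w i).2) := fun u => rfl
  have hB1 : ∀ i j, B (w i).1 (w j).1 = 0 := by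
    intro i j
    by_cases h : i = j
    · subst h; exact halt _
    · exact (hs.orth _ (hw i) _ (hw j) (fun e => h (hinj i j e))).1
  have hB2 : ∀ i j, B (w i).2 (w j).2 = 0 := by
    intro i j
    by_cases h : i = j
    · subst h; exact halt _
    · exact (hs.orth _ (hw i) _ (hw j) (fun e => h (hinj i j e))).2.2.2
  have hB3 : ∀ i j, B (w i).1 (w j).2 = if i = j then 1 else 0 := by
    intro i j
    by_cases h : i = j
    · subst h; rw [if_pos rfl]; exact hs.hyp _ (hw i)
    · rw [if_neg h]; exact (hs.orth _ (hw i) _ (hw j) (fun e => h (hinj i j e))).2.1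
  have hB4 : ∀ i j, B (w i).2 (w j).1 = if i = j then -1 else 0 := by
    intro i j
    by_cases h : i = j
    · subst h
      rw [if_pos rfl, skew halt, hs.hyp _ (hw i)]
    · rw [if_neg h]; exact (hs.orth _ (hw i) _ (hw j) (fun e => h (hinj i j e))).2.2.1
  have hform : ∀ u v, B (L u) (L v) = Cfsg.sympForm m F u v := by
    intro u v
    rw [Cfsg.Agent.Lib.KnownSimple.sympForm_apply, hL, hL]
    simp only [map_sum, map_add, map_smul, LinearMap.sum_apply, LinearMap.add_apply, LinearMap.smul_apply, smul_eq_mul]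
    apply Finset.sum_congr rfl
    intro i _
    simp only [hB1, hB2, hB3, hB4, mul_zero, zero_add, add_zero, mul_ite, mul_one, Finset.sum_add_distrib, Finset.sum_ite_eq', Finset.mem_univ, if_true, Finset.sum_const_zero, Finset.sum_ite_eq]
    simp
    ring
  have hLinj : Function.Injective L := by
    rw [← LinearMap.ker_eq_bot, LinearMap.ker_eq_bot']
    intro u hu
    by_contra h0
    obtain ⟨-, y, hy⟩ := (sympForm_isSymplectic (m := m) (F := F)).nondegenerate u h0
    apply hy
    rw [← hform, hu]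
    simp
  have hdim : finrank F (Fin m ⊕ Fin m → F) = finrank F (Fin n → F) := by
    rw [finrank_fintype_fun_eq_card, finrank_fin_fun, Fintype.card_sum, Fintype.card_fin, hn]
  refine ⟨LinearEquiv.ofInjectiveOfFinrankEq L hLinj hdim, ?_⟩
  intro u v
  exact hform u v

theorem card_pres (hf : IsSymplecticForm f) {m : ℕ} (hn : n = m + m) :
    Nat.card (Cfsg.preserving (Units.coeHom (Matrix (Fin n) (Fin n) F)) f) =
      Fintype.card F ^ (m ^ 2) * ∏ i ∈ Finset.range m, (Fintype.card F ^ (2 * (i + 1)) - 1) := by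
  obtain ⟨e, he⟩ := exists_isometry hf hn
  rw [Nat.card_congr (Cfsg.Agent.Lib.Classical.presEquiv f).toEquiv,
    ← Nat.card_congr (Cfsg.Agent.Lib.Classical.presCongr e he).toEquiv,
    ← Nat.card_congr (Cfsg.Agent.Lib.Classical.spEquivPres (F := F) m).toEquiv]
  exact Cfsg.Agent.Lib.Classical.card_sp rfl m

theorem prod_odd_even (q m : ℕ) :
    ∏ j ∈ Finset.range (m + m), (q ^ (j + 1) - 1) =
      (∏ j ∈ Finset.range m, (q ^ (2 * j + 1) - 1)) * ∏ j ∈ Finset.range m, (q ^ (2 * (j + 1)) - 1) := by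
  induction m with
  | zero => simp
  | succ m ih =>
    rw [show m + 1 + (m + 1) = (m + m) + 1 + 1 by ring, Finset.prod_range_succ, Finset.prod_range_succ, ih,
      Finset.prod_range_succ, Finset.prod_range_succ]
    rw [show m + m + 1 = 2 * m + 1 by ring, show 2 * m + 1 + 1 = 2 * (m + 1) by ring]
    ring

theorem prod_gl (q n : ℕ) (hq : 0 < q) :
    ∃ e : ℕ, ∏ i : Fin n, (q ^ n - q ^ (i : ℕ)) = q ^ e * ∏ j ∈ Finset.range n, (q ^ (j + 1) - 1) := by
  refine ⟨∑ i ∈ Finset.range n, i, ?_⟩
  rw [Fin.prod_univ_eq_prod_range (fun i => q ^ n - q ^ i) n, ← Finset.prod_pow_eq_pow_sum,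
    ← Finset.prod_range_reflect (fun j => q ^ (j + 1) - 1), ← Finset.prod_mul_distrib]
  apply Finset.prod_congr rfl
  intro i hi
  have hi' := Finset.mem_range.mp hi
  have e1 : n - 1 - i + 1 = n - i := by omega
  rw [e1, Nat.mul_sub, mul_one, ← pow_add]
  congr 2
  omega

/-- Relative indices in normal subgroups divide indices. -/
theorem relIndex_dvd_index_of_normal' {G : Type*} [Group G] [Finite G] (H K : Subgroup G) [K.Normal] : H.relIndex K ∣ H.index := by
  have h1 : H.relIndex (K ⊔ H) * (K ⊔ H).index = H.index := Subgroup.relIndex_mul_index le_sup_right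
  suffices h : H.relIndex K = H.relIndex (K ⊔ H) by
    rw [h]
    exact Dvd.intro _ h1
  have a1 : K.relIndex (K ⊔ H) = K.relIndex H := Subgroup.relIndex_sup_left H K
  have a2 : (⊥ : Subgroup G).relIndex H * H.relIndex (K ⊔ H) = (⊥ : Subgroup G).relIndex (K ⊔ H) :=
    Subgroup.relIndex_mul_relIndex _ _ _ bot_le le_sup_right
  have a3 : (⊥ : Subgroup G).relIndex K * K.relIndex (K ⊔ H) = (⊥ : Subgroup G).relIndex (K ⊔ H) :=
    Subgroup.relIndex_mul_relIndex _ _ _ bot_le le_sup_left
  have a4 : (⊥ : Subgroup G).relIndex (H ⊓ K) * (H ⊓ K).relIndex K = (⊥ : Subgroup G).relIndex K :=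
    Subgroup.relIndex_mul_relIndex _ _ _ bot_le inf_le_right
  have a5 : (⊥ : Subgroup G).relIndex (K ⊓ H) * (K ⊓ H).relIndex H = (⊥ : Subgroup G).relIndex H :=
    Subgroup.relIndex_mul_relIndex _ _ _ bot_le inf_le_right
  rw [Subgroup.inf_relIndex_right] at a4 a5
  rw [inf_comm] at a4
  have hH : 0 < (⊥ : Subgroup G).relIndex H := by
    rw [Subgroup.relIndex_bot_left]
    exact Nat.card_pos
  apply Nat.eq_of_mul_eq_mul_left hH
  calc (⊥ : Subgroup G).relIndex H * H.relIndex K
      = (⊥ : Subgroup G).relIndex (K ⊓ H) * K.relIndex H * H.relIndex K := by rw [a5]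
    _ = ((⊥ : Subgroup G).relIndex (K ⊓ H) * H.relIndex K) * K.relIndex H := by ring
    _ = (⊥ : Subgroup G).relIndex K * K.relIndex (K ⊔ H) := by rw [a4, a1]
    _ = (⊥ : Subgroup G).relIndex H * H.relIndex (K ⊔ H) := by rw [a3, a2]

/-- The special linear group is normal. -/
theorem toGL_range_normal : (Matrix.SpecialLinearGroup.toGL : Matrix.SpecialLinearGroup (Fin n) F →* GL (Fin n) F).range.Normal := by
  constructor
  rintro _ ⟨y, rfl⟩ g
  refine ⟨⟨((g * Matrix.SpecialLinearGroup.toGL y * g⁻¹ : GL (Fin n) F) : Matrix (Fin n) (Fin n) F), ?_⟩, ?_⟩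
  · show Matrix.det _ = 1
    rw [Units.val_mul, Units.val_mul, Matrix.det_mul, Matrix.det_mul]
    have hy : (y : Matrix (Fin n) (Fin n) F).det = 1 := y.2
    have hg : (g : Matrix (Fin n) (Fin n) F).det * ((g⁻¹ : GL (Fin n) F) : Matrix (Fin n) (Fin n) F).det = 1 := by
      rw [← Matrix.det_mul, ← Units.val_mul, mul_inv_cancel, Units.val_one, Matrix.det_one]
    change (g : Matrix (Fin n) (Fin n) F).det * (y : Matrix (Fin n) (Fin n) F).det * _ = 1
    rw [hy, mul_one, hg]
  · apply Units.ext
    rfl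

/-- A prime dividing the index of the similarity group in `SL_n` divides `q` or `q^j - 1` for an odd `j < n`. -/
theorem dvd_of_index {m : ℕ} (hf : IsSymplecticForm f) (hn : n = m + m) {r : ℕ} [Fact r.Prime]
    (hrq : ¬ r ∣ Fintype.card F)
    (h : r ∣ ((similarityGroup f).comap (Matrix.SpecialLinearGroup.toGL : Matrix.SpecialLinearGroup (Fin n) F →* GL (Fin n) F)).index) :
    ∃ j < m, r ∣ Fintype.card F ^ (2 * j + 1) - 1 := by
  classical
  have hr : r.Prime := Fact.out
  have hq0 : 0 < Fintype.card F := Fintype.card_pos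
  have hq2 : 1 < Fintype.card F := Fintype.one_lt_card
  set Sp := Cfsg.preserving (Units.coeHom (Matrix (Fin n) (Fin n) F)) f with hSp
  have hle : Sp ≤ similarityGroup f := by
    intro g hg
    refine ⟨1, fun u v => ?_⟩
    rw [Units.val_one, one_mul]
    exact hg u v
  have h1 : ((similarityGroup f).comap (Matrix.SpecialLinearGroup.toGL : Matrix.SpecialLinearGroup (Fin n) F →* GL (Fin n) F)).index ∣ (similarityGroup f).index := by
    rw [Subgroup.index_comap]
    haveI := toGL_range_normal (n := n) (F := F)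
    exact relIndex_dvd_index_of_normal' _ _
  have h2 : (similarityGroup f).index ∣ Sp.index := Subgroup.index_dvd_of_le hle
  have h3 : r ∣ Sp.index := h.trans (h1.trans h2)
  have hcard := Subgroup.index_mul_card Sp
  rw [card_pres hf hn, Matrix.card_GL_field] at hcard
  obtain ⟨e, he⟩ := prod_gl (Fintype.card F) n hq0
  rw [he] at hcard
  have he2 := prod_odd_even (Fintype.card F) m
  rw [← hn] at he2
  rw [he2] at hcard
  have hB : 0 < ∏ j ∈ Finset.range m, (Fintype.card F ^ (2 * (j + 1)) - 1) := by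
    apply Finset.prod_pos
    intro j _
    have : Fintype.card F ^ 1 < Fintype.card F ^ (2 * (j + 1)) := Nat.pow_lt_pow_right hq2 (by omega)
    have h5 : Fintype.card F ^ 1 = Fintype.card F := pow_one _
    omega
  have hcancel : Sp.index * Fintype.card F ^ m ^ 2 = Fintype.card F ^ e * ∏ j ∈ Finset.range m, (Fintype.card F ^ (2 * j + 1) - 1) := by
    apply Nat.eq_of_mul_eq_mul_right hB
    rw [mul_assoc, hcard, mul_assoc]
  have h4 : r ∣ Fintype.card F ^ e * ∏ j ∈ Finset.range m, (Fintype.card F ^ (2 * j + 1) - 1) := by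
    rw [← hcancel]
    exact h3.mul_right _
  rcases (hr.dvd_mul).mp h4 with h5 | h5
  · exact absurd (hr.dvd_of_dvd_pow h5) hrq
  · obtain ⟨j, hj, hj2⟩ := (hr.prime.dvd_finset_prod_iff _).mp h5
    exact ⟨j, Finset.mem_range.mp hj, hj2⟩

end card

end Cfsg.Agent.Lib.ClassMax.EluSimForm
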