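import Mathlib
import Cfsg.Agent.Lib.ClassMax.EluImpr2
import Cfsg.Agent.Lib.ClassMax.EluSimForm

/-!
# Semisimple isometries of prime order of an alternating form

Non-degenerate invariant blocks, and the structure of an isometry of odd prime order.
-/

set_option autoImplicit false
set_option linter.unusedSimpArgs false
set_option linter.unusedVariables false
set_option linter.unusedSectionVars false

namespace Cfsg.Agent.Lib.ClassMax.EluSpBlock

open scoped MatrixGroups
open Module Polynomial Cfsg.Agent.Lib.ClassMax.ElusiveSp Cfsg.Agent.Lib.ClassMax.EluConj Cfsg.Agent.Lib.ClassMax.EluOrder Cfsg.Agent.Lib.ClassMax.EluBlock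
  Cfsg.Agent.Lib.ClassMax.EluFix Cfsg.Agent.Lib.ClassMax.EluImpr Cfsg.Agent.Lib.ClassMax.EluImpr2

section nd

variable {F V : Type*} [Field F] [AddCommGroup V] [Module F V] [FiniteDimensional F V] {B : LinearMap.BilinForm F V}

theorem exists_fam (halt : ∀ v, B v v = 0) {W : Submodule F V} (hW : Nd B W) :
    ∃ s : Finset (V × V), Fam B s ∧ (∀ ω ∈ s, ω.1 ∈ W ∧ ω.2 ∈ W) ∧ Submodule.span F (Pts s) = W := by
  obtain ⟨s, h1, h2, h3, -⟩ := exists_family halt (LinearMap.id : V →ₗ[F] V) (by simp) (one_ne_zero (α := F)) (by simp)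
    (RAny (LinearMap.id : V →ₗ[F] V)) (fun ω ω' h => h)
    (fun W hbot hW hinv => step_any halt LinearMap.id (by simp) (one_ne_zero (α := F)) (by simp) W hbot hW hinv) _ W rfl hW (fun w hw => hw)
  exact ⟨s, h1, h2, h3⟩

theorem orth_symm (halt : ∀ v, B v v = 0) {u v : V} (h : B u v = 0) : B v u = 0 := by
  rw [skew halt, h, neg_zero]

theorem nd_sup (halt : ∀ v, B v v = 0) {E₁ E₂ : Submodule F V} (h1 : Nd B E₁) (h2 : Nd B E₂) (horth : ∀ u ∈ E₁, ∀ v ∈ E₂, B u v = 0) :
    Nd B (E₁ ⊔ E₂) := by
  intro u hu hu0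
  obtain ⟨a, ha, b, hb, rfl⟩ := Submodule.mem_sup.mp hu
  by_cases ha0 : a = 0
  · subst ha0
    rw [zero_add] at hu0 ⊢
    obtain ⟨v, hv, hne⟩ := h2 b hb hu0
    exact ⟨v, Submodule.mem_sup_right hv, hne⟩
  · obtain ⟨v, hv, hne⟩ := h1 a ha ha0
    refine ⟨v, Submodule.mem_sup_left hv, ?_⟩
    rw [map_add, LinearMap.add_apply, orth_symm halt (horth v hv b hb), add_zero]
    exact hne

theorem disjoint_of_orth (halt : ∀ v, B v v = 0) {E₁ E₂ : Submodule F V} (h1 : Nd B E₁) (horth : ∀ u ∈ E₁, ∀ v ∈ E₂, B u v = 0) : Disjoint E₁ E₂ := by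
  rw [Submodule.disjoint_def]
  intro u hu hu2
  by_contra hu0
  obtain ⟨v, hv, hne⟩ := h1 u hu hu0
  exact hne (orth_symm halt (horth v hv u hu2))

theorem finrank_sup_orth (halt : ∀ v, B v v = 0) {E₁ E₂ : Submodule F V} (h1 : Nd B E₁) (horth : ∀ u ∈ E₁, ∀ v ∈ E₂, B u v = 0) :
    finrank F ((E₁ ⊔ E₂ : Submodule F V)) = finrank F E₁ + finrank F E₂ := by
  have h6 := Submodule.finrank_sup_add_finrank_inf_eq E₁ E₂
  rw [(disjoint_of_orth halt h1 horth).eq_bot, finrank_bot, add_zero] at h6
  exact h6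

/-- The orthogonal of a non-degenerate subspace inside a non-degenerate subspace. -/
theorem nd_orth (halt : ∀ v, B v v = 0) {U E : Submodule F V} (hU : Nd B U) (hE : Nd B E) (hle : E ≤ U) :
    Nd B (U ⊓ B.orthogonal E) ∧ E ⊔ (U ⊓ B.orthogonal E) = U ∧ finrank F ((U ⊓ B.orthogonal E : Submodule F V)) + finrank F E = finrank F U := by
  classical
  obtain ⟨s, h1, h2, h3⟩ := exists_fam halt hE
  have hproj : ∀ w : V, proj B s w ∈ E ∧ w - proj B s w ∈ B.orthogonal E := by
    intro w
    constructor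
    · rw [proj_apply]
      apply Submodule.sum_mem
      intro ω hω
      exact E.sub_mem (E.smul_mem _ (h2 ω hω).1) (E.smul_mem _ (h2 ω hω).2)
    · rw [LinearMap.BilinForm.mem_orthogonal_iff]
      intro e he
      rw [← h3] at he
      show B e (w - proj B s w) = 0
      have hgen : ∀ a ∈ Pts s, ∀ b ∈ ({w - proj B s w} : Set V), B a b = 0 := by
        rintro _ (⟨ω, hω, rfl⟩ | ⟨ω, hω, rfl⟩) b hb
        · rw [Set.mem_singleton_iff] at hb
          subst hb
          have := (form_proj_left halt h1 w hω).1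
          apply orth_symm halt
          rw [map_sub, LinearMap.sub_apply, this, sub_self]
        · rw [Set.mem_singleton_iff] at hb
          subst hb
          have := (form_proj_left halt h1 w hω).2
          apply orth_symm halt
          rw [map_sub, LinearMap.sub_apply, this, sub_self]
      exact orth_of_gens hgen he (Submodule.subset_span rfl)
  have hsup : E ⊔ (U ⊓ B.orthogonal E) = U := by
    apply le_antisymm
    · exact sup_le hle inf_le_left
    · intro u hu
      have h4 := hproj u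
      have h5 : u = proj B s u + (u - proj B s u) := by abel
      rw [h5]
      exact Submodule.add_mem_sup h4.1 ⟨U.sub_mem hu (hle h4.1), h4.2⟩
  have horth : ∀ u ∈ E, ∀ v ∈ U ⊓ B.orthogonal E, B u v = 0 := by
    intro u hu v hv
    exact (LinearMap.BilinForm.mem_orthogonal_iff.mp hv.2) u hu
  refine ⟨?_, hsup, ?_⟩
  · intro u hu hu0
    obtain ⟨v, hv, hne⟩ := hU u hu.1 hu0
    have h4 := hproj v
    refine ⟨v - proj B s v, ⟨U.sub_mem hv (hle h4.1), h4.2⟩, ?_⟩
    rw [map_sub, sub_eq_self.mpr ?_]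
    · exact hne
    · exact orth_symm halt (horth _ h4.1 u hu)
  · have h6 := finrank_sup_orth halt hE horth
    rw [hsup] at h6
    omega

/-- Non-degenerate subspaces of all even dimensions. -/
theorem exists_nd_even (halt : ∀ v, B v v = 0) {U : Submodule F V} (hU : Nd B U) {m : ℕ} (hm : 2 * m ≤ finrank F U) :
    ∃ A : Submodule F V, A ≤ U ∧ Nd B A ∧ finrank F A = 2 * m := by
  classical
  obtain ⟨s, h1, h2, h3⟩ := exists_fam halt hU
  have hcard : finrank F U = 2 * s.card := by
    rw [← h3]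
    exact finrank_span_pts halt h1
  obtain ⟨T, hT1, hT2⟩ := Finset.exists_subset_card_eq (s := s) (n := m) (by omega)
  have hfam : Fam B T := ⟨fun ω hω => h1.hyp ω (hT1 hω), fun ω hω η hη hne => h1.orth ω (hT1 hω) η (hT1 hη) hne⟩
  refine ⟨Submodule.span F (Pts T), ?_, nd_span halt hfam, ?_⟩
  · rw [Submodule.span_le]
    rintro _ (⟨ω, hω, rfl⟩ | ⟨ω, hω, rfl⟩)
    · exact (h2 ω (hT1 hω)).1
    · exact (h2 ω (hT1 hω)).2
  · rw [finrank_span_pts halt hfam, hT2]

end nd

section iso

variable {F V : Type*} [Field F] [Fintype F] [AddCommGroup V] [Module F V] [FiniteDimensional F V] {B : LinearMap.BilinForm F V}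
  {r : ℕ} [Fact r.Prime]

/-- The dimension of the smallest non-degenerate block of an isometry of order `r`. -/
noncomputable def blockDim (F : Type*) [Fintype F] (r : ℕ) : ℕ :=
  if Even (orderOf ((Fintype.card F : ℕ) : ZMod r)) then orderOf ((Fintype.card F : ℕ) : ZMod r) else 2 * orderOf ((Fintype.card F : ℕ) : ZMod r)

/-- The geometric sum. -/
noncomputable def Phi (F : Type*) [Field F] (r : ℕ) : F[X] := ∑ j ∈ Finset.range r, X ^ j

theorem phi_mul : (X - C (1 : F)) * Phi F r = X ^ r - C (1 : F) := by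
  rw [mul_comm, C_1]
  exact geom_sum_mul X r

theorem phi_coprime (hrq : ¬ r ∣ Fintype.card F) : IsCoprime (X - C (1 : F)) (Phi F r) := by
  have hcast : (r : F) ≠ 0 := ratFree_cast_ne (Fact.out) hrq
  rw [(irreducible_X_sub_C (1 : F)).coprime_iff_not_dvd]
  rw [dvd_iff_isRoot]
  simp only [IsRoot, Phi, eval_finset_sum, eval_pow, eval_X, one_pow, Finset.sum_const, Finset.card_range, nsmul_eq_mul, mul_one]
  exact hcast

theorem phi_squarefree (hrq : ¬ r ∣ Fintype.card F) : Squarefree (Phi F r) := by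
  have hcast : (r : F) ≠ 0 := ratFree_cast_ne (Fact.out) hrq
  have hg : Squarefree (X ^ r - C (1 : F)) := squarefree_pow_sub hcast one_ne_zero
  exact hg.squarefree_of_dvd ⟨X - C (1 : F), by rw [← phi_mul]; ring⟩

theorem phi_degree (hrq : ¬ r ∣ Fintype.card F) (f : F[X]) (hf : Irreducible f) (h : f ∣ Phi F r) :
    f.natDegree = orderOf ((Fintype.card F : ℕ) : ZMod r) := natDegree_of_geom hrq hf h

variable {T : Module.End F V}

theorem aeval_X_sub_one : aeval T (X - C (1 : F)) = T - 1 := by simp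

theorem aeval_zero_of_pow (hT : T ^ r = 1) : aeval T ((X - C (1 : F)) * Phi F r) = 0 := by
  rw [phi_mul, map_sub, map_pow, aeval_X, hT, aeval_C, map_one, sub_self]

theorem split_mem (hrq : ¬ r ∣ Fintype.card F) (hT : T ^ r = 1) {U : Submodule F V} (hU : Inv T U) {u : V} (hu : u ∈ U) :
    ∃ u₁ u₂ : V, u = u₁ + u₂ ∧ u₁ ∈ U ∧ T u₁ = u₁ ∧ u₂ ∈ U ∧ aeval T (Phi F r) u₂ = 0 := by
  obtain ⟨a, b, hab⟩ := phi_coprime (F := F) (r := r) hrq
  have hmul : ∀ (g h : F[X]) (v : V), aeval T (g * h) v = aeval T g (aeval T h v) := by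
    intro g h v
    rw [map_mul, Module.End.mul_apply]
  have h1 : aeval T (b * Phi F r) u + aeval T (a * (X - C (1 : F))) u = u := by
    have h2 : aeval T (a * (X - C (1 : F)) + b * Phi F r) u = u := by
      rw [hab, map_one, Module.End.one_apply]
    rw [map_add, LinearMap.add_apply] at h2
    rw [add_comm]
    exact h2
  refine ⟨aeval T (b * Phi F r) u, aeval T (a * (X - C (1 : F))) u, h1.symm, aeval_mem hU _ hu, ?_, aeval_mem hU _ hu, ?_⟩
  · have h2 : aeval T (X - C (1 : F)) (aeval T (b * Phi F r) u) = 0 := by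
      rw [← hmul, show (X - C (1 : F)) * (b * Phi F r) = b * ((X - C (1 : F)) * Phi F r) by ring, hmul, aeval_zero_of_pow hT]
      simp
    rw [aeval_X_sub_one, LinearMap.sub_apply, Module.End.one_apply, sub_eq_zero] at h2
    exact h2
  · rw [← hmul, show Phi F r * (a * (X - C (1 : F))) = a * ((X - C (1 : F)) * Phi F r) by ring, hmul, aeval_zero_of_pow hT]
    simp

/-- Fixed vectors are orthogonal to the part without fixed vectors. -/
theorem fixed_orth (hrq : ¬ r ∣ Fintype.card F) (hT : T ^ r = 1) (hiso : ∀ u v, B (T u) (T v) = B u v) {u w : V} (hu : T u = u) (hw : aeval T (Phi F r) w = 0) :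
    B u w = 0 := by
  obtain ⟨a, b, hab⟩ := phi_coprime (F := F) (r := r) hrq
  have hmul : ∀ (g h : F[X]) (v : V), aeval T (g * h) v = aeval T g (aeval T h v) := by
    intro g h v
    rw [map_mul, Module.End.mul_apply]
  have h1 : aeval T (X - C (1 : F)) (aeval T a w) = w := by
    rw [← hmul]
    have h2 : aeval T (a * (X - C (1 : F)) + b * Phi F r) w = w := by
      rw [hab, map_one, Module.End.one_apply]
    rw [map_add, LinearMap.add_apply, hmul b, hw, map_zero, add_zero, mul_comm] at h2
    exact h2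
  rw [← h1, aeval_X_sub_one, LinearMap.sub_apply, Module.End.one_apply, map_sub]
  conv_lhs => rw [← hu]
  rw [hiso]
  conv_lhs => rw [hu]
  rw [sub_self]

theorem nd_fix_part (halt : ∀ v, B v v = 0) (hrq : ¬ r ∣ Fintype.card F) (hT : T ^ r = 1) (hiso : ∀ u v, B (T u) (T v) = B u v) {U : Submodule F V}
    (hU : Nd B U) (hinv : Inv T U) : Nd B (U ⊓ LinearMap.ker (T - 1)) := by
  rintro u ⟨hu1, hu2⟩ hu0
  obtain ⟨v, hv, hne⟩ := hU u hu1 hu0
  obtain ⟨v₁, v₂, rfl, h1, h2, h3, h4⟩ := split_mem hrq hT hinv hv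
  have hu3 : T u = u := by
    have hu4 : (T - 1) u = 0 := hu2
    rwa [LinearMap.sub_apply, Module.End.one_apply, sub_eq_zero] at hu4
  refine ⟨v₁, ⟨h1, ?_⟩, ?_⟩
  · show (T - 1) v₁ = 0
    rw [LinearMap.sub_apply, Module.End.one_apply, h2, sub_self]
  · rw [map_add, fixed_orth hrq hT hiso hu3 h4, add_zero] at hne
    exact hne

theorem nd_phi_part (halt : ∀ v, B v v = 0) (hrq : ¬ r ∣ Fintype.card F) (hT : T ^ r = 1) (hiso : ∀ u v, B (T u) (T v) = B u v) {U : Submodule F V}
    (hU : Nd B U) (hinv : Inv T U) : Nd B (U ⊓ LinearMap.ker (aeval T (Phi F r))) := by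
  rintro u ⟨hu1, hu2⟩ hu0
  obtain ⟨v, hv, hne⟩ := hU u hu1 hu0
  obtain ⟨v₁, v₂, rfl, h1, h2, h3, h4⟩ := split_mem hrq hT hinv hv
  refine ⟨v₂, ⟨h3, h4⟩, ?_⟩
  have h5 : B u v₁ = 0 := orth_symm halt (fixed_orth hrq hT hiso h2 hu2)
  rw [map_add, h5, zero_add] at hne
  exact hne

theorem even_blockDim (hrq : ¬ r ∣ Fintype.card F) : Even (blockDim F r) := by
  unfold blockDim
  split_ifs with h
  · exact h
  · exact even_two_mul _

theorem order_dvd_blockDim : orderOf ((Fintype.card F : ℕ) : ZMod r) ∣ blockDim F r := by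
  unfold blockDim
  split_ifs with h
  · exact dvd_rfl
  · exact dvd_mul_left _ _

theorem blockDim_pos (hrq : ¬ r ∣ Fintype.card F) : 0 < blockDim F r := by
  have := order_pos (r := r) hrq
  unfold blockDim
  split_ifs with h
  · exact this
  · omega

/-- Non-degenerate subspaces without fixed vectors have dimension a multiple of the block dimension. -/
theorem blockDim_dvd (halt : ∀ v, B v v = 0) (hrq : ¬ r ∣ Fintype.card F) {U : Submodule F V} (hU : Nd B U) (hinv : Inv T U)
    (hle : U ≤ LinearMap.ker (aeval T (Phi F r))) : blockDim F r ∣ finrank F U := by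
  have hi0 := order_pos (r := r) hrq
  have hT' : aeval (T.restrict hinv) (Phi F r) = 0 := by
    apply LinearMap.ext
    intro u
    apply Subtype.ext
    rw [aeval_restrict T hinv]
    exact hle u.2
  have h1 := dvd_finrank_ker (T := T.restrict hinv) (phi_squarefree hrq) (phi_degree hrq) hi0
  rw [hT', LinearMap.ker_zero, finrank_top] at h1
  have h2 := Cfsg.Agent.Lib.ClassMax.EluSimForm.even_of_nd halt hU
  unfold blockDim
  split_ifs with h
  · exact h1
  · have h3 : Nat.Coprime 2 (orderOf ((Fintype.card F : ℕ) : ZMod r)) := by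
      rw [Nat.coprime_two_left, ← Nat.not_even_iff_odd]
      exact h
    exact h3.mul_dvd_of_dvd_of_dvd h2.two_dvd h1

theorem inv_orth (hT : T ^ r = 1) (hiso : ∀ u v, B (T u) (T v) = B u v) {E : Submodule F V} (hE : Inv T E) : Inv T (B.orthogonal E) := by
  intro u hu
  rw [LinearMap.BilinForm.mem_orthogonal_iff] at hu ⊢
  intro e he
  show B e (T u) = 0
  have hr : r.Prime := Fact.out
  have h1 : T ((T ^ (r - 1)) e) = e := by
    rw [← Module.End.mul_apply, ← pow_succ']
    have : r - 1 + 1 = r := by have := hr.pos; omega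
    rw [this, hT]
    rfl
  rw [← h1, hiso]
  exact hu _ (by
    have h2 : ∀ k : ℕ, (T ^ k) e ∈ E := by
      intro k
      induction k with
      | zero => simpa using he
      | succ k ih =>
        rw [pow_succ', Module.End.mul_apply]
        exact hE _ ih
    exact h2 _)

/-- Invariant subspaces of a block of minimal dimension. -/
theorem irr_sub (hrq : ¬ r ∣ Fintype.card F) {E₀ S : Submodule F V} (hE₀ : E₀ ≤ LinearMap.ker (aeval T (Phi F r)))
    (hd : finrank F E₀ = orderOf ((Fintype.card F : ℕ) : ZMod r)) (hS : S ≤ E₀) (hinv : Inv T S) : S = ⊥ ∨ S = E₀ := by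
  have hi0 := order_pos (r := r) hrq
  have hT' : aeval (T.restrict hinv) (Phi F r) = 0 := by
    apply LinearMap.ext
    intro u
    apply Subtype.ext
    rw [aeval_restrict T hinv]
    exact hE₀ (hS u.2)
  have h1 := dvd_finrank_ker (T := T.restrict hinv) (phi_squarefree hrq) (phi_degree hrq) hi0
  rw [hT', LinearMap.ker_zero, finrank_top] at h1
  have h2 := Submodule.finrank_mono hS
  rw [hd] at h2
  by_cases h0 : finrank F S = 0
  · left
    exact Submodule.finrank_eq_zero.mp h0
  · right
    apply Submodule.eq_of_le_of_finrank_eq hS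
    rw [hd]
    exact le_antisymm h2 (Nat.le_of_dvd (by omega) h1)

/-- A block either is non-degenerate or totally isotropic. -/
theorem rad_cases (hrq : ¬ r ∣ Fintype.card F) (hT : T ^ r = 1) (halt : ∀ v, B v v = 0) (hiso : ∀ u v, B (T u) (T v) = B u v) {E₀ : Submodule F V}
    (hE₀ : E₀ ≤ LinearMap.ker (aeval T (Phi F r))) (hd : finrank F E₀ = orderOf ((Fintype.card F : ℕ) : ZMod r)) (hinv : Inv T E₀) :
    Nd B E₀ ∨ ∀ u ∈ E₀, ∀ v ∈ E₀, B u v = 0 := by
  have hinvR : Inv T (E₀ ⊓ B.orthogonal E₀) := fun u hu => ⟨hinv u hu.1, inv_orth hT hiso hinv u hu.2⟩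
  rcases irr_sub hrq hE₀ hd (inf_le_left : E₀ ⊓ B.orthogonal E₀ ≤ E₀) hinvR with h | h
  · left
    intro u hu hu0
    by_contra hcon
    push Not at hcon
    have h1 : u ∈ E₀ ⊓ B.orthogonal E₀ := by
      refine ⟨hu, ?_⟩
      rw [SetLike.mem_coe, LinearMap.BilinForm.mem_orthogonal_iff]
      intro e he
      exact orth_symm halt (hcon e he)
    rw [h] at h1
    exact hu0 ((Submodule.mem_bot F).mp h1)
  · right
    intro u hu v hv
    have h1 : v ∈ E₀ ⊓ B.orthogonal E₀ := by rw [h]; exact hv
    exact (LinearMap.BilinForm.mem_orthogonal_iff.mp h1.2) u hu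

theorem isSemisimple_of_pow (hrq : ¬ r ∣ Fintype.card F) (hT : T ^ r = 1) : T.IsSemisimple := by
  have hcast : (r : F) ≠ 0 := ratFree_cast_ne (Fact.out) hrq
  have hz : aeval T (X ^ r - C (1 : F)) = 0 := by
    rw [map_sub, map_pow, aeval_X, hT, aeval_C, map_one, sub_self]
  exact Module.End.isSemisimple_of_squarefree_aeval_eq_zero (squarefree_pow_sub hcast one_ne_zero) hz

/-- A totally isotropic block extends to a non-degenerate block of double dimension. -/
theorem exists_double (halt : ∀ v, B v v = 0) (hrq : ¬ r ∣ Fintype.card F) (hT : T ^ r = 1) (hiso : ∀ u v, B (T u) (T v) = B u v) {U E₀ : Submodule F V}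
    (hU : Nd B U) (hinv : Inv T U) (hle : E₀ ≤ U) (hinvE : Inv T E₀) (hti : ∀ u ∈ E₀, ∀ v ∈ E₀, B u v = 0) :
    ∃ E : Submodule F V, E ≤ U ∧ Nd B E ∧ Inv T E ∧ finrank F E = 2 * finrank F E₀ := by
  classical
  set K := U ⊓ B.orthogonal E₀ with hK
  have hinvK : Inv T K := fun u hu => ⟨hinv u hu.1, inv_orth hT hiso hinvE u hu.2⟩
  have hE₀K : E₀ ≤ K := fun u hu => ⟨hle hu, LinearMap.BilinForm.mem_orthogonal_iff.mpr (fun e he => hti e he u hu)⟩
  obtain ⟨E'', h1, h2, h3, h4⟩ := exists_inv_compl (isSemisimple_of_pow hrq hT) hinv hinvK inf_le_left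
  have hpair : ∀ e ∈ E₀, e ≠ 0 → ∃ x ∈ E'', B e x ≠ 0 := by
    intro e he he0
    obtain ⟨v, hv, hne⟩ := hU e (hle he) he0
    rw [← h4] at hv
    obtain ⟨k, hk, x, hx, rfl⟩ := Submodule.mem_sup.mp hv
    refine ⟨x, hx, ?_⟩
    have h5 : B e k = 0 := (LinearMap.BilinForm.mem_orthogonal_iff.mp hk.2) e he
    rw [map_add, h5, zero_add] at hne
    exact hne
  have hpair' : ∀ x ∈ E'', x ≠ 0 → ∃ e ∈ E₀, B x e ≠ 0 := by
    intro x hx hx0
    by_contra hcon
    push Not at hcon
    have h5 : x ∈ K := by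
      refine ⟨h1 hx, LinearMap.BilinForm.mem_orthogonal_iff.mpr (fun e he => orth_symm halt (hcon e he))⟩
    exact hx0 ((Submodule.disjoint_def.mp h3) x h5 hx)
  have hdim1 : finrank F E'' ≤ finrank F E₀ := by
    let L : E'' →ₗ[F] Module.Dual F E₀ := LinearMap.domRestrict₁₂ B E'' E₀
    have hinj : Function.Injective L := by
      rw [← LinearMap.ker_eq_bot, LinearMap.ker_eq_bot']
      rintro ⟨x, hx⟩ h0
      by_contra hne
      have hx0 : x ≠ 0 := fun h => hne (Subtype.ext h)
      obtain ⟨e, he, hne2⟩ := hpair' x hx hx0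
      exact hne2 (LinearMap.congr_fun h0 ⟨e, he⟩)
    have := LinearMap.finrank_le_finrank_of_injective hinj
    rwa [Subspace.dual_finrank_eq] at this
  have hdim2 : finrank F E₀ ≤ finrank F E'' := by
    let L : E₀ →ₗ[F] Module.Dual F E'' := LinearMap.domRestrict₁₂ B E₀ E''
    have hinj : Function.Injective L := by
      rw [← LinearMap.ker_eq_bot, LinearMap.ker_eq_bot']
      rintro ⟨e, he⟩ h0
      by_contra hne
      have he0 : e ≠ 0 := fun h => hne (Subtype.ext h)
      obtain ⟨x, hx, hne2⟩ := hpair e he he0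
      exact hne2 (LinearMap.congr_fun h0 ⟨x, hx⟩)
    have := LinearMap.finrank_le_finrank_of_injective hinj
    rwa [Subspace.dual_finrank_eq] at this
  have hdis : Disjoint E₀ E'' := h3.mono_left hE₀K
  refine ⟨E₀ ⊔ E'', sup_le hle h1, ?_, inv_sup hinvE h2, ?_⟩
  · intro u hu hu0
    obtain ⟨e, he, x, hx, rfl⟩ := Submodule.mem_sup.mp hu
    by_cases hx0 : x = 0
    · subst hx0
      rw [add_zero] at hu0 ⊢
      obtain ⟨x', hx', hne⟩ := hpair e he hu0
      exact ⟨x', Submodule.mem_sup_right hx', hne⟩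
    · obtain ⟨e', he', hne⟩ := hpair' x hx hx0
      refine ⟨e', Submodule.mem_sup_left he', ?_⟩
      rw [map_add, LinearMap.add_apply, hti e he e' he', zero_add]
      exact hne
  · have h6 := Submodule.finrank_sup_add_finrank_inf_eq E₀ E''
    rw [hdis.eq_bot, finrank_bot, add_zero] at h6
    omega

theorem expand_pow_q (f : F[X]) (m : ℕ) : expand F (Fintype.card F ^ m) f = f ^ (Fintype.card F ^ m) := by
  induction m with
  | zero => simp
  | succ m ih =>
    rw [pow_succ, mul_comm, ← expand_expand, ih, map_pow, FiniteField.expand_card, ← pow_mul]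

/-- An isometry of odd order has an adjoint given by a power. -/
theorem adj_poly {S : Module.End F V} (hTS : T * S = 1) (hcomm : Commute T S) (hiso : ∀ u v, B (T u) (T v) = B u v) (p : F[X]) (u v : V) :
    B u (aeval T p v) = B (aeval S p u) v := by
  have hisoPow : ∀ (k : ℕ) (a b : V), B ((T ^ k) a) ((T ^ k) b) = B a b := by
    intro k a b
    induction k generalizing a b with
    | zero => simp
    | succ k ih =>
      rw [pow_succ, Module.End.mul_apply, Module.End.mul_apply, ih, hiso]
  have hmono : ∀ (k : ℕ) (a b : V), B a ((T ^ k) b) = B ((S ^ k) a) b := by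
    intro k a b
    have h1 : (T ^ k) ((S ^ k) a) = a := by
      rw [← Module.End.mul_apply, ← hcomm.mul_pow, hTS, one_pow]
      rfl
    rw [← hisoPow k ((S ^ k) a) b, h1]
  induction p using Polynomial.induction_on' with
  | add p q hp hq =>
    rw [map_add, LinearMap.add_apply, map_add, hp, hq, map_add, LinearMap.add_apply, map_add, LinearMap.add_apply]
  | monomial n a =>
    rw [aeval_monomial, aeval_monomial, Module.End.mul_apply, Module.End.mul_apply, Module.algebraMap_end_apply, Module.algebraMap_end_apply, map_smul, hmono, map_smul,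
      LinearMap.smul_apply]

/-- Even order: a non-degenerate irreducible block exists. -/
theorem exists_nd_irr (halt : ∀ v, B v v = 0) (hr2 : r ≠ 2) (hrq : ¬ r ∣ Fintype.card F) (hT : T ^ r = 1) (hiso : ∀ u v, B (T u) (T v) = B u v)
    (heven : Even (orderOf ((Fintype.card F : ℕ) : ZMod r))) {U : Submodule F V} (hU : Nd B U) (hinv : Inv T U) (hle : U ≤ LinearMap.ker (aeval T (Phi F r))) (hne : U ≠ ⊥) :
    ∃ E : Submodule F V, E ≤ U ∧ Nd B E ∧ Inv T E ∧ finrank F E = orderOf ((Fintype.card F : ℕ) : ZMod r) := by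
  classical
  have hr : r.Prime := Fact.out
  have hq0 : 0 < Fintype.card F := Fintype.card_pos
  have hcast : (r : F) ≠ 0 := ratFree_cast_ne hr hrq
  have hi0 := order_pos (r := r) hrq
  set i := orderOf ((Fintype.card F : ℕ) : ZMod r) with hi
  obtain ⟨m, hm⟩ := heven
  have hm0 : 0 < m := by omega
  set Q := Fintype.card F ^ m with hQ
  have hQpos : 0 < Q := pow_pos hq0 _
  -- `r` divides `Q + 1`
  have hrQ : r ∣ Q + 1 := by
    have h1 : ((Fintype.card F : ℕ) : ZMod r) ^ i = 1 := pow_orderOf_eq_one _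
    rw [pow_eq_one_iff_dvd hq0] at h1
    have h2 : Fintype.card F ^ i - 1 = (Q - 1) * (Q + 1) := by
      have h3 : Fintype.card F ^ i = Q * Q := by
        rw [hm, pow_add]
      rw [h3]
      obtain ⟨a, ha⟩ : ∃ a, Q = a + 1 := ⟨Q - 1, by omega⟩
      rw [ha]
      simp only [Nat.add_sub_cancel]
      have : (a + 1) * (a + 1) - 1 = a * (a + 1) + a := by
        have : (a + 1) * (a + 1) = a * (a + 1) + a + 1 := by ring
        omega
      rw [this]
      ring
    rw [h2] at h1
    rcases (Nat.Prime.dvd_mul hr).mp h1 with h3 | h3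
    · exfalso
      have h4 : ((Fintype.card F : ℕ) : ZMod r) ^ m = 1 := (pow_eq_one_iff_dvd hq0).mpr h3
      have h5 := orderOf_dvd_of_pow_eq_one h4
      have h6 := Nat.le_of_dvd hm0 h5
      omega
    · exact h3
  set S : Module.End F V := T ^ Q with hS
  have hTS : T * S = 1 := by
    obtain ⟨c, hc⟩ := hrQ
    rw [hS, ← pow_succ', hc, pow_mul, hT, one_pow]
  have hcomm : Commute T S := (Commute.refl T).pow_right Q
  have hfrob : ∀ (f : F[X]) (u : V), aeval T f u = 0 → aeval S f u = 0 := by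
    intro f u hu
    have h1 : aeval S f = aeval T (f ^ Q) := by
      rw [hS, hQ, ← expand_pow_q, Polynomial.expand_aeval]
    rw [h1]
    obtain ⟨a, ha⟩ : ∃ a, Q = a + 1 := ⟨Q - 1, by omega⟩
    rw [ha, pow_succ, map_mul, Module.End.mul_apply, hu, map_zero]
  -- an irreducible factor with a non-trivial kernel on `U`
  have hU' : aeval (T.restrict hinv) (Phi F r) = 0 := by
    apply LinearMap.ext
    intro u
    apply Subtype.ext
    rw [aeval_restrict T hinv]
    exact hle u.2
  have hnot : ¬ LinearMap.ker (aeval (T.restrict hinv) (Phi F r)) ≤ (⊥ : Submodule F U) := by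
    rw [hU', LinearMap.ker_zero, top_le_iff]
    intro h
    apply hne
    rw [eq_bot_iff]
    intro x hx
    have h1 : (⟨x, hx⟩ : U) ∈ (⊤ : Submodule F U) := Submodule.mem_top
    rw [← h, Submodule.mem_bot] at h1
    simpa using congrArg Subtype.val h1
  obtain ⟨f, hf, hfΦ, hfU⟩ := exists_factor _ (Phi F r) rfl (phi_squarefree hrq) hnot
  obtain ⟨⟨v₀, hv₀U⟩, hv₀, hv₀ne⟩ := SetLike.not_le_iff_exists.mp hfU
  have hv₀f : aeval T f v₀ = 0 := by
    have h1 := congrArg Subtype.val (LinearMap.mem_ker.mp hv₀)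
    rwa [aeval_restrict T hinv] at h1
  have hv₀0 : v₀ ≠ 0 := by
    rintro rfl
    exact hv₀ne (Submodule.zero_mem _)
  obtain ⟨g, hg⟩ := hfΦ
  have hcop : IsCoprime f g := by
    rw [hf.coprime_iff_not_dvd]
    intro hdvd
    obtain ⟨h, rfl⟩ := hdvd
    have hsq : f * f ∣ Phi F r := ⟨h, by rw [hg]; ring⟩
    exact hf.not_isUnit (phi_squarefree hrq f hsq)
  obtain ⟨a, b, hab⟩ := hcop
  have hmul : ∀ (g h : F[X]) (v : V), aeval T (g * h) v = aeval T g (aeval T h v) := by
    intro g h v
    rw [map_mul, Module.End.mul_apply]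
  have hmulS : ∀ (g h : F[X]) (v : V), aeval S (g * h) v = aeval S g (aeval S h v) := by
    intro g h v
    rw [map_mul, Module.End.mul_apply]
  have horthfg : ∀ u w : V, aeval T f u = 0 → aeval T g w = 0 → B u w = 0 := by
    intro u w hu hw
    have h1 : aeval T (a * f) w = w := by
      have h2 : aeval T (a * f + b * g) w = w := by
        rw [hab, map_one, Module.End.one_apply]
      rwa [map_add, LinearMap.add_apply, hmul b g, hw, map_zero, add_zero] at h2
    rw [← h1, adj_poly hTS hcomm hiso, hmulS, hfrob f u hu, map_zero]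
    simp
  set A : Submodule F V := U ⊓ LinearMap.ker (aeval T f) with hA
  have hinvA : Inv T A := fun u hu => ⟨hinv u hu.1, inv_ker T f u hu.2⟩
  have hNdA : Nd B A := by
    intro u hu hu0
    have hu2 : aeval T f u = 0 := hu.2
    obtain ⟨v, hv, hne'⟩ := hU u hu.1 hu0
    have hΦv : aeval T (f * g) v = 0 := by
      rw [← hg]
      exact hle hv
    have h1 : v = aeval T (b * g) v + aeval T (a * f) v := by
      have h2 : aeval T (a * f + b * g) v = v := by
        rw [hab, map_one, Module.End.one_apply]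
      rw [map_add, LinearMap.add_apply, add_comm] at h2
      exact h2.symm
    refine ⟨aeval T (b * g) v, ⟨aeval_mem hinv _ hv, ?_⟩, ?_⟩
    · show aeval T f (aeval T (b * g) v) = 0
      rw [← hmul, show f * (b * g) = b * (f * g) by ring, hmul, hΦv, map_zero]
    · have h3 : B u (aeval T (a * f) v) = 0 := by
        apply horthfg u _ hu2
        rw [← hmul, show g * (a * f) = a * (f * g) by ring, hmul, hΦv, map_zero]
      rw [h1, map_add, h3, add_zero] at hne'
      exact hne'
  -- there is a vector not orthogonal to its image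
  have hSmem : ∀ v ∈ A, S v ∈ A := by
    intro v hv
    have h1 : ∀ k : ℕ, (T ^ k) v ∈ A := by
      intro k
      induction k with
      | zero => simpa using hv
      | succ k ih =>
        rw [pow_succ', Module.End.mul_apply]
        exact hinvA _ ih
    exact h1 Q
  have hex : ∃ v ∈ A, B v (T v) ≠ 0 := by
    by_contra hcon
    push Not at hcon
    have hpol : ∀ u ∈ A, ∀ v ∈ A, B u (T v - S v) = 0 := by
      intro u hu v hv
      have h1 := hcon (u + v) (A.add_mem hu hv)
      simp only [map_add, LinearMap.add_apply, hcon u hu, hcon v hv, zero_add, add_zero] at h1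
      have h2 : B v (T u) = - B (T u) v := skew halt _ _
      have h3 : B (T u) v = B u (S v) := by
        have h4 : T (S v) = v := by
          rw [← Module.End.mul_apply, hTS]
          rfl
        conv_lhs => rw [← h4]
        rw [hiso]
      rw [h2, h3] at h1
      rw [map_sub]
      exact sub_eq_zero.mpr (by linear_combination h1)
    -- `T - S` is bijective on `A`
    let Θ : Module.End F A := (T - S).restrict (fun v hv => A.sub_mem (hinvA v hv) (hSmem v hv))
    have hΘapp : ∀ v : A, (Θ v : V) = T v - S v := fun v => rfl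
    have hinjΘ : Function.Injective Θ := by
      rw [← LinearMap.ker_eq_bot, LinearMap.ker_eq_bot']
      rintro ⟨v, hv⟩ h0
      have h1 : T v - S v = 0 := by
        have := congrArg Subtype.val h0
        rwa [hΘapp] at this
      have h2 : (T * T) v = v := by
        rw [Module.End.mul_apply, sub_eq_zero.mp h1, ← Module.End.mul_apply, hTS]
        rfl
      have hodd : Odd r := hr.odd_of_ne_two hr2
      obtain ⟨l, hl⟩ := hodd
      have h3 : ∀ k : ℕ, ((T * T) ^ k) v = v := by
        intro k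
        induction k with
        | zero => simp
        | succ k ih => rw [pow_succ, Module.End.mul_apply, h2, ih]
      have h4 : T v = v := by
        have h5 : (T ^ r) v = v := by rw [hT]; rfl
        rw [hl, pow_succ', Module.End.mul_apply, pow_mul, pow_two, h3] at h5
        exact h5
      have hdisj := (ker_isCompl T (phi_coprime hrq) (aeval_zero_of_pow hT)).disjoint
      have h5 : v = 0 := by
        apply (Submodule.disjoint_def.mp hdisj) v
        · rw [LinearMap.mem_ker, aeval_X_sub_one, LinearMap.sub_apply, Module.End.one_apply, h4, sub_self]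
        · exact hle hv.1
      exact Subtype.ext h5
    have hsurjΘ : Function.Surjective Θ := LinearMap.injective_iff_surjective.mp hinjΘ
    obtain ⟨w, hw, hne2⟩ := hNdA v₀ ⟨hv₀U, hv₀f⟩ hv₀0
    obtain ⟨v', hv'⟩ := hsurjΘ ⟨w, hw⟩
    apply hne2
    have h1 : T (v' : V) - S (v' : V) = w := by
      have := congrArg Subtype.val hv'
      rwa [hΘapp] at this
    rw [← h1]
    exact hpol v₀ ⟨hv₀U, hv₀f⟩ v' v'.2
  obtain ⟨v, hv, hne2⟩ := hex
  have hv0 : v ≠ 0 := by
    rintro rfl
    simp at hne2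
  let ψ : F[X] →ₗ[F] V :=
    { toFun := fun g => aeval T g v
      map_add' := by intro a b; rw [map_add, LinearMap.add_apply]
      map_smul' := by intro c a; rw [map_smul, LinearMap.smul_apply, RingHom.id_apply] }
  have hψ : ∀ g, ψ g = aeval T g v := fun g => rfl
  have hvf : aeval T f v = 0 := hv.2
  have hkill : ∀ g : F[X], f ∣ g → aeval T g v = 0 := by
    rintro g ⟨h, rfl⟩
    rw [mul_comm, hmul, hvf, map_zero]
  set E₀ : Submodule F V := LinearMap.range ψ with hE₀
  have hinvE : Inv T E₀ := by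
    rintro _ ⟨g, rfl⟩
    refine ⟨X * g, ?_⟩
    rw [hψ, hψ, hmul, aeval_X]
  have hE₀A : E₀ ≤ A := by
    rintro _ ⟨g, rfl⟩
    rw [hψ]
    exact aeval_mem hinvA _ hv
  have hvE : v ∈ E₀ := ⟨1, by rw [hψ, map_one, Module.End.one_apply]⟩
  have hTvE : T v ∈ E₀ := hinvE v hvE
  have hf0 : f ≠ 0 := hf.ne_zero
  have hle1 : finrank F E₀ ≤ f.natDegree := by
    let ψ₀ : Polynomial.degreeLT F f.natDegree →ₗ[F] V := ψ.comp (Polynomial.degreeLT F f.natDegree).subtype
    have hrange : LinearMap.range ψ₀ = E₀ := by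
      apply le_antisymm
      · rintro _ ⟨g, rfl⟩
        exact ⟨g.1, rfl⟩
      · rintro _ ⟨g, rfl⟩
        have hdeg : (g % f).degree < (f.natDegree : WithBot ℕ) := by
          rw [← degree_eq_natDegree hf0]
          exact Polynomial.degree_mod_lt g hf0
        refine ⟨⟨g % f, Polynomial.mem_degreeLT.mpr hdeg⟩, ?_⟩
        show aeval T (g % f) v = aeval T g v
        have h2 : f ∣ g - g % f := ⟨g / f, by
          have := EuclideanDomain.div_add_mod g f
          rw [sub_eq_iff_eq_add]
          exact this.symm⟩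
        have h3 := hkill _ h2
        rw [map_sub, LinearMap.sub_apply, sub_eq_zero] at h3
        exact h3.symm
    have h1 := LinearMap.finrank_range_le ψ₀
    rw [hrange, LinearEquiv.finrank_eq (Polynomial.degreeLTEquiv F f.natDegree), finrank_fin_fun] at h1
    exact h1
  have hfdeg : f.natDegree = i := phi_degree hrq f hf ⟨g, hg⟩
  have hE₀le : E₀ ≤ LinearMap.ker (aeval T (Phi F r)) := fun u hu => hle (hE₀A hu).1
  have hdvd : i ∣ finrank F E₀ := by
    have hT' : aeval (T.restrict hinvE) (Phi F r) = 0 := by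
      apply LinearMap.ext
      intro u
      apply Subtype.ext
      rw [aeval_restrict T hinvE]
      exact hE₀le u.2
    have h1 := dvd_finrank_ker (T := T.restrict hinvE) (phi_squarefree hrq) (phi_degree hrq) hi0
    rwa [hT', LinearMap.ker_zero, finrank_top] at h1
  have hE₀ne : E₀ ≠ ⊥ := by
    intro h
    rw [h] at hvE
    exact hv0 ((Submodule.mem_bot F).mp hvE)
  have hpos : 0 < finrank F E₀ := by
    rw [Nat.pos_iff_ne_zero]
    intro h
    exact hE₀ne (Submodule.finrank_eq_zero.mp h)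
  have hdim : finrank F E₀ = i := le_antisymm (by omega) (Nat.le_of_dvd hpos hdvd)
  rcases rad_cases hrq hT halt hiso hE₀le hdim hinvE with h | h
  · exact ⟨E₀, fun u hu => (hE₀A hu).1, h, hinvE, hdim⟩
  · exact absurd (h v hvE (T v) hTvE) hne2

/-- A non-degenerate block of the minimal dimension. -/
theorem exists_block_nd (halt : ∀ v, B v v = 0) (hr2 : r ≠ 2) (hrq : ¬ r ∣ Fintype.card F) (hT : T ^ r = 1) (hiso : ∀ u v, B (T u) (T v) = B u v)
    {U : Submodule F V} (hU : Nd B U) (hinv : Inv T U) (hle : U ≤ LinearMap.ker (aeval T (Phi F r))) (hne : U ≠ ⊥) :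
    ∃ E : Submodule F V, E ≤ U ∧ Nd B E ∧ Inv T E ∧ finrank F E = blockDim F r := by
  classical
  have hi0 := order_pos (r := r) hrq
  by_cases heven : Even (orderOf ((Fintype.card F : ℕ) : ZMod r))
  · obtain ⟨E, h1, h2, h3, h4⟩ := exists_nd_irr halt hr2 hrq hT hiso heven hU hinv hle hne
    refine ⟨E, h1, h2, h3, ?_⟩
    rw [h4]
    unfold blockDim
    rw [if_pos heven]
  · have hT' : aeval (T.restrict hinv) (Phi F r) = 0 := by
      apply LinearMap.ext
      intro u
      apply Subtype.ext
      rw [aeval_restrict T hinv]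
      exact hle u.2
    have hdvd := dvd_finrank_ker (T := T.restrict hinv) (phi_squarefree hrq) (phi_degree hrq) hi0
    rw [hT', LinearMap.ker_zero, finrank_top] at hdvd
    have hposU : 0 < finrank F U := by
      rw [Nat.pos_iff_ne_zero]
      intro h
      exact hne (Submodule.finrank_eq_zero.mp h)
    have hbot : Inv (T.restrict hinv) (⊥ : Submodule F U) := by
      intro w hw
      rw [Submodule.mem_bot] at hw ⊢
      rw [hw, map_zero]
    obtain ⟨E₁, h1, -, -, h4⟩ := chain (T := T.restrict hinv) (phi_squarefree hrq) (phi_degree hrq) hi0 hbot bot_le 1 (by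
      rw [hT', LinearMap.ker_zero, finrank_top, finrank_bot, zero_add, one_mul]
      exact Nat.le_of_dvd hposU hdvd)
    obtain ⟨g1, g2, g3⟩ := push_inv hinv h1
    rw [h4, finrank_bot, zero_add, one_mul] at g3
    have hE₀le : E₁.map U.subtype ≤ LinearMap.ker (aeval T (Phi F r)) := g1.trans hle
    rcases rad_cases hrq hT halt hiso hE₀le g3 g2 with h | h
    · exfalso
      have h5 := Cfsg.Agent.Lib.ClassMax.EluSimForm.even_of_nd halt h
      rw [g3] at h5
      exact heven h5
    · obtain ⟨E, h5, h6, h7, h8⟩ := exists_double halt hrq hT hiso hU hinv g1 g2 h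
      refine ⟨E, h5, h6, h7, ?_⟩
      rw [h8, g3]
      unfold blockDim
      rw [if_neg heven]

/-- Non-degenerate invariant subspaces of all multiples of the block dimension. -/
theorem exists_nd_sub (halt : ∀ v, B v v = 0) (hr2 : r ≠ 2) (hrq : ¬ r ∣ Fintype.card F) (hT : T ^ r = 1) (hiso : ∀ u v, B (T u) (T v) = B u v)
    {U : Submodule F V} (hU : Nd B U) (hinv : Inv T U) (hle : U ≤ LinearMap.ker (aeval T (Phi F r))) (b : ℕ) (hb : blockDim F r * b ≤ finrank F U) :
    ∃ E : Submodule F V, E ≤ U ∧ Nd B E ∧ Inv T E ∧ finrank F E = blockDim F r * b := by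
  classical
  have hc0 := blockDim_pos (F := F) (r := r) hrq
  induction b with
  | zero =>
    refine ⟨⊥, bot_le, ?_, ?_, by simp⟩
    · intro u hu hu0
      exact absurd ((Submodule.mem_bot F).mp hu) hu0
    · intro w hw
      rw [Submodule.mem_bot] at hw ⊢
      rw [hw, map_zero]
  | succ b ih =>
    have h0 : blockDim F r * (b + 1) = blockDim F r * b + blockDim F r := by ring
    rw [h0] at hb ⊢
    obtain ⟨E, h1, h2, h3, h4⟩ := ih (by omega)
    obtain ⟨g1, g2, g3⟩ := nd_orth halt hU h2 h1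
    have hinv' : Inv T (U ⊓ B.orthogonal E) := fun u hu => ⟨hinv u hu.1, inv_orth hT hiso h3 u hu.2⟩
    have hne : U ⊓ B.orthogonal E ≠ ⊥ := by
      intro h
      rw [h, finrank_bot] at g3
      omega
    obtain ⟨E₁, h5, h6, h7, h8⟩ := exists_block_nd halt hr2 hrq hT hiso g1 hinv' (inf_le_left.trans hle) hne
    have horth : ∀ u ∈ E, ∀ v ∈ E₁, B u v = 0 := fun u hu v hv =>
      (LinearMap.BilinForm.mem_orthogonal_iff.mp (h5 hv).2) u hu
    refine ⟨E ⊔ E₁, sup_le h1 (h5.trans inf_le_left), nd_sup halt h2 h6 horth, inv_sup h3 h7, ?_⟩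
    rw [finrank_sup_orth halt h2 horth, h4, h8]

/-- The fixed part and the part without fixed vectors of an invariant subspace. -/
theorem dim_parts (halt : ∀ v, B v v = 0) (hrq : ¬ r ∣ Fintype.card F) (hT : T ^ r = 1) (hiso : ∀ u v, B (T u) (T v) = B u v)
    {U : Submodule F V} (hU : Nd B U) (hinv : Inv T U) :
    finrank F ((U ⊓ LinearMap.ker (T - 1) : Submodule F V)) + finrank F ((U ⊓ LinearMap.ker (aeval T (Phi F r)) : Submodule F V)) = finrank F U := by
  have horth : ∀ u ∈ U ⊓ LinearMap.ker (T - 1), ∀ v ∈ U ⊓ LinearMap.ker (aeval T (Phi F r)), B u v = 0 := by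
    intro u hu v hv
    have hu2 : (T - 1) u = 0 := hu.2
    rw [LinearMap.sub_apply, Module.End.one_apply, sub_eq_zero] at hu2
    exact fixed_orth hrq hT hiso hu2 hv.2
  have h1 := finrank_sup_orth halt (nd_fix_part halt hrq hT hiso hU hinv) horth
  have h2 : (U ⊓ LinearMap.ker (T - 1)) ⊔ (U ⊓ LinearMap.ker (aeval T (Phi F r))) = U := by
    apply le_antisymm
    · exact sup_le inf_le_left inf_le_left
    · intro u hu
      obtain ⟨u₁, u₂, rfl, g1, g2, g3, g4⟩ := split_mem hrq hT hinv hu
      apply Submodule.add_mem_sup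
      · refine ⟨g1, ?_⟩
        show (T - 1) u₁ = 0
        rw [LinearMap.sub_apply, Module.End.one_apply, g2, sub_self]
      · exact ⟨g3, g4⟩
  rw [h2] at h1
  exact h1.symm

/-- One part of the required dimension. -/
theorem exists_part (halt : ∀ v, B v v = 0) (hr2 : r ≠ 2) (hrq : ¬ r ∣ Fintype.card F) (hT : T ^ r = 1) (hiso : ∀ u v, B (T u) (T v) = B u v)
    {U : Submodule F V} (hU : Nd B U) (hinv : Inv T U) {τ a : ℕ} (hdim : finrank F U = τ * a) (hτ : 0 < τ)
    (hc : τ * (a % blockDim F r) < blockDim F r) (hae : Even a) :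
    ∃ D₀ : Submodule F V, D₀ ≤ U ∧ Nd B D₀ ∧ Inv T D₀ ∧ finrank F D₀ = a := by
  classical
  have hc0 := blockDim_pos (F := F) (r := r) hrq
  have hceven := even_blockDim (F := F) (r := r) hrq
  set c := blockDim F r with hcdef
  set U₁ := U ⊓ LinearMap.ker (T - 1) with hU₁
  set U₂ := U ⊓ LinearMap.ker (aeval T (Phi F r)) with hU₂
  have hsum : finrank F U₁ + finrank F U₂ = finrank F U := dim_parts halt hrq hT hiso hU hinv
  have hnd₁ : Nd B U₁ := nd_fix_part halt hrq hT hiso hU hinv
  have hnd₂ : Nd B U₂ := nd_phi_part halt hrq hT hiso hU hinv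
  have hinv₂ : Inv T U₂ := fun u hu => ⟨hinv u hu.1, inv_ker T _ u hu.2⟩
  obtain ⟨s', hs'⟩ : c ∣ finrank F U₂ := blockDim_dvd halt hrq hnd₂ hinv₂ inf_le_right
  have ha := Nat.div_add_mod a c
  set b := a / c with hb
  set ℓ := a % c with hℓ
  set b' := min s' b with hb'
  have hb's : b' ≤ s' := min_le_left _ _
  have hb'b : b' ≤ b := min_le_right _ _
  have hcb' : c * b' ≤ finrank F U₂ := by
    rw [hs']
    exact Nat.mul_le_mul_left _ hb's
  obtain ⟨B₀, h1, h2, h3, h4⟩ := exists_nd_sub halt hr2 hrq hT hiso hnd₂ hinv₂ inf_le_right b' hcb'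
  have hcb'a : c * b' ≤ a := by
    have := Nat.mul_le_mul_left c hb'b
    omega
  have hA : a - c * b' ≤ finrank F U₁ := by
    rcases le_total s' b with hsb | hbs
    · have : b' = s' := min_eq_left hsb
      rw [this]
      rw [this] at hcb'a
      have h5 : a ≤ τ * a := Nat.le_mul_of_pos_left _ hτ
      omega
    · have : b' = b := min_eq_right hbs
      rw [this]
      have h5 : a - c * b = ℓ := by omega
      rw [h5]
      -- reduce modulo `c`
      have h6 : finrank F U₁ + c * s' = τ * ℓ + c * (τ * b) := by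
        have h7 : τ * a = τ * ℓ + c * (τ * b) := by
          calc τ * a = τ * (c * b + ℓ) := by rw [ha]
            _ = _ := by ring
        omega
      have h8 : finrank F U₁ % c = τ * ℓ := by
        have h9 := congrArg (· % c) h6
        simp only [Nat.add_mul_mod_self_left] at h9
        rw [h9, Nat.mod_eq_of_lt hc]
      have h10 : τ * ℓ ≤ finrank F U₁ := by
        rw [← h8]
        exact Nat.mod_le _ _
      have h11 : ℓ ≤ τ * ℓ := Nat.le_mul_of_pos_left _ hτ
      omega
  have hAeven : Even (a - c * b') := by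
    rw [Nat.even_sub hcb'a]
    exact iff_of_true hae (hceven.mul_right _)
  obtain ⟨m, hm⟩ := hAeven
  obtain ⟨A, g1, g2, g3⟩ := exists_nd_even halt hnd₁ (m := m) (by omega)
  have horth : ∀ u ∈ A, ∀ v ∈ B₀, B u v = 0 := by
    intro u hu v hv
    have hu2 : (T - 1) u = 0 := (g1 hu).2
    rw [LinearMap.sub_apply, Module.End.one_apply, sub_eq_zero] at hu2
    exact fixed_orth hrq hT hiso hu2 (h1 hv).2
  have hinvA : Inv T A := by
    intro u hu
    have hu2 : (T - 1) u = 0 := (g1 hu).2
    rw [LinearMap.sub_apply, Module.End.one_apply, sub_eq_zero] at hu2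
    rw [hu2]
    exact hu
  refine ⟨A ⊔ B₀, sup_le (g1.trans inf_le_left) (h1.trans inf_le_left), nd_sup halt g2 h2 horth, inv_sup hinvA h3, ?_⟩
  rw [finrank_sup_orth halt g2 horth, g3, h4]
  show 2 * m + c * b' = a
  omega

/-- The orthogonal invariant decomposition. -/
theorem exists_orth_decomp (halt : ∀ v, B v v = 0) (hr2 : r ≠ 2) (hrq : ¬ r ∣ Fintype.card F) (hT : T ^ r = 1) (hiso : ∀ u v, B (T u) (T v) = B u v)
    {a : ℕ} (hae : Even a) (ha : 0 < a) :
    ∀ (τ : ℕ) (U : Submodule F V), Nd B U → Inv T U → finrank F U = τ * a → τ * (a % blockDim F r) < blockDim F r →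
      ∃ D : Fin τ → Submodule F V, (∀ j, Nd B (D j)) ∧ (∀ j, Inv T (D j)) ∧ (∀ j, finrank F (D j) = a) ∧
        (∀ j j', j ≠ j' → ∀ u ∈ D j, ∀ v ∈ D j', B u v = 0) ∧ iSupIndep D ∧ iSup D = U := by
  classical
  intro τ
  induction τ with
  | zero =>
    intro U _ _ hdim _
    refine ⟨Fin.elim0, fun j => j.elim0, fun j => j.elim0, fun j => j.elim0, fun j => j.elim0, fun j => j.elim0, ?_⟩
    have : U = ⊥ := by
      apply Submodule.finrank_eq_zero.mp
      simpa using hdim
    rw [this]
    simp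
  | succ τ ih =>
    intro U hU hinv hdim hc
    obtain ⟨D₀, h1, h2, h3, h4⟩ := exists_part halt hr2 hrq hT hiso hU hinv hdim (by omega) hc hae
    obtain ⟨g1, g2, g3⟩ := nd_orth halt hU h2 h1
    have hinv' : Inv T (U ⊓ B.orthogonal D₀) := fun u hu => ⟨hinv u hu.1, inv_orth hT hiso h3 u hu.2⟩
    have hdim' : finrank F ((U ⊓ B.orthogonal D₀ : Submodule F V)) = τ * a := by
      have h5 : (τ + 1) * a = τ * a + a := by ring
      omega
    have hc' : τ * (a % blockDim F r) < blockDim F r := by
      have h5 : (τ + 1) * (a % blockDim F r) = τ * (a % blockDim F r) + a % blockDim F r := by ring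
      omega
    obtain ⟨D', d1, d2, d3, d4, d5, d6⟩ := ih _ g1 hinv' hdim' hc'
    have horth : ∀ u ∈ D₀, ∀ v ∈ U ⊓ B.orthogonal D₀, B u v = 0 := fun u hu v hv =>
      (LinearMap.BilinForm.mem_orthogonal_iff.mp hv.2) u hu
    have hdis : Disjoint D₀ (U ⊓ B.orthogonal D₀) := disjoint_of_orth halt h2 horth
    obtain ⟨c1, c2⟩ := cons_decomp hdis d5 d6
    have hle' : ∀ i, D' i ≤ U ⊓ B.orthogonal D₀ := fun i => by
      rw [← d6]
      exact le_iSup D' i
    refine ⟨Fin.cons D₀ D', ?_, ?_, ?_, ?_, c1, ?_⟩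
    · intro j
      refine Fin.cases h2 (fun i => ?_) j
      exact d1 i
    · intro j
      refine Fin.cases h3 (fun i => ?_) j
      exact d2 i
    · intro j
      refine Fin.cases h4 (fun i => ?_) j
      exact d3 i
    · intro j j'
      refine Fin.cases ?_ (fun i => ?_) j
      · refine Fin.cases (fun h => absurd rfl h) (fun i' _ => ?_) j'
        intro u hu v hv
        exact horth u hu v (hle' i' hv)
      · refine Fin.cases (fun _ => ?_) (fun i' hne => ?_) j'
        · intro u hu v hv
          exact orth_symm halt (horth v hv u (hle' i hu))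
        · intro u hu v hv
          exact d4 i i' (fun h => hne (by rw [h])) u hu v hv
    · rw [c2, g2]

end iso

end Cfsg.Agent.Lib.ClassMax.EluSpBlock
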