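import Mathlib
import Cfsg.Agent.Lib.ClassMax.EluSpBlock
import Cfsg.Agent.Lib.ClassMax.SpDecomp
import Cfsg.Agent.Lib.Classical.SpOrder

/-!
# Models of isometries of odd prime order of an alternating form

An isometry of order `r` with prescribed space of fixed vectors, and the count of orthogonal
decompositions of the symplectic space.
-/

set_option autoImplicit false
set_option linter.unusedSimpArgs false
set_option linter.unusedVariables false
set_option linter.unusedSectionVars false

namespace Cfsg.Agent.Lib.ClassMax.EluSpBlock2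

open scoped MatrixGroups
open Module Polynomial Cfsg.Geo Cfsg.Agent.Lib.ClassMax Cfsg.Agent.Lib.ClassMax.ElusiveSp Cfsg.Agent.Lib.ClassMax.EluConj Cfsg.Agent.Lib.ClassMax.EluOrder
  Cfsg.Agent.Lib.ClassMax.EluBlock Cfsg.Agent.Lib.ClassMax.EluFix Cfsg.Agent.Lib.ClassMax.EluImpr Cfsg.Agent.Lib.ClassMax.EluImpr2
  Cfsg.Agent.Lib.ClassMax.EluSpBlock

section std

variable {F V : Type*} [Field F] [Fintype F] [AddCommGroup V] [Module F V] [FiniteDimensional F V] {B : LinearMap.BilinForm F V}

/-- An alternating non-degenerate form is isometric to the standard form. -/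
theorem exists_std_isometry (halt : ∀ v, B v v = 0) (hnd : Nd B ⊤) {m : ℕ} (hm : finrank F V = m + m) :
    ∃ e : (Fin m ⊕ Fin m → F) ≃ₗ[F] V, ∀ u v, B (e u) (e v) = Cfsg.sympForm m F u v := by
  classical
  have hdim : finrank F V = finrank F (Fin (m + m) → F) := by rw [finrank_fin_fun, hm]
  let ε : V ≃ₗ[F] (Fin (m + m) → F) := LinearEquiv.ofFinrankEq _ _ hdim
  let f : (Fin (m + m) → F) → (Fin (m + m) → F) → F := fun u v => B (ε.symm u) (ε.symm v)
  have hf : IsSymplecticForm f := by
    refine ⟨⟨?_, ?_, ?_, ?_⟩, ?_, ?_, ?_⟩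
    · intro x y v
      simp [f]
    · intro c x v
      simp [f]
    · intro v x y
      simp [f]
    · intro c v x
      simp [f]
    · intro v w
      exact skew halt _ _
    · intro v
      exact halt _
    · intro v hv
      have h0 : ε.symm v ≠ 0 := fun h => hv (by simpa using h)
      obtain ⟨w, -, hw⟩ := hnd _ trivial h0
      constructor
      · refine ⟨ε w, ?_⟩
        show B (ε.symm (ε w)) (ε.symm v) ≠ 0
        rw [LinearEquiv.symm_apply_apply, skew halt]
        exact neg_ne_zero.mpr hw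
      · refine ⟨ε w, ?_⟩
        show B (ε.symm v) (ε.symm (ε w)) ≠ 0
        rw [LinearEquiv.symm_apply_apply]
        exact hw
  obtain ⟨e, he⟩ := EluSimForm.exists_isometry hf (m := m) rfl
  exact ⟨e.trans ε.symm, fun u v => he u v⟩

/-- The restricted form on a non-degenerate subspace. -/
theorem nd_restrict {W : Submodule F V} (hW : Nd B W) : Nd (B.restrict W) ⊤ := by
  rintro ⟨u, hu⟩ - h0
  obtain ⟨v, hv, hne⟩ := hW u hu (fun h => h0 (Subtype.ext h))
  exact ⟨⟨v, hv⟩, trivial, hne⟩

end std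

section order

variable {F : Type*} [Field F] [Fintype F]

/-- A prime dividing the order of `q ^ (2m) - 1` gives an element in the symplectic group. -/
theorem exists_order_sp {r : ℕ} [Fact r.Prime] {m : ℕ} (hm : 0 < m) (hi : orderOf ((Fintype.card F : ℕ) : ZMod r) ∣ 2 * m) :
    ∃ y : ↥(Matrix.symplecticGroup (Fin m) F), orderOf y = r := by
  classical
  apply exists_prime_orderOf_dvd_card'
  rw [Cfsg.Agent.Lib.Classical.card_sp rfl m]
  apply Dvd.dvd.mul_left
  have h1 : r ∣ Fintype.card F ^ (2 * (m - 1 + 1)) - 1 := by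
    have h2 : m - 1 + 1 = m := by omega
    rw [h2]
    exact (pow_eq_one_iff_dvd Fintype.card_pos).mp (orderOf_dvd_iff_pow_eq_one.mp hi)
  exact h1.trans (Finset.dvd_prod_of_mem (fun i => Fintype.card F ^ (2 * (i + 1)) - 1) (Finset.mem_range.mpr (by omega)))

/-- A prime dividing the order of the symplectic group. -/
theorem blockDim_le_of_dvd {r : ℕ} [Fact r.Prime] (hrq : ¬ r ∣ Fintype.card F) {d : ℕ} (h : r ∣ Nat.card ↥(Matrix.symplecticGroup (Fin d) F)) :
    blockDim F r ≤ 2 * d := by
  classical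
  have hr : r.Prime := Fact.out
  rw [Cfsg.Agent.Lib.Classical.card_sp rfl d] at h
  have h1 : r ∣ ∏ i ∈ Finset.range d, (Fintype.card F ^ (2 * (i + 1)) - 1) := by
    rcases (hr.dvd_mul).mp h with h2 | h2
    · exact absurd (hr.dvd_of_dvd_pow h2) hrq
    · exact h2
  obtain ⟨j, hj, hj2⟩ := (hr.prime.dvd_finset_prod_iff _).mp h1
  rw [Finset.mem_range] at hj
  have h3 : ((Fintype.card F : ℕ) : ZMod r) ^ (2 * (j + 1)) = 1 := (pow_eq_one_iff_dvd Fintype.card_pos).mpr hj2
  have h4 := orderOf_dvd_of_pow_eq_one h3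
  have h5 : blockDim F r ∣ 2 * (j + 1) := by
    unfold blockDim
    split_ifs with he
    · exact h4
    · have h6 : Nat.Coprime (orderOf ((Fintype.card F : ℕ) : ZMod r)) 2 := by
        rw [Nat.coprime_two_right]
        exact Nat.not_even_iff_odd.mp he
      exact Nat.mul_dvd_mul_left 2 (h6.dvd_of_dvd_mul_left h4)
  have h6 := Nat.le_of_dvd (by omega) h5
  omega

end order

section block

variable {F V : Type*} [Field F] [Fintype F] [AddCommGroup V] [Module F V] [FiniteDimensional F V] {B : LinearMap.BilinForm F V}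
  {r : ℕ} [Fact r.Prime]

/-- An isometry of order `r` without fixed vectors on a space of the block dimension. -/
theorem exists_block_iso (halt : ∀ v, B v v = 0) (hrq : ¬ r ∣ Fintype.card F) (hnd : Nd B ⊤) (hdim : finrank F V = blockDim F r) :
    ∃ y : Module.End F V, y ^ r = 1 ∧ (∀ u v, B (y u) (y v) = B u v) ∧ LinearMap.ker (y - 1) = ⊥ := by
  classical
  have hr : r.Prime := Fact.out
  obtain ⟨m, hm⟩ := even_blockDim (F := F) (r := r) hrq
  have hc0 := blockDim_pos (F := F) (r := r) hrq
  obtain ⟨e, he⟩ := exists_std_isometry halt hnd (m := m) (by omega)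
  obtain ⟨y₀, hy₀⟩ := exists_order_sp (F := F) (r := r) (m := m) (by omega) (by
    have := order_dvd_blockDim (F := F) (r := r)
    rw [hm] at this
    rwa [two_mul])
  set A : Matrix (Fin m ⊕ Fin m) (Fin m ⊕ Fin m) F := y₀.1 with hA
  let y : Module.End F V := (e : (Fin m ⊕ Fin m → F) →ₗ[F] V) ∘ₗ Matrix.toLin' A ∘ₗ (e.symm : V →ₗ[F] (Fin m ⊕ Fin m → F))
  have hy : ∀ v, y v = e (A.mulVec (e.symm v)) := fun v => rfl
  have hk : ∀ (k : ℕ) v, (y ^ k) v = e ((A ^ k).mulVec (e.symm v)) := by
    intro k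
    induction k with
    | zero => intro v; simp
    | succ k ih =>
      intro v
      rw [pow_succ', Module.End.mul_apply, ih, hy, LinearEquiv.symm_apply_apply, pow_succ', Matrix.mulVec_mulVec]
  have hAr : A ^ r = 1 := by
    have h1 : y₀ ^ r = 1 := by rw [← hy₀]; exact pow_orderOf_eq_one y₀
    have h2 := congrArg Subtype.val h1
    simpa using h2
  have hyr : y ^ r = 1 := by
    apply LinearMap.ext
    intro v
    rw [hk, hAr, Matrix.one_mulVec, LinearEquiv.apply_symm_apply]
    rfl
  have hiso : ∀ u v, B (y u) (y v) = B u v := by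
    intro u v
    rw [hy, hy, he]
    have h1 := Cfsg.Agent.Lib.Classical.sp_form y₀ (e.symm u) (e.symm v)
    rw [h1, ← he, LinearEquiv.apply_symm_apply, LinearEquiv.apply_symm_apply]
  refine ⟨y, hyr, hiso, ?_⟩
  have hsum := dim_parts halt hrq hyr hiso hnd (fun _ _ => trivial)
  have hnd₂ := nd_phi_part halt hrq hyr hiso hnd (fun _ _ => trivial)
  have hinv₂ : Inv y (⊤ ⊓ LinearMap.ker (aeval y (Phi F r))) := fun u hu => ⟨trivial, inv_ker y _ u hu.2⟩
  have hdvd := blockDim_dvd halt hrq hnd₂ hinv₂ inf_le_right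
  rw [top_inf_eq, top_inf_eq, finrank_top] at hsum
  rw [top_inf_eq] at hdvd
  rcases Nat.eq_zero_or_pos (finrank F (LinearMap.ker (aeval y (Phi F r)))) with h0 | h0
  · exfalso
    have h1 : finrank F (LinearMap.ker (y - 1)) = finrank F V := by omega
    have h2 : LinearMap.ker (y - 1) = ⊤ := Submodule.eq_top_of_finrank_eq h1
    have h3 : y₀ = 1 := by
      apply Subtype.ext
      show A = 1
      apply Cfsg.Agent.Lib.Classical.mat_ext_mulVec
      intro w
      have h4 : e w ∈ LinearMap.ker (y - 1) := by rw [h2]; trivial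
      rw [LinearMap.mem_ker, LinearMap.sub_apply, Module.End.one_apply, sub_eq_zero, hy, LinearEquiv.symm_apply_apply] at h4
      rw [Matrix.one_mulVec]
      exact e.injective h4
    rw [h3, orderOf_one] at hy₀
    exact hr.one_lt.ne hy₀
  · have h1 := Nat.le_of_dvd h0 hdvd
    have h2 : finrank F (LinearMap.ker (y - 1)) = 0 := by omega
    exact Submodule.finrank_eq_zero.mp h2

end block

section model

variable {F : Type*} [Field F] [Fintype F] {r : ℕ} [Fact r.Prime]

/-- An isometry of order `r` with a prescribed number of fixed dimensions. -/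
theorem exists_model (hrq : ¬ r ∣ Fintype.card F) (s k : ℕ) :
    ∀ (V : Type*) [AddCommGroup V] [Module F V] [FiniteDimensional F V] (B : LinearMap.BilinForm F V), (∀ v, B v v = 0) → Nd B ⊤ →
      finrank F V = blockDim F r * s + k →
      ∃ T : Module.End F V, T ^ r = 1 ∧ (∀ u v, B (T u) (T v) = B u v) ∧ finrank F (LinearMap.ker (T - 1)) = k := by
  classical
  have hr : r.Prime := Fact.out
  induction s with
  | zero =>
    intro V _ _ _ B halt hnd hdim
    refine ⟨1, one_pow _, fun _ _ => rfl, ?_⟩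
    rw [sub_self, LinearMap.ker_zero, finrank_top, hdim]
    simp
  | succ s ih =>
    intro V _ _ _ B halt hnd hdim
    have hc0 := blockDim_pos (F := F) (r := r) hrq
    obtain ⟨m, hm⟩ := even_blockDim (F := F) (r := r) hrq
    have hmul : blockDim F r * (s + 1) = blockDim F r * s + blockDim F r := by ring
    obtain ⟨W, -, hW, hWd⟩ := exists_nd_even halt hnd (m := m) (by
      rw [finrank_top]
      have h1 : 0 ≤ blockDim F r * s := Nat.zero_le _
      omega)
    obtain ⟨g1, g2, g3⟩ := nd_orth halt hnd hW le_top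
    set W' := ⊤ ⊓ B.orthogonal W with hW'
    have hWc : finrank F W = blockDim F r := by omega
    have hW'd : finrank F W' = blockDim F r * s + k := by
      rw [finrank_top] at g3
      omega
    have horth : ∀ u ∈ W, ∀ v ∈ W', B u v = 0 := fun u hu v hv =>
      (LinearMap.BilinForm.mem_orthogonal_iff.mp hv.2) u hu
    have halt₁ : ∀ v : W, (B.restrict W) v v = 0 := fun v => halt _
    have halt₂ : ∀ v : W', (B.restrict W') v v = 0 := fun v => halt _
    obtain ⟨y, y1, y2, y3⟩ := exists_block_iso halt₁ hrq (nd_restrict hW) hWc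
    obtain ⟨T', t1, t2, t3⟩ := ih W' (B.restrict W') halt₂ (nd_restrict g1) hW'd
    have hcompl : IsCompl W W' := by
      refine ⟨disjoint_of_orth halt hW horth, ?_⟩
      rw [codisjoint_iff]
      exact g2
    let φ : (W × W') ≃ₗ[F] V := Submodule.prodEquivOfIsCompl W W' hcompl
    have hφ : ∀ p, φ p = (p.1 : V) + p.2 := fun p => rfl
    let T : Module.End F V := (φ : (W × W') →ₗ[F] V) ∘ₗ (y.prodMap T') ∘ₗ (φ.symm : V →ₗ[F] (W × W'))
    have hT : ∀ v, T v = φ ((y (φ.symm v).1, T' (φ.symm v).2)) := fun v => rfl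
    have hk : ∀ (n : ℕ) p, (T ^ n) (φ p) = φ (((y ^ n) p.1, (T' ^ n) p.2)) := by
      intro n
      induction n with
      | zero => intro p; rfl
      | succ n ih =>
        intro p
        rw [pow_succ', Module.End.mul_apply, ih, hT, LinearEquiv.symm_apply_apply, pow_succ', pow_succ']
        rfl
    refine ⟨T, ?_, ?_, ?_⟩
    · apply LinearMap.ext
      intro v
      obtain ⟨p, rfl⟩ := φ.surjective v
      rw [hk, y1, t1]
      rfl
    · intro u v
      obtain ⟨p, rfl⟩ := φ.surjective u
      obtain ⟨p', rfl⟩ := φ.surjective v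
      rw [hT, hT, LinearEquiv.symm_apply_apply, LinearEquiv.symm_apply_apply, hφ, hφ, hφ, hφ]
      have hform : ∀ (a a' : W) (b b' : W'), B ((a : V) + b) ((a' : V) + b') = B a a' + B b b' := by
        intro a a' b b'
        simp only [map_add, LinearMap.add_apply]
        rw [horth _ a.2 _ b'.2, orth_symm halt (horth _ a'.2 _ b.2)]
        ring
      rw [hform, hform]
      have e1 := y2 p.1 p'.1
      have e2 := t2 p.2 p'.2
      simp only [LinearMap.BilinForm.restrict_apply, LinearMap.domRestrict_apply] at e1 e2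
      rw [e1, e2]
    · -- the kernel corresponds to the kernel of `T'`
      let ψ : (LinearMap.ker (T' - 1)) →ₗ[F] LinearMap.ker (T - 1) :=
        LinearMap.codRestrict _ ((W'.subtype) ∘ₗ (LinearMap.ker (T' - 1)).subtype) (by
          rintro ⟨b, hb⟩
          have hb' : T' b = b := by
            rw [LinearMap.mem_ker, LinearMap.sub_apply, Module.End.one_apply, sub_eq_zero] at hb
            exact hb
          rw [LinearMap.mem_ker, LinearMap.sub_apply, Module.End.one_apply, sub_eq_zero]
          have h1 : ((b : W') : V) = φ (0, b) := by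
            rw [hφ]
            simp
          show T ((b : W') : V) = ((b : W') : V)
          rw [h1, hT, LinearEquiv.symm_apply_apply]
          simp [hb'])
      have hbij : Function.Bijective ψ := by
        constructor
        · rintro ⟨b, hb⟩ ⟨b', hb'⟩ h
          have h1 := congrArg Subtype.val h
          exact Subtype.ext (Subtype.ext h1)
        · rintro ⟨v, hv⟩
          obtain ⟨p, rfl⟩ := φ.surjective v
          rw [LinearMap.mem_ker, LinearMap.sub_apply, Module.End.one_apply, sub_eq_zero, hT, LinearEquiv.symm_apply_apply] at hv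
          have h2 := φ.injective hv
          have h3 : y p.1 = p.1 := congrArg Prod.fst h2
          have h4 : T' p.2 = p.2 := congrArg Prod.snd h2
          have h5 : p.1 = 0 := by
            have : p.1 ∈ LinearMap.ker (y - 1) := by
              rw [LinearMap.mem_ker, LinearMap.sub_apply, Module.End.one_apply, h3, sub_self]
            rw [y3] at this
            exact this
          refine ⟨⟨p.2, by rw [LinearMap.mem_ker, LinearMap.sub_apply, Module.End.one_apply, h4, sub_self]⟩, ?_⟩
          apply Subtype.ext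
          show ((p.2 : W') : V) = φ p
          rw [hφ, h5]
          simp
      rw [← LinearEquiv.finrank_eq (LinearEquiv.ofBijective ψ hbij), t3]

end model

section triv

variable {F V : Type*} [Field F] [Fintype F] [AddCommGroup V] [Module F V] [FiniteDimensional F V] {B : LinearMap.BilinForm F V}

/-- Orthogonal decompositions exist for every even part dimension. -/
theorem exists_orth_decomp_triv (halt : ∀ v, B v v = 0) {a : ℕ} (hae : Even a) :
    ∀ (τ : ℕ) (U : Submodule F V), Nd B U → finrank F U = τ * a →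
      ∃ D : Fin τ → Submodule F V, (∀ j, Nd B (D j)) ∧ (∀ j, finrank F (D j) = a) ∧
        (∀ j j', j ≠ j' → ∀ u ∈ D j, ∀ v ∈ D j', B u v = 0) ∧ iSupIndep D ∧ iSup D = U := by
  classical
  obtain ⟨m, hm⟩ := hae
  intro τ
  induction τ with
  | zero =>
    intro U _ hdim
    refine ⟨Fin.elim0, fun j => j.elim0, fun j => j.elim0, fun j => j.elim0, fun j => j.elim0, ?_⟩
    have : U = ⊥ := by
      apply Submodule.finrank_eq_zero.mp
      simpa using hdim
    rw [this]
    simp
  | succ τ ih =>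
    intro U hU hdim
    have h5 : (τ + 1) * a = τ * a + a := by ring
    obtain ⟨D₀, h1, h2, h4⟩ := exists_nd_even halt hU (m := m) (by omega)
    have h4' : finrank F D₀ = a := by omega
    obtain ⟨g1, g2, g3⟩ := nd_orth halt hU h2 h1
    have hdim' : finrank F ((U ⊓ B.orthogonal D₀ : Submodule F V)) = τ * a := by omega
    obtain ⟨D', d1, d3, d4, d5, d6⟩ := ih _ g1 hdim'
    have horth : ∀ u ∈ D₀, ∀ v ∈ U ⊓ B.orthogonal D₀, B u v = 0 := fun u hu v hv =>
      (LinearMap.BilinForm.mem_orthogonal_iff.mp hv.2) u hu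
    have hdis : Disjoint D₀ (U ⊓ B.orthogonal D₀) := disjoint_of_orth halt h2 horth
    obtain ⟨c1, c2⟩ := cons_decomp hdis d5 d6
    have hle' : ∀ i, D' i ≤ U ⊓ B.orthogonal D₀ := fun i => by
      rw [← d6]
      exact le_iSup D' i
    refine ⟨Fin.cons D₀ D', ?_, ?_, ?_, c1, ?_⟩
    · intro j
      refine Fin.cases h2 (fun i => ?_) j
      exact d1 i
    · intro j
      refine Fin.cases h4' (fun i => ?_) j
      exact d3 i
    · intro j j'
      refine Fin.cases ?_ (fun i => ?_) j
      · refine Fin.cases (fun h => absurd rfl h) (fun i' _ => ?_) j'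
        intro u hu v hv
        exact horth u hu v (hle' i' hv)
      · refine Fin.cases (fun _ => ?_) (fun i' hne => ?_) j'
        · intro u hu v hv
          exact orth_symm halt (horth v hv u (hle' i hu))
        · intro u hu v hv
          exact d4 i i' (fun h => hne (by rw [h])) u hu v hv
    · rw [c2, g2]

end triv

section count

variable {F : Type*} [Field F] {d a t : ℕ}

/-- Orthogonal decompositions of the symplectic space into non-degenerate parts. -/
abbrev OD (F : Type*) [Field F] (d a : ℕ) {t : ℕ} (D : Fin t → Submodule F (Fin d ⊕ Fin d → F)) : Prop :=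
  IsMDecomposition a D ∧ (∀ j, ∀ u ∈ D j, u ≠ 0 → ∃ v ∈ D j, Cfsg.sympForm d F u v ≠ 0) ∧
    (∀ j j', j ≠ j' → ∀ u ∈ D j, ∀ v ∈ D j', Cfsg.sympForm d F u v = 0)

/-- The form as a bilinear form. -/
noncomputable abbrev B₀ (F : Type*) [Field F] (d : ℕ) : LinearMap.BilinForm F (Fin d ⊕ Fin d → F) :=
  bilinOf (Cfsg.sympForm d F) sympForm_isSymplectic.bilinear

theorem halt₀ (v : Fin d ⊕ Fin d → F) : B₀ F d v v = 0 := sympForm_isSymplectic.alternating v

theorem nd₀ : Nd (B₀ F d) ⊤ := by
  intro u _ hu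
  obtain ⟨-, y, hy⟩ := (sympForm_isSymplectic (m := d) (F := F)).nondegenerate u hu
  exact ⟨y, trivial, hy⟩

theorem exists_iso_of_OD {D D' : Fin t → Submodule F (Fin d ⊕ Fin d → F)} (hD : OD F d a D) (hD' : OD F d a D') :
    ∃ g : (Fin d ⊕ Fin d → F) ≃ₗ[F] (Fin d ⊕ Fin d → F), (∀ u v, Cfsg.sympForm d F (g u) (g v) = Cfsg.sympForm d F u v) ∧
      ∀ j, (D j).map (g : (Fin d ⊕ Fin d → F) →ₗ[F] (Fin d ⊕ Fin d → F)) = D' j := by
  classical
  have hf := sympForm_isSymplectic (m := d) (F := F)
  have key : ∀ D : Fin t → Submodule F (Fin d ⊕ Fin d → F), OD F d a D → ∀ i, ∃ b : Module.Basis (Fin (a / 2) ⊕ Fin (a / 2)) F (D i),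
      ∀ x y, Cfsg.sympForm d F (b x : Fin d ⊕ Fin d → F) (b y) = SpDecomp.Jval F x y := by
    intro D hD i
    have hnd : IsNondegenerateOn (Cfsg.sympForm d F) (D i) := by
      intro u hu h0
      obtain ⟨v, hv, hne⟩ := hD.2.1 i u hu h0
      refine ⟨⟨v, hv, ?_⟩, ⟨v, hv, hne⟩⟩
      rw [hf.skew]
      exact neg_ne_zero.mpr hne
    obtain ⟨n, b, hb⟩ := SpDecomp.exists_symp_basis hnd
    have h1 := Module.finrank_eq_card_basis b
    rw [hD.1.finrank_eq i] at h1
    simp only [Fintype.card_sum, Fintype.card_fin] at h1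
    have h2 : n = a / 2 := by omega
    subst h2
    exact ⟨b, hb⟩
  choose b hb using key D hD
  choose b' hb' using key D' hD'
  have hI := DirectSum.isInternal_submodule_of_iSupIndep_of_iSup_eq_top hD.1.indep hD.1.iSup_eq_top
  have hI' := DirectSum.isInternal_submodule_of_iSupIndep_of_iSup_eq_top hD'.1.indep hD'.1.iSup_eq_top
  set E := hI.collectedBasis b with hE
  set E' := hI'.collectedBasis b' with hE'
  have hEv : ∀ (i : Fin t) x, E ⟨i, x⟩ = (b i x : Fin d ⊕ Fin d → F) := by
    intro i x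
    rw [hE, DirectSum.IsInternal.collectedBasis_coe]
  have hEv' : ∀ (i : Fin t) x, E' ⟨i, x⟩ = (b' i x : Fin d ⊕ Fin d → F) := by
    intro i x
    rw [hE', DirectSum.IsInternal.collectedBasis_coe]
  set g := E.equiv E' (Equiv.refl _) with hg
  have hgb : ∀ (i : Fin t) x, g (b i x : Fin d ⊕ Fin d → F) = (b' i x : Fin d ⊕ Fin d → F) := by
    intro i x
    rw [← hEv, hg, Module.Basis.equiv_apply, ← hEv']
    rfl
  have hval : ∀ (i j : Fin t) (x y : Fin (a / 2) ⊕ Fin (a / 2)),
      Cfsg.sympForm d F (b i x : Fin d ⊕ Fin d → F) (b j y) = if i = j then SpDecomp.Jval F x y else 0 := by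
    intro i j x y
    by_cases hij : i = j
    · subst hij
      rw [if_pos rfl, hb]
    · rw [if_neg hij]
      exact hD.2.2 i j hij _ (b i x).2 _ (b j y).2
  have hval' : ∀ (i j : Fin t) (x y : Fin (a / 2) ⊕ Fin (a / 2)),
      Cfsg.sympForm d F (b' i x : Fin d ⊕ Fin d → F) (b' j y) = if i = j then SpDecomp.Jval F x y else 0 := by
    intro i j x y
    by_cases hij : i = j
    · subst hij
      rw [if_pos rfl, hb']
    · rw [if_neg hij]
      exact hD'.2.2 i j hij _ (b' i x).2 _ (b' j y).2
  have hiso : ∀ u v, Cfsg.sympForm d F (g u) (g v) = Cfsg.sympForm d F u v := by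
    have h1 : ((B₀ F d).compl₁₂ (g : (Fin d ⊕ Fin d → F) →ₗ[F] (Fin d ⊕ Fin d → F))
        (g : (Fin d ⊕ Fin d → F) →ₗ[F] (Fin d ⊕ Fin d → F))) = B₀ F d := by
      apply LinearMap.ext_basis E E
      rintro ⟨i, x⟩ ⟨j, y⟩
      simp only [LinearMap.compl₁₂_apply, bilinOf_apply, LinearEquiv.coe_coe]
      rw [hEv, hEv, hgb, hgb, hval, hval']
    intro u v
    have := LinearMap.congr_fun₂ h1 u v
    simpa using this
  refine ⟨g, hiso, fun j => ?_⟩
  have hspan : D j = Submodule.span F (Set.range fun x => (b j x : Fin d ⊕ Fin d → F)) := by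
    have h1 := congrArg (Submodule.map (D j).subtype) (b j).span_eq
    rw [Submodule.map_span, Submodule.map_top, Submodule.range_subtype, ← Set.range_comp] at h1
    exact h1.symm
  apply Submodule.eq_of_le_of_finrank_eq
  · rw [hspan, Submodule.map_span, Submodule.span_le]
    rintro _ ⟨_, ⟨x, rfl⟩, rfl⟩
    show g (b j x : Fin d ⊕ Fin d → F) ∈ D' j
    rw [hgb]
    exact (b' j x).2
  · rw [LinearEquiv.finrank_map_eq g, hD.1.finrank_eq, hD'.1.finrank_eq]

theorem map_OD {D : Fin t → Submodule F (Fin d ⊕ Fin d → F)} (hD : OD F d a D) (g : (Fin d ⊕ Fin d → F) ≃ₗ[F] (Fin d ⊕ Fin d → F))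
    (hg : ∀ u v, Cfsg.sympForm d F (g u) (g v) = Cfsg.sympForm d F u v) :
    OD F d a (fun j => (D j).map (g : (Fin d ⊕ Fin d → F) →ₗ[F] (Fin d ⊕ Fin d → F))) := by
  refine ⟨⟨hD.1.two_le, hD.1.pos, ?_, ?_, ?_⟩, ?_, ?_⟩
  · intro j
    rw [LinearEquiv.finrank_map_eq g, hD.1.finrank_eq]
  · exact hD.1.indep.map_orderIso (Submodule.orderIsoMapComap g)
  · rw [← Submodule.map_iSup, hD.1.iSup_eq_top, Submodule.map_top]
    exact LinearEquiv.range g
  · rintro j _ ⟨w, hw, rfl⟩ h0
    have hw0 : w ≠ 0 := by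
      rintro rfl
      exact h0 (map_zero _)
    obtain ⟨v, hv, hne⟩ := hD.2.1 j w hw hw0
    refine ⟨g v, Submodule.mem_map_of_mem hv, ?_⟩
    show Cfsg.sympForm d F (g w) (g v) ≠ 0
    rw [hg]
    exact hne
  · rintro j j' hj _ ⟨w, hw, rfl⟩ _ ⟨w', hw', rfl⟩
    show Cfsg.sympForm d F (g w) (g w') = 0
    rw [hg]
    exact hD.2.2 j j' hj w hw w' hw'

/-- The permutations act freely. -/
theorem factorial_dvd_OD [Fintype F] : t.factorial ∣ Nat.card {D : Fin t → Submodule F (Fin d ⊕ Fin d → F) // OD F d a D} := by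
  classical
  let X := {D : Fin t → Submodule F (Fin d ⊕ Fin d → F) // OD F d a D}
  let G := Equiv.Perm (Fin t)
  let act : MulAction G X :=
    { smul := fun σ D => ⟨fun j => D.1 (σ⁻¹ j), by
        refine ⟨⟨D.2.1.two_le, D.2.1.pos, fun j => D.2.1.finrank_eq _, D.2.1.indep.comp (σ⁻¹).injective, ?_⟩, fun j => D.2.2.1 _, fun j j' hj => D.2.2.2 _ _ (fun h => hj ((σ⁻¹).injective h))⟩
        have := (σ⁻¹ : Equiv.Perm (Fin t)).iSup_comp (g := D.1)
        rw [← D.2.1.iSup_eq_top, ← this]⟩
      one_smul := fun D => rfl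
      mul_smul := fun σ τ D => by
        apply Subtype.ext
        funext j
        show D.1 ((σ * τ)⁻¹ j) = D.1 (τ⁻¹ (σ⁻¹ j))
        rw [_root_.mul_inv_rev, Equiv.Perm.mul_apply] }
  have hstab : ∀ x : X, MulAction.stabilizer G x = ⊥ := by
    intro x
    rw [eq_bot_iff]
    intro σ hσ
    rw [MulAction.mem_stabilizer_iff] at hσ
    rw [Subgroup.mem_bot]
    have hne : ∀ j, x.1 j ≠ ⊥ := by
      intro j h
      have h1 := x.2.1.finrank_eq j
      rw [h, finrank_bot] at h1
      have := x.2.1.pos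
      omega
    have hinj := x.2.1.indep.injective hne
    apply Equiv.ext
    intro j
    have h1 : x.1 (σ⁻¹ (σ j)) = x.1 (σ j) := congrFun (congrArg Subtype.val hσ) (σ j)
    have h2 := hinj h1
    have h3 : σ⁻¹ (σ j) = j := Equiv.symm_apply_apply σ j
    rw [h3] at h2
    exact h2.symm
  haveI : Fintype (MulAction.orbitRel.Quotient G X) := Fintype.ofFinite _
  rw [show Nat.card {D : Fin t → Submodule F (Fin d ⊕ Fin d → F) // OD F d a D} = Nat.card X from rfl,
    Nat.card_congr (MulAction.selfEquivSigmaOrbitsQuotientStabilizer G X), Nat.card_sigma]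
  apply Finset.dvd_sum
  intro ω _
  rw [hstab, ← Subgroup.index_eq_card, Subgroup.index_bot, Nat.card_perm]
  simp

/-- The number of orthogonal decompositions divides the order of the symplectic group. -/
theorem card_OD_dvd [Fintype F] {D₀ : Fin t → Submodule F (Fin d ⊕ Fin d → F)} (hD₀ : OD F d a D₀) :
    Nat.card {D : Fin t → Submodule F (Fin d ⊕ Fin d → F) // OD F d a D} ∣ Nat.card ↥(Matrix.symplecticGroup (Fin d) F) := by
  classical
  rw [Nat.card_congr (Cfsg.Agent.Lib.Classical.spEquivPres (F := F) d).toEquiv]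
  let G := ↥(Cfsg.Agent.Lib.Classical.pres (Cfsg.sympForm d F))
  let act : MulAction G (Fin t → Submodule F (Fin d ⊕ Fin d → F)) :=
    { smul := fun g D j => (D j).map (g.1 : (Fin d ⊕ Fin d → F) →ₗ[F] (Fin d ⊕ Fin d → F))
      one_smul := by
        intro D
        funext j
        show (D j).map (((1 : G) : (Fin d ⊕ Fin d → F) ≃ₗ[F] (Fin d ⊕ Fin d → F)) : (Fin d ⊕ Fin d → F) →ₗ[F] (Fin d ⊕ Fin d → F)) = D j
        apply Submodule.ext
        intro v
        simp
      mul_smul := by
        intro g h D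
        funext j
        show (D j).map (((g * h : G) : (Fin d ⊕ Fin d → F) ≃ₗ[F] (Fin d ⊕ Fin d → F)) : (Fin d ⊕ Fin d → F) →ₗ[F] (Fin d ⊕ Fin d → F)) = ((D j).map (h.1 : (Fin d ⊕ Fin d → F) →ₗ[F] (Fin d ⊕ Fin d → F))).map (g.1 : (Fin d ⊕ Fin d → F) →ₗ[F] (Fin d ⊕ Fin d → F))
        rw [← Submodule.map_comp]
        rfl }
  have hset : {D : Fin t → Submodule F (Fin d ⊕ Fin d → F) | OD F d a D} = MulAction.orbit G D₀ := by
    ext D
    constructor
    · intro hD
      obtain ⟨g, hg, hmap⟩ := exists_iso_of_OD hD₀ hD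
      refine ⟨⟨g, hg⟩, ?_⟩
      funext j
      exact hmap j
    · rintro ⟨g, rfl⟩
      exact map_OD hD₀ g.1 g.2
  have h1 : Nat.card {D : Fin t → Submodule F (Fin d ⊕ Fin d → F) // OD F d a D} = (MulAction.stabilizer G D₀).index := by
    rw [MulAction.index_stabilizer, ← hset]
    exact Nat.card_coe_set_eq _
  rw [h1]
  exact Subgroup.index_dvd_card _

/-- Orthogonal decompositions exist. -/
theorem exists_OD [Fintype F] (hat : 2 * d = a * t) (ha : 2 ≤ a) (hae : Even a) (ht : 2 ≤ t) :
    ∃ D : Fin t → Submodule F (Fin d ⊕ Fin d → F), OD F d a D := by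
  have hdim : finrank F (⊤ : Submodule F (Fin d ⊕ Fin d → F)) = t * a := by
    rw [finrank_top, finrank_pi]
    simp only [Fintype.card_sum, Fintype.card_fin]
    rw [mul_comm t a, ← hat]
    ring
  obtain ⟨D, h1, h3, h4, h5, h6⟩ := exists_orth_decomp_triv (B := B₀ F d) halt₀ hae t ⊤ nd₀ hdim
  exact ⟨D, ⟨ht, by omega, h3, h5, h6⟩, h1, h4⟩

/-- A prime dividing the number of decompositions. -/
theorem blockDim_le_of_dvd_count [Fintype F] {r : ℕ} [Fact r.Prime] (hrq : ¬ r ∣ Fintype.card F) (hat : 2 * d = a * t) (ha : 2 ≤ a) (hae : Even a) (ht : 2 ≤ t)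
    (hΩ : r ∣ Nat.card {D : Fin t → Submodule F (Fin d ⊕ Fin d → F) // OD F d a D} / t.factorial) : blockDim F r ≤ 2 * d := by
  obtain ⟨D₀, hD₀⟩ := exists_OD (F := F) hat ha hae ht
  exact blockDim_le_of_dvd hrq ((hΩ.trans (Nat.div_dvd_of_dvd factorial_dvd_OD)).trans (card_OD_dvd hD₀))

/-- A prescribed isometry on the standard space. -/
theorem exists_iso_model [Fintype F] {r : ℕ} [Fact r.Prime] (hrq : ¬ r ∣ Fintype.card F) {s k : ℕ} (h : 2 * d = blockDim F r * s + k) :
    ∃ T : Module.End F (Fin d ⊕ Fin d → F), T ^ r = 1 ∧ (∀ u v, Cfsg.sympForm d F (T u) (T v) = Cfsg.sympForm d F u v) ∧ finrank F (LinearMap.ker (T - 1)) = k := by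
  refine exists_model hrq s k _ (B₀ F d) halt₀ nd₀ ?_
  rw [finrank_pi]
  simp only [Fintype.card_sum, Fintype.card_fin]
  rw [← h]
  ring

/-- An isometry as a symplectic matrix. -/
theorem exists_sp_of_iso (T : Module.End F (Fin d ⊕ Fin d → F)) (hiso : ∀ u v, Cfsg.sympForm d F (T u) (T v) = Cfsg.sympForm d F u v) :
    ∃ x : ↥(Matrix.symplecticGroup (Fin d) F), Matrix.toLin' x.1 = T := by
  refine ⟨⟨LinearMap.toMatrix' T, Cfsg.Agent.Lib.Classical.mem_sp_of_preserves ?_⟩, Matrix.toLin'_toMatrix' T⟩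
  intro u v
  rw [LinearMap.toMatrix'_mulVec, LinearMap.toMatrix'_mulVec]
  exact hiso u v

end count

end Cfsg.Agent.Lib.ClassMax.EluSpBlock2
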