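import Mathlib
import Cfsg.Agent.Lib.ClassMax.OmegaStd
import Cfsg.Agent.Lib.ClassMax.EluSpBlock2
import Cfsg.Agent.Lib.Classical.OrthMinus
import Cfsg.Agent.Lib.Classical.OrthIndex
import Cfsg.Agent.Lib.Classical.QuadCount

/-!
# Non-singular lines in characteristic two

Count of non-singular lines, involutions fixing no non-singular line, and elements of odd prime order without
fixed vectors in the orthogonal groups.
-/

set_option autoImplicit false
set_option linter.unusedSimpArgs false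
set_option linter.unusedVariables false
set_option linter.unusedSectionVars false

namespace Cfsg.Agent.Lib.ClassMax.EluOne

open scoped MatrixGroups
open Module Polynomial Matrix Cfsg.Geo Cfsg.Agent.Lib.ClassMax Cfsg.Agent.Lib.ClassMax.ElusiveSp Cfsg.Agent.Lib.ClassMax.EluConj Cfsg.Agent.Lib.ClassMax.EluOrder
  Cfsg.Agent.Lib.ClassMax.EluBlock Cfsg.Agent.Lib.ClassMax.EluFix Cfsg.Agent.Lib.ClassMax.EluImpr Cfsg.Agent.Lib.ClassMax.EluImpr2
  Cfsg.Agent.Lib.ClassMax.EluSpBlock Cfsg.Agent.Lib.ClassMax.EluSpBlock2 Cfsg.Agent.Lib.ClassMax.QuadOver Cfsg.Agent.Lib.ClassMax.OmegaCore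

section lines

variable {F : Type*} [Field F] [Fintype F]

/-- The number of non-singular lines. -/
theorem card_nonsing_lines {V : Type*} [AddCommGroup V] [Module F V] [Finite V] (Q : V → F) (hsmul : ∀ (c : F) v, Q (c • v) = c ^ 2 * Q v) :
    Nat.card {W : Submodule F V // finrank F W = 1 ∧ ∃ v ∈ W, Q v ≠ 0} * (Fintype.card F - 1) = Nat.card {v : V // Q v ≠ 0} := by
  classical
  haveI : Fintype V := Fintype.ofFinite V
  haveI : FiniteDimensional F V := Module.Finite.of_finite
  have hQ0 : Q 0 = 0 := by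
    have := hsmul 0 0
    simpa using this
  have hspan : ∀ v : V, Q v ≠ 0 → finrank F (Submodule.span F {v}) = 1 ∧ ∃ w ∈ Submodule.span F {v}, Q w ≠ 0 := by
    intro v hv
    have hv0 : v ≠ 0 := by
      rintro rfl
      exact hv hQ0
    exact ⟨finrank_span_singleton hv0, v, Submodule.mem_span_singleton_self v, hv⟩
  let f : {v : V // Q v ≠ 0} → {W : Submodule F V // finrank F W = 1 ∧ ∃ v ∈ W, Q v ≠ 0} := fun v => ⟨Submodule.span F {v.1}, hspan v.1 v.2⟩
  have hfib : ∀ W, Nat.card {v // f v = W} = Fintype.card F - 1 := by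
    rintro ⟨W₀, h1, u₀, hu₀, hne⟩
    have hu0 : u₀ ≠ 0 := by
      rintro rfl
      exact hne hQ0
    have hsp : ∀ w ∈ W₀, w ≠ 0 → Submodule.span F {w} = W₀ := by
      intro w hw hw0
      apply Submodule.eq_of_le_of_finrank_eq
      · rw [Submodule.span_singleton_le_iff_mem]
        exact hw
      · rw [finrank_span_singleton hw0, h1]
    have hQw : ∀ w ∈ W₀, w ≠ 0 → Q w ≠ 0 := by
      intro w hw hw0
      have h2 : w ∈ Submodule.span F {u₀} := by
        rw [hsp u₀ hu₀ hu0]
        exact hw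
      obtain ⟨c, rfl⟩ := Submodule.mem_span_singleton.mp h2
      have hc : c ≠ 0 := by
        rintro rfl
        exact hw0 (zero_smul _ _)
      rw [hsmul]
      exact mul_ne_zero (pow_ne_zero _ hc) hne
    let e : {v // f v = ⟨W₀, h1, u₀, hu₀, hne⟩} ≃ {w : W₀ // w ≠ 0} :=
      { toFun := fun v => ⟨⟨v.1.1, by
            have h3 : Submodule.span F {v.1.1} = W₀ := congrArg Subtype.val v.2
            exact h3.le (Submodule.mem_span_singleton_self _)⟩, fun h => by
            have h3 : v.1.1 = 0 := congrArg Subtype.val h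
            exact v.1.2 (by rw [h3]; exact hQ0)⟩
        invFun := fun w => ⟨⟨w.1.1, hQw _ w.1.2 (fun h => w.2 (Subtype.ext h))⟩, Subtype.ext (hsp _ w.1.2 (fun h => w.2 (Subtype.ext h)))⟩
        left_inv := fun v => rfl
        right_inv := fun w => rfl }
    rw [Nat.card_congr e, Nat.card_eq_fintype_card]
    have h4 : Fintype.card {w : W₀ // w ≠ 0} = Fintype.card W₀ - 1 := by
      rw [Fintype.card_subtype_compl, Fintype.card_subtype_eq]
    rw [h4, Module.card_eq_pow_finrank (K := F) (V := W₀), h1, pow_one]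
  rw [Nat.card_congr (Equiv.sigmaFiberEquiv f).symm, Nat.card_sigma]
  simp only [hfib, Finset.sum_const, Finset.card_univ, smul_eq_mul, Nat.card_eq_fintype_card]

theorem card_compl_add {V : Type*} [Finite V] (p : V → Prop) : Nat.card {v // ¬ p v} + Nat.card {v // p v} = Nat.card V := by
  classical
  haveI : Fintype V := Fintype.ofFinite V
  rw [← Nat.card_congr (Equiv.sumCompl p), Nat.card_sum, add_comm]

theorem arith_plus {q t N A Z : ℕ} (hq : 1 < q) (ht : 0 < t) (h1 : N * (q - 1) = A) (h2 : A + Z = q ^ 2 * t ^ 2) (h3 : Z + t = q * t ^ 2 + q * t) :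
    N = t * (q * t - 1) := by
  obtain ⟨a, rfl⟩ : ∃ a, q = a + 1 := ⟨q - 1, by omega⟩
  have ha : 0 < a := by omega
  simp only [Nat.add_sub_cancel] at h1
  have h4 : 1 ≤ (a + 1) * t := Nat.mul_pos (by omega) ht
  apply Nat.eq_of_mul_eq_mul_right ha
  zify [h4] at h1 h2 h3 ⊢
  linear_combination h1 + h2 - h3

theorem arith_minus {q t N A Z : ℕ} (hq : 1 < q) (ht : 0 < t) (h1 : N * (q - 1) = A) (h2 : A + Z = q ^ 2 * t ^ 2) (h3 : Z + q * t = q * t ^ 2 + t) :
    N = t * (q * t + 1) := by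
  obtain ⟨a, rfl⟩ : ∃ a, q = a + 1 := ⟨q - 1, by omega⟩
  have ha : 0 < a := by omega
  simp only [Nat.add_sub_cancel] at h1
  apply Nat.eq_of_mul_eq_mul_right ha
  zify at h1 h2 h3 ⊢
  linear_combination h1 + h2 - h3

/-- The number of non-singular lines, plus type. -/
theorem count_plus (d : ℕ) (hd : 1 ≤ d) :
    Nat.card {W : Submodule F (Fin d ⊕ Fin d → F) // finrank F W = 1 ∧ ∃ v ∈ W, Cfsg.quadFormPlus d F v ≠ 0} = Fintype.card F ^ (d - 1) * (Fintype.card F ^ d - 1) := by
  classical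
  obtain ⟨k, rfl⟩ : ∃ k, d = k + 1 := ⟨d - 1, by omega⟩
  have hq1 : 1 < Fintype.card F := Fintype.one_lt_card
  have h1 := card_nonsing_lines (F := F) (Cfsg.quadFormPlus (k + 1) F) (fun c v => (isNondeg_of_NDQ (Cfsg.Agent.Lib.Classical.ndq_plus (F := F) (k + 1))).smul c v)
  have h2 := card_compl_add (fun v : Fin (k + 1) ⊕ Fin (k + 1) → F => Cfsg.quadFormPlus (k + 1) F v = 0)
  have h3 := Cfsg.Agent.Lib.Classical.card_zeros_plus (F := F) rfl (k + 1) (by omega)
  have h4 := Cfsg.Agent.Lib.Classical.card_V_hyp (F := F) rfl (k + 1)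
  have e1 : 2 * (k + 1) - 1 = 2 * k + 1 := by omega
  have e2 : k + 1 - 1 = k := rfl
  rw [e1, e2] at h3
  generalize Fintype.card F = q at *
  have ht : 0 < q ^ k := pow_pos (by omega) _
  have h5 : q ^ k ≤ q ^ (k + 1) := Nat.pow_le_pow_right (by omega) (by omega)
  have h6 := arith_plus (t := q ^ k) hq1 ht h1 (by
    show Nat.card {v // ¬ Cfsg.quadFormPlus (k + 1) F v = 0} + _ = _
    rw [h2, h4]
    ring) (Z := Nat.card {v : Fin (k + 1) ⊕ Fin (k + 1) → F // Cfsg.quadFormPlus (k + 1) F v = 0}) (by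
    rw [h3]
    have e3 : q ^ (2 * k + 1) = q * (q ^ k) ^ 2 := by ring
    have e4 : q ^ (k + 1) = q * q ^ k := by ring
    rw [← e3, ← e4]
    omega)
  rw [e2, h6]
  congr 2
  ring

/-- The number of non-singular lines, minus type. -/
theorem count_minus (d : ℕ) (hd : 1 ≤ d) (a b : F) (hab : ∀ x y : F, x ^ 2 + a * x * y + b * y ^ 2 = 0 → x = 0 ∧ y = 0) :
    Nat.card {W : Submodule F ((Fin (d - 1) ⊕ Fin (d - 1)) ⊕ Fin 2 → F) // finrank F W = 1 ∧ ∃ v ∈ W, Cfsg.quadFormMinus (d - 1) F a b v ≠ 0} = Fintype.card F ^ (d - 1) * (Fintype.card F ^ d + 1) := by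
  classical
  obtain ⟨k, rfl⟩ : ∃ k, d = k + 1 := ⟨d - 1, by omega⟩
  have hq1 : 1 < Fintype.card F := Fintype.one_lt_card
  have e2 : k + 1 - 1 = k := rfl
  have h3 := Cfsg.Agent.Lib.Classical.card_zeros_minus (F := F) rfl (k + 1) (by omega) a b hab
  have e1 : 2 * (k + 1) - 1 = 2 * k + 1 := by omega
  rw [e1] at h3
  change Nat.card {W : Submodule F ((Fin k ⊕ Fin k) ⊕ Fin 2 → F) // finrank F W = 1 ∧ ∃ v ∈ W, Cfsg.quadFormMinus k F a b v ≠ 0} = _
  change Nat.card {v : (Fin k ⊕ Fin k) ⊕ Fin 2 → F // Cfsg.quadFormMinus k F a b v = 0} = Fintype.card F ^ (2 * k + 1) + Fintype.card F ^ k - Fintype.card F ^ (k + 1) at h3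
  have h1 := card_nonsing_lines (F := F) (Cfsg.quadFormMinus k F a b) (fun c v => (isNondeg_of_NDQ (Cfsg.Agent.Lib.Classical.ndq_minus (F := F) a b hab k)).smul c v)
  have h2 := card_compl_add (fun v : (Fin k ⊕ Fin k) ⊕ Fin 2 → F => Cfsg.quadFormMinus k F a b v = 0)
  have h4 := Cfsg.Agent.Lib.Classical.card_V_minus (F := F) rfl k
  generalize Fintype.card F = q at *
  have ht : 0 < q ^ k := pow_pos (by omega) _
  have e3 : q ^ (2 * k + 1) = q * (q ^ k) ^ 2 := by ring
  have e4 : q ^ (k + 1) = q * q ^ k := by ring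
  have h5 : q * q ^ k ≤ q * (q ^ k) ^ 2 := Nat.mul_le_mul_left _ (by nlinarith)
  have h6 := arith_minus (t := q ^ k) hq1 ht h1 (by
    show Nat.card {v // ¬ Cfsg.quadFormMinus k F a b v = 0} + _ = _
    rw [h2, h4]
    ring) (Z := Nat.card {v : (Fin k ⊕ Fin k) ⊕ Fin 2 → F // Cfsg.quadFormMinus k F a b v = 0}) (by
    rw [h3, e3, e4]
    omega)
  rw [e2, h6]
  congr 2
  ring

end lines

section invol

variable {ι : Type} [Fintype ι] [DecidableEq ι] {F : Type*} [Field F] [Fintype F] {Q : (ι → F) → F}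

local notation "BB" => QuadraticMap.polar Q

theorem ts_finrank_le (hQ : IsNondegenerateQuadraticForm Q) {d : ℕ} (hn : Fintype.card ι = 2 * d) {W : Submodule F (ι → F)} (hW : ∀ v ∈ W, Q v = 0) : finrank F W ≤ d := by
  have hnd := bilinOf_nondegenerate hQ.polar_bilinear hQ.nondegenerate
  have h1 : W ≤ (bilinOf _ hQ.polar_bilinear).orthogonal W := by
    intro u hu
    rw [LinearMap.BilinForm.mem_orthogonal_iff]
    intro v hv
    show QuadraticMap.polar Q v u = 0
    rw [QuadraticMap.polar, hW _ (W.add_mem hv hu), hW _ hv, hW _ hu]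
    simp
  have h2 := Submodule.finrank_mono h1
  have h3 := LinearMap.BilinForm.finrank_orthogonal hnd W
  rw [finrank_fintype_fun_eq_card, hn] at h3
  have h4 := Submodule.finrank_le W
  rw [finrank_fintype_fun_eq_card, hn] at h4
  omega

/-- An involution all of whose fixed vectors are singular. -/
theorem invol_struct (hQ : IsNondegenerateQuadraticForm Q) (h2 : (2 : F) = 0) {d : ℕ} (hn : Fintype.card ι = 2 * d) (x : Matrix ι ι F)
    (hiso : ∀ v, Q (x *ᵥ v) = Q v) (hx : x * x = 1) (hall : ∀ v, x *ᵥ v = v → Q v = 0) :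
    (∃ L : Submodule F (ι → F), finrank F L = d ∧ ∀ v ∈ L, Q v = 0) ∧ Even d := by
  classical
  set N : (ι → F) →ₗ[F] (ι → F) := Matrix.toLin' (x - 1) with hN
  have hNv : ∀ v, N v = x *ᵥ v - v := by
    intro v
    simp [hN, Matrix.sub_mulVec]
  have hker : ∀ v, v ∈ LinearMap.ker N ↔ x *ᵥ v = v := by
    intro v
    rw [LinearMap.mem_ker, hNv, sub_eq_zero]
  have hts : ∀ v ∈ LinearMap.ker N, Q v = 0 := fun v hv => hall v ((hker v).mp hv)
  have hle := ts_finrank_le hQ hn hts
  have hNN : ∀ v, N (N v) = 0 := by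
    intro v
    rw [hNv, hNv, Matrix.mulVec_sub, Matrix.mulVec_mulVec, hx, Matrix.one_mulVec]
    have e : v - x *ᵥ v - (x *ᵥ v - v) = (2 : F) • (v - x *ᵥ v) := by
      rw [two_smul]
      abel
    rw [e, h2, zero_smul]
  have hrange : LinearMap.range N ≤ LinearMap.ker N := by
    rintro _ ⟨v, rfl⟩
    exact hNN v
  have hrn := LinearMap.finrank_range_add_finrank_ker N
  rw [finrank_fintype_fun_eq_card, hn] at hrn
  have hr2 := Submodule.finrank_mono hrange
  have hkd : finrank F (LinearMap.ker N) = d := by omega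
  have hreq : LinearMap.range N = LinearMap.ker N := Submodule.eq_of_le_of_finrank_eq hrange (by omega)
  refine ⟨⟨LinearMap.ker N, hkd, hts⟩, ?_⟩
  have hQadd : ∀ a b : ι → F, Q (a + b) = Q a + Q b + BB a b := fun a b => Q_add' (Q := Q) a b
  have hbilts : ∀ a ∈ LinearMap.ker N, ∀ b ∈ LinearMap.ker N, BB a b = 0 := by
    intro a ha b hb
    have h3 := hQadd a b
    rw [hts _ (Submodule.add_mem _ ha hb), hts _ ha, hts _ hb] at h3
    simpa using h3.symm
  let A : LinearMap.BilinForm F (ι → F) := (bilinOf _ hQ.polar_bilinear).compl₁₂ LinearMap.id N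
  have hA : ∀ u v, A u v = BB u (N v) := fun _ _ => rfl
  have halt : ∀ v, A v v = 0 := by
    intro v
    rw [hA]
    have h3 : Q (N v) = 0 := hts _ (hrange ⟨v, rfl⟩)
    have h4 : Q (v + N v) = Q v := by
      have e : v + N v = x *ᵥ v := by
        rw [hNv]
        abel
      rw [e, hiso]
    rw [hQadd, h3, add_zero] at h4
    linear_combination h4
  obtain ⟨W, hW⟩ := Submodule.exists_isCompl (LinearMap.ker N)
  have hWd : finrank F W = d := by
    have h3 := Submodule.finrank_add_eq_of_isCompl hW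
    rw [finrank_fintype_fun_eq_card, hn] at h3
    omega
  have hnd : Nd A W := by
    intro w hw hw0
    have hNw : N w ≠ 0 := by
      intro h
      have h3 : w ∈ LinearMap.ker N := h
      exact hw0 (Submodule.disjoint_def.mp hW.disjoint w h3 hw)
    obtain ⟨⟨y, hy⟩, -⟩ := hQ.nondegenerate (N w) hNw
    have hy' : y ∈ LinearMap.ker N ⊔ W := by
      rw [hW.sup_eq_top]
      trivial
    obtain ⟨b, hb, c, hc, rfl⟩ := Submodule.mem_sup.mp hy'
    have h3 : BB b (N w) = 0 := hbilts b hb _ (hrange ⟨w, rfl⟩)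
    rw [hQ.polar_bilinear.add_left, h3, zero_add] at hy
    refine ⟨c, hc, ?_⟩
    rw [skew halt]
    exact neg_ne_zero.mpr hy
  have h3 := EluSimForm.even_of_nd halt hnd
  rwa [hWd] at h3

/-- The count of zeros with a Lagrangian. -/
theorem card_zeros_of_lagrangian (hQ : IsNondegenerateQuadraticForm Q) {d : ℕ} (hd : 1 ≤ d) (hn : Fintype.card ι = 2 * d) {L : Submodule F (ι → F)} (hL : ∀ v ∈ L, Q v = 0) (hLd : finrank F L = d) :
    Nat.card {v : ι → F // Q v = 0} + Fintype.card F ^ (d - 1) = Fintype.card F ^ (2 * d - 1) + Fintype.card F ^ d := by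
  classical
  have hQadd : ∀ a b : ι → F, Q (a + b) = Q a + Q b + BB a b := fun a b => Q_add' (Q := Q) a b
  have hnd := bilinOf_nondegenerate hQ.polar_bilinear hQ.nondegenerate
  -- `L` is its own orthogonal
  have hLL : ∀ u, (∀ w ∈ L, BB w u = 0) → u ∈ L := by
    intro u hu
    have h1 : (bilinOf _ hQ.polar_bilinear).orthogonal L = L := by
      symm
      apply Submodule.eq_of_le_of_finrank_eq
      · intro x hx
        rw [LinearMap.BilinForm.mem_orthogonal_iff]
        intro y hy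
        show BB y x = 0
        have h2 := hQadd y x
        rw [hL _ (L.add_mem hy hx), hL _ hy, hL _ hx] at h2
        simpa using h2.symm
      · have h3 := LinearMap.BilinForm.finrank_orthogonal hnd L
        rw [finrank_fintype_fun_eq_card, hn, hLd] at h3
        rw [h3, hLd]
        omega
    rw [← h1, LinearMap.BilinForm.mem_orthogonal_iff]
    exact hu
  obtain ⟨W, hW⟩ := Submodule.exists_isCompl L
  have hWd : finrank F W = d := by
    have h3 := Submodule.finrank_add_eq_of_isCompl hW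
    rw [finrank_fintype_fun_eq_card, hn] at h3
    omega
  let φ : (L × W) ≃ₗ[F] (ι → F) := Submodule.prodEquivOfIsCompl L W hW
  have hφ : ∀ p, φ p = (p.1 : ι → F) + p.2 := fun p => rfl
  -- the fibres over `W`
  have hfib : ∀ w : W, Nat.card {l : L // Q ((l : ι → F) + w) = 0} = if w = 0 then Fintype.card F ^ d else Fintype.card F ^ (d - 1) := by
    intro w
    split_ifs with hw
    · subst hw
      have e : {l : L // Q ((l : ι → F) + ((0 : W) : ι → F)) = 0} ≃ L :=
        { toFun := fun l => l.1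
          invFun := fun l => ⟨l, by simpa using hL _ l.2⟩
          left_inv := fun l => rfl
          right_inv := fun l => rfl }
      rw [Nat.card_congr e, Nat.card_eq_fintype_card, Module.card_eq_pow_finrank (K := F) (V := L), hLd]
    · -- a non-zero functional
      have hw0 : (w : ι → F) ≠ 0 := fun h => hw (Subtype.ext h)
      let f : L →ₗ[F] F := ((bilinOf _ hQ.polar_bilinear).flip (w : ι → F)).comp L.subtype
      have hf : ∀ l : L, f l = BB (l : ι → F) w := fun _ => rfl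
      have hfne : f ≠ 0 := by
        intro h0
        have h1 : (w : ι → F) ∈ L := hLL _ (fun l hl => by
          have := congrFun (congrArg DFunLike.coe h0) ⟨l, hl⟩
          simpa [hf] using this)
        exact hw0 (Submodule.disjoint_def.mp hW.disjoint _ h1 w.2)
      have hsurj : Function.Surjective f := by
        obtain ⟨l, hl⟩ : ∃ l, f l ≠ 0 := by
          by_contra hcon
          push Not at hcon
          exact hfne (LinearMap.ext hcon)
        intro c
        refine ⟨(c / f l) • l, ?_⟩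
        rw [map_smul, smul_eq_mul, div_mul_cancel₀ _ hl]
      have hker : finrank F (LinearMap.ker f) + 1 = d := by
        have h1 := LinearMap.finrank_range_add_finrank_ker f
        rw [LinearMap.range_eq_top.mpr hsurj, finrank_top, finrank_self, hLd] at h1
        omega
      obtain ⟨l₀, hl₀⟩ := hsurj (- Q w)
      have e : {l : L // Q ((l : ι → F) + w) = 0} ≃ LinearMap.ker f :=
        { toFun := fun l => ⟨l.1 - l₀, by
            have h3 := l.2
            rw [hQadd, hL _ l.1.2, zero_add] at h3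
            rw [LinearMap.mem_ker, map_sub, hl₀, hf]
            linear_combination h3⟩
          invFun := fun k => ⟨k.1 + l₀, by
            have h3 : f k.1 = 0 := k.2
            have h4 : f (k.1 + l₀) = - Q w := by rw [map_add, h3, hl₀, zero_add]
            rw [hf] at h4
            rw [hQadd, hL _ (k.1 + l₀).2, zero_add, h4]
            ring⟩
          left_inv := fun l => by
            apply Subtype.ext
            simp
          right_inv := fun k => by
            apply Subtype.ext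
            simp }
      rw [Nat.card_congr e, Nat.card_eq_fintype_card, Module.card_eq_pow_finrank (K := F) (V := LinearMap.ker f)]
      congr 1
      omega
  -- assemble
  let e : {v : ι → F // Q v = 0} ≃ Σ w : W, {l : L // Q ((l : ι → F) + w) = 0} :=
    { toFun := fun v => ⟨(φ.symm v.1).2, (φ.symm v.1).1, by
        have h1 : φ (φ.symm v.1) = v.1 := φ.apply_symm_apply _
        rw [hφ] at h1
        rw [h1]
        exact v.2⟩
      invFun := fun s => ⟨(s.2.1 : ι → F) + s.1, s.2.2⟩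
      left_inv := fun v => by
        apply Subtype.ext
        show ((φ.symm v.1).1 : ι → F) + (φ.symm v.1).2 = v.1
        rw [← hφ, φ.apply_symm_apply]
      right_inv := fun s => by
        have h1 : φ.symm ((s.2.1 : ι → F) + s.1) = (s.2.1, s.1) := by
          apply φ.injective
          rw [φ.apply_symm_apply, hφ]
        rcases s with ⟨w, l, hl⟩
        simp only at h1
        apply Sigma.ext
        · simp [h1]
        · simp only
          have h2 : (φ.symm ((l : ι → F) + w)).2 = w := by rw [h1]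
          have h3 : (φ.symm ((l : ι → F) + w)).1 = l := by rw [h1]
          apply Subtype.heq_iff_coe_eq (by
            intro x
            rw [h2]) |>.mpr
          exact h3 }
  rw [Nat.card_congr e, Nat.card_sigma, Finset.sum_congr rfl (fun w _ => hfib w)]
  rw [Finset.sum_ite, Finset.sum_const, Finset.sum_const, smul_eq_mul, smul_eq_mul]
  have hc1 : (Finset.univ.filter fun w : W => w = 0).card = 1 := by
    rw [Finset.filter_eq' Finset.univ (0 : W), if_pos (Finset.mem_univ _), Finset.card_singleton]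
  have hc2 : (Finset.univ.filter fun w : W => ¬ w = 0).card + 1 = Fintype.card F ^ d := by
    have h1 := Finset.card_filter_add_card_filter_not (s := (Finset.univ : Finset W)) (fun w : W => w = 0)
    rw [hc1, Finset.card_univ, Module.card_eq_pow_finrank (K := F) (V := W), hWd] at h1
    omega
  rw [hc1, one_mul]
  obtain ⟨k, rfl⟩ : ∃ k, d = k + 1 := ⟨d - 1, by omega⟩
  have e1 : 2 * (k + 1) - 1 = 2 * k + 1 := by omega
  have e2 : k + 1 - 1 = k := rfl
  rw [e1, e2]
  generalize (Finset.univ.filter fun w : W => ¬ w = 0).card = C at hc2 ⊢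
  have : Fintype.card F ^ (2 * k + 1) = Fintype.card F ^ (k + 1) * Fintype.card F ^ k := by ring
  rw [this, ← hc2]
  ring

end invol

section witness

variable {F : Type*} [Field F] [Fintype F]

/-- A matrix of order dividing `r` without fixed vectors. -/
theorem exists_gl_fpf {r : ℕ} [Fact r.Prime] (hrq : ¬ r ∣ Fintype.card F) (n : ℕ) (hn : orderOf ((Fintype.card F : ℕ) : ZMod r) ∣ n) :
    ∃ Y : Matrix (Fin n) (Fin n) F, Y ^ r = 1 ∧ ∀ v, Y *ᵥ v = v → v = 0 := by
  classical
  have hr : r.Prime := Fact.out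
  rcases Nat.eq_zero_or_pos n with rfl | hn0
  · exact ⟨1, one_pow _, fun v _ => Subsingleton.elim _ _⟩
  by_cases hrq1 : r ∣ Fintype.card F - 1
  · have h1 : r ∣ Nat.card Fˣ := by
      rw [Nat.card_eq_fintype_card, Fintype.card_units]
      exact hrq1
    obtain ⟨ζ, hζ⟩ := exists_prime_orderOf_dvd_card' r h1
    have hζr : (ζ : F) ^ r = 1 := by
      rw [← Units.val_pow_eq_pow_val, ← hζ, pow_orderOf_eq_one, Units.val_one]
    have hζ1 : (ζ : F) ≠ 1 := by
      intro h
      have h2 : ζ = 1 := Units.ext h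
      rw [h2, orderOf_one] at hζ
      exact hr.one_lt.ne hζ
    refine ⟨(ζ : F) • 1, ?_, ?_⟩
    · rw [_root_.smul_pow, hζr, one_pow, one_smul]
    · intro v hv
      rw [Matrix.smul_mulVec, Matrix.one_mulVec] at hv
      have h2 : ((ζ : F) - 1) • v = 0 := by
        rw [sub_smul, hv, one_smul, sub_self]
      exact (smul_eq_zero.mp h2).resolve_left (sub_ne_zero.mpr hζ1)
  · obtain ⟨t, ht⟩ := hn
    have ht0 : 0 < t := by
      rcases Nat.eq_zero_or_pos t with rfl | h
      · simp at ht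
        omega
      · exact h
    obtain ⟨X₀, f, -, hXr, -, -, -, -, -, hk⟩ := exists_block_model (n := n) (t := t) (k := 0) hrq hrq1 (by omega) ht0
    refine ⟨X₀, hXr, ?_⟩
    intro v hv
    have h5 : aeval X₀ (X - C (1 : F)) = X₀ - 1 := by simp
    rw [h5] at hk
    have h6 : LinearMap.ker (Matrix.toLin' (X₀ - 1)) = ⊥ := Submodule.finrank_eq_zero.mp (by omega)
    have h7 : v ∈ LinearMap.ker (Matrix.toLin' (X₀ - 1)) := by
      rw [LinearMap.mem_ker, Matrix.toLin'_apply, Matrix.sub_mulVec, hv, Matrix.one_mulVec, sub_self]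
    rw [h6] at h7
    exact h7

/-- The hyperbolic element attached to a matrix. -/
theorem exists_hyp_elt {h r : ℕ} (hr : 0 < r) (Y : Matrix (Fin h) (Fin h) F) (hY : Y ^ r = 1) (hfix : ∀ v, Y *ᵥ v = v → v = 0) :
    ∃ D : Matrix (Fin h ⊕ Fin h) (Fin h ⊕ Fin h) F, D ^ r = 1 ∧ (∀ v, Cfsg.quadFormPlus h F (D *ᵥ v) = Cfsg.quadFormPlus h F v) ∧ ∀ v, D *ᵥ v = v → v = 0 := by
  classical
  set Z := Y ^ (r - 1) with hZ
  have hZY : Z * Y = 1 := by
    rw [hZ, ← pow_succ, Nat.sub_add_cancel hr, hY]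
  have hYZ : Y * Z = 1 := by
    rw [hZ, ← pow_succ', Nat.sub_add_cancel hr, hY]
  set D := fromBlocks Y 0 0 Zᵀ with hD
  have hpow : ∀ k, D ^ k = fromBlocks (Y ^ k) 0 0 (Zᵀ ^ k) := by
    intro k
    induction k with
    | zero => simp [Matrix.fromBlocks_one]
    | succ k ih =>
      rw [pow_succ, ih, hD, Matrix.fromBlocks_multiply, pow_succ, pow_succ]
      simp
  have hZr : Zᵀ ^ r = 1 := by
    rw [← Matrix.transpose_pow, hZ, ← pow_mul, mul_comm, pow_mul, hY, one_pow, Matrix.transpose_one]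
  have hDv : ∀ v : Fin h ⊕ Fin h → F, D *ᵥ v = Sum.elim (Y *ᵥ (v ∘ Sum.inl)) (Zᵀ *ᵥ (v ∘ Sum.inr)) := by
    intro v
    rw [hD, Matrix.fromBlocks_mulVec]
    simp
  refine ⟨D, ?_, ?_, ?_⟩
  · rw [hpow, hY, hZr, Matrix.fromBlocks_one]
  · intro v
    show ((D *ᵥ v) ∘ Sum.inl) ⬝ᵥ ((D *ᵥ v) ∘ Sum.inr) = (v ∘ Sum.inl) ⬝ᵥ (v ∘ Sum.inr)
    have h1 : (D *ᵥ v) ∘ Sum.inl = Y *ᵥ (v ∘ Sum.inl) := by
      rw [hDv]
      rfl
    have h2 : (D *ᵥ v) ∘ Sum.inr = Zᵀ *ᵥ (v ∘ Sum.inr) := by
      rw [hDv]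
      rfl
    rw [h1, h2, Matrix.mulVec_transpose, dotProduct_comm, ← Matrix.dotProduct_mulVec, Matrix.mulVec_mulVec, hZY, Matrix.one_mulVec, dotProduct_comm]
  · intro v hv
    rw [hDv] at hv
    have h1 : Y *ᵥ (v ∘ Sum.inl) = v ∘ Sum.inl := by
      funext i
      exact congrFun hv (Sum.inl i)
    have h2 : Zᵀ *ᵥ (v ∘ Sum.inr) = v ∘ Sum.inr := by
      funext i
      exact congrFun hv (Sum.inr i)
    have h3 := hfix _ h1
    have h4 : v ∘ Sum.inr = 0 := by
      by_contra hne
      have h5 : (Zᵀ - 1).det = 0 := by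
        apply Matrix.exists_mulVec_eq_zero_iff.mp
        exact ⟨_, hne, by rw [Matrix.sub_mulVec, h2, Matrix.one_mulVec, sub_self]⟩
      have h6 : (Z - 1).det = 0 := by
        have e : Zᵀ - 1 = (Z - 1)ᵀ := by simp
        rwa [e, Matrix.det_transpose] at h5
      obtain ⟨w, hw0, hw⟩ := Matrix.exists_mulVec_eq_zero_iff.mpr h6
      rw [Matrix.sub_mulVec, Matrix.one_mulVec, sub_eq_zero] at hw
      apply hw0
      apply hfix
      conv_lhs => rw [← hw]
      rw [Matrix.mulVec_mulVec, hYZ, Matrix.one_mulVec]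
    funext a
    rcases a with i | i
    · exact congrFun h3 i
    · exact congrFun h4 i

variable {ι : Type} [Fintype ι] [DecidableEq ι]

theorem gl_of_pow {r : ℕ} (hr : 0 < r) (x : Matrix ι ι F) (h : x ^ r = 1) : ∃ g : GL ι F, (g : Matrix ι ι F) = x ∧ g ^ r = 1 := by
  refine ⟨⟨x, x ^ (r - 1), by rw [← pow_succ', Nat.sub_add_cancel hr, h], by rw [← pow_succ, Nat.sub_add_cancel hr, h]⟩, rfl, ?_⟩
  apply Units.ext
  rw [Units.val_pow_eq_pow_val]
  exact h

/-- Elements of odd order lie in `Ω`. -/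
theorem mem_omega_of_odd_pow [CharP F 2] {Q : (ι → F) → F} (hQ : Cfsg.Agent.Lib.Classical.NDQ Q) (hn : Fintype.card F ≠ 2 ∨ Fintype.card ι ≠ 4) (hne : Nonempty ι)
    (g : GL ι F) (hg : ∀ v, Q ((g : Matrix ι ι F) *ᵥ v) = Q v) {k : ℕ} (hk : Odd k) (hgk : g ^ k = 1) : g ∈ omegaGL Q := by
  obtain ⟨Q', rfl, hnd⟩ := hQ
  have hidx := Cfsg.Agent.Lib.Classical.index_commutator_even hnd hn hne
  let x : Cfsg.Agent.Lib.Classical.OG Q' := ⟨g, (mem_iso_iff g).mpr hg⟩
  have hxk : x ^ k = 1 := Subtype.ext (by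
    show g ^ k = 1
    exact hgk)
  have hsq : x ^ 2 ∈ commutator (Cfsg.Agent.Lib.Classical.OG Q') := by
    have h1 := Subgroup.pow_index_mem (commutator (Cfsg.Agent.Lib.Classical.OG Q')) x
    rwa [hidx] at h1
  obtain ⟨m, rfl⟩ := hk
  have hx : x ∈ commutator (Cfsg.Agent.Lib.Classical.OG Q') := by
    have h1 : x = (x ^ (2 * m + 1)) * ((x ^ 2) ^ m)⁻¹ := by
      rw [pow_succ', ← pow_mul, mul_inv_cancel_right]
    rw [h1, hxk, one_mul]
    exact inv_mem (pow_mem hsq m)
  exact Subgroup.mem_map.mpr ⟨x, hx, rfl⟩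

section lines

variable {Q : (ι → F) → F}

theorem exists_nonsing (hQ : IsNondegenerateQuadraticForm Q) [Nonempty ι] : ∃ v, Q v ≠ 0 := by
  classical
  obtain ⟨i⟩ := ‹Nonempty ι›
  have h0 : (Pi.single i 1 : ι → F) ≠ 0 := by
    intro h
    have := congrFun h i
    simp at this
  obtain ⟨⟨x, hx⟩, -⟩ := hQ.nondegenerate _ h0
  by_contra hcon
  push Not at hcon
  apply hx
  rw [QuadraticMap.polar, hcon, hcon, hcon]
  simp

theorem scalar_eq_one (hQ : IsNondegenerateQuadraticForm Q) [Nonempty ι] (h2 : (2 : F) = 0) {z : F} (h : ∀ v, Q (z • v) = Q v) : z = 1 := by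
  obtain ⟨v, hv⟩ := exists_nonsing hQ
  have h1 := h v
  rw [hQ.smul] at h1
  have h3 : (z - 1) ^ 2 * Q v = 0 := by
    have e : (z - 1) ^ 2 = z ^ 2 - 1 - 2 * (z - 1) := by ring
    rw [e, h2]
    linear_combination h1
  have h4 := (mul_eq_zero.mp h3).resolve_right hv
  exact sub_eq_zero.mp ((pow_eq_zero_iff two_ne_zero).mp h4)

theorem fix_of_line (hQ : IsNondegenerateQuadraticForm Q) [Nonempty ι] (h2 : (2 : F) = 0) (x : Matrix ι ι F) (hiso : ∀ v, Q (x *ᵥ v) = Q v) {W : Submodule F (ι → F)}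
    (hW1 : finrank F W = 1) {v : ι → F} (hv : v ∈ W) (hQv : Q v ≠ 0) (hmap : W.map (Matrix.toLin' x) ≤ W) : x *ᵥ v = v := by
  have hv0 : v ≠ 0 := by
    rintro rfl
    exact hQv (Q_zero hQ)
  have hsp : Submodule.span F {v} = W := by
    apply Submodule.eq_of_le_of_finrank_eq
    · rw [Submodule.span_singleton_le_iff_mem]
      exact hv
    · rw [finrank_span_singleton hv0, hW1]
  have h1 : x *ᵥ v ∈ W := hmap (Submodule.mem_map_of_mem hv)
  rw [← hsp] at h1
  obtain ⟨c, hc⟩ := Submodule.mem_span_singleton.mp h1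
  have h3 := hiso v
  rw [← hc, hQ.smul] at h3
  have h4 : (c - 1) ^ 2 * Q v = 0 := by
    have e : (c - 1) ^ 2 = c ^ 2 - 1 - 2 * (c - 1) := by ring
    rw [e, h2]
    linear_combination h3
  have h5 := (mul_eq_zero.mp h4).resolve_right hQv
  have h6 : c = 1 := sub_eq_zero.mp ((pow_eq_zero_iff two_ne_zero).mp h5)
  rw [← hc, h6, one_smul]

theorem exists_line_of_fix (hQ : IsNondegenerateQuadraticForm Q) (x : Matrix ι ι F) {v : ι → F} (hx : x *ᵥ v = v) (hQv : Q v ≠ 0) :
    ∃ W : Submodule F (ι → F), (finrank F W = 1 ∧ ∃ v ∈ W, Q v ≠ 0) ∧ W.map (Matrix.toLin' x) ≤ W := by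
  have hv0 : v ≠ 0 := by
    rintro rfl
    exact hQv (Q_zero hQ)
  refine ⟨Submodule.span F {v}, ⟨finrank_span_singleton hv0, v, Submodule.mem_span_singleton_self v, hQv⟩, ?_⟩
  rw [Submodule.map_span, Submodule.span_le]
  rintro _ ⟨w, hw, rfl⟩
  rw [Set.mem_singleton_iff] at hw
  subst hw
  show x *ᵥ w ∈ _
  rw [hx]
  exact Submodule.mem_span_singleton_self _

/-- A witness contradicts the property. -/
theorem absurd_of_witness (hQ : IsNondegenerateQuadraticForm Q) [Nonempty ι] (h2 : (2 : F) = 0) {r : ℕ}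
    (hall : ∀ x : GL ι F, x ∈ omegaGL Q → (∃ z : F, ((x ^ r : GL ι F) : Matrix ι ι F) = z • (1 : Matrix ι ι F)) → (∀ z : F, (x : Matrix ι ι F) ≠ z • (1 : Matrix ι ι F)) →
      ∃ W : Submodule F (ι → F), (finrank F W = 1 ∧ ∃ v ∈ W, Q v ≠ 0) ∧ W.map (Matrix.toLin' (x : Matrix ι ι F)) ≤ W)
    (x : GL ι F) (hx : x ∈ omegaGL Q) (hxr : x ^ r = 1) (hfix : ∀ v, (x : Matrix ι ι F) *ᵥ v = v → Q v = 0) : False := by
  have hiso : ∀ v, Q ((x : Matrix ι ι F) *ᵥ v) = Q v := (mem_iso_iff x).mp (omegaGL_le_iso hx)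
  obtain ⟨W, ⟨hW1, v, hv, hQv⟩, hmap⟩ := hall x hx ⟨1, by rw [hxr, one_smul]; rfl⟩ (by
    intro z hz
    have hxv : ∀ v, (x : Matrix ι ι F) *ᵥ v = z • v := by
      intro v
      rw [hz, Matrix.smul_mulVec, Matrix.one_mulVec]
    have hz1 : z = 1 := scalar_eq_one hQ h2 (fun v => by rw [← hxv, hiso])
    obtain ⟨v, hv⟩ := exists_nonsing hQ
    apply hv
    apply hfix
    rw [hxv, hz1, one_smul])
  exact hQv (hfix v (fix_of_line hQ h2 _ hiso hW1 hv hQv hmap))

/-- Involutions fix non-singular lines, unless they are of the special type. -/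
theorem line_of_invol (hQ : IsNondegenerateQuadraticForm Q) [Nonempty ι] (h2 : (2 : F) = 0) {d : ℕ} (hn : Fintype.card ι = 2 * d)
    (hcond : ¬ ((∃ L : Submodule F (ι → F), finrank F L = d ∧ ∀ v ∈ L, Q v = 0) ∧ Even d)) (x : GL ι F) (hx : x ∈ omegaGL Q) {z : F}
    (hz : ((x ^ 2 : GL ι F) : Matrix ι ι F) = z • (1 : Matrix ι ι F)) :
    ∃ W : Submodule F (ι → F), (finrank F W = 1 ∧ ∃ v ∈ W, Q v ≠ 0) ∧ W.map (Matrix.toLin' (x : Matrix ι ι F)) ≤ W := by
  have hiso : ∀ v, Q ((x : Matrix ι ι F) *ᵥ v) = Q v := (mem_iso_iff x).mp (omegaGL_le_iso hx)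
  have hxx : (x : Matrix ι ι F) * x = z • 1 := by
    rw [← hz, sq]
    rfl
  have hz1 : z = 1 := by
    apply scalar_eq_one hQ h2
    intro v
    have h3 : (x : Matrix ι ι F) *ᵥ ((x : Matrix ι ι F) *ᵥ v) = z • v := by
      rw [Matrix.mulVec_mulVec, hxx, Matrix.smul_mulVec, Matrix.one_mulVec]
    rw [← h3, hiso, hiso]
  rw [hz1, one_smul] at hxx
  by_contra hcon
  apply hcond
  apply invol_struct hQ h2 hn _ hiso hxx
  intro v hv
  by_contra hQv
  exact hcon (exists_line_of_fix hQ _ hv hQv)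

end lines

end witness

end Cfsg.Agent.Lib.ClassMax.EluOne
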