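import Mathlib
import Cfsg.Agent.Lib.ClassMax.EluOne

/-!
# Witnesses for non-singular lines in characteristic two
-/

set_option autoImplicit false
set_option linter.unusedSimpArgs false
set_option linter.unusedVariables false
set_option linter.unusedSectionVars false

namespace Cfsg.Agent.Lib.ClassMax.EluOne

open scoped MatrixGroups
open Module Polynomial Matrix Cfsg.Geo Cfsg.Agent.Lib.ClassMax Cfsg.Agent.Lib.ClassMax.ElusiveSp Cfsg.Agent.Lib.ClassMax.EluConj Cfsg.Agent.Lib.ClassMax.EluOrder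
  Cfsg.Agent.Lib.ClassMax.EluBlock Cfsg.Agent.Lib.ClassMax.EluFix Cfsg.Agent.Lib.ClassMax.EluImpr Cfsg.Agent.Lib.ClassMax.EluImpr2
  Cfsg.Agent.Lib.ClassMax.EluSpBlock Cfsg.Agent.Lib.ClassMax.EluSpBlock2 Cfsg.Agent.Lib.ClassMax.QuadOver Cfsg.Agent.Lib.ClassMax.OmegaCore

section plus

variable {F : Type*} [Field F] [Fintype F]

theorem polar_single (d : ℕ) (v : Fin d ⊕ Fin d → F) (k : Fin d) :
    QuadraticMap.polar (Cfsg.quadFormPlus d F) v (Pi.single (Sum.inl k) 1) = v (Sum.inr k) := by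
  classical
  simp only [QuadraticMap.polar, Cfsg.quadFormPlus, Pi.add_apply, Pi.single_apply, Sum.inl.injEq, reduceCtorEq, if_false, add_zero, mul_zero, Finset.sum_const_zero, sub_zero, add_mul,
    Finset.sum_add_distrib, add_sub_cancel_left]
  simp

theorem quad_single (d : ℕ) (k : Fin d) : Cfsg.quadFormPlus d F (Pi.single (Sum.inl k) 1) = 0 := by
  classical
  simp [Cfsg.quadFormPlus, Pi.single_apply]

/-- An involution of `Ω⁺` whose fixed vectors are singular. -/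
theorem exists_lag_invol [CharP F 2] {e : ℕ} (he : 2 ≤ e) :
    ∃ x : GL (Fin (e + e) ⊕ Fin (e + e)) F, x ∈ omegaGL (Cfsg.quadFormPlus (e + e) F) ∧ x ^ 2 = 1 ∧
      ∀ v, (x : Matrix (Fin (e + e) ⊕ Fin (e + e)) (Fin (e + e) ⊕ Fin (e + e)) F) *ᵥ v = v → Cfsg.quadFormPlus (e + e) F v = 0 := by
  classical
  set Q := Cfsg.quadFormPlus (e + e) F with hQdef
  have hQ : IsNondegenerateQuadraticForm Q := isNondeg_of_NDQ (Cfsg.Agent.Lib.Classical.ndq_plus (e + e))
  have h2 : (2 : F) = 0 := CharTwo.two_eq_zero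
  let ε : Fin e ⊕ Fin e ≃ Fin (e + e) := finSumFinEquiv
  let s : Fin (e + e) → (Fin (e + e) ⊕ Fin (e + e) → F) := fun k => Pi.single (Sum.inl k) 1
  have hs : ∀ k, Q (s k) = 0 := fun k => quad_single _ k
  have hp : ∀ v k, QuadraticMap.polar Q v (s k) = v (Sum.inr k) := fun v k => polar_single _ v k
  have hsr : ∀ k m, s k (Sum.inr m) = 0 := by
    intro k m
    simp [s, Pi.single_apply]
  have hn : 7 ≤ Fintype.card (Fin (e + e) ⊕ Fin (e + e)) := by
    simp only [Fintype.card_sum, Fintype.card_fin]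
    omega
  let A : Finset (Fin e) → (Fin (e + e) ⊕ Fin (e + e) → F) → (Fin (e + e) ⊕ Fin (e + e) → F) := fun S v =>
    ∑ j ∈ S, (v (Sum.inr (ε (Sum.inr j))) • s (ε (Sum.inl j)) - v (Sum.inr (ε (Sum.inl j))) • s (ε (Sum.inr j)))
  have hAr : ∀ S v m, A S v (Sum.inr m) = 0 := by
    intro S v m
    simp only [A, Finset.sum_apply, Pi.sub_apply, Pi.smul_apply, hsr, smul_zero, sub_self, Finset.sum_const_zero]
  have key : ∀ S : Finset (Fin e), ∃ g : GL (Fin (e + e) ⊕ Fin (e + e)) F, g ∈ omegaGL Q ∧ ∀ v, (g : Matrix _ _ F) *ᵥ v = v + A S v := by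
    intro S
    induction S using Finset.induction_on with
    | empty =>
      refine ⟨1, one_mem _, fun v => ?_⟩
      simp [A]
    | insert j₀ S hj ih =>
      obtain ⟨g, hg, hgv⟩ := ih
      have hb : QuadraticMap.polar Q (s (ε (Sum.inl j₀))) (s (ε (Sum.inr j₀))) = 0 := by rw [hp, hsr]
      refine ⟨sg Q (s (ε (Sum.inl j₀))) (s (ε (Sum.inr j₀))) * g, mul_mem (sg_ts_mem_omega hQ hn (hs _) (hs _) hb) hg, fun v => ?_⟩
      rw [Units.val_mul, ← Matrix.mulVec_mulVec, hgv, sg_apply hQ (hs _) hb]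
      unfold sgFun
      rw [hp, hp, hs, zero_mul, zero_smul, sub_zero]
      simp only [Pi.add_apply, hAr, add_zero]
      show _ = v + ∑ j ∈ insert j₀ S, _
      rw [Finset.sum_insert hj]
      show v + A S v + _ - _ = v + (_ + A S v)
      abel
  obtain ⟨x, hx, hxv⟩ := key Finset.univ
  have hAdep : ∀ v v', (∀ k, v' (Sum.inr k) = v (Sum.inr k)) → A Finset.univ v' = A Finset.univ v := by
    intro v v' h
    simp only [A, h]
  have hxr : ∀ v k, (x.val *ᵥ v) (Sum.inr k) = v (Sum.inr k) := by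
    intro v k
    rw [hxv, Pi.add_apply, hAr, add_zero]
  refine ⟨x, hx, ?_, ?_⟩
  · apply Units.ext
    rw [Units.val_pow_eq_pow_val, sq, Units.val_one]
    apply Cfsg.Agent.Lib.Classical.mat_ext_mulVec
    intro v
    rw [← Matrix.mulVec_mulVec, Matrix.one_mulVec, hxv, hAdep v _ (hxr v), hxv, add_assoc]
    have e1 : A Finset.univ v + A Finset.univ v = (2 : F) • A Finset.univ v := (two_smul F _).symm
    rw [e1, h2, zero_smul, add_zero]
  · intro v hv
    rw [hxv] at hv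
    have hA : A Finset.univ v = 0 := by
      simpa using hv
    have h1 : ∀ j, v (Sum.inr (ε (Sum.inr j))) = 0 := by
      intro j
      have h3 := congrFun hA (Sum.inl (ε (Sum.inl j)))
      simpa [A, s, Finset.sum_apply, Pi.single_apply, Finset.sum_ite_eq] using h3
    have h3 : ∀ j, v (Sum.inr (ε (Sum.inl j))) = 0 := by
      intro j
      have h3 := congrFun hA (Sum.inl (ε (Sum.inr j)))
      simpa [A, s, Finset.sum_apply, Pi.single_apply, Finset.sum_ite_eq] using h3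
    have h4 : ∀ k, v (Sum.inr k) = 0 := by
      intro k
      obtain ⟨w, rfl⟩ := ε.surjective k
      rcases w with j | j
      · exact h3 j
      · exact h1 j
    show ∑ i, v (Sum.inl i) * v (Sum.inr i) = 0
    simp [h4]

/-- An element of odd order of `Ω⁺` without fixed vectors. -/
theorem exists_fpf_plus [CharP F 2] {r : ℕ} [Fact r.Prime] (hr2 : r ≠ 2) (hrq : ¬ r ∣ Fintype.card F) {d : ℕ} (hd : 4 ≤ d) (hi : orderOf ((Fintype.card F : ℕ) : ZMod r) ∣ d) :
    ∃ x : GL (Fin d ⊕ Fin d) F, x ∈ omegaGL (Cfsg.quadFormPlus d F) ∧ x ^ r = 1 ∧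
      ∀ v, (x : Matrix (Fin d ⊕ Fin d) (Fin d ⊕ Fin d) F) *ᵥ v = v → Cfsg.quadFormPlus d F v = 0 := by
  classical
  have hr : r.Prime := Fact.out
  obtain ⟨Y, hY, hfix⟩ := exists_gl_fpf hrq d hi
  obtain ⟨D, h1, h3, h4⟩ := exists_hyp_elt hr.pos Y hY hfix
  obtain ⟨g, rfl, hg⟩ := gl_of_pow hr.pos D h1
  have hodd : Odd r := hr.odd_of_ne_two hr2
  refine ⟨g, mem_omega_of_odd_pow (Cfsg.Agent.Lib.Classical.ndq_plus d) (Or.inr ?_) ⟨Sum.inl ⟨0, by omega⟩⟩ g h3 hodd hg, hg, ?_⟩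
  · simp only [Fintype.card_sum, Fintype.card_fin]
    omega
  · intro v hv
    rw [h4 v hv]
    simp [Cfsg.quadFormPlus]

end plus

section minus

variable {F : Type*} [Field F] [Fintype F]

/-- An element of odd prime order without fixed vectors on an elliptic space. -/
theorem exists_elliptic_elt [CharP F 2] {r : ℕ} [Fact r.Prime] (hrq : ¬ r ∣ Fintype.card F) (e' : ℕ) (a b : F)
    (hab : ∀ x y : F, x ^ 2 + a * x * y + b * y ^ 2 = 0 → x = 0 ∧ y = 0) (hi : orderOf ((Fintype.card F : ℕ) : ZMod r) = 2 * (e' + 1)) (hdvd : r ∣ Fintype.card F ^ (e' + 1) + 1) :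
    ∃ y : Matrix ((Fin e' ⊕ Fin e') ⊕ Fin 2) ((Fin e' ⊕ Fin e') ⊕ Fin 2) F, y ^ r = 1 ∧
      (∀ v, Cfsg.quadFormMinus e' F a b (y *ᵥ v) = Cfsg.quadFormMinus e' F a b v) ∧ ∀ v, y *ᵥ v = v → v = 0 := by
  classical
  have hr : r.Prime := Fact.out
  set Q := Cfsg.quadFormMinus e' F a b with hQdef
  have hQ : IsNondegenerateQuadraticForm Q := isNondeg_of_NDQ (Cfsg.Agent.Lib.Classical.ndq_minus a b hab e')
  have h2 : (2 : F) = 0 := CharTwo.two_eq_zero
  have hcard := Cfsg.Agent.Lib.Classical.card_isometry_minus (F := F) rfl (e' + 1) (by omega) a b hab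
  have hd : r ∣ Nat.card (Cfsg.isometryGroup F Q) := by
    have e : Nat.card (Cfsg.isometryGroup F Q) = _ := hcard
    rw [e]
    exact Dvd.dvd.mul_right (Dvd.dvd.mul_left hdvd _) _
  obtain ⟨g, hg⟩ := exists_prime_orderOf_dvd_card' r hd
  set y : Matrix ((Fin e' ⊕ Fin e') ⊕ Fin 2) ((Fin e' ⊕ Fin e') ⊕ Fin 2) F := g.1.val with hy
  have hgr : g ^ r = 1 := by
    rw [← hg]
    exact pow_orderOf_eq_one g
  have hyr : y ^ r = 1 := by
    have h1 := congrArg (fun h : Cfsg.isometryGroup F Q => h.1.val) hgr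
    simpa using h1
  have hiso : ∀ v, Q (y *ᵥ v) = Q v := (mem_iso_iff g.1).mp g.2
  refine ⟨y, hyr, hiso, ?_⟩
  let B : LinearMap.BilinForm F ((Fin e' ⊕ Fin e') ⊕ Fin 2 → F) := bilinOf (QuadraticMap.polar Q) hQ.polar_bilinear
  let T : Module.End F ((Fin e' ⊕ Fin e') ⊕ Fin 2 → F) := Matrix.toLinAlgEquiv' y
  have hTv : ∀ v, T v = y *ᵥ v := fun v => rfl
  have halt : ∀ v, B v v = 0 := by
    intro v
    show QuadraticMap.polar Q v v = 0
    rw [pol_self hQ, h2, zero_mul]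
  have hnd : Nd B ⊤ := by
    intro u _ hu
    obtain ⟨-, w, hw⟩ := hQ.nondegenerate u hu
    exact ⟨w, trivial, hw⟩
  have hTr : T ^ r = 1 := by
    show (Matrix.toLinAlgEquiv' y) ^ r = 1
    rw [← map_pow, hyr, map_one]
  have hTiso : ∀ u v, B (T u) (T v) = B u v := by
    intro u v
    show QuadraticMap.polar Q (y *ᵥ u) (y *ᵥ v) = QuadraticMap.polar Q u v
    simp only [QuadraticMap.polar, ← Matrix.mulVec_add, hiso]
  have hsum := dim_parts halt hrq hTr hTiso hnd (fun _ _ => trivial)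
  have hnd₂ := nd_phi_part halt hrq hTr hTiso hnd (fun _ _ => trivial)
  have hinv₂ : Inv T (⊤ ⊓ LinearMap.ker (aeval T (Phi F r))) := fun u hu => ⟨trivial, inv_ker T _ u hu.2⟩
  have hdvd' := blockDim_dvd halt hrq hnd₂ hinv₂ inf_le_right
  rw [top_inf_eq, top_inf_eq, finrank_top, finrank_pi] at hsum
  rw [top_inf_eq] at hdvd'
  have hcardι : Fintype.card ((Fin e' ⊕ Fin e') ⊕ Fin 2) = 2 * (e' + 1) := by
    simp only [Fintype.card_sum, Fintype.card_fin]
    ring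
  rw [hcardι] at hsum
  have hblock : blockDim F r = 2 * (e' + 1) := by
    unfold blockDim
    rw [if_pos (by rw [hi]; exact even_two_mul _), hi]
  rw [hblock] at hdvd'
  have hker : finrank F (LinearMap.ker (T - 1)) = 0 := by
    rcases Nat.eq_zero_or_pos (finrank F (LinearMap.ker (aeval T (Phi F r)))) with h0 | h0
    · exfalso
      have h1 : finrank F (LinearMap.ker (T - 1)) = finrank F ((Fin e' ⊕ Fin e') ⊕ Fin 2 → F) := by
        rw [finrank_pi, hcardι]
        omega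
      have h3 : LinearMap.ker (T - 1) = ⊤ := Submodule.eq_top_of_finrank_eq h1
      have h4 : y = 1 := by
        apply Cfsg.Agent.Lib.Classical.mat_ext_mulVec
        intro w
        have h5 : w ∈ LinearMap.ker (T - 1) := by
          rw [h3]
          trivial
        rw [LinearMap.mem_ker, LinearMap.sub_apply, Module.End.one_apply, sub_eq_zero, hTv] at h5
        rw [h5, Matrix.one_mulVec]
      have h5 : g = 1 := by
        apply Subtype.ext
        apply Units.ext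
        exact h4
      rw [h5, orderOf_one] at hg
      exact hr.one_lt.ne hg
    · have h1 := Nat.le_of_dvd h0 hdvd'
      omega
  intro v hv
  have h1 : v ∈ LinearMap.ker (T - 1) := by
    rw [LinearMap.mem_ker, LinearMap.sub_apply, Module.End.one_apply, hTv, hv, sub_self]
  rw [Submodule.finrank_eq_zero.mp hker] at h1
  exact h1

/-- An element of odd prime order without fixed vectors on the minus-type space. -/
theorem exists_fpf_minus_aux [CharP F 2] {r : ℕ} [Fact r.Prime] (hr2 : r ≠ 2) (hrq : ¬ r ∣ Fintype.card F) (h e' : ℕ) (hbig : 7 ≤ 2 * (h + e' + 1)) (a b : F)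
    (hab : ∀ x y : F, x ^ 2 + a * x * y + b * y ^ 2 = 0 → x = 0 ∧ y = 0) (hi : orderOf ((Fintype.card F : ℕ) : ZMod r) = 2 * (e' + 1)) (hdvd : r ∣ Fintype.card F ^ (e' + 1) + 1)
    (hh : orderOf ((Fintype.card F : ℕ) : ZMod r) ∣ h) :
    ∃ x : GL ((Fin (h + e') ⊕ Fin (h + e')) ⊕ Fin 2) F, x ∈ omegaGL (Cfsg.quadFormMinus (h + e') F a b) ∧ x ^ r = 1 ∧
      ∀ v, (x : Matrix ((Fin (h + e') ⊕ Fin (h + e')) ⊕ Fin 2) ((Fin (h + e') ⊕ Fin (h + e')) ⊕ Fin 2) F) *ᵥ v = v → Cfsg.quadFormMinus (h + e') F a b v = 0 := by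
  classical
  have hr : r.Prime := Fact.out
  obtain ⟨Y, hY, hfix⟩ := exists_gl_fpf hrq h hh
  obtain ⟨D, d1, d2, d3⟩ := exists_hyp_elt hr.pos Y hY hfix
  obtain ⟨y, y1, y2, y3⟩ := exists_elliptic_elt hrq e' a b hab hi hdvd
  let ψ : (Fin h ⊕ Fin h) ⊕ ((Fin e' ⊕ Fin e') ⊕ Fin 2) ≃ (Fin (h + e') ⊕ Fin (h + e')) ⊕ Fin 2 :=
    (Equiv.sumAssoc (Fin h ⊕ Fin h) (Fin e' ⊕ Fin e') (Fin 2)).symm.trans
      (Equiv.sumCongr ((Equiv.sumSumSumComm (Fin h) (Fin h) (Fin e') (Fin e')).trans (Equiv.sumCongr finSumFinEquiv finSumFinEquiv)) (Equiv.refl _))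
  have hQψ : ∀ w : (Fin (h + e') ⊕ Fin (h + e')) ⊕ Fin 2 → F, Cfsg.quadFormMinus (h + e') F a b w =
      Cfsg.quadFormPlus h F (fun i => w (ψ (Sum.inl i))) + Cfsg.quadFormMinus e' F a b (fun i => w (ψ (Sum.inr i))) := by
    intro w
    simp only [Cfsg.quadFormMinus, Cfsg.quadFormPlus, Fin.sum_univ_add]
    rw [add_assoc]
    rfl
  set X : Matrix ((Fin h ⊕ Fin h) ⊕ ((Fin e' ⊕ Fin e') ⊕ Fin 2)) ((Fin h ⊕ Fin h) ⊕ ((Fin e' ⊕ Fin e') ⊕ Fin 2)) F := fromBlocks D 0 0 y with hX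
  have hXv : ∀ u, X *ᵥ u = Sum.elim (D *ᵥ (u ∘ Sum.inl)) (y *ᵥ (u ∘ Sum.inr)) := by
    intro u
    rw [hX, Matrix.fromBlocks_mulVec]
    simp
  have hXpow : X ^ r = 1 := by
    have hpow : ∀ k, X ^ k = fromBlocks (D ^ k) 0 0 (y ^ k) := by
      intro k
      induction k with
      | zero => simp [Matrix.fromBlocks_one]
      | succ k ih =>
        rw [pow_succ, ih, hX, Matrix.fromBlocks_multiply, pow_succ, pow_succ]
        simp
    rw [hpow, d1, y1, Matrix.fromBlocks_one]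
  set x₀ : Matrix ((Fin (h + e') ⊕ Fin (h + e')) ⊕ Fin 2) ((Fin (h + e') ⊕ Fin (h + e')) ⊕ Fin 2) F := Matrix.reindexAlgEquiv F F ψ X with hx₀
  have hx₀r : x₀ ^ r = 1 := by
    rw [hx₀, ← map_pow, hXpow, map_one]
  have hx₀v : ∀ v a, (x₀ *ᵥ v) (ψ a) = (X *ᵥ (fun i => v (ψ i))) a := by
    intro v a
    have h1 : x₀ = X.submatrix ψ.symm ψ.symm := rfl
    rw [h1, Matrix.submatrix_mulVec_equiv]
    simp only [Function.comp_apply, Equiv.symm_symm, Equiv.symm_apply_apply]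
    rfl
  obtain ⟨g, hg, hgr⟩ := gl_of_pow hr.pos x₀ hx₀r
  have hiso : ∀ v, Cfsg.quadFormMinus (h + e') F a b ((g : Matrix _ _ F) *ᵥ v) = Cfsg.quadFormMinus (h + e') F a b v := by
    intro v
    rw [hg, hQψ, hQψ]
    simp only [hx₀v, hXv, Sum.elim_inl, Sum.elim_inr]
    rw [show (fun i => (D *ᵥ ((fun i => v (ψ i)) ∘ Sum.inl)) i) = D *ᵥ ((fun i => v (ψ i)) ∘ Sum.inl) from rfl, d2]
    rw [show (fun i => (y *ᵥ ((fun i => v (ψ i)) ∘ Sum.inr)) i) = y *ᵥ ((fun i => v (ψ i)) ∘ Sum.inr) from rfl, y2]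
    rfl
  have hodd : Odd r := hr.odd_of_ne_two hr2
  refine ⟨g, mem_omega_of_odd_pow (Cfsg.Agent.Lib.Classical.ndq_minus a b hab (h + e')) (Or.inr ?_) ⟨Sum.inr 0⟩ g hiso hodd hgr, hgr, ?_⟩
  · simp only [Fintype.card_sum, Fintype.card_fin]
    omega
  · intro v hv
    rw [hg] at hv
    have h1 : ∀ i, v (ψ i) = (X *ᵥ (fun i => v (ψ i))) i := by
      intro i
      rw [← hx₀v, hv]
    have h3 : D *ᵥ ((fun i => v (ψ i)) ∘ Sum.inl) = (fun i => v (ψ i)) ∘ Sum.inl := by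
      funext i
      have := h1 (Sum.inl i)
      rw [hXv] at this
      exact this.symm
    have h4 : y *ᵥ ((fun i => v (ψ i)) ∘ Sum.inr) = (fun i => v (ψ i)) ∘ Sum.inr := by
      funext i
      have := h1 (Sum.inr i)
      rw [hXv] at this
      exact this.symm
    have h5 := d3 _ h3
    have h6 := y3 _ h4
    have h7 : v = 0 := by
      funext c
      obtain ⟨i, rfl⟩ := ψ.surjective c
      rcases i with i | i
      · exact congrFun h5 i
      · exact congrFun h6 i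
    rw [h7]
    have := (isNondeg_of_NDQ (Cfsg.Agent.Lib.Classical.ndq_minus (F := F) a b hab (h + e')))
    exact Q_zero this

/-- No Lagrangian in the minus-type space. -/
theorem no_lag_minus (d : ℕ) (hd : 1 ≤ d) (a b : F) (hab : ∀ x y : F, x ^ 2 + a * x * y + b * y ^ 2 = 0 → x = 0 ∧ y = 0) :
    ¬ ∃ L : Submodule F ((Fin (d - 1) ⊕ Fin (d - 1)) ⊕ Fin 2 → F), finrank F L = d ∧ ∀ v ∈ L, Cfsg.quadFormMinus (d - 1) F a b v = 0 := by
  rintro ⟨L, hLd, hL⟩
  have hQ : IsNondegenerateQuadraticForm (Cfsg.quadFormMinus (d - 1) F a b) := isNondeg_of_NDQ (Cfsg.Agent.Lib.Classical.ndq_minus a b hab (d - 1))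
  have hn : Fintype.card ((Fin (d - 1) ⊕ Fin (d - 1)) ⊕ Fin 2) = 2 * d := by
    simp only [Fintype.card_sum, Fintype.card_fin]
    omega
  have h1 := card_zeros_of_lagrangian hQ hd hn hL hLd
  have h2 := Cfsg.Agent.Lib.Classical.card_zeros_minus (F := F) rfl d hd a b hab
  rw [h2] at h1
  obtain ⟨k, rfl⟩ : ∃ k, d = k + 1 := ⟨d - 1, by omega⟩
  have hq : 2 ≤ Fintype.card F := Fintype.one_lt_card
  simp only [Nat.add_sub_cancel] at h1
  have h3 : Fintype.card F ^ (k + 1) = Fintype.card F * Fintype.card F ^ k := by ring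
  have h4 : 0 < Fintype.card F ^ k := pow_pos (by omega) _
  have h5 : 2 * Fintype.card F ^ k ≤ Fintype.card F * Fintype.card F ^ k := Nat.mul_le_mul_right _ hq
  rw [h3] at h1
  omega

end minus

end Cfsg.Agent.Lib.ClassMax.EluOne
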