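import Mathlib
import Cfsg.Agent.Lib.ClassMax.EluOne2
import Cfsg.Agent.Lib.ClassMax.SpOver
import Cfsg.Agent.Lib.ClassMax.EluSimForm

/-!
# Quadratic forms with a given symplectic polar form in characteristic two

All such forms are obtained from one of them by adding the square of a linear form.  Shifting by a vector of
Artin-Schreier value is realised by a transvection, and an involution of the symplectic group always fixes a form.
-/

set_option autoImplicit false
set_option linter.unusedSimpArgs false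
set_option linter.unusedVariables false
set_option linter.unusedSectionVars false

namespace Cfsg.Agent.Lib.ClassMax.EluOForm

open scoped MatrixGroups
open Module Matrix Cfsg.Geo Cfsg.Agent.Lib.ClassMax Cfsg.Agent.Lib.KnownSimple

section field

variable {F : Type*} [Field F] [CharP F 2]

/-- Artin-Schreier values. -/
def AS (c : F) : Prop := ∃ a : F, a ^ 2 + a = c

theorem sq_add_sq (a b : F) : (a + b) ^ 2 = a ^ 2 + b ^ 2 := by
  have h2 : (2 : F) = 0 := CharTwo.two_eq_zero
  rw [add_sq]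
  linear_combination a * b * h2

theorem sq_inj {a b : F} (h : a ^ 2 = b ^ 2) : a = b := by
  have h2 : (2 : F) = 0 := CharTwo.two_eq_zero
  have h1 : (a - b) ^ 2 = 0 := by
    have e : (a - b) ^ 2 = a ^ 2 - b ^ 2 - 2 * b * (a - b) := by ring
    rw [e, h, h2]
    ring
  have := (pow_eq_zero_iff two_ne_zero).mp h1
  exact sub_eq_zero.mp this

theorem add_self' (a : F) : a + a = 0 := by
  have h2 : (2 : F) = 0 := CharTwo.two_eq_zero
  linear_combination a * h2

theorem AS.add {c c' : F} (h : AS c) (h' : AS c') : AS (c + c') := by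
  obtain ⟨a, rfl⟩ := h
  obtain ⟨b, rfl⟩ := h'
  exact ⟨a + b, by rw [sq_add_sq]; ring⟩

theorem as_self (a : F) : AS (a ^ 2 + a) := ⟨a, rfl⟩

theorem as_zero : AS (0 : F) := ⟨0, by simp⟩

theorem as_of_add {c c' : F} (h : AS (c + c')) (h' : AS c') : AS c := by
  have h3 := h.add h'
  have e : c + c' + c' = c := by
    rw [add_assoc, add_self', add_zero]
  rwa [e] at h3

theorem as_sq_iff (c : F) : AS (c ^ 2) ↔ AS c := by
  constructor
  · intro h
    have e : c ^ 2 + c + c ^ 2 = c := by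
      have := add_self' (c ^ 2)
      linear_combination this
    rw [← e]
    exact (as_self c).add h
  · intro h
    have e : c ^ 2 + c + c = c ^ 2 := by
      have := add_self' c
      linear_combination this
    rw [← e]
    exact (as_self c).add h

/-- The Artin-Schreier homomorphism. -/
def asHom : F →+ F where
  toFun a := a ^ 2 + a
  map_zero' := by simp
  map_add' a b := by
    show (a + b) ^ 2 + (a + b) = a ^ 2 + a + (b ^ 2 + b)
    rw [sq_add_sq]
    ring

theorem as_iff (c : F) : AS c ↔ c ∈ (asHom (F := F)).range := by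
  constructor
  · rintro ⟨a, rfl⟩
    exact ⟨a, rfl⟩
  · rintro ⟨a, rfl⟩
    exact ⟨a, rfl⟩

variable [Fintype F]

theorem index_as : (asHom (F := F)).range.index = 2 := by
  classical
  have hker : Nat.card (asHom (F := F)).ker = 2 := by
    rw [Nat.card_eq_two_iff]
    refine ⟨⟨0, by simp [AddMonoidHom.mem_ker]⟩, ⟨1, ?_⟩, ?_, ?_⟩
    · rw [AddMonoidHom.mem_ker]
      show (1 : F) ^ 2 + 1 = 0
      rw [one_pow]
      exact add_self' 1
    · intro h
      have := congrArg Subtype.val h
      exact zero_ne_one this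
    · ext ⟨a, ha⟩
      simp only [Set.mem_insert_iff, Set.mem_singleton_iff, Subtype.mk.injEq, Set.mem_univ, iff_true]
      have ha' : a ^ 2 + a = 0 := ha
      have h3 : a * (a + 1) = 0 := by linear_combination ha'
      rcases mul_eq_zero.mp h3 with h4 | h4
      · exact Or.inl h4
      · right
        have := add_self' (1 : F)
        linear_combination h4 - this
  have h1 := AddSubgroup.card_mul_index (asHom (F := F)).ker
  have h2 := AddSubgroup.card_mul_index (asHom (F := F)).range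
  rw [AddSubgroup.index_ker] at h1
  rw [hker] at h1
  have hpos : 0 < Nat.card (asHom (F := F)).range := Nat.card_pos
  have h3 : Nat.card (asHom (F := F)).range * (asHom (F := F)).range.index = Nat.card (asHom (F := F)).range * 2 := by
    rw [h2, ← h1]
    ring
  exact Nat.eq_of_mul_eq_mul_left hpos h3

theorem as_of_not {c c' : F} (h : ¬ AS c) (h' : ¬ AS c') : AS (c + c') := by
  rw [as_iff] at h h' ⊢
  exact (AddSubgroup.add_mem_iff_of_index_two index_as).mpr (iff_of_false h h')

theorem exists_not_as : ∃ c : F, ¬ AS c := by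
  by_contra hcon
  push Not at hcon
  have h1 : (asHom (F := F)).range = ⊤ := by
    rw [eq_top_iff]
    intro c _
    exact (as_iff c).mp (hcon c)
  have h2 := index_as (F := F)
  rw [h1, AddSubgroup.index_top] at h2
  omega

theorem exists_sqrt' (c : F) : ∃ s : F, s ^ 2 = c := by
  have hinj : Function.Injective (fun a : F => a ^ 2) := fun a b h => sq_inj h
  exact (Finite.injective_iff_surjective.mp hinj) c

/-- Square roots. -/
noncomputable def sq' (c : F) : F := (exists_sqrt' c).choose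

theorem sq'_sq (c : F) : sq' c ^ 2 = c := (exists_sqrt' c).choose_spec

theorem sq'_add (a b : F) : sq' (a + b) = sq' a + sq' b := by
  apply sq_inj
  rw [sq_add_sq, sq'_sq, sq'_sq, sq'_sq]

theorem sq'_mul_sq (c a : F) : sq' (c ^ 2 * a) = c * sq' a := by
  apply sq_inj
  rw [mul_pow, sq'_sq, sq'_sq]

theorem sq'_eq_zero : sq' (0 : F) = 0 := by
  apply sq_inj
  rw [sq'_sq]
  simp

end field

section forms

variable {F : Type*} [Field F] [CharP F 2] {d : ℕ}

theorem B_comm (u v : Fin d ⊕ Fin d → F) : Cfsg.sympForm d F u v = Cfsg.sympForm d F v u := by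
  rw [sympForm_swap, CharTwo.neg_eq]

/-- A quadratic form polarising to the standard form. -/
structure Pol (Q : (Fin d ⊕ Fin d → F) → F) : Prop where
  smul : ∀ (c : F) v, Q (c • v) = c ^ 2 * Q v
  add : ∀ u v, Q (u + v) = Q u + Q v + Cfsg.sympForm d F u v

theorem pol_of {Q : (Fin d ⊕ Fin d → F) → F} (hQ : IsNondegenerateQuadraticForm Q)
    (hQf : ∀ u v, QuadraticMap.polar Q u v = Cfsg.sympForm d F u v) : Pol Q where
  smul := hQ.smul
  add u v := by
    have := hQf u v
    rw [QuadraticMap.polar] at this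
    linear_combination this

theorem Pol.zero {Q : (Fin d ⊕ Fin d → F) → F} (hQ : Pol Q) : Q 0 = 0 := by
  have := hQ.smul 0 0
  simpa using this

/-- The shift of a form. -/
def Qs (Q : (Fin d ⊕ Fin d → F) → F) (u v : Fin d ⊕ Fin d → F) : F := Q v + Cfsg.sympForm d F u v ^ 2

theorem Pol.shift {Q : (Fin d ⊕ Fin d → F) → F} (hQ : Pol Q) (u : Fin d ⊕ Fin d → F) : Pol (Qs Q u) where
  smul c v := by
    simp only [Qs]
    rw [hQ.smul, sympForm_smul_right]
    ring
  add v w := by
    simp only [Qs]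
    rw [hQ.add, sympForm_add_right, sq_add_sq]
    ring

theorem qs_qs (Q : (Fin d ⊕ Fin d → F) → F) (u w v : Fin d ⊕ Fin d → F) : Qs (Qs Q u) w v = Qs Q (u + w) v := by
  simp only [Qs]
  rw [sympForm_add_left, sq_add_sq]
  ring

theorem Pol.comp {Q : (Fin d ⊕ Fin d → F) → F} (hQ : Pol Q) (g : GL (Fin d ⊕ Fin d) F) (hg : g ∈ Cfsg.spGL d F) :
    Pol (fun v => Q (g.val *ᵥ v)) where
  smul c v := by
    show Q (g.val *ᵥ (c • v)) = c ^ 2 * Q (g.val *ᵥ v)
    rw [mulVec_smul, hQ.smul]
  add u v := by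
    show Q (g.val *ᵥ (u + v)) = Q (g.val *ᵥ u) + Q (g.val *ᵥ v) + _
    rw [mulVec_add, hQ.add, (mem_spGL_iff g).mp hg]

variable [Fintype F]

/-- A shift by a vector with Artin-Schreier value comes from a transvection. -/
theorem exists_sp_shift {Q : (Fin d ⊕ Fin d → F) → F} (hQ : Pol Q) {u : Fin d ⊕ Fin d → F} (h : AS (Q u)) :
    ∃ g ∈ Cfsg.spGL d F, ∀ v, Q (g.val *ᵥ v) = Qs Q u v := by
  obtain ⟨a, ha, h1⟩ : ∃ a : F, a ^ 2 + a = Q u ∧ a + 1 ≠ 0 := by
    obtain ⟨a, ha⟩ := h
    by_cases h1 : a + 1 = 0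
    · refine ⟨a + 1, ?_, ?_⟩
      · rw [sq_add_sq, ← ha, one_pow]
        have := add_self' (1 : F)
        linear_combination this
      · rw [h1]
        simp
    · exact ⟨a, ha, h1⟩
  set lam := (a + 1)⁻¹ with hlamdef
  have hlam : lam * (a + 1) = 1 := inv_mul_cancel₀ h1
  refine ⟨stv u lam, stv_mem_spGL _ _, fun v => ?_⟩
  rw [stv_apply, hQ.add, hQ.smul, sympForm_smul_right]
  simp only [Qs]
  rw [B_comm u v, ← ha]
  set t := Cfsg.sympForm d F v u
  linear_combination t ^ 2 * (lam * a + 1) * hlam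

theorem conj_of_inv {Q : (Fin d ⊕ Fin d → F) → F} (hQ : Pol Q) {u : Fin d ⊕ Fin d → F} (h : AS (Q u)) (x : GL (Fin d ⊕ Fin d) F)
    (hx : ∀ v, Qs Q u (x.val *ᵥ v) = Qs Q u v) : ∃ g ∈ Cfsg.spGL d F, g⁻¹ * x * g ∈ quadSimilarityGroup Q := by
  obtain ⟨g, hg, hv⟩ := exists_sp_shift hQ h
  refine ⟨g⁻¹, inv_mem hg, ⟨1, fun v => ?_⟩⟩
  rw [inv_inv, Units.val_mul, Units.val_mul, ← mulVec_mulVec, ← mulVec_mulVec, hv, hx, ← hv, mulVec_mulVec, Units.val_one, one_mul,
    ← Units.val_mul, mul_inv_cancel, Units.val_one, one_mulVec]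

theorem exists_rep (l : (Fin d ⊕ Fin d → F) →ₗ[F] F) : ∃ u, ∀ v, l v = Cfsg.sympForm d F u v := by
  have hf := sympForm_isSymplectic (m := d) (F := F)
  have hnd := bilinOf_nondegenerate hf.bilinear hf.nondegenerate
  refine ⟨((bilinOf _ hf.bilinear).toDual hnd).symm l, fun v => ?_⟩
  exact (LinearMap.BilinForm.apply_toDual_symm_apply (B := bilinOf _ hf.bilinear) (hB := hnd) l v).symm

theorem finrank_V' : finrank F (Fin d ⊕ Fin d → F) = 2 * d := by
  rw [finrank_fintype_fun_eq_card]
  simp only [Fintype.card_sum, Fintype.card_fin]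
  ring

section invol

variable (X : (Fin d ⊕ Fin d → F) →ₗ[F] (Fin d ⊕ Fin d → F))

/-- The map `N = X + 1`. -/
def NN : (Fin d ⊕ Fin d → F) →ₗ[F] (Fin d ⊕ Fin d → F) := X + LinearMap.id

theorem NN_apply (v : Fin d ⊕ Fin d → F) : NN X v = X v + v := rfl

theorem vadd_self (v : Fin d ⊕ Fin d → F) : v + v = 0 := by
  ext i
  exact add_self' (v i)

variable {X} (hiso : ∀ u v, Cfsg.sympForm d F (X u) (X v) = Cfsg.sympForm d F u v) (hinv : ∀ v, X (X v) = v)

include hiso hinv

theorem B_adj (u v : Fin d ⊕ Fin d → F) : Cfsg.sympForm d F (X u) v = Cfsg.sympForm d F u (X v) := by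
  have := hiso (X u) v
  rw [hinv] at this
  exact this.symm

theorem B_N (u v : Fin d ⊕ Fin d → F) : Cfsg.sympForm d F u (NN X v) = Cfsg.sympForm d F (NN X u) v := by
  rw [NN_apply, NN_apply, sympForm_add_right, sympForm_add_left, B_adj hiso hinv]

omit hiso in
theorem N_N (v : Fin d ⊕ Fin d → F) : NN X (NN X v) = 0 := by
  rw [NN_apply, NN_apply, map_add, hinv]
  have := vadd_self (v + X v)
  rw [add_comm (X v) v] 
  exact this

theorem B_NN (u v : Fin d ⊕ Fin d → F) : Cfsg.sympForm d F (NN X u) (NN X v) = 0 := by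
  rw [B_N hiso hinv, N_N hinv]
  simpa using sympForm_smul_left 0 v v

omit hiso hinv in
theorem X_eq (v : Fin d ⊕ Fin d → F) : X v = v + NN X v := by
  rw [NN_apply, add_comm (X v) v, ← add_assoc, vadd_self, zero_add]

/-- Every involution fixes a shift of a form. -/
theorem exists_inv_form {Q : (Fin d ⊕ Fin d → F) → F} (hQ : Pol Q) : ∃ u₀, ∀ v, Qs Q u₀ (X v) = Qs Q u₀ v := by
  classical
  let f : (Fin d ⊕ Fin d → F) → F := fun v => Q (NN X v) + Cfsg.sympForm d F v (NN X v)
  have hf_add : ∀ u v, f (u + v) = f u + f v := by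
    intro u v
    simp only [f]
    rw [map_add, hQ.add, B_NN hiso hinv, sympForm_add_left, sympForm_add_right, sympForm_add_right, B_N hiso hinv v u, B_comm (NN X v) u]
    have := add_self' (Cfsg.sympForm d F u (NN X v))
    linear_combination this
  have hf_smul : ∀ (c : F) v, f (c • v) = c ^ 2 * f v := by
    intro c v
    simp only [f]
    rw [map_smul, hQ.smul, sympForm_smul_left, sympForm_smul_right]
    ring
  let l : (Fin d ⊕ Fin d → F) →ₗ[F] F :=
    { toFun := fun v => sq' (f v)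
      map_add' := fun u v => by rw [hf_add, sq'_add]
      map_smul' := fun c v => by
        simp only [RingHom.id_apply, smul_eq_mul]
        rw [hf_smul, sq'_mul_sq] }
  have hl : ∀ v, l v ^ 2 = f v := fun v => sq'_sq _
  have hker : ∀ v, NN X v = 0 → l v = 0 := by
    intro v hv
    have h1 : f v = 0 := by
      simp only [f]
      rw [hv, hQ.zero]
      have : Cfsg.sympForm d F v 0 = 0 := by simpa using sympForm_smul_right 0 v v
      rw [this, add_zero]
    have h2 := hl v
    rw [h1] at h2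
    exact (pow_eq_zero_iff two_ne_zero).mp h2
  have hmem : l ∈ LinearMap.range (NN X).dualMap := by
    rw [LinearMap.range_dualMap_eq_dualAnnihilator_ker, Submodule.mem_dualAnnihilator]
    intro w hw
    exact hker w hw
  obtain ⟨l', hl'⟩ := hmem
  obtain ⟨u₀, hu₀⟩ := exists_rep l'
  refine ⟨u₀, fun v => ?_⟩
  have h1 : l v = Cfsg.sympForm d F u₀ (NN X v) := by
    rw [← hl', LinearMap.dualMap_apply, hu₀]
  simp only [Qs]
  rw [X_eq v, hQ.add, sympForm_add_right, sq_add_sq, ← h1, hl]
  simp only [f]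
  have := add_self' (Q (NN X v) + Cfsg.sympForm d F v (NN X v))
  linear_combination this

/-- The structure of an involution all of whose invariant forms have the same type. -/
theorem struct_of_as {Q₁ : (Fin d ⊕ Fin d → F) → F} (hQ₁ : Pol Q₁) (hX : ∀ v, Q₁ (X v) = Q₁ v) (hall : ∀ u, NN X u = 0 → AS (Q₁ u)) :
    (∀ u, NN X u = 0 → Q₁ u = 0) ∧ finrank F (LinearMap.ker (NN X)) = d ∧ Even d := by
  classical
  have h0 : ∀ u, NN X u = 0 → Q₁ u = 0 := by
    intro u hu
    by_contra hne
    obtain ⟨y, hy⟩ := exists_not_as (F := F)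
    apply hy
    have h1 : NN X (sq' (y / Q₁ u) • u) = 0 := by rw [map_smul, hu, smul_zero]
    have h2 := hall _ h1
    rw [hQ₁.smul, sq'_sq, div_mul_cancel₀ _ hne] at h2
    exact h2
  have hti : ∀ u v, NN X u = 0 → NN X v = 0 → Cfsg.sympForm d F u v = 0 := by
    intro u v hu hv
    have h1 := hQ₁.add u v
    rw [h0 u hu, h0 v hv, h0 (u + v) (by rw [map_add, hu, hv, add_zero])] at h1
    linear_combination -h1
  set K := LinearMap.ker (NN X) with hK
  have hf := sympForm_isSymplectic (m := d) (F := F)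
  have hnd := bilinOf_nondegenerate hf.bilinear hf.nondegenerate
  have hle : K ≤ (bilinOf _ hf.bilinear).orthogonal K := by
    intro u hu
    rw [LinearMap.BilinForm.mem_orthogonal_iff]
    intro v hv
    exact hti v u hv hu
  have h2 := Submodule.finrank_mono hle
  have h3 := LinearMap.BilinForm.finrank_orthogonal hnd K
  rw [finrank_V'] at h3
  have h4 := Submodule.finrank_le K
  rw [finrank_V'] at h4
  have hrange : LinearMap.range (NN X) ≤ K := by
    rintro _ ⟨v, rfl⟩
    exact N_N hinv v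
  have h5 := Submodule.finrank_mono hrange
  have h6 := LinearMap.finrank_range_add_finrank_ker (NN X)
  rw [finrank_V', ← hK] at h6
  have hdK : finrank F K = d := by omega
  refine ⟨h0, hdK, ?_⟩
  let A : LinearMap.BilinForm F (Fin d ⊕ Fin d → F) := (bilinOf _ hf.bilinear).compRight (NN X)
  have hA : ∀ u v, A u v = Cfsg.sympForm d F u (NN X v) := fun _ _ => rfl
  have halt : ∀ v, A v v = 0 := by
    intro v
    rw [hA]
    have h1 := hQ₁.add v (NN X v)
    rw [← X_eq, hX, h0 _ (N_N hinv v)] at h1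
    linear_combination -h1
  obtain ⟨C, hC⟩ := Submodule.exists_isCompl K
  have hdC : finrank F C = d := by
    have := Submodule.finrank_add_eq_of_isCompl hC
    rw [finrank_V'] at this
    omega
  have hndC : ElusiveSp.Nd A C := by
    intro u hu hu0
    by_contra hcon
    push Not at hcon
    have h7 : ∀ w, A u w = 0 := by
      intro w
      have hw : w ∈ K ⊔ C := by
        rw [hC.sup_eq_top]
        trivial
      obtain ⟨k, hk, c, hc, rfl⟩ := Submodule.mem_sup.mp hw
      rw [hA, map_add, (show NN X k = 0 from hk), zero_add]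
      exact hcon c hc
    have h8 : NN X u = 0 := by
      by_contra h9
      obtain ⟨⟨y, hy⟩, -⟩ := hf.nondegenerate _ h9
      apply hy
      rw [B_comm, ← B_N hiso hinv]
      exact h7 y
    have h9 : u ∈ K ⊓ C := ⟨h8, hu⟩
    rw [hC.inf_eq_bot] at h9
    exact hu0 h9
  have := EluSimForm.even_of_nd halt hndC
  rwa [hdC] at this

end invol

/-- Two forms with a Lagrangian singular subspace differ by a vector of Artin-Schreier value. -/
theorem as_of_lagrangians {Q : (Fin d ⊕ Fin d → F) → F} (hQ : Pol Q) {u : Fin d ⊕ Fin d → F} {L L' : Submodule F (Fin d ⊕ Fin d → F)}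
    (hL : ∀ v ∈ L, Q v = 0) (hL' : ∀ v ∈ L', Qs Q u v = 0) (dL : finrank F L = d) (dL' : finrank F L' = d) : AS (Q u) := by
  classical
  have hf := sympForm_isSymplectic (m := d) (F := F)
  have hnd := bilinOf_nondegenerate hf.bilinear hf.nondegenerate
  have hQ' := hQ.shift u
  have htL : ∀ a ∈ L, ∀ b ∈ L, Cfsg.sympForm d F a b = 0 := by
    intro a ha b hb
    have h1 := hQ.add a b
    rw [hL _ (L.add_mem ha hb), hL _ ha, hL _ hb] at h1
    linear_combination -h1
  have htL' : ∀ a ∈ L', ∀ b ∈ L', Cfsg.sympForm d F a b = 0 := by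
    intro a ha b hb
    have h1 := hQ'.add a b
    rw [hL' _ (L'.add_mem ha hb), hL' _ ha, hL' _ hb] at h1
    linear_combination -h1
  have huO : u ∈ (bilinOf _ hf.bilinear).orthogonal (L ⊓ L') := by
    rw [LinearMap.BilinForm.mem_orthogonal_iff]
    intro w hw
    have h1 := hL w hw.1
    have h2 := hL' w hw.2
    simp only [Qs] at h2
    rw [h1, zero_add] at h2
    have h3 := (pow_eq_zero_iff two_ne_zero).mp h2
    show Cfsg.sympForm d F w u = 0
    rw [B_comm]
    exact h3
  have hsup : L ⊔ L' ≤ (bilinOf _ hf.bilinear).orthogonal (L ⊓ L') := by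
    intro y hy
    obtain ⟨a, ha, b, hb, rfl⟩ := Submodule.mem_sup.mp hy
    rw [LinearMap.BilinForm.mem_orthogonal_iff]
    intro w hw
    show Cfsg.sympForm d F w (a + b) = 0
    rw [sympForm_add_right, htL w hw.1 a ha, htL' w hw.2 b hb, add_zero]
  have heq : L ⊔ L' = (bilinOf _ hf.bilinear).orthogonal (L ⊓ L') := by
    apply Submodule.eq_of_le_of_finrank_eq hsup
    have h3 := LinearMap.BilinForm.finrank_orthogonal hnd (L ⊓ L')
    rw [finrank_V'] at h3
    have h4 := Submodule.finrank_sup_add_finrank_inf_eq L L'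
    have h5 := Submodule.finrank_mono (inf_le_left : L ⊓ L' ≤ L)
    omega
  rw [← heq] at huO
  obtain ⟨a, ha, b, hb, rfl⟩ := Submodule.mem_sup.mp huO
  refine ⟨Cfsg.sympForm d F a b, ?_⟩
  rw [hQ.add, hL a ha]
  have h5 := hL' b hb
  simp only [Qs] at h5
  rw [sympForm_add_left, sympForm_self, add_zero] at h5
  have := add_self' (Cfsg.sympForm d F a b ^ 2)
  linear_combination this - h5

theorem finrank_top' : finrank F (⊤ : Submodule F (Fin d ⊕ Fin d → F)) = 2 * d := by
  rw [finrank_top, finrank_V']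

/-- An involution is conjugate into the stabiliser of a form of plus type, and of any form if `d` is odd. -/
theorem exists_conj_invol {Q : (Fin d ⊕ Fin d → F) → F} (hQ : Pol Q) (x : GL (Fin d ⊕ Fin d) F) (hx : x ∈ Cfsg.spGL d F)
    (hxx : ∀ v, x.val *ᵥ (x.val *ᵥ v) = v) (hty : IsPlusTypeOn Q ⊤ ∨ Odd d) :
    ∃ g ∈ Cfsg.spGL d F, g⁻¹ * x * g ∈ quadSimilarityGroup Q := by
  classical
  let X : (Fin d ⊕ Fin d → F) →ₗ[F] (Fin d ⊕ Fin d → F) := Matrix.toLin' x.val
  have hXv : ∀ v, X v = x.val *ᵥ v := fun v => Matrix.toLin'_apply _ _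
  have hiso : ∀ u v, Cfsg.sympForm d F (X u) (X v) = Cfsg.sympForm d F u v := (mem_spGL_iff x).mp hx
  have hinv : ∀ v, X (X v) = v := hxx
  obtain ⟨u₀, hu₀⟩ := exists_inv_form hiso hinv hQ
  by_cases h1 : AS (Q u₀)
  · exact conj_of_inv hQ h1 x hu₀
  by_cases h2 : ∃ u, NN X u = 0 ∧ ¬ AS (Qs Q u₀ u)
  · obtain ⟨u, hu, hnot⟩ := h2
    have h3 : AS (Q (u₀ + u)) := by
      have e : Q (u₀ + u) = (Q u₀ + Qs Q u₀ u) + (Cfsg.sympForm d F u₀ u ^ 2 + Cfsg.sympForm d F u₀ u) := by
        rw [hQ.add]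
        simp only [Qs]
        have := add_self' (Cfsg.sympForm d F u₀ u ^ 2)
        linear_combination -this
      rw [e]
      exact (as_of_not h1 hnot).add (as_self _)
    apply conj_of_inv hQ h3 x
    intro v
    rw [← qs_qs, ← qs_qs]
    have hXu : X u = u := by
      have h4 : X u + u = 0 := hu
      have h5 := X_eq (X := X) u
      rw [hu, add_zero] at h5
      exact h5
    have h6 : Cfsg.sympForm d F u (x.val *ᵥ v) = Cfsg.sympForm d F u v := by
      have := hiso u v
      rw [hXu] at this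
      exact this
    have h7 : Qs Q u₀ (x.val *ᵥ v) = Qs Q u₀ v := hu₀ v
    simp only [Qs] at h7 ⊢
    rw [h7, h6]
  · push Not at h2
    obtain ⟨h0, hdK, hev⟩ := struct_of_as hiso hinv (hQ.shift u₀) hu₀ h2
    rcases hty with ⟨L, -, hL, hdL⟩ | hodd
    · refine absurd (as_of_lagrangians hQ (L := L) (L' := LinearMap.ker (NN X)) hL (fun v hv => h0 v hv) ?_ hdK) h1
      rw [finrank_top'] at hdL
      omega
    · exact absurd hev (Nat.not_even_iff_odd.mpr hodd)

theorem exists_form_ne (hd : 0 < d) : ∃ u v : Fin d ⊕ Fin d → F, Cfsg.sympForm d F u v ≠ 0 := by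
  classical
  have hf := sympForm_isSymplectic (m := d) (F := F)
  let v : Fin d ⊕ Fin d → F := Pi.single (Sum.inl ⟨0, hd⟩) 1
  have hv : v ≠ 0 := by
    intro h
    have := congrFun h (Sum.inl ⟨0, hd⟩)
    simp [v] at this
  obtain ⟨⟨w, hw⟩, -⟩ := hf.nondegenerate v hv
  exact ⟨w, v, hw⟩

/-- Elements of the symplectic group in the similarity group are isometries. -/
theorem iso_of_mem {Q : (Fin d ⊕ Fin d → F) → F} (hQ : Pol Q) (hd : 0 < d) {y : GL (Fin d ⊕ Fin d) F} (hy : y ∈ Cfsg.spGL d F)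
    (hyH : y ∈ quadSimilarityGroup Q) (v : Fin d ⊕ Fin d → F) : Q (y.val *ᵥ v) = Q v := by
  obtain ⟨c, hc⟩ := hyH
  obtain ⟨a, b, hab⟩ := exists_form_ne (F := F) hd
  have h1 := hc (a + b)
  rw [mulVec_add, hQ.add, hQ.add, hc a, hc b, (mem_spGL_iff y).mp hy] at h1
  have h2 : ((c : F) - 1) * Cfsg.sympForm d F a b = 0 := by linear_combination -h1
  have h3 : (c : F) = 1 := by
    rcases mul_eq_zero.mp h2 with h4 | h4
    · exact sub_eq_zero.mp h4
    · exact absurd h4 hab
  rw [hc, h3, one_mul]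

/-- The transported form. -/
theorem form_of_conj {Q : (Fin d ⊕ Fin d → F) → F} (hQ : Pol Q) (hd : 0 < d) {x g : GL (Fin d ⊕ Fin d) F} (hx : x ∈ Cfsg.spGL d F)
    (hg : g ∈ Cfsg.spGL d F) (h : g⁻¹ * x * g ∈ quadSimilarityGroup Q) :
    Pol (fun v => Q ((g⁻¹).val *ᵥ v)) ∧ ∀ v, Q ((g⁻¹).val *ᵥ (x.val *ᵥ v)) = Q ((g⁻¹).val *ᵥ v) := by
  refine ⟨hQ.comp _ (inv_mem hg), fun v => ?_⟩
  have hy : g⁻¹ * x * g ∈ Cfsg.spGL d F := mul_mem (mul_mem (inv_mem hg) hx) hg
  have h1 := iso_of_mem hQ hd hy h ((g⁻¹).val *ᵥ v)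
  rw [← h1, Units.val_mul, Units.val_mul, ← mulVec_mulVec, ← mulVec_mulVec, mulVec_mulVec _ g.val, ← Units.val_mul, mul_inv_cancel, Units.val_one, one_mulVec]

/-- Singular subspaces for the transported form give plus type. -/
theorem plus_of_transport {Q : (Fin d ⊕ Fin d → F) → F} (g : GL (Fin d ⊕ Fin d) F) {W : Submodule F (Fin d ⊕ Fin d → F)} (hdW : finrank F W = d)
    (hW : ∀ w ∈ W, Q ((g⁻¹).val *ᵥ w) = 0) : IsPlusTypeOn Q ⊤ := by
  classical
  have hinj : Function.Injective (Matrix.toLin' (g⁻¹).val) := by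
    intro a b hab
    have h1 : (g⁻¹).val *ᵥ a = (g⁻¹).val *ᵥ b := hab
    have h2 := congrArg (fun z => g.val *ᵥ z) h1
    simp only [mulVec_mulVec, ← Units.val_mul, mul_inv_cancel, Units.val_one, one_mulVec] at h2
    exact h2
  refine ⟨W.map (Matrix.toLin' (g⁻¹).val), le_top, ?_, ?_⟩
  · rintro _ ⟨w, hw, rfl⟩
    exact hW w hw
  · rw [finrank_top', ← LinearEquiv.finrank_eq (Submodule.equivMapOfInjective _ hinj _), hdW]

end forms

end Cfsg.Agent.Lib.ClassMax.EluOForm
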