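import Mathlib
import Cfsg.Agent.Lib.ClassMax.EluOForm
import Cfsg.Agent.Lib.Quad.Types
import Cfsg.Agent.Lib.Classical.OrthOrder
import Cfsg.Agent.Lib.Classical.OrthMinus
import Cfsg.Agent.Lib.Classical.QuadCount
import Cfsg.Agent.Lib.Classical.HermOrder
import Cfsg.Agent.Lib.Classical.SpOrder

/-!
# Stabilisers of quadratic forms in the symplectic group in even characteristic: witnesses and counts
-/

set_option autoImplicit false
set_option linter.unusedSimpArgs false
set_option linter.unusedVariables false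
set_option linter.unusedSectionVars false

namespace Cfsg.Agent.Lib.ClassMax.EluOForm

open scoped MatrixGroups
open Module Matrix Cfsg.Geo Cfsg.Agent.Lib.ClassMax Cfsg.Agent.Lib.KnownSimple Cfsg.Agent.Lib.ClassMax.EluSpBlock Cfsg.Agent.Lib.ClassMax.EluSpBlock2

variable {F : Type*} [Field F] [Fintype F] [CharP F 2] {d : ℕ}

/-- Inclusion of the first half of the coordinates. -/
def inlL : (Fin d → F) →ₗ[F] (Fin d ⊕ Fin d → F) where
  toFun a := Sum.elim a 0
  map_add' a b := by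
    funext i
    cases i <;> simp
  map_smul' c a := by
    funext i
    cases i <;> simp

/-- Inclusion of the second half of the coordinates. -/
def inrL : (Fin d → F) →ₗ[F] (Fin d ⊕ Fin d → F) where
  toFun a := Sum.elim 0 a
  map_add' a b := by
    funext i
    cases i <;> simp
  map_smul' c a := by
    funext i
    cases i <;> simp

theorem finrank_range_inlL : finrank F (LinearMap.range (inlL (F := F) (d := d))) = d := by
  rw [LinearMap.finrank_range_of_inj]
  · simp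
  · intro a b h
    funext i
    exact congrFun h (Sum.inl i)

theorem finrank_range_inrL : finrank F (LinearMap.range (inrL (F := F) (d := d))) = d := by
  rw [LinearMap.finrank_range_of_inj]
  · simp
  · intro a b h
    funext i
    exact congrFun h (Sum.inr i)

theorem exists_gl_of_lin {r : ℕ} (hr : 0 < r) (T : Module.End F (Fin d ⊕ Fin d → F)) (hTr : T ^ r = 1)
    (hiso : ∀ u v, Cfsg.sympForm d F (T u) (T v) = Cfsg.sympForm d F u v) :
    ∃ x : GL (Fin d ⊕ Fin d) F, x ∈ Cfsg.spGL d F ∧ x ^ r = 1 ∧ ∀ v, x.val *ᵥ v = T v := by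
  classical
  have hM : (LinearMap.toMatrix' T) ^ r = 1 := by
    apply Matrix.toLin'.injective
    rw [Matrix.toLin'_pow, Matrix.toLin'_toMatrix', hTr, Matrix.toLin'_one]
    rfl
  obtain ⟨g, hg, hgr⟩ := EluOne.gl_of_pow hr _ hM
  have hgv : ∀ v, g.val *ᵥ v = T v := by
    intro v
    rw [hg, LinearMap.toMatrix'_mulVec]
  refine ⟨g, (mem_spGL_iff g).mpr ?_, hgr, hgv⟩
  intro u v
  rw [hgv, hgv]
  exact hiso u v

theorem nonscalar_of (hd : 0 < d) {x : GL (Fin d ⊕ Fin d) F} (hx : x ∈ Cfsg.spGL d F) (h : ∃ v, x.val *ᵥ v ≠ v) (z : F) :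
    x.val ≠ z • (1 : Matrix (Fin d ⊕ Fin d) (Fin d ⊕ Fin d) F) := by
  intro hz
  obtain ⟨a, b, hab⟩ := exists_form_ne (F := F) hd
  have h1 := (mem_spGL_iff x).mp hx a b
  rw [hz, smul_mulVec, smul_mulVec, one_mulVec, one_mulVec, sympForm_smul_left, sympForm_smul_right] at h1
  have h2 : z ^ 2 = 1 ^ 2 := mul_right_cancel₀ hab (by linear_combination h1)
  have h3 : z = 1 := sq_inj h2
  obtain ⟨v, hv⟩ := h
  apply hv
  rw [hz, h3]
  simp

/-- The involution with Lagrangian image used when `d` is even. -/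
theorem exists_witness_two (e : ℕ) (he : 0 < e) :
    ∃ x : GL (Fin (e + e) ⊕ Fin (e + e)) F, x ∈ Cfsg.spGL (e + e) F ∧ x ^ 2 = 1 ∧ (∃ v, x.val *ᵥ v ≠ v) ∧
      ∀ Q' : (Fin (e + e) ⊕ Fin (e + e) → F) → F, Pol Q' → (∀ v, Q' (x.val *ᵥ v) = Q' v) → ∀ w ∈ LinearMap.range (inrL (F := F) (d := e + e)), Q' w = 0 := by
  classical
  let ε : Fin e ⊕ Fin e ≃ Fin (e + e) := finSumFinEquiv
  let σ : Fin (e + e) → Fin (e + e) := fun i => ε (Sum.swap (ε.symm i))
  have hσ : ∀ i, σ (σ i) = i := by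
    intro i
    simp [σ]
  let se : Equiv.Perm (Fin (e + e)) := ⟨σ, σ, hσ, hσ⟩
  let N : (Fin (e + e) ⊕ Fin (e + e) → F) →ₗ[F] (Fin (e + e) ⊕ Fin (e + e) → F) :=
    { toFun := fun v => Sum.elim (fun _ => 0) (fun i => v (Sum.inl (σ i)))
      map_add' := fun a b => by
        funext i
        cases i <;> simp
      map_smul' := fun c a => by
        funext i
        cases i <;> simp }
  have hNl : ∀ v i, N v (Sum.inl i) = 0 := fun v i => rfl
  have hNr : ∀ v i, N v (Sum.inr i) = v (Sum.inl (σ i)) := fun v i => rfl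
  have hNN : ∀ v, N (N v) = 0 := by
    intro v
    funext i
    cases i with
    | inl i => rfl
    | inr i => rfl
  have hBNN : ∀ u v, Cfsg.sympForm (e + e) F (N u) (N v) = 0 := by
    intro u v
    rw [sympForm_apply]
    apply Finset.sum_eq_zero
    intro i _
    rw [hNl, hNl]
    ring
  have hB1 : ∀ u v, Cfsg.sympForm (e + e) F u (N v) = - ∑ i, u (Sum.inl i) * v (Sum.inl (σ i)) := by
    intro u v
    rw [sympForm_apply, ← Finset.sum_neg_distrib]
    apply Finset.sum_congr rfl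
    intro i _
    rw [hNl, hNr]
    ring
  have hB2 : ∀ u v, Cfsg.sympForm (e + e) F (N u) v = ∑ i, u (Sum.inl i) * v (Sum.inl (σ i)) := by
    intro u v
    rw [sympForm_apply, ← Equiv.sum_comp se]
    apply Finset.sum_congr rfl
    intro i _
    rw [hNl, hNr]
    show u (Sum.inl (σ (σ i))) * v (Sum.inl (σ i)) - 0 * _ = _
    rw [hσ]
    ring
  have hpsi : ∀ v, Cfsg.sympForm (e + e) F v (N v) = 0 := by
    intro v
    rw [hB1, neg_eq_zero, ← Equiv.sum_comp ε, Fintype.sum_sum_type, ← Finset.sum_add_distrib]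
    apply Finset.sum_eq_zero
    intro j _
    have h1 : σ (ε (Sum.inl j)) = ε (Sum.inr j) := by simp [σ]
    have h2 : σ (ε (Sum.inr j)) = ε (Sum.inl j) := by simp [σ]
    rw [h1, h2]
    have := add_self' (v (Sum.inl (ε (Sum.inl j))) * v (Sum.inl (ε (Sum.inr j))))
    linear_combination this
  let T : Module.End F (Fin (e + e) ⊕ Fin (e + e) → F) := LinearMap.id + N
  have hTv : ∀ v, T v = v + N v := fun v => rfl
  have hT2 : T ^ 2 = 1 := by
    apply LinearMap.ext
    intro v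
    rw [sq, Module.End.mul_apply, hTv, hTv, map_add, hNN, add_zero, add_assoc, vadd_self, add_zero]
    rfl
  have hiso : ∀ u v, Cfsg.sympForm (e + e) F (T u) (T v) = Cfsg.sympForm (e + e) F u v := by
    intro u v
    rw [hTv, hTv, sympForm_add_left, sympForm_add_right, sympForm_add_right, hBNN, hB1, hB2]
    ring
  obtain ⟨x, hx, hxr, hxv⟩ := exists_gl_of_lin (by norm_num) T hT2 hiso
  refine ⟨x, hx, hxr, ?_, ?_⟩
  · let i₀ : Fin (e + e) := ⟨0, by omega⟩
    let v : Fin (e + e) ⊕ Fin (e + e) → F := inlL (Pi.single (σ i₀) 1)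
    refine ⟨v, ?_⟩
    rw [hxv]
    intro h
    have h1 := congrFun h (Sum.inr i₀)
    rw [hTv, Pi.add_apply, hNr] at h1
    have h2 : v (Sum.inr i₀) = 0 := rfl
    have h3 : v (Sum.inl (σ i₀)) = 1 := by
      show (Pi.single (σ i₀) (1 : F) : Fin (e + e) → F) (σ i₀) = 1
      simp
    rw [h2, h3] at h1
    simp at h1
  · intro Q' hQ' hinv w hw
    obtain ⟨a, rfl⟩ := hw
    let v : Fin (e + e) ⊕ Fin (e + e) → F := inlL (fun i => a (σ i))
    have h1 : N v = inrL a := by
      funext i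
      cases i with
      | inl i => rfl
      | inr i =>
        show a (σ (σ i)) = a i
        rw [hσ]
    rw [← h1]
    have h2 := hinv v
    rw [hxv, hTv, hQ'.add, hpsi] at h2
    linear_combination h2

/-- The diagonal element used when `r` divides `q - 1`. -/
theorem exists_witness_diag (hd : 0 < d) {r : ℕ} (hr : 0 < r) {ω : F} (hω : ω ^ r = 1) (hω2 : ω ^ 2 ≠ 1) :
    ∃ x : GL (Fin d ⊕ Fin d) F, x ∈ Cfsg.spGL d F ∧ x ^ r = 1 ∧ (∃ v, x.val *ᵥ v ≠ v) ∧
      ∀ Q' : (Fin d ⊕ Fin d → F) → F, Pol Q' → (∀ v, Q' (x.val *ᵥ v) = Q' v) → ∀ w ∈ LinearMap.range (inlL (F := F) (d := d)), Q' w = 0 := by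
  classical
  have hω0 : ω ≠ 0 := by
    rintro rfl
    rw [zero_pow (by omega)] at hω
    exact zero_ne_one hω
  have hinv : ω * ω⁻¹ = 1 := mul_inv_cancel₀ hω0
  let T : Module.End F (Fin d ⊕ Fin d → F) :=
    { toFun := fun v => Sum.elim (fun i => ω * v (Sum.inl i)) (fun i => ω⁻¹ * v (Sum.inr i))
      map_add' := fun a b => by
        funext i
        cases i <;> simp [mul_add]
      map_smul' := fun c a => by
        funext i
        cases i <;> simp <;> ring }
  have hTl : ∀ v i, T v (Sum.inl i) = ω * v (Sum.inl i) := fun v i => rfl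
  have hTr : ∀ v i, T v (Sum.inr i) = ω⁻¹ * v (Sum.inr i) := fun v i => rfl
  have hpow : ∀ n v i, (T ^ n) v (Sum.inl i) = ω ^ n * v (Sum.inl i) ∧ (T ^ n) v (Sum.inr i) = (ω⁻¹) ^ n * v (Sum.inr i) := by
    intro n
    induction n with
    | zero =>
      intro v i
      simp
    | succ n ih =>
      intro v i
      rw [pow_succ, Module.End.mul_apply]
      refine ⟨?_, ?_⟩
      · rw [(ih _ i).1, hTl]
        ring
      · rw [(ih _ i).2, hTr]
        ring
  have hT1 : T ^ r = 1 := by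
    apply LinearMap.ext
    intro v
    funext i
    cases i with
    | inl i =>
      rw [(hpow r v i).1, hω, one_mul]
      rfl
    | inr i =>
      rw [(hpow r v i).2, inv_pow, hω, inv_one, one_mul]
      rfl
  have hiso : ∀ u v, Cfsg.sympForm d F (T u) (T v) = Cfsg.sympForm d F u v := by
    intro u v
    rw [sympForm_apply, sympForm_apply]
    apply Finset.sum_congr rfl
    intro i _
    rw [hTl, hTl, hTr, hTr]
    linear_combination (u (Sum.inr i) * v (Sum.inl i) - u (Sum.inl i) * v (Sum.inr i)) * hinv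
  obtain ⟨x, hx, hxr, hxv⟩ := exists_gl_of_lin hr T hT1 hiso
  have hscal : ∀ a : Fin d → F, x.val *ᵥ (inlL a) = ω • inlL a := by
    intro a
    rw [hxv]
    funext i
    cases i with
    | inl i => rfl
    | inr i =>
      show ω⁻¹ * 0 = ω * 0
      simp
  refine ⟨x, hx, hxr, ?_, ?_⟩
  · refine ⟨inlL (Pi.single ⟨0, hd⟩ 1), ?_⟩
    rw [hscal]
    intro h
    have h1 := congrFun h (Sum.inl ⟨0, hd⟩)
    have h2 : (inlL (Pi.single ⟨0, hd⟩ 1) : Fin d ⊕ Fin d → F) (Sum.inl ⟨0, hd⟩) = 1 := by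
      show (Pi.single (⟨0, hd⟩ : Fin d) (1 : F) : Fin d → F) ⟨0, hd⟩ = 1
      simp
    rw [Pi.smul_apply, h2, smul_eq_mul, mul_one] at h1
    apply hω2
    rw [h1]
    simp
  · rintro Q' hQ' hinv' _ ⟨a, rfl⟩
    have h1 := hinv' (inlL a)
    rw [hscal, hQ'.smul] at h1
    have h2 : (ω ^ 2 - 1) * Q' (inlL a) = 0 := by linear_combination h1
    rcases mul_eq_zero.mp h2 with h3 | h3
    · exact absurd (sub_eq_zero.mp h3) hω2
    · exact h3

/-- Isometries of prime order without fixed vectors force a congruence on the number of zeros. -/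
theorem zero_count_modEq {Q : (Fin d ⊕ Fin d → F) → F} (hQ : Pol Q) {r : ℕ} [Fact r.Prime] (y : GL (Fin d ⊕ Fin d) F) (hiso : ∀ v, Q (y.val *ᵥ v) = Q v)
    (hyr : y ^ r = 1) (hfix : ∀ v, y.val *ᵥ v = v → v = 0) : Nat.card {v // Q v = 0} ≡ 1 [MOD r] := by
  classical
  let X := {v // Q v = 0}
  haveI : Fintype X := Fintype.ofFinite _
  let f : Function.End X := fun v => ⟨y.val *ᵥ v.1, by rw [hiso]; exact v.2⟩
  have hpow : ∀ (n : ℕ) (a : X), ((f ^ n) a).1 = (y ^ n).val *ᵥ a.1 := by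
    intro n
    induction n with
    | zero =>
      intro a
      rw [pow_zero]
      show a.1 = _
      simp
    | succ n ih =>
      intro a
      rw [pow_succ]
      show ((f ^ n) (f a)).1 = _
      rw [ih]
      show (y ^ n).val *ᵥ (y.val *ᵥ a.1) = _
      rw [pow_succ, Units.val_mul, mulVec_mulVec]
  have hf : f ^ r ^ 1 = 1 := by
    funext a
    apply Subtype.ext
    rw [pow_one, hpow, hyr]
    show _ = a.1
    simp
  have h1 := Equiv.Perm.card_fixedPoints_modEq (f := f) (p := r) (n := 1) hf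
  have h2 : Fintype.card (Function.fixedPoints f) = 1 := by
    rw [Fintype.card_eq_one_iff]
    refine ⟨⟨⟨0, hQ.zero⟩, ?_⟩, ?_⟩
    · apply Subtype.ext
      show y.val *ᵥ 0 = 0
      simp
    · rintro ⟨⟨v, hv⟩, hfv⟩
      have h3 : y.val *ᵥ v = v := congrArg Subtype.val hfv
      have h4 := hfix v h3
      apply Subtype.ext
      apply Subtype.ext
      exact h4
  rw [h2] at h1
  rw [Nat.card_eq_fintype_card]
  exact h1

/-- Transport of the count of zeros. -/
theorem card_zero_transport {V V' : Type*} [AddCommGroup V] [Module F V] [AddCommGroup V'] [Module F V'] {Q : V → F} {Q' : V' → F}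
    (e : V ≃ₗ[F] V') (he : ∀ v, Q v = Q' (e v)) : Nat.card {v // Q v = 0} = Nat.card {w // Q' w = 0} :=
  Nat.card_congr (e.toEquiv.subtypeEquiv (fun v => by
    rw [he]
    rfl))

/-- Transport of the order of the isometry group. -/
theorem card_iso_transport {ι κ : Type} [Fintype ι] [DecidableEq ι] [Fintype κ] [DecidableEq κ] {Q : (ι → F) → F} {Q' : (κ → F) → F}
    (e : (ι → F) ≃ₗ[F] (κ → F)) (he : ∀ v, Q v = Q' (e v)) : Nat.card (Cfsg.isometryGroup F Q) = Nat.card (Cfsg.isometryGroup F Q') := by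
  rw [Cfsg.Agent.Lib.Classical.card_isometryGroup_eq_pres, Cfsg.Agent.Lib.Classical.card_isometryGroup_eq_pres]
  exact Nat.card_congr (Cfsg.Agent.Lib.Classical.presCongr e (fun u v => (he u).symm)).toEquiv

/-- The classification of forms with the given polar form. -/
theorem type_gen {Q : (Fin d ⊕ Fin d → F) → F} (hQ : IsNondegenerateQuadraticForm Q) (hd : 1 ≤ d) :
    (IsPlusTypeOn Q ⊤ → ∃ g : (Fin d ⊕ Fin d → F) ≃ₗ[F] (Fin d ⊕ Fin d → F), ∀ v, Q v = Cfsg.quadFormPlus d F (g v)) ∧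
    (¬ IsPlusTypeOn Q ⊤ → ∃ ζ : F, (∀ t : F, t ^ 2 + t + ζ ≠ 0) ∧
      ∃ g : (Fin d ⊕ Fin d → F) ≃ₗ[F] ((Fin (d - 1) ⊕ Fin (d - 1)) ⊕ Fin 2 → F), ∀ v, Q v = Cfsg.quadFormMinus (d - 1) F 1 ζ (g v)) := by
  classical
  have hND : Cfsg.Agent.Lib.Quad.NondegQ (quadOf Q hQ) := by
    intro v hv
    by_contra hv0
    obtain ⟨-, w, hw⟩ := hQ.nondegenerate v hv0
    exact hw (hv w)
  constructor
  · rintro ⟨U, -, hU, hdU⟩
    rw [finrank_top'] at hdU
    exact Cfsg.Agent.Lib.Quad.exists_plus_of_singular hd finrank_V' (quadOf Q hQ) hND U (fun u hu => hU u hu) (by omega)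
  · intro hnot
    rcases Cfsg.Agent.Lib.Quad.exists_type_gen hd finrank_V' (quadOf Q hQ) hND with ⟨g, hg⟩ | ⟨ζ, hζ, g, hg⟩
    · exfalso
      apply hnot
      refine ⟨(LinearMap.range (inlL (F := F) (d := d))).map (g.symm : _ →ₗ[F] _), le_top, ?_, ?_⟩
      · rintro _ ⟨_, ⟨a, rfl⟩, rfl⟩
        have h1 := hg (g.symm (inlL a))
        simp only [LinearEquiv.apply_symm_apply] at h1
        show Q (g.symm (inlL a)) = 0
        refine (show Q (g.symm (inlL a)) = _ from h1).trans ?_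
        show ∑ i, (inlL a : Fin d ⊕ Fin d → F) (Sum.inl i) * (inlL a : Fin d ⊕ Fin d → F) (Sum.inr i) = 0
        apply Finset.sum_eq_zero
        intro i _
        show a i * 0 = 0
        simp
      · rw [finrank_top', LinearEquiv.finrank_map_eq, finrank_range_inlL]
    · exact ⟨ζ, hζ, g, hg⟩

theorem card_spGL : Nat.card (Cfsg.spGL d F) = Fintype.card F ^ (d ^ 2) * ∏ i ∈ Finset.range d, (Fintype.card F ^ (2 * (i + 1)) - 1) := by
  rw [← Cfsg.Agent.Lib.Classical.card_sp rfl d]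
  have e1 := Nat.card_congr (Cfsg.Agent.Lib.Classical.spEquivPres (F := F) d).toEquiv
  rw [e1]
  exact Nat.card_congr (Cfsg.Agent.Lib.Classical.presEquiv (Cfsg.sympForm d F)).toEquiv

theorem card_sub {Q : (Fin d ⊕ Fin d → F) → F} (hQ : Pol Q) (hd : 0 < d) :
    Nat.card ((quadSimilarityGroup Q).subgroupOf (Cfsg.spGL d F)) = Nat.card (Cfsg.isometryGroup F Q) := by
  classical
  have hmem : ∀ g : GL (Fin d ⊕ Fin d) F, g ∈ Cfsg.isometryGroup F Q → g ∈ Cfsg.spGL d F := by
    intro g hg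
    have hg' := (OmegaCore.mem_iso_iff g).mp hg
    rw [mem_spGL_iff]
    intro u v
    have h1 := hQ.add (g.val *ᵥ u) (g.val *ᵥ v)
    rw [← mulVec_add, hg', hg', hg', hQ.add] at h1
    linear_combination -h1
  refine Nat.card_congr
    { toFun := fun y => ⟨y.1.1, (OmegaCore.mem_iso_iff _).mpr (iso_of_mem hQ hd y.1.2 (Subgroup.mem_subgroupOf.mp y.2))⟩
      invFun := fun g => ⟨⟨g.1, hmem g.1 g.2⟩, Subgroup.mem_subgroupOf.mpr ⟨1, fun v => ?_⟩⟩
      left_inv := fun y => rfl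
      right_inv := fun g => rfl }
  have := (OmegaCore.mem_iso_iff g.1).mp g.2 v
  rw [this]
  simp

theorem idx_mul {Q : (Fin d ⊕ Fin d → F) → F} (hQ : Pol Q) (hd : 0 < d) :
    (quadSimilarityGroup Q).relIndex (Cfsg.spGL d F) * Nat.card (Cfsg.isometryGroup F Q) = Nat.card (Cfsg.spGL d F) := by
  have h := Subgroup.card_mul_index ((quadSimilarityGroup Q).subgroupOf (Cfsg.spGL d F))
  rw [card_sub hQ hd] at h
  rw [mul_comm]
  exact h

theorem arith_idx_plus {q k idx P : ℕ} (hq : 1 < q) (hP : 0 < P)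
    (h : idx * (2 * q ^ ((k + 1) * k) * (q ^ (k + 1) - 1) * P) = q ^ ((k + 1) ^ 2) * (P * (q ^ (2 * (k + 1)) - 1))) :
    2 * idx = q ^ (k + 1) * (q ^ (k + 1) + 1) := by
  have ht : 1 < q ^ (k + 1) := Nat.one_lt_pow (by omega) hq
  have hA : 0 < q ^ ((k + 1) * k) := by positivity
  have e1 : q ^ ((k + 1) ^ 2) = q ^ ((k + 1) * k) * q ^ (k + 1) := by
    rw [← pow_add]
    congr 1
    ring
  have e2 : q ^ (2 * (k + 1)) = q ^ (k + 1) * q ^ (k + 1) := by
    rw [← pow_add]
    congr 1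
    ring
  rw [e1, e2] at h
  set t := q ^ (k + 1) with ht'
  set A := q ^ ((k + 1) * k) with hA'
  obtain ⟨y, hy⟩ : ∃ y, t = y + 1 := ⟨t - 1, by omega⟩
  have hy0 : 0 < y := by omega
  rw [hy] at h ⊢
  simp only [Nat.add_sub_cancel] at h
  have e3 : (y + 1) * (y + 1) - 1 = y * (y + 2) := by
    have : (y + 1) * (y + 1) = y * (y + 2) + 1 := by ring
    omega
  rw [e3] at h
  have hC : 0 < A * y * P := by positivity
  apply Nat.eq_of_mul_eq_mul_left hC
  calc A * y * P * (2 * idx) = idx * (2 * A * y * P) := by ring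
    _ = A * (y + 1) * (P * (y * (y + 2))) := h
    _ = _ := by ring

theorem arith_idx_minus {q k idx P : ℕ} (hq : 1 < q) (hP : 0 < P)
    (h : idx * (2 * q ^ ((k + 1) * k) * (q ^ (k + 1) + 1) * P) = q ^ ((k + 1) ^ 2) * (P * (q ^ (2 * (k + 1)) - 1))) :
    2 * idx = q ^ (k + 1) * (q ^ (k + 1) - 1) := by
  have ht : 1 < q ^ (k + 1) := Nat.one_lt_pow (by omega) hq
  have hA : 0 < q ^ ((k + 1) * k) := by positivity
  have e1 : q ^ ((k + 1) ^ 2) = q ^ ((k + 1) * k) * q ^ (k + 1) := by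
    rw [← pow_add]
    congr 1
    ring
  have e2 : q ^ (2 * (k + 1)) = q ^ (k + 1) * q ^ (k + 1) := by
    rw [← pow_add]
    congr 1
    ring
  rw [e1, e2] at h
  set t := q ^ (k + 1) with ht'
  set A := q ^ ((k + 1) * k) with hA'
  obtain ⟨y, hy⟩ : ∃ y, t = y + 1 := ⟨t - 1, by omega⟩
  have hy0 : 0 < y := by omega
  rw [hy] at h ⊢
  simp only [Nat.add_sub_cancel] at h ⊢
  have e3 : (y + 1) * (y + 1) - 1 = y * (y + 2) := by
    have : (y + 1) * (y + 1) = y * (y + 2) + 1 := by ring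
    omega
  rw [e3] at h
  have hC : 0 < A * (y + 2) * P := by positivity
  apply Nat.eq_of_mul_eq_mul_left hC
  calc A * (y + 2) * P * (2 * idx) = idx * (2 * A * (y + 1 + 1) * P) := by ring
    _ = A * (y + 1) * (P * (y * (y + 2))) := h
    _ = _ := by ring

theorem prod_pos' {q : ℕ} (hq : 1 < q) (k : ℕ) : 0 < ∏ i ∈ Finset.range k, (q ^ (2 * (i + 1)) - 1) := by
  apply Finset.prod_pos
  intro i _
  have : 1 < q ^ (2 * (i + 1)) := Nat.one_lt_pow (by omega) hq
  omega

/-- The index of the stabiliser of a form of plus type. -/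
theorem index_plus {Q : (Fin d ⊕ Fin d → F) → F} (hQ : IsNondegenerateQuadraticForm Q) (hP : Pol Q) (hd : 1 ≤ d) (h : IsPlusTypeOn Q ⊤) :
    2 * (quadSimilarityGroup Q).relIndex (Cfsg.spGL d F) = Fintype.card F ^ d * (Fintype.card F ^ d + 1) := by
  obtain ⟨g, hg⟩ := (type_gen hQ hd).1 h
  have h1 := idx_mul hP (by omega)
  rw [card_iso_transport g hg, Cfsg.Agent.Lib.Classical.card_isometry_plus rfl d hd, card_spGL] at h1
  obtain ⟨k, rfl⟩ : ∃ k, d = k + 1 := ⟨d - 1, by omega⟩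
  simp only [Nat.add_sub_cancel] at h1
  rw [Finset.prod_range_succ] at h1
  exact arith_idx_plus Fintype.one_lt_card (prod_pos' Fintype.one_lt_card k) h1

/-- The index of the stabiliser of a form of minus type. -/
theorem index_minus {Q : (Fin d ⊕ Fin d → F) → F} (hQ : IsNondegenerateQuadraticForm Q) (hP : Pol Q) (hd : 1 ≤ d) (h : ¬ IsPlusTypeOn Q ⊤) :
    2 * (quadSimilarityGroup Q).relIndex (Cfsg.spGL d F) = Fintype.card F ^ d * (Fintype.card F ^ d - 1) := by
  obtain ⟨ζ, hζ, g, hg⟩ := (type_gen hQ hd).2 h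
  have h1 := idx_mul hP (by omega)
  rw [card_iso_transport g hg, Cfsg.Agent.Lib.Classical.card_isometry_minus rfl d hd 1 ζ (Cfsg.Agent.Lib.Quad.anisotropic_of_zeta hζ), card_spGL] at h1
  obtain ⟨k, rfl⟩ : ∃ k, d = k + 1 := ⟨d - 1, by omega⟩
  simp only [Nat.add_sub_cancel] at h1
  rw [Finset.prod_range_succ] at h1
  exact arith_idx_minus Fintype.one_lt_card (prod_pos' Fintype.one_lt_card k) h1

/-- The number of zeros of a form of plus type. -/
theorem zeros_plus {Q : (Fin d ⊕ Fin d → F) → F} (hQ : IsNondegenerateQuadraticForm Q) (hd : 1 ≤ d) (h : IsPlusTypeOn Q ⊤) :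
    Nat.card {v // Q v = 0} = Fintype.card F ^ (2 * d - 1) + Fintype.card F ^ d - Fintype.card F ^ (d - 1) := by
  obtain ⟨g, hg⟩ := (type_gen hQ hd).1 h
  rw [card_zero_transport g hg]
  exact Cfsg.Agent.Lib.Classical.card_zeros_plus rfl d hd

/-- The number of zeros of a form of minus type. -/
theorem zeros_minus {Q : (Fin d ⊕ Fin d → F) → F} (hQ : IsNondegenerateQuadraticForm Q) (hd : 1 ≤ d) (h : ¬ IsPlusTypeOn Q ⊤) :
    Nat.card {v // Q v = 0} = Fintype.card F ^ (2 * d - 1) + Fintype.card F ^ (d - 1) - Fintype.card F ^ d := by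
  obtain ⟨ζ, hζ, g, hg⟩ := (type_gen hQ hd).2 h
  rw [card_zero_transport g hg]
  exact Cfsg.Agent.Lib.Classical.card_zeros_minus rfl d hd 1 ζ (Cfsg.Agent.Lib.Quad.anisotropic_of_zeta hζ)

/-- An isometry of the standard form of odd prime order without fixed vectors. -/
theorem exists_fpf {r : ℕ} [Fact r.Prime] (hrq : ¬ r ∣ Fintype.card F) (hi : blockDim F r ∣ 2 * d) :
    ∃ x : GL (Fin d ⊕ Fin d) F, x ∈ Cfsg.spGL d F ∧ x ^ r = 1 ∧ ∀ v, x.val *ᵥ v = v → v = 0 := by
  classical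
  have hr : r.Prime := Fact.out
  obtain ⟨s, hs⟩ := hi
  obtain ⟨T, hT, hiso, hker⟩ := exists_iso_model (d := d) hrq (s := s) (k := 0) (by rw [add_zero]; exact hs)
  obtain ⟨x, hx, hxr, hxv⟩ := exists_gl_of_lin hr.pos T hT hiso
  refine ⟨x, hx, hxr, fun v hv => ?_⟩
  have h1 : LinearMap.ker (T - 1) = ⊥ := Submodule.finrank_eq_zero.mp hker
  have h2 : v ∈ LinearMap.ker (T - 1) := by
    rw [LinearMap.mem_ker, LinearMap.sub_apply, ← hxv, hv]
    simp
  rw [h1] at h2
  exact h2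

/-- From the witness without fixed vectors to the congruence on the count of zeros. -/
theorem zeros_of_witness {Q : (Fin d ⊕ Fin d → F) → F} (hQ : Pol Q) (hd : 0 < d) {r : ℕ} [Fact r.Prime] {x g : GL (Fin d ⊕ Fin d) F}
    (hx : x ∈ Cfsg.spGL d F) (hxr : x ^ r = 1) (hfix : ∀ v, x.val *ᵥ v = v → v = 0) (hg : g ∈ Cfsg.spGL d F)
    (hy : g⁻¹ * x * g ∈ quadSimilarityGroup Q) : Nat.card {v // Q v = 0} ≡ 1 [MOD r] := by
  have hmem : g⁻¹ * x * g ∈ Cfsg.spGL d F := mul_mem (mul_mem (inv_mem hg) hx) hg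
  apply zero_count_modEq hQ (g⁻¹ * x * g) (iso_of_mem hQ hd hmem hy)
  · have : g⁻¹ * x * g = g⁻¹ * x * g⁻¹⁻¹ := by rw [inv_inv]
    rw [this, conj_pow, hxr]
    simp
  · intro v hv
    have h1 : x.val *ᵥ (g.val *ᵥ v) = g.val *ᵥ v := by
      have h2 := congrArg (fun z => g.val *ᵥ z) hv
      simp only [Units.val_mul, ← mulVec_mulVec] at h2
      have e : ∀ w, g.val *ᵥ ((g⁻¹).val *ᵥ w) = w := by
        intro w
        rw [mulVec_mulVec, ← Units.val_mul, mul_inv_cancel, Units.val_one, one_mulVec]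
      rw [e] at h2
      exact h2
    have h2 := hfix _ h1
    have h3 := congrArg (fun z => (g⁻¹).val *ᵥ z) h2
    simp only [mulVec_mulVec, ← Units.val_mul, inv_mul_cancel, Units.val_one, one_mulVec, mulVec_zero] at h3
    exact h3

end Cfsg.Agent.Lib.ClassMax.EluOForm
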