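import Mathlib
import Cfsg.Agent.Lib.ClassMax.EluSpBlock2
import Cfsg.Agent.Lib.ClassMax.SpPair
import Cfsg.Agent.Lib.Known.CrossSp

/-!
# Complementary Lagrangian pairs and isometries of odd prime order

The number of pairs of complementary totally isotropic subspaces, and elements of odd prime order
fixing no such pair.
-/

set_option autoImplicit false
set_option linter.unusedSimpArgs false
set_option linter.unusedVariables false
set_option linter.unusedSectionVars false

namespace Cfsg.Agent.Lib.ClassMax.EluSpPair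

open scoped MatrixGroups
open Module Polynomial Matrix Cfsg.Geo Cfsg.Agent.Lib.ClassMax Cfsg.Agent.Lib.ClassMax.ElusiveSp Cfsg.Agent.Lib.ClassMax.EluConj Cfsg.Agent.Lib.ClassMax.EluOrder
  Cfsg.Agent.Lib.ClassMax.EluBlock Cfsg.Agent.Lib.ClassMax.EluFix Cfsg.Agent.Lib.ClassMax.EluImpr Cfsg.Agent.Lib.ClassMax.EluImpr2
  Cfsg.Agent.Lib.ClassMax.EluSpBlock Cfsg.Agent.Lib.ClassMax.EluSpBlock2 Cfsg.Agent.Lib.KnownSimple

section elements

variable {F : Type*} [Field F] {d : ℕ}

/-- An isometry of odd prime order as an element of the projective group. -/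
theorem sp_elt_of_iso [Fintype F] {r : ℕ} [Fact r.Prime] (hr2 : r ≠ 2) (hd : 0 < d) (T : Module.End F (Fin d ⊕ Fin d → F)) (hT : T ^ r = 1)
    (hiso : ∀ u v, Cfsg.sympForm d F (T u) (T v) = Cfsg.sympForm d F u v) (hne : T ≠ 1) :
    ∃ x : ↥(Matrix.symplecticGroup (Fin d) F), Matrix.toLin' x.1 = T ∧
      (∃ z : F, ((x ^ r : ↥(Matrix.symplecticGroup (Fin d) F)) : Matrix (Fin d ⊕ Fin d) (Fin d ⊕ Fin d) F) = z • (1 : Matrix (Fin d ⊕ Fin d) (Fin d ⊕ Fin d) F)) ∧
      (∀ z : F, (x : Matrix (Fin d ⊕ Fin d) (Fin d ⊕ Fin d) F) ≠ z • (1 : Matrix (Fin d ⊕ Fin d) (Fin d ⊕ Fin d) F)) := by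
  classical
  have hr : r.Prime := Fact.out
  have hf := sympForm_isSymplectic (m := d) (F := F)
  obtain ⟨k₀, hk₀⟩ : ∃ k₀, r = 2 * k₀ + 1 := by
    rcases hr.eq_two_or_odd' with h | ⟨k₀, h⟩
    · exact absurd h hr2
    · exact ⟨k₀, h⟩
  have hzroot : ∀ z : F, z * z = 1 → z ^ r = 1 → z = 1 := by
    intro z h1 h2
    rw [hk₀, pow_succ, pow_mul, sq, h1, one_pow, one_mul] at h2
    exact h2
  obtain ⟨u₀, v₀, huv⟩ : ∃ u₀ v₀ : Fin d ⊕ Fin d → F, Cfsg.sympForm d F u₀ v₀ ≠ 0 := by
    have h0 : (Pi.single (Sum.inl ⟨0, hd⟩) 1 : Fin d ⊕ Fin d → F) ≠ 0 := by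
      intro h
      have := congrFun h (Sum.inl ⟨0, hd⟩)
      simp at this
    obtain ⟨-, y, hy⟩ := hf.nondegenerate _ h0
    exact ⟨_, y, hy⟩
  have hscal : ∀ z : F, (∀ u v, Cfsg.sympForm d F (z • u) (z • v) = Cfsg.sympForm d F u v) → z * z = 1 := by
    intro z h
    have h1 := h u₀ v₀
    rw [hf.bilinear.smul_left, hf.bilinear.smul_right, ← mul_assoc] at h1
    have h2 : (z * z - 1) * Cfsg.sympForm d F u₀ v₀ = 0 := by
      rw [sub_mul, h1, one_mul, sub_self]
    exact sub_eq_zero.mp ((mul_eq_zero.mp h2).resolve_right huv)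
  obtain ⟨x, hx⟩ := exists_sp_of_iso T hiso
  refine ⟨x, hx, ⟨1, ?_⟩, ?_⟩
  · rw [one_smul]
    show x.1 ^ r = 1
    apply (Matrix.toLinAlgEquiv' (R := F) (n := Fin d ⊕ Fin d)).injective
    rw [map_pow, map_one]
    have : Matrix.toLinAlgEquiv' (R := F) x.1 = T := hx
    rw [this, hT]
  · intro z hz
    have hTz : ∀ v, T v = z • v := by
      intro v
      rw [← hx, Matrix.toLin'_apply, hz, Matrix.smul_mulVec, Matrix.one_mulVec]
    have hzz : z * z = 1 := hscal z (fun u v => by rw [← hTz, ← hTz, hiso])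
    have hzr : z ^ r = 1 := by
      have h1 : ∀ (k : ℕ) v, (T ^ k) v = z ^ k • v := by
        intro k
        induction k with
        | zero => intro v; simp
        | succ k ih =>
          intro v
          rw [pow_succ', Module.End.mul_apply, ih, hTz, smul_smul, pow_succ']
      have h2 := h1 r u₀
      rw [hT, Module.End.one_apply] at h2
      have h3 : (z ^ r - 1) • u₀ = 0 := by
        rw [sub_smul, ← h2, one_smul, sub_self]
      rcases smul_eq_zero.mp h3 with h4 | h4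
      · exact sub_eq_zero.mp h4
      · exfalso
        apply huv
        rw [h4]
        have := hf.bilinear.smul_left 0 (0 : Fin d ⊕ Fin d → F) v₀
        simpa using this
    have hz1 := hzroot z hzz hzr
    apply hne
    apply LinearMap.ext
    intro v
    rw [hTz, hz1, one_smul]
    rfl

/-- An element whose power is scalar is a scalar multiple of an isometry of order dividing `r`. -/
theorem iso_of_sp_elt {r : ℕ} [Fact r.Prime] (hr2 : r ≠ 2) (hd : 0 < d) (x : ↥(Matrix.symplecticGroup (Fin d) F)) {z : F}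
    (hz : ((x ^ r : ↥(Matrix.symplecticGroup (Fin d) F)) : Matrix (Fin d ⊕ Fin d) (Fin d ⊕ Fin d) F) = z • (1 : Matrix (Fin d ⊕ Fin d) (Fin d ⊕ Fin d) F)) :
    ∃ T : Module.End F (Fin d ⊕ Fin d → F), T ^ r = 1 ∧ (∀ u v, Cfsg.sympForm d F (T u) (T v) = Cfsg.sympForm d F u v) ∧ z ≠ 0 ∧ ∀ v, x.1 *ᵥ v = z • T v := by
  classical
  have hr : r.Prime := Fact.out
  have hf := sympForm_isSymplectic (m := d) (F := F)
  obtain ⟨k₀, hk₀⟩ : ∃ k₀, r = 2 * k₀ + 1 := by
    rcases hr.eq_two_or_odd' with h | ⟨k₀, h⟩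
    · exact absurd h hr2
    · exact ⟨k₀, h⟩
  obtain ⟨u₀, v₀, huv⟩ : ∃ u₀ v₀ : Fin d ⊕ Fin d → F, Cfsg.sympForm d F u₀ v₀ ≠ 0 := by
    have h0 : (Pi.single (Sum.inl ⟨0, hd⟩) 1 : Fin d ⊕ Fin d → F) ≠ 0 := by
      intro h
      have := congrFun h (Sum.inl ⟨0, hd⟩)
      simp at this
    obtain ⟨-, y, hy⟩ := hf.nondegenerate _ h0
    exact ⟨_, y, hy⟩
  have hscal : ∀ z : F, (∀ u v, Cfsg.sympForm d F (z • u) (z • v) = Cfsg.sympForm d F u v) → z * z = 1 := by
    intro z h
    have h1 := h u₀ v₀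
    rw [hf.bilinear.smul_left, hf.bilinear.smul_right, ← mul_assoc] at h1
    have h2 : (z * z - 1) * Cfsg.sympForm d F u₀ v₀ = 0 := by
      rw [sub_mul, h1, one_mul, sub_self]
    exact sub_eq_zero.mp ((mul_eq_zero.mp h2).resolve_right huv)
  set A : Matrix (Fin d ⊕ Fin d) (Fin d ⊕ Fin d) F := x.1 with hAdef
  have hA : A ^ r = z • 1 := hz
  have hzz : z * z = 1 := by
    apply hscal
    intro u v
    have h1 := Cfsg.Agent.Lib.Classical.sp_form (x ^ r) u v
    have h2 : ∀ w : Fin d ⊕ Fin d → F, ((x ^ r : ↥(Matrix.symplecticGroup (Fin d) F)) : Matrix (Fin d ⊕ Fin d) (Fin d ⊕ Fin d) F) *ᵥ w = z • w := by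
      intro w
      rw [hz, Matrix.smul_mulVec, Matrix.one_mulVec]
    rw [h2, h2] at h1
    exact h1
  have hz0 : z ≠ 0 := by
    rintro rfl
    simp at hzz
  have hzr : z ^ r * z = 1 := by
    rw [hk₀, pow_succ, pow_mul, sq, hzz, one_pow, one_mul, hzz]
  set A' : Matrix (Fin d ⊕ Fin d) (Fin d ⊕ Fin d) F := z • A with hA'
  have hA'r : A' ^ r = 1 := by
    rw [hA', _root_.smul_pow, hA, smul_smul, hzr, one_smul]
  set T : Module.End F (Fin d ⊕ Fin d → F) := Matrix.toLinAlgEquiv' A' with hT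
  have hTv : ∀ v, T v = z • (A *ᵥ v) := by
    intro v
    show A' *ᵥ v = _
    rw [hA', Matrix.smul_mulVec]
  refine ⟨T, ?_, ?_, hz0, ?_⟩
  · rw [hT, ← map_pow, hA'r, map_one]
  · intro u v
    rw [hTv, hTv, hf.bilinear.smul_left, hf.bilinear.smul_right, ← mul_assoc, hzz, one_mul]
    exact Cfsg.Agent.Lib.Classical.sp_form x u v
  · intro v
    rw [hTv, smul_smul, hzz, one_smul]

/-- Symplectic matrices act injectively. -/
theorem sp_injective (x : ↥(Matrix.symplecticGroup (Fin d) F)) : Function.Injective (Matrix.toLin' x.1) := by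
  intro v w hvw
  have h1 := Cfsg.Agent.Lib.Classical.sp_inv_mulVec_mulVec x v
  have h2 := Cfsg.Agent.Lib.Classical.sp_inv_mulVec_mulVec x w
  rw [← h1, ← h2]
  have h3 : x.1 *ᵥ v = x.1 *ᵥ w := hvw
  rw [h3]

theorem sp_map_eq (x : ↥(Matrix.symplecticGroup (Fin d) F)) {U : Submodule F (Fin d ⊕ Fin d → F)} (h : U.map (Matrix.toLin' x.1) ≤ U) : U.map (Matrix.toLin' x.1) = U := by
  apply Submodule.eq_of_le_of_finrank_eq h
  rw [← LinearEquiv.finrank_eq (Submodule.equivMapOfInjective _ (sp_injective x) _)]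

end elements

section pairs

variable {F : Type*} [Field F] {d : ℕ}

/-- Complementary totally isotropic pairs. -/
abbrev LP (F : Type*) [Field F] (d : ℕ) (P : Submodule F (Fin d ⊕ Fin d → F) × Submodule F (Fin d ⊕ Fin d → F)) : Prop :=
  IsCompl P.1 P.2 ∧ (∀ u ∈ P.1, ∀ v ∈ P.1, Cfsg.sympForm d F u v = 0) ∧ (∀ u ∈ P.2, ∀ v ∈ P.2, Cfsg.sympForm d F u v = 0)

theorem finrank_V : finrank F (Fin d ⊕ Fin d → F) = 2 * d := by
  rw [finrank_pi]
  simp only [Fintype.card_sum, Fintype.card_fin]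
  ring

theorem finrank_ti {U : Submodule F (Fin d ⊕ Fin d → F)} (hU : ∀ u ∈ U, ∀ v ∈ U, Cfsg.sympForm d F u v = 0) : finrank F U ≤ d := by
  have hf := sympForm_isSymplectic (m := d) (F := F)
  have hnd : (B₀ F d).Nondegenerate := bilinOf_nondegenerate hf.bilinear hf.nondegenerate
  have h1 : U ≤ (B₀ F d).orthogonal U := by
    intro u hu
    rw [LinearMap.BilinForm.mem_orthogonal_iff]
    intro v hv
    exact hU v hv u hu
  have h2 := Submodule.finrank_mono h1
  have h3 := LinearMap.BilinForm.finrank_orthogonal hnd U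
  rw [finrank_V] at h3
  have h4 := Submodule.finrank_le U
  rw [finrank_V] at h4
  omega

theorem lagPair_of_LP {P : Submodule F (Fin d ⊕ Fin d → F) × Submodule F (Fin d ⊕ Fin d → F)} (hP : LP F d P) : SpPair.LagPair P.1 P.2 := by
  have h1 := finrank_ti hP.2.1
  have h2 := finrank_ti hP.2.2
  have h3 := Submodule.finrank_sup_add_finrank_inf_eq P.1 P.2
  rw [hP.1.sup_eq_top, hP.1.inf_eq_bot, finrank_bot, add_zero, finrank_top, finrank_V] at h3
  exact ⟨hP.1, hP.2.1, hP.2.2, by omega, by omega⟩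

/-- The standard pair. -/
def U₀ (F : Type*) [Field F] (d : ℕ) : Submodule F (Fin d ⊕ Fin d → F) where
  carrier := {v | ∀ i, v (Sum.inr i) = 0}
  add_mem' := by
    intro a b ha hb i
    simp [ha i, hb i]
  zero_mem' := fun i => rfl
  smul_mem' := by
    intro c a ha i
    simp [ha i]

/-- The standard pair. -/
def W₀ (F : Type*) [Field F] (d : ℕ) : Submodule F (Fin d ⊕ Fin d → F) where
  carrier := {v | ∀ i, v (Sum.inl i) = 0}
  add_mem' := by
    intro a b ha hb i
    simp [ha i, hb i]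
  zero_mem' := fun i => rfl
  smul_mem' := by
    intro c a ha i
    simp [ha i]

theorem std_LP : LP F d (U₀ F d, W₀ F d) := by
  refine ⟨⟨?_, ?_⟩, ?_, ?_⟩
  · rw [Submodule.disjoint_def]
    intro v h1 h2
    funext a
    rcases a with i | i
    · exact h2 i
    · exact h1 i
  · rw [codisjoint_iff, eq_top_iff]
    intro v _
    refine Submodule.mem_sup.mpr ⟨Sum.elim (fun i => v (Sum.inl i)) 0, fun i => rfl, Sum.elim 0 (fun i => v (Sum.inr i)), fun i => rfl, ?_⟩
    funext a
    rcases a with i | i <;> simp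
  · intro u hu v hv
    rw [sympForm_apply]
    apply Finset.sum_eq_zero
    intro i _
    have h1 : u (Sum.inr i) = 0 := hu i
    have h2 : v (Sum.inr i) = 0 := hv i
    simp [h1, h2]
  · intro u hu v hv
    rw [sympForm_apply]
    apply Finset.sum_eq_zero
    intro i _
    have h1 : u (Sum.inl i) = 0 := hu i
    have h2 : v (Sum.inl i) = 0 := hv i
    simp [h1, h2]

/-- Every pair is a translate of the standard pair. -/
theorem exists_move {P : Submodule F (Fin d ⊕ Fin d → F) × Submodule F (Fin d ⊕ Fin d → F)} (hP : LP F d P) :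
    ∃ x : ↥(Matrix.symplecticGroup (Fin d) F), (U₀ F d).map (Matrix.toLin' x.1) = P.1 ∧ (W₀ F d).map (Matrix.toLin' x.1) = P.2 := by
  classical
  have hL := lagPair_of_LP hP
  have hL₀ := lagPair_of_LP (std_LP (F := F) (d := d))
  obtain ⟨u, w, hu, hw, hdual, -⟩ := hL.exists_dual
  have hf := sympForm_isSymplectic (m := d) (F := F)
  let T : Module.End F (Fin d ⊕ Fin d → F) :=
    ∑ i, ((LinearMap.proj (Sum.inl i) : (Fin d ⊕ Fin d → F) →ₗ[F] F).smulRight (u i) - (LinearMap.proj (Sum.inr i) : (Fin d ⊕ Fin d → F) →ₗ[F] F).smulRight (w i))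
  have hT : ∀ v, T v = ∑ i, (v (Sum.inl i) • u i - v (Sum.inr i) • w i) := by
    intro v
    simp [T]
  have hTl : ∀ i, T (Pi.single (Sum.inl i) 1) = u i := by
    intro i
    rw [hT]
    simp [Pi.single_apply, Finset.sum_ite_eq]
  have hTr : ∀ i, T (Pi.single (Sum.inr i) 1) = - w i := by
    intro i
    rw [hT]
    simp [Pi.single_apply, Finset.sum_ite_eq, Finset.sum_neg_distrib]
  have hiso : ∀ a b, Cfsg.sympForm d F (T a) (T b) = Cfsg.sympForm d F a b := by
    have h1 : ((B₀ F d).compl₁₂ T T) = B₀ F d := by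
      apply LinearMap.ext_basis (Pi.basisFun F (Fin d ⊕ Fin d)) (Pi.basisFun F (Fin d ⊕ Fin d))
      intro a b
      simp only [LinearMap.compl₁₂_apply, bilinOf_apply, Pi.basisFun_apply]
      have hneg : ∀ x y : Fin d ⊕ Fin d → F, Cfsg.sympForm d F x (-y) = - Cfsg.sympForm d F x y := by
        intro x y
        have := hf.bilinear.smul_right (-1) x y
        simpa using this
      have hneg' : ∀ x y : Fin d ⊕ Fin d → F, Cfsg.sympForm d F (-x) y = - Cfsg.sympForm d F x y := by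
        intro x y
        have := hf.bilinear.smul_left (-1) x y
        simpa using this
      have hst : ∀ (a b : Fin d ⊕ Fin d), Cfsg.sympForm d F (Pi.single a 1) (Pi.single b 1) =
          match a, b with
          | Sum.inl i, Sum.inr j => if i = j then -1 else 0
          | Sum.inr i, Sum.inl j => if i = j then 1 else 0
          | _, _ => 0 := by
        intro a b
        rw [sympForm_apply]
        rcases a with i | i <;> rcases b with j | j <;> simp [Pi.single_apply, Finset.sum_ite_eq]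
        all_goals
          by_cases hij : i = j
          · subst hij; simp
          · simp [hij, Ne.symm hij]
      rw [hst]
      rcases a with i | i <;> rcases b with j | j
      · rw [hTl, hTl, hP.2.1 _ (hu i) _ (hu j)]
      · rw [hTl, hTr, hneg, hdual]
        simp only
        split_ifs <;> simp
      · rw [hTr, hTl, hneg', hf.skew, hdual]
        simp only
        by_cases hij : i = j
        · subst hij; simp
        · simp [hij, Ne.symm hij]
      · rw [hTr, hTr, hneg, hneg', hP.2.2 _ (hw i) _ (hw j)]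
        simp
    intro a b
    have := LinearMap.congr_fun₂ h1 a b
    simpa using this
  obtain ⟨x, hx⟩ := exists_sp_of_iso T hiso
  have hinj := sp_injective x
  rw [hx] at hinj
  refine ⟨x, ?_, ?_⟩
  · rw [hx]
    apply Submodule.eq_of_le_of_finrank_eq
    · rintro _ ⟨v, hv, rfl⟩
      rw [hT]
      refine P.1.sum_mem fun i _ => ?_
      have h1 : v (Sum.inr i) = 0 := hv i
      rw [h1, zero_smul, sub_zero]
      exact P.1.smul_mem _ (hu i)
    · rw [← LinearEquiv.finrank_eq (Submodule.equivMapOfInjective _ hinj _), hL.finU]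
      exact hL₀.finU
  · rw [hx]
    apply Submodule.eq_of_le_of_finrank_eq
    · rintro _ ⟨v, hv, rfl⟩
      rw [hT]
      refine P.2.sum_mem fun i _ => ?_
      have h1 : v (Sum.inl i) = 0 := hv i
      rw [h1, zero_smul, zero_sub]
      exact P.2.neg_mem (P.2.smul_mem _ (hw i))
    · rw [← LinearEquiv.finrank_eq (Submodule.equivMapOfInjective _ hinj _), hL.finW]
      exact hL₀.finW

theorem map_LP {P : Submodule F (Fin d ⊕ Fin d → F) × Submodule F (Fin d ⊕ Fin d → F)} (hP : LP F d P) (x : ↥(Matrix.symplecticGroup (Fin d) F)) :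
    LP F d (P.1.map (Matrix.toLin' x.1), P.2.map (Matrix.toLin' x.1)) := by
  have hinj := sp_injective x
  refine ⟨⟨?_, ?_⟩, ?_, ?_⟩
  · rw [Submodule.disjoint_def]
    rintro _ ⟨u, hu, rfl⟩ ⟨v, hv, hvu⟩
    have h1 : v = u := hinj hvu
    subst h1
    have h2 := Submodule.disjoint_def.mp hP.1.disjoint _ hu hv
    rw [h2, map_zero]
  · rw [codisjoint_iff, ← Submodule.map_sup, hP.1.sup_eq_top, Submodule.map_top]
    exact LinearMap.range_eq_top.mpr (LinearMap.injective_iff_surjective.mp hinj)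
  · rintro _ ⟨u, hu, rfl⟩ _ ⟨v, hv, rfl⟩
    show Cfsg.sympForm d F (x.1 *ᵥ u) (x.1 *ᵥ v) = 0
    rw [Cfsg.Agent.Lib.Classical.sp_form]
    exact hP.2.1 u hu v hv
  · rintro _ ⟨u, hu, rfl⟩ _ ⟨v, hv, rfl⟩
    show Cfsg.sympForm d F (x.1 *ᵥ u) (x.1 *ᵥ v) = 0
    rw [Cfsg.Agent.Lib.Classical.sp_form]
    exact hP.2.2 u hu v hv

/-- The group acting on pairs, with the count. -/
theorem card_LP_mul [Fintype F] : Nat.card {P // LP F d P} * Nat.card (GL (Fin d) F) ∣ Nat.card ↥(Matrix.symplecticGroup (Fin d) F) := by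
  classical
  let G := ↥(Matrix.symplecticGroup (Fin d) F)
  let Y := Submodule F (Fin d ⊕ Fin d → F) × Submodule F (Fin d ⊕ Fin d → F)
  let act : MulAction G Y :=
    { smul := fun g P => (P.1.map (Matrix.toLin' g.1), P.2.map (Matrix.toLin' g.1))
      one_smul := by
        intro P
        show (P.1.map (Matrix.toLin' (1 : Matrix _ _ F)), P.2.map (Matrix.toLin' (1 : Matrix _ _ F))) = P
        rw [Matrix.toLin'_one, Submodule.map_id, Submodule.map_id]
      mul_smul := by
        intro g h P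
        show (P.1.map (Matrix.toLin' (g.1 * h.1)), P.2.map (Matrix.toLin' (g.1 * h.1))) = ((P.1.map (Matrix.toLin' h.1)).map (Matrix.toLin' g.1), (P.2.map (Matrix.toLin' h.1)).map (Matrix.toLin' g.1))
        rw [Matrix.toLin'_mul, Submodule.map_comp, Submodule.map_comp] }
  let P₀ : Y := (U₀ F d, W₀ F d)
  have hset : {P : Y | LP F d P} = MulAction.orbit G P₀ := by
    ext P
    constructor
    · intro hP
      obtain ⟨x, h1, h2⟩ := exists_move hP
      exact ⟨x, Prod.ext h1 h2⟩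
    · rintro ⟨g, rfl⟩
      exact map_LP (std_LP (F := F) (d := d)) g
  have h1 : Nat.card {P // LP F d P} = (MulAction.stabilizer G P₀).index := by
    rw [MulAction.index_stabilizer, ← hset]
    exact Nat.card_coe_set_eq _
  rw [h1, ← Subgroup.index_mul_card (MulAction.stabilizer G P₀)]
  apply Nat.mul_dvd_mul_left
  -- the Levi factor
  let φ : GL (Fin d) F →* G :=
    { toFun := Cfsg.Agent.Lib.Known.CrossSp.spM
      map_one' := Cfsg.Agent.Lib.Known.CrossSp.spM_one
      map_mul' := Cfsg.Agent.Lib.Known.CrossSp.spM_mul }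
  have hφ : Function.Injective φ := by
    intro M N h
    have h2 : (fromBlocks (M : Matrix (Fin d) (Fin d) F) 0 0 ((M⁻¹ : GL (Fin d) F) : Matrix (Fin d) (Fin d) F)ᵀ) = (fromBlocks (N : Matrix (Fin d) (Fin d) F) 0 0 ((N⁻¹ : GL (Fin d) F) : Matrix (Fin d) (Fin d) F)ᵀ) := congrArg Subtype.val h
    rw [Matrix.fromBlocks_inj] at h2
    exact Units.ext h2.1
  have hle : φ.range ≤ MulAction.stabilizer G P₀ := by
    rintro _ ⟨M, rfl⟩
    rw [MulAction.mem_stabilizer_iff]
    apply Prod.ext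
    · apply sp_map_eq (φ M)
      rintro _ ⟨v, hv, rfl⟩
      intro i
      show ((fromBlocks (M : Matrix (Fin d) (Fin d) F) 0 0 ((M⁻¹ : GL (Fin d) F) : Matrix (Fin d) (Fin d) F)ᵀ) *ᵥ v) (Sum.inr i) = 0
      have hv' : ∀ j, v (Sum.inr j) = 0 := hv
      simp [Matrix.mulVec, dotProduct, Fintype.sum_sum_type, fromBlocks_apply₂₁, fromBlocks_apply₂₂, hv']
    · apply sp_map_eq (φ M)
      rintro _ ⟨v, hv, rfl⟩
      intro i
      show ((fromBlocks (M : Matrix (Fin d) (Fin d) F) 0 0 ((M⁻¹ : GL (Fin d) F) : Matrix (Fin d) (Fin d) F)ᵀ) *ᵥ v) (Sum.inl i) = 0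
      have hv' : ∀ j, v (Sum.inl j) = 0 := hv
      simp [Matrix.mulVec, dotProduct, Fintype.sum_sum_type, fromBlocks_apply₁₁, fromBlocks_apply₁₂, hv']
  rw [Nat.card_congr (MonoidHom.ofInjective hφ).toEquiv]
  exact Subgroup.card_dvd_of_le hle

/-- The order of the general linear group, split. -/
theorem card_GL_split [Fintype F] (d : ℕ) : ∃ Q : ℕ, Nat.card (GL (Fin d) F) = Q * ∏ j ∈ Finset.range d, (Fintype.card F ^ (j + 1) - 1) := by
  classical
  set q := Fintype.card F with hq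
  rw [Matrix.card_GL_field]
  have h1 : ∀ i : Fin d, Fintype.card F ^ d - Fintype.card F ^ (i : ℕ) = q ^ (i : ℕ) * (q ^ (d - 1 - i + 1) - 1) := by
    intro i
    have hi := i.2
    have h2 : d = i + (d - 1 - i + 1) := by omega
    have h3 : q ^ d = q ^ (i : ℕ) * q ^ (d - 1 - i + 1) := by
      rw [← pow_add, ← h2]
    rw [← hq, h3, Nat.mul_sub, mul_one]
  refine ⟨∏ i : Fin d, q ^ (i : ℕ), ?_⟩
  rw [Finset.prod_congr rfl (fun i _ => h1 i), Finset.prod_mul_distrib]
  congr 1
  rw [Finset.prod_fin_eq_prod_range]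
  rw [← Finset.prod_range_reflect]
  apply Finset.prod_congr rfl
  intro j hj
  rw [Finset.mem_range] at hj
  rw [dif_pos (by omega)]
  have h4 : d - 1 - (d - 1 - j) = j := by omega
  simp only [h4]

/-- The prime divisors of the number of pairs. -/
theorem exists_dvd_add_one [Fintype F] {r : ℕ} [Fact r.Prime] (hrq : ¬ r ∣ Fintype.card F) (h : r ∣ Nat.card {P // LP F d P}) :
    ∃ j < d, r ∣ Fintype.card F ^ (j + 1) + 1 := by
  classical
  have hr : r.Prime := Fact.out
  set q := Fintype.card F with hq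
  have hq1 : 1 < q := Fintype.one_lt_card
  obtain ⟨Q, hQ⟩ := card_GL_split (F := F) d
  have h1 := (Nat.mul_dvd_mul_right h (Nat.card (GL (Fin d) F))).trans (card_LP_mul (F := F) (d := d))
  rw [Cfsg.Agent.Lib.Classical.card_sp rfl d, hQ] at h1
  have h2 : ∀ j : ℕ, q ^ (2 * (j + 1)) - 1 = (q ^ (j + 1) - 1) * (q ^ (j + 1) + 1) := by
    intro j
    have h3 : 1 ≤ q ^ (j + 1) := Nat.one_le_pow _ _ (by omega)
    obtain ⟨y, hy⟩ : ∃ y, q ^ (j + 1) = y + 1 := ⟨q ^ (j + 1) - 1, by omega⟩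
    rw [pow_mul', sq, hy]
    simp only [Nat.add_sub_cancel]
    have : (y + 1) * (y + 1) - 1 = y * (y + 1 + 1) := by
      have : (y + 1) * (y + 1) = y * (y + 1 + 1) + 1 := by ring
      omega
    exact this
  rw [Finset.prod_congr rfl (fun j _ => h2 j), Finset.prod_mul_distrib] at h1
  set Pm := ∏ j ∈ Finset.range d, (q ^ (j + 1) - 1) with hPm
  set Pp := ∏ j ∈ Finset.range d, (q ^ (j + 1) + 1) with hPp
  have hpos : 0 < Pm := by
    apply Finset.prod_pos
    intro j _
    have : 1 < q ^ (j + 1) := Nat.one_lt_pow (by omega) hq1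
    omega
  have h3 : r * Q * Pm ∣ (q ^ (d ^ 2) * Pp) * Pm := by
    have e1 : r * Q * Pm = r * (Q * Pm) := by ring
    have e2 : (q ^ (d ^ 2) * Pp) * Pm = q ^ (d ^ 2) * (Pm * Pp) := by ring
    rw [e1, e2]
    exact h1
  have h4 := Nat.dvd_of_mul_dvd_mul_right hpos h3
  have h5 : r ∣ q ^ (d ^ 2) * Pp := (Dvd.intro _ rfl).trans h4
  have h6 : r ∣ Pp := by
    rcases (hr.dvd_mul).mp h5 with h7 | h7
    · exact absurd (hr.dvd_of_dvd_pow h7) hrq
    · exact h7
  obtain ⟨j, hj, hj2⟩ := (hr.prime.dvd_finset_prod_iff _).mp h6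
  exact ⟨j, Finset.mem_range.mp hj, hj2⟩

/-- Number theory from `r ∣ q ^ j + 1`. -/
theorem even_order_of_dvd {q r j : ℕ} [Fact r.Prime] (hr2 : r ≠ 2) (h : r ∣ q ^ j + 1) :
    Even (orderOf (q : ZMod r)) ∧ orderOf (q : ZMod r) ∣ 2 * j := by
  have hr : r.Prime := Fact.out
  have h1 : ((q : ZMod r)) ^ j = -1 := by
    have h2 : ((q ^ j + 1 : ℕ) : ZMod r) = 0 := (ZMod.natCast_eq_zero_iff _ _).mpr h
    push_cast at h2
    exact eq_neg_of_add_eq_zero_left h2
  have h3 : (q : ZMod r) ^ (2 * j) = 1 := by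
    rw [mul_comm, pow_mul, h1]
    ring
  have hne : (-1 : ZMod r) ≠ 1 := by
    intro h4
    have h5 : (2 : ZMod r) = 0 := by
      have h6 : (1 : ZMod r) + 1 = 0 := by
        nth_rewrite 1 [← h4]
        ring
      rw [← h6]
      norm_num
    have h6 : ((2 : ℕ) : ZMod r) = 0 := by exact_mod_cast h5
    have h7 := (ZMod.natCast_eq_zero_iff _ _).mp h6
    exact hr2 ((Nat.prime_dvd_prime_iff_eq hr Nat.prime_two).mp h7)
  have h4 := orderOf_dvd_of_pow_eq_one h3
  refine ⟨?_, h4⟩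
  by_contra he
  have h6 : Nat.Coprime (orderOf (q : ZMod r)) 2 := by
    rw [Nat.coprime_two_right]
    exact Nat.not_even_iff_odd.mp he
  have h7 : orderOf (q : ZMod r) ∣ j := by
    rw [mul_comm] at h4
    exact h6.dvd_of_dvd_mul_right h4
  have h8 : (q : ZMod r) ^ j = 1 := orderOf_dvd_iff_pow_eq_one.mp h7
  rw [h1] at h8
  exact hne h8

/-- The count of pairs is even. -/
theorem two_dvd_LP [Fintype F] (hd : 0 < d) : 2 ∣ Nat.card {P // LP F d P} := by
  classical
  let X := {P // LP F d P}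
  haveI : Fintype X := Fintype.ofFinite _
  let f : Function.End X := fun P => ⟨(P.1.2, P.1.1), P.2.1.symm, P.2.2.2, P.2.2.1⟩
  have hf2 : f ^ 2 ^ 1 = 1 := by
    funext P
    rfl
  haveI : Fact (Nat.Prime 2) := ⟨Nat.prime_two⟩
  have h1 := Equiv.Perm.card_fixedPoints_modEq (f := f) (p := 2) (n := 1) hf2
  have h2 : IsEmpty (Function.fixedPoints f) := by
    constructor
    rintro ⟨P, hP⟩
    have h3 : (P.1.2, P.1.1) = P.1 := congrArg Subtype.val hP
    have h4 : P.1.2 = P.1.1 := congrArg Prod.fst h3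
    have h5 := lagPair_of_LP P.2
    have h6 : P.1.1 = ⊥ := by
      have h7 := P.2.1.inf_eq_bot
      rw [h4, inf_idem] at h7
      exact h7
    have h8 := h5.finU
    rw [h6, finrank_bot] at h8
    omega
  have h9 : Fintype.card (Function.fixedPoints f) = 0 := Fintype.card_eq_zero
  rw [h9] at h1
  rw [Nat.card_eq_fintype_card]
  exact (Nat.modEq_zero_iff_dvd).mp h1

/-- The main consequence of the count. -/
theorem order_of_dvd_LP [Fintype F] {r : ℕ} [Fact r.Prime] (hr2 : r ≠ 2) (hd : 0 < d) (hrq : ¬ r ∣ Fintype.card F) (h : r ∣ Nat.card {P // LP F d P} / 2) :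
    Even (orderOf ((Fintype.card F : ℕ) : ZMod r)) ∧ blockDim F r ≤ 2 * d := by
  have h1 : r ∣ Nat.card {P // LP F d P} := h.trans (Nat.div_dvd_of_dvd (two_dvd_LP hd))
  obtain ⟨j, hj, hj2⟩ := exists_dvd_add_one hrq h1
  obtain ⟨h3, h4⟩ := even_order_of_dvd hr2 hj2
  refine ⟨h3, ?_⟩
  have h5 : blockDim F r = orderOf ((Fintype.card F : ℕ) : ZMod r) := by
    unfold blockDim
    rw [if_pos h3]
  rw [h5]
  have h6 := Nat.le_of_dvd (by omega) h4
  omega

/-- An isometry of order `r` whose moved part has the dimension of the order fixes no pair. -/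
theorem no_fixed_pair [Fintype F] {r : ℕ} [Fact r.Prime] (hrq : ¬ r ∣ Fintype.card F) (he : Even (orderOf ((Fintype.card F : ℕ) : ZMod r)))
    {T : Module.End F (Fin d ⊕ Fin d → F)} (hT : T ^ r = 1) (hiso : ∀ u v, Cfsg.sympForm d F (T u) (T v) = Cfsg.sympForm d F u v)
    (hker : finrank F (LinearMap.ker (T - 1)) + orderOf ((Fintype.card F : ℕ) : ZMod r) = 2 * d)
    {U W : Submodule F (Fin d ⊕ Fin d → F)} (hP : IsCompl U W) (hU : ∀ u ∈ U, ∀ v ∈ U, Cfsg.sympForm d F u v = 0) (hW : ∀ u ∈ W, ∀ v ∈ W, Cfsg.sympForm d F u v = 0)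
    (hiU : Inv T U) (hiW : Inv T W) : False := by
  classical
  have hr : r.Prime := Fact.out
  have hi0 := order_pos (r := r) hrq
  set i := orderOf ((Fintype.card F : ℕ) : ZMod r) with hi
  have hnd := nd_phi_part (B := B₀ F d) halt₀ hrq hT hiso nd₀ (fun _ _ => trivial)
  have hsum := dim_parts (B := B₀ F d) halt₀ hrq hT hiso nd₀ (fun _ _ => trivial)
  rw [top_inf_eq] at hnd
  rw [top_inf_eq, top_inf_eq, finrank_top, finrank_V] at hsum
  set K := LinearMap.ker (aeval T (Phi F r)) with hK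
  have hKd : finrank F K = i := by omega
  have hKdis : K ⊓ LinearMap.ker (T - 1) = ⊥ := by
    rw [eq_bot_iff]
    rintro v ⟨h1, h2⟩
    have hT1 : (T - 1) v = 0 := h2
    rw [LinearMap.sub_apply, Module.End.one_apply, sub_eq_zero] at hT1
    have h3 : aeval T (Phi F r) v = (r : F) • v := by
      have h4 : ∀ j : ℕ, (T ^ j) v = v := by
        intro j
        induction j with
        | zero => rfl
        | succ j ih => rw [pow_succ, Module.End.mul_apply, hT1, ih]
      simp only [Phi, map_sum, map_pow, aeval_X, LinearMap.sum_apply, h4]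
      simp [Nat.cast_smul_eq_nsmul]
    have h5 : aeval T (Phi F r) v = 0 := h1
    rw [h5] at h3
    have h6 : (r : F) ≠ 0 := ratFree_cast_ne hr hrq
    rw [Submodule.mem_bot]
    exact (smul_eq_zero.mp h3.symm).resolve_left h6
  have hinvK : Inv T K := fun u hu => inv_ker T _ u hu
  have hdim : ∀ E : Submodule F (Fin d ⊕ Fin d → F), Inv T E → ∃ b, finrank F ((K ⊓ E : Submodule F (Fin d ⊕ Fin d → F))) = b * i := by
    intro E hE
    obtain ⟨b, hb⟩ := dim_split_pow hrq hT (W := K ⊓ E) (fun u hu => ⟨hinvK u hu.1, hE u hu.2⟩)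
    refine ⟨b, ?_⟩
    have h1 : K ⊓ E ⊓ LinearMap.ker (T - 1) = ⊥ := by
      rw [eq_bot_iff, ← hKdis]
      exact inf_le_inf_right _ inf_le_left
    rw [h1, finrank_bot, zero_add] at hb
    exact hb
  obtain ⟨b₁, hb₁⟩ := hdim U hiU
  obtain ⟨b₂, hb₂⟩ := hdim W hiW
  have hsup : K ⊓ U ⊔ K ⊓ W = K := by
    apply le_antisymm (sup_le inf_le_left inf_le_left)
    intro v hv
    have hv' : v ∈ U ⊔ W := by
      rw [hP.sup_eq_top]
      trivial
    obtain ⟨u, hu, w, hw, rfl⟩ := Submodule.mem_sup.mp hv'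
    have h1 : aeval T (Phi F r) (u + w) = 0 := hv
    rw [map_add] at h1
    have h2 : aeval T (Phi F r) u ∈ U := aeval_mem hiU _ hu
    have h3 : aeval T (Phi F r) w ∈ W := aeval_mem hiW _ hw
    have h4 : aeval T (Phi F r) u = 0 := by
      have h5 : aeval T (Phi F r) u = - aeval T (Phi F r) w := eq_neg_of_add_eq_zero_left h1
      exact Submodule.disjoint_def.mp hP.disjoint _ h2 (by rw [h5]; exact W.neg_mem h3)
    have h5 : aeval T (Phi F r) w = 0 := by
      rw [h4, zero_add] at h1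
      exact h1
    exact Submodule.mem_sup.mpr ⟨u, ⟨h4, hu⟩, w, ⟨h5, hw⟩, rfl⟩
  have hinf : (K ⊓ U) ⊓ (K ⊓ W) = ⊥ := by
    rw [eq_bot_iff, ← hP.inf_eq_bot]
    exact inf_le_inf inf_le_right inf_le_right
  have h6 := Submodule.finrank_sup_add_finrank_inf_eq (K ⊓ U) (K ⊓ W)
  rw [hsup, hinf, finrank_bot, add_zero, hb₁, hb₂, hKd] at h6
  have h7 : (b₁ + b₂) * i = 1 * i := by
    rw [add_mul, one_mul]
    omega
  have h8 : b₁ + b₂ = 1 := Nat.eq_of_mul_eq_mul_right hi0 h7
  -- `K` lies in one of the two spaces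
  have hKne : K ≠ ⊥ := by
    intro h
    rw [h, finrank_bot] at hKd
    omega
  obtain ⟨v, hv, hv0⟩ := (Submodule.ne_bot_iff _).mp hKne
  have hend : ∀ E : Submodule F (Fin d ⊕ Fin d → F), (∀ u ∈ E, ∀ v ∈ E, Cfsg.sympForm d F u v = 0) → K ≤ E → False := by
    intro E hE hle
    obtain ⟨y, hy, hne⟩ := hnd v hv hv0
    exact hne (hE v (hle hv) y (hle hy))
  rcases (by omega : b₁ = 1 ∨ b₂ = 1) with h | h
  · apply hend U hU
    have h9 : finrank F ((K ⊓ U : Submodule F (Fin d ⊕ Fin d → F))) = finrank F K := by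
      rw [hb₁, h, one_mul, hKd]
    have h10 := Submodule.eq_of_le_of_finrank_eq (inf_le_left : K ⊓ U ≤ K) h9
    exact h10 ▸ inf_le_right
  · apply hend W hW
    have h9 : finrank F ((K ⊓ W : Submodule F (Fin d ⊕ Fin d → F))) = finrank F K := by
      rw [hb₂, h, one_mul, hKd]
    have h10 := Submodule.eq_of_le_of_finrank_eq (inf_le_left : K ⊓ W ≤ K) h9
    exact h10 ▸ inf_le_right

end pairs

end Cfsg.Agent.Lib.ClassMax.EluSpPair
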