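import Mathlib
import Cfsg.Prelude.Def_GeometricClasses
import Cfsg.Agent.Lib.ClassMax.SubfieldCore
import Cfsg.Agent.Lib.Classical.Card

/-!
Subfield subgroups of `SL_n` in the elusive statements: membership and the index.
-/

set_option autoImplicit false
set_option linter.unusedSimpArgs false
set_option linter.unusedVariables false
set_option linter.unusedSectionVars false

namespace Cfsg.Agent.Lib.ClassMax.EluSub

open Cfsg.Agent.Lib.ClassMax.SubfieldCore Cfsg.Geo

variable {F : Type*} [Field F] {n : ℕ}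

/-- The subgroup of `SL_n` of scalar multiples of rational matrices. -/
theorem mem_sub_iff (F₀ : Subfield F) (x : Matrix.SpecialLinearGroup (Fin n) F) :
    x ∈ (subfieldSubgroup F₀ 1).comap (Matrix.SpecialLinearGroup.toGL : Matrix.SpecialLinearGroup (Fin n) F →* GL (Fin n) F) ↔
      ∃ c : F, c ≠ 0 ∧ RatM F₀ (c • (x : Matrix (Fin n) (Fin n) F)) := by
  rw [Subgroup.mem_comap]
  unfold subfieldSubgroup
  rw [sup_eq_ratScal]
  constructor
  · rintro ⟨g, hg, e⟩
    have h2 : g = Matrix.SpecialLinearGroup.toGL x := by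
      have : (MulAut.conj (1 : GL (Fin n) F)).toMonoidHom g = g := by simp
      rw [← this]; exact e
    rw [h2] at hg
    exact hg
  · intro h
    refine ⟨Matrix.SpecialLinearGroup.toGL x, h, ?_⟩
    simp

/-- Conjugacy statement: a matrix of determinant one conjugating into a rational multiple. -/
theorem conj_mem (F₀ : Subfield F) (x : Matrix.SpecialLinearGroup (Fin n) F) (P B : Matrix (Fin n) (Fin n) F)
    (hP : P.det = 1) (hxP : (x : Matrix (Fin n) (Fin n) F) * P = P * B) {c : F} (hc : c ≠ 0) (hB : RatM F₀ (c • B)) :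
    ∃ P' : Matrix.SpecialLinearGroup (Fin n) F, P'⁻¹ * x * P' ∈
      (subfieldSubgroup F₀ 1).comap (Matrix.SpecialLinearGroup.toGL : Matrix.SpecialLinearGroup (Fin n) F →* GL (Fin n) F) := by
  let P' : Matrix.SpecialLinearGroup (Fin n) F := ⟨P, hP⟩
  refine ⟨P', ?_⟩
  rw [mem_sub_iff]
  refine ⟨c, hc, ?_⟩
  have hinv : ((P'⁻¹ : Matrix.SpecialLinearGroup (Fin n) F) : Matrix (Fin n) (Fin n) F) * P = 1 := by
    have h : ((P'⁻¹ * P' : Matrix.SpecialLinearGroup (Fin n) F) : Matrix (Fin n) (Fin n) F) = 1 := by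
      rw [inv_mul_cancel]; rfl
    exact h
  have : ((P'⁻¹ * x * P' : Matrix.SpecialLinearGroup (Fin n) F) : Matrix (Fin n) (Fin n) F) = B := by
    show ((P'⁻¹ : Matrix.SpecialLinearGroup (Fin n) F) : Matrix (Fin n) (Fin n) F) * (x : Matrix (Fin n) (Fin n) F) * P = B
    rw [mul_assoc, hxP, ← mul_assoc, hinv, one_mul]
  rw [this]
  exact hB

/-- Arithmetic: the cofactors of the factors of the order of `GL_n` are odd. -/
theorem factor_odd {q₀ k n i : ℕ} (hq₀ : Odd q₀) (h2 : 2 ≤ q₀) (hk : Odd k) (hi : i < n) :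
    ∃ R : ℕ, Odd R ∧ (q₀ ^ k) ^ n - (q₀ ^ k) ^ i = (q₀ ^ n - q₀ ^ i) * R := by
  obtain ⟨t, rfl⟩ : ∃ t, n = i + t := ⟨n - i, by omega⟩
  have ht : 0 < t := by omega
  set y := q₀ ^ t with hy
  have hyodd : Odd y := hq₀.pow
  have hy1 : 1 ≤ y := Nat.one_le_pow _ _ (by omega)
  have hsum : Odd (∑ j ∈ Finset.range k, y ^ j) := by
    have : ∀ m, (∑ j ∈ Finset.range m, y ^ j) % 2 = m % 2 := by
      intro m
      induction m with
      | zero => simp
      | succ m ih =>
        rw [Finset.sum_range_succ, Nat.add_mod, ih, Nat.odd_iff.mp hyodd.pow]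
        omega
    rw [Nat.odd_iff, this]
    exact Nat.odd_iff.mp hk
  have hgeom : (∑ j ∈ Finset.range k, y ^ j) * (y - 1) = y ^ k - 1 := geom_sum_mul_of_one_le hy1 k
  refine ⟨q₀ ^ ((k - 1) * i) * ∑ j ∈ Finset.range k, y ^ j, (hq₀.pow).mul hsum, ?_⟩
  have e1 : (q₀ ^ k) ^ (i + t) - (q₀ ^ k) ^ i = (q₀ ^ k) ^ i * (y ^ k - 1) := by
    rw [Nat.mul_sub, mul_one, pow_add, hy, ← pow_mul, ← pow_mul, ← pow_mul]
    congr 2
    ring
  have e2 : q₀ ^ (i + t) - q₀ ^ i = q₀ ^ i * (y - 1) := by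
    rw [Nat.mul_sub, mul_one, pow_add]
  have e3 : (q₀ ^ k) ^ i = q₀ ^ i * q₀ ^ ((k - 1) * i) := by
    rw [← pow_mul, ← pow_add]
    congr 1
    have : k = (k - 1) + 1 := by
      have := hk.pos
      omega
    nth_rw 1 [this]
    ring
  rw [e1, e2, e3, ← hgeom]
  ring

end Cfsg.Agent.Lib.ClassMax.EluSub
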