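import Mathlib
import Cfsg.Prelude.Def_GeometricClasses
import Cfsg.Agent.Lib.ClassMax.EluBlock
import Cfsg.Agent.Lib.ClassMax.EluSinger
import Cfsg.Agent.Lib.ClassMax.EluOrder
import Cfsg.Agent.Lib.ClassMax.EluConj
import Cfsg.Agent.Lib.ClassMax.EluQuad

/-!
# Conjugacy into the normaliser of a Singer cycle: shared lemmas
-/

namespace Cfsg.Agent.Lib.ClassMax.EluThree

open Module Matrix Polynomial Cfsg.Agent.Lib.ClassMax.EluSinger Cfsg.Agent.Lib.ClassMax.EluBlock Cfsg.Agent.Lib.ClassMax.EluOrder Cfsg.Agent.Lib.ClassMax.EluConj Cfsg.Agent.Lib.ClassMax.EluQuad Cfsg.Geo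

variable {F : Type*} [Field F]

/-- Scalar multiples of normalising elements normalise. -/
theorem smul_mem_norm {n : ℕ} {K : Subalgebra F (Matrix (Fin n) (Fin n) F)} {g g' : GL (Fin n) F} (hg : g ∈ subalgebraNormalizer K)
    {μ : F} (hμ : μ ≠ 0) (h : (g' : Matrix (Fin n) (Fin n) F) = μ • (g : Matrix (Fin n) (Fin n) F)) : g' ∈ subalgebraNormalizer K := by
  have hinv : ((g'⁻¹ : GL (Fin n) F) : Matrix (Fin n) (Fin n) F) = μ⁻¹ • ((g⁻¹ : GL (Fin n) F) : Matrix (Fin n) (Fin n) F) := by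
    have e1 : (g' : Matrix (Fin n) (Fin n) F) * (μ⁻¹ • ((g⁻¹ : GL (Fin n) F) : Matrix (Fin n) (Fin n) F)) = 1 := by
      rw [h, Matrix.smul_mul, Matrix.mul_smul, smul_smul, mul_inv_cancel₀ hμ, one_smul, ← Units.val_mul, mul_inv_cancel, Units.val_one]
    calc ((g'⁻¹ : GL (Fin n) F) : Matrix (Fin n) (Fin n) F)
        = ((g'⁻¹ : GL (Fin n) F) : Matrix (Fin n) (Fin n) F) * ((g' : Matrix (Fin n) (Fin n) F) * (μ⁻¹ • ((g⁻¹ : GL (Fin n) F) : Matrix (Fin n) (Fin n) F))) := by
          rw [e1, mul_one]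
      _ = _ := by
          rw [← mul_assoc, ← Units.val_mul, inv_mul_cancel, Units.val_one, one_mul]
  intro k
  rw [hg k, h, hinv]
  have e : (μ • (g : Matrix (Fin n) (Fin n) F)) * k * (μ⁻¹ • ((g⁻¹ : GL (Fin n) F) : Matrix (Fin n) (Fin n) F)) = (g : Matrix (Fin n) (Fin n) F) * k * ((g⁻¹ : GL (Fin n) F) : Matrix (Fin n) (Fin n) F) := by
    rw [Matrix.smul_mul, Matrix.smul_mul, Matrix.mul_smul, smul_smul, mul_inv_cancel₀ hμ, one_smul]
  rw [e]

/-- Elements of the normaliser with an eigenspace of dimension at least two are scalar. -/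
theorem eq_smul_of_fixed {n : ℕ} {K : Subalgebra F (Matrix (Fin n) (Fin n) F)} (hp : n.Prime) (hK : IsFieldSubalgebra n K)
    (g : GL (Fin n) F) (hg : g ∈ subalgebraNormalizer K) {μ : F} (hμ : μ ≠ 0)
    (hfix : 2 ≤ finrank F (LinearMap.ker (Matrix.toLin' ((g : Matrix (Fin n) (Fin n) F) - μ • 1)))) :
    (g : Matrix (Fin n) (Fin n) F) = μ • 1 := by
  classical
  let u : GL (Fin n) F := ⟨μ⁻¹ • (g : Matrix (Fin n) (Fin n) F), μ • ((g⁻¹ : GL (Fin n) F) : Matrix (Fin n) (Fin n) F), by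
      rw [Matrix.smul_mul, Matrix.mul_smul, smul_smul, inv_mul_cancel₀ hμ, one_smul, ← Units.val_mul, mul_inv_cancel, Units.val_one], by
      rw [Matrix.smul_mul, Matrix.mul_smul, smul_smul, mul_inv_cancel₀ hμ, one_smul, ← Units.val_mul, inv_mul_cancel, Units.val_one]⟩
  have hu : (u : Matrix (Fin n) (Fin n) F) = μ⁻¹ • (g : Matrix (Fin n) (Fin n) F) := rfl
  have hum : u ∈ subalgebraNormalizer K := smul_mem_norm hg (inv_ne_zero hμ) hu
  have hker : LinearMap.ker (Matrix.toLin' ((g : Matrix (Fin n) (Fin n) F) - μ • 1)) ≤ LinearMap.ker (Matrix.toLin' ((u : Matrix (Fin n) (Fin n) F) - 1)) := by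
    intro v hv
    rw [LinearMap.mem_ker, Matrix.toLin'_apply] at hv ⊢
    have e : (u : Matrix (Fin n) (Fin n) F) - 1 = μ⁻¹ • ((g : Matrix (Fin n) (Fin n) F) - μ • 1) := by
      rw [hu, smul_sub, smul_smul, inv_mul_cancel₀ hμ, one_smul]
    rw [e, Matrix.smul_mulVec, hv, smul_zero]
  have h1 := eq_one_of_fixed hp hK u hum (le_trans hfix (Submodule.finrank_mono hker))
  rw [hu] at h1
  rw [← h1, smul_smul, mul_inv_cancel₀ hμ, one_smul]

/-- Dimensions of kernels of coprime polynomials add up. -/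
theorem finrank_ker_mul_coprime {V : Type*} [AddCommGroup V] [Module F V] [FiniteDimensional F V] (A : Module.End F V) {g h : F[X]} (hc : IsCoprime g h) :
    finrank F (LinearMap.ker (aeval A (g * h))) = finrank F (LinearMap.ker (aeval A g)) + finrank F (LinearMap.ker (aeval A h)) := by
  have h1 := Polynomial.sup_ker_aeval_eq_ker_aeval_mul_of_coprime A hc
  have h2 := Polynomial.disjoint_ker_aeval_of_isCoprime A hc
  rw [← h1]
  have h3 := Submodule.finrank_sup_add_finrank_inf_eq (LinearMap.ker (aeval A g)) (LinearMap.ker (aeval A h))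
  rw [h2.eq_bot, finrank_bot, add_zero] at h3
  exact h3

/-- The elements of order dividing `k` are conjugate into the normaliser of a Singer cycle when the order of `q` mod `k` is `k-1`. -/
theorem conj_of_full_order [Fintype F] {k : ℕ} {K : Subalgebra F (Matrix (Fin k) (Fin k) F)} (hk : k.Prime) (hk3 : 3 ≤ k) (hK : IsFieldSubalgebra k K)
    (hkq : ¬ k ∣ Fintype.card F) (hord : orderOf ((Fintype.card F : ℕ) : ZMod k) = k - 1) (hn : 2 ≤ k)
    (x : Matrix.SpecialLinearGroup (Fin k) F)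
    (hxz : ∃ z : F, ((x ^ k : Matrix.SpecialLinearGroup (Fin k) F) : Matrix (Fin k) (Fin k) F) = z • (1 : Matrix (Fin k) (Fin k) F))
    (hns : ∀ z : F, (x : Matrix (Fin k) (Fin k) F) ≠ z • (1 : Matrix (Fin k) (Fin k) F)) :
    ∃ P : Matrix.SpecialLinearGroup (Fin k) F, P⁻¹ * x * P ∈ ((subalgebraNormalizer K).comap (Matrix.SpecialLinearGroup.toGL : Matrix.SpecialLinearGroup (Fin k) F →* GL (Fin k) F)) := by
  classical
  haveI : Fact k.Prime := ⟨hk⟩
  have hk0 : 0 < k := hk.pos
  haveI : Nonempty (Fin k) := ⟨⟨0, hk0⟩⟩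
  have hkq1 : ¬ k ∣ Fintype.card F - 1 := by
    intro h
    have hq1 : 1 ≤ Fintype.card F := Fintype.card_pos
    have h2 : ((Fintype.card F : ℕ) : ZMod k) = 1 := by
      have h3 : (((Fintype.card F - 1 : ℕ) : ZMod k)) = 0 := (ZMod.natCast_eq_zero_iff _ _).mpr h
      rw [Nat.cast_sub hq1] at h3
      simpa [sub_eq_zero] using h3
    rw [h2, orderOf_one] at hord
    omega
  obtain ⟨z, hz⟩ := hxz
  set A : Matrix (Fin k) (Fin k) F := (x : Matrix (Fin k) (Fin k) F) with hA
  have hAk : A ^ k = z • 1 := by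
    rw [← hz, Matrix.SpecialLinearGroup.coe_pow]
  have hdet : A.det = 1 := x.2
  have hz0 : z ≠ 0 := by
    rintro rfl
    have h3 := congrArg Matrix.det hAk
    rw [Matrix.det_pow, hdet, zero_smul, Matrix.det_zero] at h3
    simp at h3
  obtain ⟨β, hβ, hβk⟩ := exists_root hk hkq1 hz0
  set A₁ : Matrix (Fin k) (Fin k) F := β⁻¹ • A with hA₁
  have hA₁k : A₁ ^ k = 1 := by
    rw [hA₁, _root_.smul_pow, hAk, smul_smul, inv_pow, hβk, inv_mul_cancel₀ hz0, one_smul]
  have hA₁1 : A₁ ≠ 1 := by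
    intro h
    apply hns β
    rw [← h, hA₁, smul_smul, mul_inv_cancel₀ hβ, one_smul]
  obtain ⟨S, S', hSS, hSS', hSl, hsurj, hS1, hSk, -⟩ := exists_frob hK hn
  set Φ : F[X] := ∑ j ∈ Finset.range k, X ^ j with hΦ
  have hΦX : (X - C (1 : F)) * Φ = X ^ k - 1 := by
    rw [mul_comm, C_1]
    exact geom_sum_mul X k
  have hirr : Irreducible Φ := geom_irreducible hk3 hkq hord
  have hdegΦ : Φ.natDegree = k - 1 := natDegree_geom hk0
  have hr0 : (k : F) ≠ 0 := ratFree_cast_ne hk hkq
  have hcop : IsCoprime (X - C (1 : F)) Φ := by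
    rw [(irreducible_X_sub_C (1 : F)).coprime_iff_not_dvd]
    rw [dvd_iff_isRoot]
    simp only [IsRoot, hΦ, eval_finset_sum, eval_pow, eval_X, one_pow, Finset.sum_const, Finset.card_range, nsmul_eq_mul, mul_one]
    exact hr0
  have hne : (X - C (1 : F)) ≠ Φ := by
    intro h
    have h3 := hcop
    rw [← h] at h3
    exact absurd (isCoprime_self.mp h3) (irreducible_X_sub_C (1 : F)).not_isUnit
  have hzero : ∀ M : Matrix (Fin k) (Fin k) F, M ^ k = 1 → aeval M ((X - C (1 : F)) * Φ) = 0 := by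
    intro M hM
    rw [hΦX]
    simp [hM]
  have hdim : ∀ M : Matrix (Fin k) (Fin k) F, M ^ k = 1 → M ≠ 1 →
      finrank F (LinearMap.ker (Matrix.toLin' (aeval M (X - C (1 : F))))) = 1 ∧ finrank F (LinearMap.ker (Matrix.toLin' (aeval M Φ))) = k - 1 := by
    intro M hM hM1
    set A' : Module.End F (Fin k → F) := Matrix.toLinAlgEquiv' M with hA'
    have hconv : ∀ (p' : F[X]), aeval A' p' = Matrix.toLin' (aeval M p') := by
      intro p'
      exact aeval_algHom_apply (Matrix.toLinAlgEquiv' (R := F) (n := Fin k)) M p'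
    have hz' : aeval A' ((X - C (1 : F)) * Φ) = 0 := by
      rw [hconv, hzero M hM, map_zero]
    have hcompl := ker_isCompl A' hcop hz'
    have hsum := Submodule.finrank_add_eq_of_isCompl hcompl
    rw [finrank_fin_fun] at hsum
    have hinv := ker_aeval_invariant A' Φ
    have hdvd : Φ.natDegree ∣ finrank F (LinearMap.ker (aeval A' Φ)) := by
      apply natDegree_dvd_finrank hirr (A'.restrict hinv)
      apply LinearMap.ext
      intro u
      apply Subtype.ext
      rw [aeval_restrict A' hinv Φ u]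
      exact u.2
    have hpos : finrank F (LinearMap.ker (aeval A' Φ)) ≠ 0 := by
      intro h0
      have h1 : LinearMap.ker (aeval A' Φ) = ⊥ := Submodule.finrank_eq_zero.mp h0
      have h2 : LinearMap.ker (aeval A' (X - C (1 : F))) = ⊤ := by
        have := hcompl.sup_eq_top
        rwa [h1, sup_bot_eq] at this
      apply hM1
      have h3 : aeval A' (X - C (1 : F)) = 0 := LinearMap.ker_eq_top.mp h2
      rw [hconv] at h3
      have h4 : aeval M (X - C (1 : F)) = 0 := (Matrix.toLin' (R := F) (m := Fin k) (n := Fin k)).injective (by rw [h3, map_zero])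
      simp only [map_sub, aeval_X, aeval_C, map_one] at h4
      exact sub_eq_zero.mp h4
    rw [hdegΦ] at hdvd
    obtain ⟨t, ht⟩ := hdvd
    have ht1 : t = 1 := by
      have ht0 : t ≠ 0 := by
        rintro rfl
        omega
      by_contra h
      have : 2 ≤ t := by omega
      have h5 : 2 * (k - 1) ≤ (k - 1) * t := by nlinarith
      omega
    rw [ht1, mul_one] at ht
    rw [← hconv, ← hconv, ht]
    omega
  obtain ⟨P, hP, hAP⟩ := exists_sl_conj_matrix ({X - C (1 : F), Φ} : Finset F[X]) (by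
      intro f hf
      rcases Finset.mem_insert.mp hf with rfl | hf
      · exact irreducible_X_sub_C _
      · rw [Finset.mem_singleton.mp hf]; exact hirr) (by
      intro f hf g hg hfg
      rcases Finset.mem_insert.mp hf with rfl | hf
      · rcases Finset.mem_insert.mp hg with rfl | hg
        · exact absurd rfl hfg
        · rw [Finset.mem_singleton.mp hg]; exact hcop
      · rw [Finset.mem_singleton.mp hf] at hfg ⊢
        rcases Finset.mem_insert.mp hg with rfl | hg
        · exact hcop.symm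
        · rw [Finset.mem_singleton.mp hg] at hfg ⊢; exact absurd rfl hfg) hk0 A₁ S (by
      rw [Finset.prod_pair hne]
      exact hzero A₁ hA₁k) (by
      rw [Finset.prod_pair hne]
      exact hzero S hSk) (by
      intro f hf
      rcases Finset.mem_insert.mp hf with rfl | hf
      · rw [(hdim A₁ hA₁k hA₁1).1, (hdim S hSk hS1).1]
      · rw [Finset.mem_singleton.mp hf, (hdim A₁ hA₁k hA₁1).2, (hdim S hSk hS1).2])
  let P' : Matrix.SpecialLinearGroup (Fin k) F := ⟨P, hP⟩
  refine ⟨P', ?_⟩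
  rw [Subgroup.mem_comap]
  apply mem_norm_frob hSl hsurj _ (β := β)
  have hinv : ((P'⁻¹ : Matrix.SpecialLinearGroup (Fin k) F) : Matrix (Fin k) (Fin k) F) * P = 1 := by
    have h : ((P'⁻¹ * P' : Matrix.SpecialLinearGroup (Fin k) F) : Matrix (Fin k) (Fin k) F) = 1 := by
      rw [inv_mul_cancel]; rfl
    exact h
  have hAP' : A * P = P * (β • S) := by
    have : A = β • A₁ := by rw [hA₁, smul_smul, mul_inv_cancel₀ hβ, one_smul]
    rw [this, Matrix.smul_mul, hAP, Matrix.mul_smul]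
  show ((P'⁻¹ : Matrix.SpecialLinearGroup (Fin k) F) : Matrix (Fin k) (Fin k) F) * A * P = β • S
  rw [mul_assoc, hAP', ← mul_assoc, hinv, one_mul]

end Cfsg.Agent.Lib.ClassMax.EluThree
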