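import Mathlib

/-!
Two-parts of `q - 1` and solutions of `c ^ n = -1` in a finite field.
-/

set_option autoImplicit false

namespace Cfsg.Agent.Lib.ClassMax.EluVal

variable {F : Type*} [Field F] [Fintype F]

theorem odd_part {m : ℕ} (hm : m ≠ 0) : ∃ u, m = 2 ^ padicValNat 2 m * u ∧ Odd u := by
  obtain ⟨u, hu⟩ : 2 ^ padicValNat 2 m ∣ m := pow_padicValNat_dvd
  refine ⟨u, hu, ?_⟩
  rw [← Nat.not_even_iff_odd, even_iff_two_dvd]
  rintro ⟨t, rfl⟩
  have : 2 ^ (padicValNat 2 m + 1) ∣ m := ⟨t, by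
    calc m = 2 ^ padicValNat 2 m * (2 * t) := hu
      _ = _ := by ring⟩
  exact pow_succ_padicValNat_not_dvd hm this

theorem val_lt_of_pow_eq_neg_one (h2 : (2 : F) ≠ 0) {n : ℕ} (hn : n ≠ 0) {c : F} (hc : c ≠ 0) (h : c ^ n = -1) :
    padicValNat 2 n < padicValNat 2 (Fintype.card F - 1) := by
  classical
  by_contra hlt
  push Not at hlt
  have hq1 : Fintype.card F - 1 ≠ 0 := by
    have : 1 < Fintype.card F := Fintype.one_lt_card
    omega
  obtain ⟨u, hu, huo⟩ := odd_part hq1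
  obtain ⟨m, hm, -⟩ := odd_part hn
  have h1 : c ^ (Fintype.card F - 1) = 1 := FiniteField.pow_card_sub_one_eq_one c hc
  obtain ⟨t, ht⟩ := Nat.exists_eq_add_of_le hlt
  have h3 : n * u = (Fintype.card F - 1) * (2 ^ t * m) := by
    calc n * u = 2 ^ padicValNat 2 n * m * u := by rw [← hm]
      _ = 2 ^ (padicValNat 2 (Fintype.card F - 1) + t) * m * u := by rw [← ht]
      _ = (2 ^ padicValNat 2 (Fintype.card F - 1) * u) * (2 ^ t * m) := by rw [pow_add]; ring
      _ = _ := by rw [← hu]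
  have h4 : (c ^ n) ^ u = 1 := by
    rw [← pow_mul, h3, pow_mul, h1, one_pow]
  rw [h, huo.neg_one_pow] at h4
  exact h2 (by linear_combination -h4)

theorem odd_card_of_val (hv : 0 < padicValNat 2 (Fintype.card F - 1)) : Odd (Fintype.card F) := by
  have h2 : 2 ∣ Fintype.card F - 1 := dvd_of_one_le_padicValNat hv
  have : 1 < Fintype.card F := Fintype.one_lt_card
  rw [Nat.odd_iff]
  omega

theorem char_ne_two_of_odd (h : Odd (Fintype.card F)) : ringChar F ≠ 2 := by
  intro hc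
  have h3 := FiniteField.even_card_iff_char_two.mp hc
  exact (Nat.not_even_iff_odd.mpr h) (Nat.even_iff.mpr h3)

theorem two_ne_zero_of_val (hv : 0 < padicValNat 2 (Fintype.card F - 1)) : (2 : F) ≠ 0 :=
  Ring.two_ne_zero (char_ne_two_of_odd (odd_card_of_val hv))

theorem exists_pow_eq_neg_one {n : ℕ} (hn : n ≠ 0) (hv : padicValNat 2 n < padicValNat 2 (Fintype.card F - 1)) :
    ∃ c : F, c ≠ 0 ∧ c ^ n = -1 := by
  classical
  have hc2 := char_ne_two_of_odd (F := F) (odd_card_of_val (by omega))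
  have hq1 : 1 < Fintype.card F := Fintype.one_lt_card
  have hq2 : Fintype.card F % 2 = 1 := FiniteField.odd_card_of_char_ne_two hc2
  obtain ⟨g, hg⟩ := IsCyclic.exists_generator (α := Fˣ)
  have hord : orderOf g = Fintype.card F - 1 := by
    rw [orderOf_eq_card_of_forall_mem_zpowers hg, Nat.card_eq_fintype_card, Fintype.card_units]
  obtain ⟨m, hm, hmo⟩ := odd_part hn
  have hdvd : 2 ^ (padicValNat 2 n + 1) ∣ Fintype.card F - 1 :=
    (pow_dvd_pow 2 hv).trans pow_padicValNat_dvd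
  obtain ⟨t, ht⟩ := hdvd
  have hhalf : (g : F) ^ (Fintype.card F / 2) = -1 := by
    rcases FiniteField.pow_dichotomy hc2 g.ne_zero with h | h
    · exfalso
      have h4 : g ^ (Fintype.card F / 2) = 1 := Units.ext (by simpa using h)
      have h5 := orderOf_dvd_of_pow_eq_one h4
      rw [hord] at h5
      have := Nat.le_of_dvd (by omega) h5
      omega
    · exact h
  have hq3 : Fintype.card F / 2 = 2 ^ padicValNat 2 n * t := by
    have : Fintype.card F - 1 = 2 * (2 ^ padicValNat 2 n * t) := by rw [ht]; ring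
    omega
  refine ⟨(g : F) ^ t, pow_ne_zero _ g.ne_zero, ?_⟩
  rw [← pow_mul]
  have h6 : t * n = (2 ^ padicValNat 2 n * t) * m := by
    conv_lhs => rw [hm]
    ring
  rw [h6, pow_mul, ← hq3, hhalf, hmo.neg_one_pow]

end Cfsg.Agent.Lib.ClassMax.EluVal
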