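import Mathlib
import Cfsg.Agent.Lib.ClassMax.ExtraEig1

/-! Systems of operators with scalar commutators, and their restriction to an eigenspace of a member. -/

set_option autoImplicit false
set_option linter.unusedSectionVars false
set_option linter.unusedVariables false

namespace Cfsg.Agent.Lib.ClassMax.ExtraEig

open Module

universe v w

variable {F : Type*} [Field F]

/-- A family of operators with scalar commutators, of exponent `r`, with scalar commutant, normalised by `g`. -/
structure Sys (r : ℕ) {V : Type v} {S : Type w} [AddCommGroup V] [Module F V] [Group S] (ρ : S →* End F V)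
    (g : End F V) : Prop where
  hexp : ∀ x : S, x ^ r = 1
  hcomm : ∀ x y : S, ∃ ζ : F, ζ ^ r = 1 ∧ ρ x * ρ y = ζ • (ρ y * ρ x)
  hschur : ∀ T : End F V, (∀ x : S, T * ρ x = ρ x * T) → ∃ c : F, T = c • 1
  hnorm : ∀ x : S, ∃ y : S, g * ρ x = ρ y * g
  hg : g ^ r = 1

section group

variable {V : Type v} {S : Type w} [AddCommGroup V] [Module F V] [Group S] (ρ : S →* End F V)

theorem rho_mul_inv (x : S) : ρ x * ρ x⁻¹ = 1 := by
  rw [← map_mul, mul_inv_cancel, map_one]

theorem rho_inv_mul (x : S) : ρ x⁻¹ * ρ x = 1 := by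
  rw [← map_mul, inv_mul_cancel, map_one]

theorem rho_inj (x : S) : Function.Injective (ρ x) := by
  intro v w h
  have h1 := congrArg (ρ x⁻¹) h
  have e : ∀ z, ρ x⁻¹ (ρ x z) = z := fun z => by
    have := congrArg (fun f : End F V => f z) (rho_inv_mul ρ x)
    simpa using this
  rwa [e, e] at h1

/-- The centraliser of a member, as a subgroup. -/
def Cen (u : S) : Subgroup S where
  carrier := {y | ρ y * ρ u = ρ u * ρ y}
  mul_mem' := by
    intro a b ha hb
    simp only [Set.mem_setOf_eq] at ha hb ⊢
    rw [map_mul, mul_assoc, hb, ← mul_assoc, ha, mul_assoc]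
  one_mem' := by simp
  inv_mem' := by
    intro a ha
    simp only [Set.mem_setOf_eq] at ha ⊢
    calc ρ a⁻¹ * ρ u = ρ a⁻¹ * ρ u * (ρ a * ρ a⁻¹) := by rw [rho_mul_inv, mul_one]
      _ = ρ a⁻¹ * (ρ u * ρ a) * ρ a⁻¹ := by noncomm_ring
      _ = ρ a⁻¹ * (ρ a * ρ u) * ρ a⁻¹ := by rw [ha]
      _ = (ρ a⁻¹ * ρ a) * ρ u * ρ a⁻¹ := by noncomm_ring
      _ = ρ u * ρ a⁻¹ := by rw [rho_inv_mul, one_mul]

theorem mem_cen {u y : S} : y ∈ Cen ρ u ↔ ρ y * ρ u = ρ u * ρ y := Iff.rfl

variable {ρ}

theorem cen_stable {u y : S} (hy : y ∈ Cen ρ u) (μ : F) :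
    ∀ v ∈ End.eigenspace (ρ u) μ, ρ y v ∈ End.eigenspace (ρ u) μ := by
  intro v hv
  rw [End.mem_eigenspace_iff] at hv ⊢
  have := congrArg (fun f : End F V => f v) hy
  simp only [Module.End.mul_apply] at this
  rw [← this, hv, map_smul]

theorem comm_stable {u : S} {g : End F V} (hg : g * ρ u = ρ u * g) (μ : F) :
    ∀ v ∈ End.eigenspace (ρ u) μ, g v ∈ End.eigenspace (ρ u) μ := by
  intro v hv
  rw [End.mem_eigenspace_iff] at hv ⊢
  have := congrArg (fun f : End F V => f v) hg
  simp only [Module.End.mul_apply] at this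
  rw [← this, hv, map_smul]

variable (ρ)

/-- The restriction of the centraliser to an eigenspace. -/
noncomputable def resHom (u : S) (μ : F) : Cen ρ u →* End F (End.eigenspace (ρ u) μ) where
  toFun y := LinearMap.restrict (ρ y) (cen_stable y.2 μ)
  map_one' := by
    ext v
    simp
  map_mul' := by
    intro x y
    ext v
    simp [LinearMap.restrict_apply]

@[simp] theorem resHom_apply (u : S) (μ : F) (y : Cen ρ u) (v : End.eigenspace (ρ u) μ) :
    ((resHom ρ u μ y v : End.eigenspace (ρ u) μ) : V) = ρ y v := rfl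

variable {ρ}

/-- The restriction of an operator commuting with `ρ u`. -/
noncomputable def resG {u : S} {g : End F V} (hg : g * ρ u = ρ u * g) (μ : F) : End F (End.eigenspace (ρ u) μ) :=
  LinearMap.restrict g (comm_stable hg μ)

@[simp] theorem resG_apply {u : S} {g : End F V} (hg : g * ρ u = ρ u * g) (μ : F) (v : End.eigenspace (ρ u) μ) :
    ((resG hg μ v : End.eigenspace (ρ u) μ) : V) = g v := rfl

theorem resG_pow {u : S} {g : End F V} (hg : g * ρ u = ρ u * g) (μ : F) (n : ℕ) (v : End.eigenspace (ρ u) μ) :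
    (((resG hg μ ^ n) v : End.eigenspace (ρ u) μ) : V) = (g ^ n) v := by
  induction n with
  | zero => simp
  | succ n ih =>
    rw [pow_succ', Module.End.mul_apply, resG_apply, ih, pow_succ', Module.End.mul_apply]

end group

section restricted

variable {V : Type v} {S : Type w} [AddCommGroup V] [Module F V] [Group S] {ρ : S →* End F V} {g : End F V} {r : ℕ}

theorem Sys.g_inv (h : Sys (F := F) r ρ g) (hr : r.Prime) : g * g ^ (r - 1) = 1 ∧ g ^ (r - 1) * g = 1 := by
  have hr1 : r - 1 + 1 = r := Nat.sub_add_cancel hr.one_lt.le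
  constructor
  · rw [← pow_succ', hr1, h.hg]
  · rw [← pow_succ, hr1, h.hg]

theorem Sys.g_inj (h : Sys (F := F) r ρ g) (hr : r.Prime) : Function.Injective g := by
  intro v w hvw
  have h1 := congrArg (g ^ (r - 1)) hvw
  have e : ∀ z, (g ^ (r - 1)) (g z) = z := fun z => by
    have := congrArg (fun f : End F V => f z) (h.g_inv hr).2
    simpa using this
  rwa [e, e] at h1

theorem Sys.rho_pow (h : Sys (F := F) r ρ g) (x : S) : ρ x ^ r = 1 := by
  rw [← map_pow, h.hexp, map_one]

/-- The restricted system. -/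
theorem Sys.restrict [FiniteDimensional F V] (h : Sys (F := F) r ρ g) (hr : r.Prime) {u a : S} {θ μ : F} (hθ : IsPrimitiveRoot θ r)
    (hua : ρ u * ρ a = θ • (ρ a * ρ u)) (hgu : g * ρ u = ρ u * g) (hμ : μ ^ r = 1) :
    Sys (F := F) r (resHom ρ u μ) (resG hgu μ) := by
  haveI : NeZero r := ⟨hr.ne_zero⟩
  have hr0 : (r : F) ≠ 0 := (hθ.neZero').out
  have hθ0 : θ ≠ 0 := hθ.ne_zero hr.ne_zero
  have hμ0 : μ ≠ 0 := by
    rintro rfl
    rw [zero_pow hr.ne_zero] at hμ
    exact zero_ne_one hμ
  have hupow : ρ u ^ r = 1 := h.rho_pow u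
  refine ⟨?_, ?_, ?_, ?_, ?_⟩
  · intro x
    apply Subtype.ext
    rw [Subgroup.coe_pow, h.hexp]
    rfl
  · intro x y
    obtain ⟨ζ, hζ, he⟩ := h.hcomm x y
    refine ⟨ζ, hζ, ?_⟩
    ext v
    have := congrArg (fun f : End F V => f v) he
    simpa using this
  · -- the commutant
    intro T hT
    set π := prj (ρ u) μ r with hπ
    have hπmem : ∀ v, π v ∈ End.eigenspace (ρ u) μ := fun v => prj_mem_eig hr.ne_zero hupow hμ v
    let π' : V →ₗ[F] End.eigenspace (ρ u) μ := LinearMap.codRestrict _ π hπmem
    let P : End F V := (End.eigenspace (ρ u) μ).subtype ∘ₗ T ∘ₗ π'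
    have hP : ∀ v, P v = (T (π' v) : V) := fun v => rfl
    set A := ρ a with hA
    set A' := ρ a⁻¹ with hA'
    have hAA' : A * A' = 1 := rho_mul_inv ρ a
    have hA'A : A' * A = 1 := rho_inv_mul ρ a
    have hAr : A ^ r = 1 := h.rho_pow a
    have hA'r : A' ^ r = 1 := h.rho_pow a⁻¹
    -- relations
    have hAA'pow : ∀ j : ℕ, A ^ j * A' ^ j = 1 := by
      intro j
      induction j with
      | zero => simp
      | succ j ih =>
        calc A ^ (j + 1) * A' ^ (j + 1) = A ^ j * (A * A') * A' ^ j := by rw [pow_succ, pow_succ']; noncomm_ring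
          _ = 1 := by rw [hAA', mul_one, ih]
    let f : ℕ → End F V := fun j => A ^ j * P * A' ^ j
    have hf : ∀ j, A * f j * A' = f (j + 1) := by
      intro j
      show A * (A ^ j * P * A' ^ j) * A' = A ^ (j + 1) * P * A' ^ (j + 1)
      rw [pow_succ' A, pow_succ A']
      noncomm_ring
    set Tt : End F V := ∑ j ∈ Finset.range r, f j with hTt
    have h1 : A * Tt * A' = Tt := by
      have e := cyc_sum (r := r) f (by show A ^ r * P * A' ^ r = A ^ 0 * P * A' ^ 0; simp [hAr, hA'r])
      calc A * Tt * A' = ∑ j ∈ Finset.range r, f (j + 1) := by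
            rw [hTt, Finset.mul_sum, Finset.sum_mul]
            exact Finset.sum_congr rfl fun j _ => hf j
        _ = Tt := e
    have h1' : Tt * A = A * Tt := by
      calc Tt * A = (A * Tt * A') * A := by rw [h1]
        _ = A * Tt * (A' * A) := by noncomm_ring
        _ = A * Tt := by rw [hA'A, mul_one]
    -- commuting with the centraliser
    have h2 : ∀ y : S, y ∈ Cen ρ u → Tt * ρ y = ρ y * Tt := by
      intro y hy
      obtain ⟨δ, hδ, hyA⟩ := h.hcomm y a
      rw [← hA] at hyA
      have hδ0 : δ ≠ 0 := by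
        rintro rfl
        rw [zero_pow hr.ne_zero] at hδ
        exact zero_ne_one hδ
      have hyA' : ρ y * A' = δ⁻¹ • (A' * ρ y) := by
        have e : A' * (ρ y * A) * A' = A' * (δ • (A * ρ y)) * A' := by rw [hyA]
        have e2 : A' * (ρ y * A) * A' = A' * ρ y * (A * A') := by noncomm_ring
        have e3 : A' * (δ • (A * ρ y)) * A' = δ • ((A' * A) * (ρ y * A')) := by
          rw [mul_smul_comm, smul_mul_assoc]
          congr 1 <;> noncomm_ring
        rw [e2, e3, hAA', hA'A, mul_one, one_mul] at e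
        rw [e, smul_smul, inv_mul_cancel₀ hδ0, one_smul]
      have hypow : ∀ j : ℕ, ρ y * A ^ j = δ ^ j • (A ^ j * ρ y) := by
        intro j
        induction j with
        | zero => simp
        | succ j ih =>
          rw [pow_succ, ← mul_assoc, ih, smul_mul_assoc, mul_assoc, hyA, mul_smul_comm, smul_smul, pow_succ, mul_assoc]
      have hypow' : ∀ j : ℕ, ρ y * A' ^ j = (δ⁻¹) ^ j • (A' ^ j * ρ y) := by
        intro j
        induction j with
        | zero => simp
        | succ j ih =>
          rw [pow_succ, ← mul_assoc, ih, smul_mul_assoc, mul_assoc, hyA', mul_smul_comm, smul_smul, pow_succ, mul_assoc]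
      have hyP : ρ y * P = P * ρ y := by
        ext v
        have e1 : π' (ρ y v) = resHom ρ u μ ⟨y, hy⟩ (π' v) := by
          apply Subtype.ext
          show π (ρ y v) = ρ y (π v)
          have := congrArg (fun f : End F V => f v) (comm_prj (μ := μ) (r := r) hy)
          simp only [Module.End.mul_apply] at this
          exact this.symm
        have e2 := congrArg (fun f : End F (End.eigenspace (ρ u) μ) => f (π' v)) (hT ⟨y, hy⟩)
        simp only [Module.End.mul_apply] at e2
        show ρ y (P v) = P (ρ y v)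
        rw [hP, hP, e1, e2]
        rfl
      rw [hTt, Finset.mul_sum, Finset.sum_mul]
      apply Finset.sum_congr rfl
      intro j _
      show A ^ j * P * A' ^ j * ρ y = ρ y * (A ^ j * P * A' ^ j)
      have e1 : ρ y * (A ^ j * P * A' ^ j) = δ ^ j • (A ^ j * (ρ y * P) * A' ^ j) := by
        rw [← mul_assoc, ← mul_assoc, hypow, smul_mul_assoc, smul_mul_assoc]
        congr 1 <;> noncomm_ring
      rw [e1, hyP]
      have e2 : A ^ j * (P * ρ y) * A' ^ j = A ^ j * P * (ρ y * A' ^ j) := by noncomm_ring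
      rw [e2, hypow', mul_smul_comm, smul_smul, ← mul_pow, mul_inv_cancel₀ hδ0, one_pow, one_smul]
      noncomm_ring
    -- commuting with everything
    have hua' : ρ u * A' = θ⁻¹ • (A' * ρ u) := by
      have e : A' * (ρ u * A) * A' = A' * (θ • (A * ρ u)) * A' := by rw [hua]
      have e2 : A' * (ρ u * A) * A' = A' * ρ u * (A * A') := by noncomm_ring
      have e3 : A' * (θ • (A * ρ u)) * A' = θ • ((A' * A) * (ρ u * A')) := by
        rw [mul_smul_comm, smul_mul_assoc]
        congr 1 <;> noncomm_ring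
      rw [e2, e3, hAA', hA'A, mul_one, one_mul] at e
      rw [e, smul_smul, inv_mul_cancel₀ hθ0, one_smul]
    have huapow' : ∀ j : ℕ, ρ u * A' ^ j = (θ⁻¹) ^ j • (A' ^ j * ρ u) := by
      intro j
      induction j with
      | zero => simp
      | succ j ih =>
        rw [pow_succ, ← mul_assoc, ih, smul_mul_assoc, mul_assoc, hua', mul_smul_comm, smul_smul, pow_succ, mul_assoc]
    have h3 : ∀ x : S, Tt * ρ x = ρ x * Tt := by
      intro x
      obtain ⟨ζ, hζ, hux⟩ := h.hcomm u x
      obtain ⟨k, -, hk⟩ := hθ.eq_pow_of_pow_eq_one hζ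
      have hy : x * a⁻¹ ^ k ∈ Cen ρ u := by
        rw [mem_cen, map_mul, map_pow]
        rw [← hA']
        calc ρ x * A' ^ k * ρ u = ρ x * (A' ^ k * ρ u) := by noncomm_ring
          _ = ρ x * (θ ^ k • (ρ u * A' ^ k)) := by
            rw [huapow', smul_smul, ← mul_pow, mul_inv_cancel₀ hθ0, one_pow, one_smul]
          _ = (θ ^ k) • (ρ x * ρ u * A' ^ k) := by rw [mul_smul_comm, mul_assoc]
          _ = ρ u * (ρ x * A' ^ k) := by
            rw [← mul_assoc, hux, hk, smul_mul_assoc]
      have hx : x = (x * a⁻¹ ^ k) * a ^ k := by group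
      have hAk : Tt * A ^ k = A ^ k * Tt := (Commute.pow_right h1' k)
      rw [hx, map_mul, map_pow, ← hA, ← mul_assoc, h2 _ hy, mul_assoc, hAk, ← mul_assoc]
    obtain ⟨c, hc⟩ := h.hschur Tt h3
    refine ⟨c, ?_⟩
    ext v
    have hv : ρ u (v : V) = μ • (v : V) := End.mem_eigenspace_iff.mp v.2
    have e1 : Tt (v : V) = (T v : V) := by
      rw [hTt, LinearMap.sum_apply, Finset.sum_eq_single 0]
      · show (A ^ 0 * P * A' ^ 0) (v : V) = _
        simp only [pow_zero, mul_one, one_mul]
        rw [hP]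
        congr 2
        apply Subtype.ext
        exact prj_apply_self hr0 hμ0 hv
      · intro j hj hj0
        show (A ^ j * P * A' ^ j) (v : V) = 0
        rw [Module.End.mul_apply, Module.End.mul_apply]
        have e2 : π' ((A' ^ j) (v : V)) = 0 := by
          apply Subtype.ext
          show π _ = 0
          have e3 : ρ u ((A' ^ j) (v : V)) = (μ * (θ⁻¹) ^ j) • (A' ^ j) (v : V) := by
            have := congrArg (fun f : End F V => f (v : V)) (huapow' j)
            simp only [Module.End.mul_apply, LinearMap.smul_apply] at this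
            rw [this, hv, map_smul, smul_smul, mul_comm]
          have hjr : j < r := Finset.mem_range.mp hj
          refine prj_apply_ne hμ ?_ hμ0 ?_ e3
          · rw [mul_pow, hμ, one_mul, ← pow_mul, mul_comm, pow_mul, inv_pow, hθ.pow_eq_one, inv_one, one_pow]
          · intro h4
            have h5 : (θ⁻¹) ^ j = 1 := by
              exact mul_left_cancel₀ hμ0 (by rw [h4, mul_one])
            have h6 : θ ^ j = 1 := by
              rw [inv_pow] at h5
              exact inv_eq_one.mp h5
            have := Nat.le_of_dvd (Nat.pos_of_ne_zero hj0) (hθ.dvd_of_pow_eq_one j h6)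
            omega
        rw [hP, e2, map_zero]
        simp
      · intro h0
        exact absurd (Finset.mem_range.mpr hr.pos) h0
    have e4 := congrArg (fun f : End F V => f (v : V)) hc
    simp only [LinearMap.smul_apply, Module.End.one_apply] at e4
    rw [e1] at e4
    simpa using e4
  · intro x
    obtain ⟨y, hy⟩ := h.hnorm x
    have hginv := h.g_inv hr
    have hg'u : g ^ (r - 1) * ρ u = ρ u * g ^ (r - 1) := (Commute.pow_left hgu _)
    have hymem : y ∈ Cen ρ u := by
      have e : ρ y = g * ρ x * g ^ (r - 1) := by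
        rw [hy, mul_assoc, hginv.1, mul_one]
      rw [mem_cen, e]
      have hx := (mem_cen ρ).mp x.2
      calc g * ρ x * g ^ (r - 1) * ρ u = g * ρ x * (g ^ (r - 1) * ρ u) := by noncomm_ring
        _ = g * (ρ x * ρ u) * g ^ (r - 1) := by rw [hg'u]; noncomm_ring
        _ = (g * ρ u) * ρ x * g ^ (r - 1) := by rw [hx]; noncomm_ring
        _ = ρ u * (g * ρ x * g ^ (r - 1)) := by rw [hgu]; noncomm_ring
    refine ⟨⟨y, hymem⟩, ?_⟩
    ext v
    have := congrArg (fun f : End F V => f (v : V)) hy
    simpa using this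
  · ext v
    rw [resG_pow, h.hg]
    simp

/-- Eigenspaces of a non-central member all have the same dimension, with the right total. -/
theorem Sys.finrank_eig [FiniteDimensional F V] (h : Sys (F := F) r ρ g) (hr : r.Prime) {u a : S} {θ μ : F} (hθ : IsPrimitiveRoot θ r)
    (hua : ρ u * ρ a = θ • (ρ a * ρ u)) (hμ : μ ^ r = 1) :
    (∀ k : ℕ, finrank F (End.eigenspace (ρ u) (μ * θ ^ k)) = finrank F (End.eigenspace (ρ u) μ)) ∧
    r * finrank F (End.eigenspace (ρ u) μ) = finrank F V := by
  have hθ0 : θ ≠ 0 := hθ.ne_zero hr.ne_zero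
  have hμ0 : μ ≠ 0 := by
    rintro rfl
    rw [zero_pow hr.ne_zero] at hμ
    exact zero_ne_one hμ
  have hstep : ∀ k : ℕ, finrank F (End.eigenspace (ρ u) (μ * θ ^ k)) ≤ finrank F (End.eigenspace (ρ u) (μ * θ ^ (k + 1))) := by
    intro k
    rw [← finrank_map_of_inj (rho_inj ρ a)]
    apply Submodule.finrank_mono
    rintro _ ⟨v, hv, rfl⟩
    rw [SetLike.mem_coe, End.mem_eigenspace_iff] at hv
    rw [End.mem_eigenspace_iff]
    have := congrArg (fun f : End F V => f v) hua
    simp only [Module.End.mul_apply, LinearMap.smul_apply] at this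
    rw [this, hv, map_smul, smul_smul, pow_succ]
    congr 1
    ring
  have hmono : ∀ k j : ℕ, finrank F (End.eigenspace (ρ u) (μ * θ ^ k)) ≤ finrank F (End.eigenspace (ρ u) (μ * θ ^ (k + j))) := by
    intro k j
    induction j with
    | zero => exact le_rfl
    | succ j ih => exact ih.trans (hstep (k + j))
  have hk : ∀ k : ℕ, finrank F (End.eigenspace (ρ u) (μ * θ ^ k)) = finrank F (End.eigenspace (ρ u) μ) := by
    intro k
    have h0 : finrank F (End.eigenspace (ρ u) (μ * θ ^ 0)) = finrank F (End.eigenspace (ρ u) μ) := by rw [pow_zero, mul_one]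
    apply le_antisymm
    · have e : k + (r * (k + 1) - k) = r * (k + 1) := by
        have : k ≤ r * (k + 1) := by nlinarith [hr.two_le]
        omega
      have h1 := hmono k (r * (k + 1) - k)
      rw [e, pow_mul, hθ.pow_eq_one, one_pow, mul_one] at h1
      exact h1
    · have h1 := hmono 0 k
      rw [zero_add, h0] at h1
      exact h1
  refine ⟨hk, le_antisymm ?_ ?_⟩
  · have := shift_bound hr (rho_inj ρ a) hua hθ.pow_eq_one (hθ.ne_one hr.one_lt) hμ0 ⊤ (End.eigenspace (ρ u) μ)
      (fun _ _ => Submodule.mem_top) le_top le_rfl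
    rwa [finrank_top] at this
  · have := finrank_le_sum_eig hr hθ (h.rho_pow u) hμ (W := ⊤) (fun _ _ => Submodule.mem_top)
    have e : ∀ k : Fin r, finrank F ((⊤ : Submodule F V) ⊓ End.eigenspace (ρ u) (μ * θ ^ (k : ℕ)) : Submodule F V) = finrank F (End.eigenspace (ρ u) μ) := by
      intro k
      rw [top_inf_eq]
      exact hk k
    simp only [e, finrank_top, Finset.sum_const, Finset.card_univ, Fintype.card_fin, smul_eq_mul] at this
    exact this

end restricted

end Cfsg.Agent.Lib.ClassMax.ExtraEig
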