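import Mathlib
import Cfsg.Agent.Lib.ClassMax.ExtraEig2

/-! Eigenspaces of an element of order `r` normalising a system of operators of exponent `r`. -/

set_option autoImplicit false
set_option linter.unusedSectionVars false
set_option linter.unusedVariables false

namespace Cfsg.Agent.Lib.ClassMax.ExtraEig

open Module

universe v w

variable {F : Type*} [Field F]

/-- Triangular numbers. -/
def tri : ℕ → ℕ
  | 0 => 0
  | k + 1 => tri k + (k + 1)

theorem two_mul_tri (k : ℕ) : 2 * tri k = k * (k + 1) := by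
  induction k with
  | zero => rfl
  | succ k ih =>
    show 2 * (tri k + (k + 1)) = _
    rw [mul_add, ih]
    ring

/-- A quadratic exponent takes a value at most twice, unless it vanishes. -/
theorem three_roots {r : ℕ} (hr : r.Prime) (hr2 : r ≠ 2) {θ : F} (hθ : IsPrimitiveRoot θ r) (α β : ℕ)
    {k₁ k₂ k₃ : Fin r} (h12 : k₁ ≠ k₂) (h13 : k₁ ≠ k₃) (h23 : k₂ ≠ k₃)
    (e12 : θ ^ (α * k₁ + β * tri k₁) = θ ^ (α * k₂ + β * tri k₂))
    (e13 : θ ^ (α * k₁ + β * tri k₁) = θ ^ (α * k₃ + β * tri k₃)) :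
    r ∣ α ∧ r ∣ β := by
  haveI := Fact.mk hr
  have hθ0 : θ ≠ 0 := hθ.ne_zero hr.ne_zero
  have haux : ∀ a b : ℕ, a ≤ b → θ ^ a = θ ^ b → (a : ZMod r) = b := by
    intro a b hab h
    have h1 : θ ^ (b - a) = 1 := by
      have e : θ ^ b = θ ^ a * θ ^ (b - a) := by
        rw [← pow_add]
        congr 1
        omega
      rw [e] at h
      exact (mul_left_cancel₀ (pow_ne_zero _ hθ0) (by rw [mul_one]; exact h)).symm
    have h2 := hθ.dvd_of_pow_eq_one _ h1
    exact (ZMod.natCast_eq_natCast_iff a b r).mpr ((Nat.modEq_iff_dvd' hab).mpr h2)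
  have hmod : ∀ a b : ℕ, θ ^ a = θ ^ b → (a : ZMod r) = b := by
    intro a b hab
    rcases le_total a b with h | h
    · exact haux a b h hab
    · exact (haux b a h hab.symm).symm
  have hinj : ∀ k l : Fin r, k ≠ l → ((k : ℕ) : ZMod r) - ((l : ℕ) : ZMod r) ≠ 0 := by
    intro k l hkl h
    apply hkl
    have h1 : ((k : ℕ) : ZMod r) = (l : ℕ) := sub_eq_zero.mp h
    rw [ZMod.natCast_eq_natCast_iff'] at h1
    rw [Nat.mod_eq_of_lt k.2, Nat.mod_eq_of_lt l.2] at h1
    exact Fin.ext h1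
  have h2 : (2 : ZMod r) ≠ 0 := by
    intro h
    have h1 : ((2 : ℕ) : ZMod r) = 0 := by exact_mod_cast h
    rw [ZMod.natCast_eq_zero_iff] at h1
    exact hr2 ((Nat.prime_dvd_prime_iff_eq hr Nat.prime_two).mp h1)
  have htri : ∀ k : ℕ, 2 * ((tri k : ℕ) : ZMod r) = k * (k + 1) := by
    intro k
    have := congrArg (Nat.cast : ℕ → ZMod r) (two_mul_tri k)
    push_cast at this
    exact this
  set A : ZMod r := (α : ZMod r) with hA
  set B : ZMod r := (β : ZMod r) with hB
  have key : ∀ k l : Fin r, k ≠ l → θ ^ (α * (k : ℕ) + β * tri k) = θ ^ (α * (l : ℕ) + β * tri l) →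
      2 * A + B * (((k : ℕ) : ZMod r) + (l : ℕ) + 1) = 0 := by
    intro k l hkl hp
    have h3 := hmod _ _ hp
    push_cast at h3
    have h4 : (((k : ℕ) : ZMod r) - (l : ℕ)) * (2 * A + B * (((k : ℕ) : ZMod r) + (l : ℕ) + 1)) = 0 := by
      have e1 := htri k
      have e2 := htri l
      have h3' : A * ((k : ℕ) : ZMod r) + B * ((tri k : ℕ) : ZMod r) = A * ((l : ℕ) : ZMod r) + B * ((tri l : ℕ) : ZMod r) := h3
      linear_combination 2 * h3' - B * e1 + B * e2
    exact (mul_eq_zero.mp h4).resolve_left (hinj k l hkl)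
  have k12 := key _ _ h12 e12
  have k13 := key _ _ h13 e13
  have hB0 : B = 0 := by
    have h5 : B * (((k₂ : ℕ) : ZMod r) - (k₃ : ℕ)) = 0 := by linear_combination k12 - k13
    exact (mul_eq_zero.mp h5).resolve_right (hinj _ _ h23)
  have hA0 : A = 0 := by
    rw [hB0] at k12
    have h5 : 2 * A = 0 := by linear_combination k12
    exact (mul_eq_zero.mp h5).resolve_left h2
  exact ⟨(ZMod.natCast_eq_zero_iff _ _).mp hA0, (ZMod.natCast_eq_zero_iff _ _).mp hB0⟩

section main

variable {V : Type v} {S : Type w} [AddCommGroup V] [Module F V] [Group S] {ρ : S →* End F V} {g : End F V} {r : ℕ}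

/-- An operator normalising the system permutes the classes modulo scalars with a fixed point. -/
theorem Sys.exists_u [Finite S] (h : Sys (F := F) r ρ g) (hr : r.Prime) (hns : ∀ c : F, g ≠ c • 1) :
    ∃ u : S, (∀ c : F, ρ u ≠ c • 1) ∧ ∃ lam : F, g * ρ u = lam • (ρ u * g) := by
  classical
  haveI := Fact.mk hr
  haveI : Fintype S := Fintype.ofFinite S
  have h10 : (1 : End F V) ≠ 0 := by
    intro h1
    apply hns 0
    rw [zero_smul]
    have : g = g * 1 := (mul_one g).symm
    rw [this, h1, mul_zero]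
  -- the scalars
  let Z₀ : Subgroup S :=
    { carrier := {x | ∃ c : F, ρ x = c • 1}
      mul_mem' := by
        rintro a b ⟨c, hc⟩ ⟨d, hd⟩
        refine ⟨c * d, ?_⟩
        rw [map_mul, hc, hd, smul_mul_smul_comm, one_mul]
      one_mem' := ⟨1, by simp⟩
      inv_mem' := by
        rintro a ⟨c, hc⟩
        refine ⟨c⁻¹, ?_⟩
        have hc0 : c ≠ 0 := by
          rintro rfl
          have := rho_mul_inv ρ a
          rw [hc, zero_smul, zero_mul] at this
          exact h10 this.symm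
        have e := rho_inv_mul ρ a
        rw [hc, mul_smul_comm, mul_one] at e
        rw [← e, smul_smul, inv_mul_cancel₀ hc0, one_smul] }
  have hZ : ∀ x, x ∈ Z₀ ↔ ∃ c : F, ρ x = c • 1 := fun x => Iff.rfl
  haveI hZn : Z₀.Normal := by
    constructor
    rintro a ⟨c, hc⟩ b
    refine ⟨c, ?_⟩
    rw [map_mul, map_mul, hc, mul_smul_comm, mul_one, smul_mul_assoc, rho_mul_inv]
  let Q := S ⧸ Z₀
  haveI : Finite Q := inferInstance
  haveI : Fintype Q := Fintype.ofFinite Q
  -- the permutation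
  choose φ hφ using h.hnorm
  have hginv := h.g_inv hr
  have hcancel : ∀ A B : End F V, A * g = B * g → A = B := by
    intro A B hAB
    calc A = A * (g * g ^ (r - 1)) := by rw [hginv.1, mul_one]
      _ = (A * g) * g ^ (r - 1) := by rw [mul_assoc]
      _ = (B * g) * g ^ (r - 1) := by rw [hAB]
      _ = B := by rw [mul_assoc, hginv.1, mul_one]
  have hwell : ∀ x z : S, z ∈ Z₀ → (φ x)⁻¹ * φ (x * z) ∈ Z₀ := by
    rintro x z ⟨c, hc⟩
    refine ⟨c, ?_⟩
    have e1 : ρ (φ (x * z)) = c • ρ (φ x) := by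
      apply hcancel
      rw [← hφ, map_mul, hc, mul_smul_comm, mul_one, mul_smul_comm, hφ, smul_mul_assoc]
    rw [map_mul, e1, mul_smul_comm, rho_inv_mul]
  let f : Function.End Q := fun q => ((φ q.out : S) : Q)
  have hf : ∀ x : S, f (x : Q) = ((φ x : S) : Q) := by
    intro x
    show ((φ (x : Q).out : S) : Q) = _
    have e : ((x : Q).out : S) = x * ((x⁻¹) * (x : Q).out) := by group
    have hz : x⁻¹ * (x : Q).out ∈ Z₀ := by
      rw [← QuotientGroup.eq]
      exact (QuotientGroup.out_eq' _).symm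
    rw [e]
    exact (QuotientGroup.eq.mpr (hwell x _ hz)).symm
  have hfpow : ∀ (n : ℕ) (x : S), ∃ y : S, (f ^ n) (x : Q) = (y : Q) ∧ g ^ n * ρ x = ρ y * g ^ n := by
    intro n
    induction n with
    | zero =>
      intro x
      exact ⟨x, rfl, by simp⟩
    | succ n ih =>
      intro x
      rw [pow_succ, show ∀ q, (f ^ n * f) q = (f ^ n) (f q) from fun _ => rfl, hf]
      obtain ⟨y, hy1, hy2⟩ := ih (φ x)
      refine ⟨y, hy1, ?_⟩
      rw [pow_succ, mul_assoc, hφ, ← mul_assoc, hy2, mul_assoc]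
  have hf1 : f ^ r ^ 1 = 1 := by
    rw [pow_one]
    funext q
    obtain ⟨x, rfl⟩ := QuotientGroup.mk_surjective q
    obtain ⟨y, hy1, hy2⟩ := hfpow r x
    rw [h.hg, one_mul, mul_one] at hy2
    show (f ^ r) (x : Q) = (x : Q)
    rw [hy1]
    apply (QuotientGroup.eq).mpr
    refine ⟨1, ?_⟩
    rw [map_mul, hy2, rho_inv_mul, one_smul]
  have hmod := Equiv.Perm.card_fixedPoints_modEq hf1
  -- a non-scalar member
  have hnon : ∃ x : S, x ∉ Z₀ := by
    by_contra hall
    push Not at hall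
    obtain ⟨c, hc⟩ := h.hschur g (by
      intro x
      obtain ⟨d, hd⟩ := hall x
      rw [hd, mul_smul_comm, smul_mul_assoc, mul_one, one_mul])
    exact hns c hc
  obtain ⟨x₀, hx₀⟩ := hnon
  -- the order of the quotient
  have hpg : IsPGroup r Q := by
    intro q
    obtain ⟨x, rfl⟩ := QuotientGroup.mk_surjective q
    refine ⟨1, ?_⟩
    rw [pow_one, ← QuotientGroup.mk_pow, h.hexp]
    rfl
  obtain ⟨m, hm⟩ := IsPGroup.iff_card.mp hpg
  have hQne : ((x₀ : S) : Q) ≠ 1 := by
    intro h1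
    exact hx₀ ((QuotientGroup.eq_one_iff x₀).mp h1)
  have hm0 : m ≠ 0 := by
    rintro rfl
    rw [pow_zero] at hm
    have := (Nat.card_eq_one_iff_unique.mp hm).1
    exact hQne (Subsingleton.elim _ _)
  have hdQ : r ∣ Fintype.card Q := by
    rw [← Nat.card_eq_fintype_card, hm]
    exact dvd_pow_self r hm0
  have hdF : r ∣ Fintype.card f.fixedPoints := (Nat.modEq_zero_iff_dvd.mp (hmod.symm.trans (Nat.modEq_zero_iff_dvd.mpr hdQ)))
  have hone : f (1 : Q) = 1 := by
    have e := hf 1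
    rw [QuotientGroup.mk_one] at e
    rw [e]
    apply (QuotientGroup.eq_one_iff _).mpr
    refine ⟨1, ?_⟩
    apply hcancel
    rw [← hφ, map_one, one_smul]
    simp
  -- another fixed point
  have hex : ∃ q : Q, q ≠ 1 ∧ f q = q := by
    by_contra hno
    push Not at hno
    have hc1 : Fintype.card f.fixedPoints = 1 := by
      rw [Fintype.card_eq_one_iff]
      refine ⟨⟨1, hone⟩, ?_⟩
      rintro ⟨q, hq⟩
      apply Subtype.ext
      by_contra hq1
      exact hno q hq1 hq
    rw [hc1] at hdF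
    exact hr.one_lt.ne' (Nat.dvd_one.mp hdF)
  obtain ⟨q, hq1, hq2⟩ := hex
  obtain ⟨u, rfl⟩ := QuotientGroup.mk_surjective q
  rw [hf] at hq2
  refine ⟨u, ?_, ?_⟩
  · intro c hc
    exact hq1 ((QuotientGroup.eq_one_iff u).mpr ⟨c, hc⟩)
  · obtain ⟨lam, hlam⟩ := (QuotientGroup.eq.mp hq2.symm)
    refine ⟨lam, ?_⟩
    rw [hφ]
    have e : ρ (φ u) = ρ u * ρ (u⁻¹ * φ u) := by
      rw [← map_mul, mul_inv_cancel_left]
    rw [e, hlam, mul_smul_comm, mul_one, smul_mul_assoc]

/-- The eigenspace of the restriction. -/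
theorem finrank_eig_res {u : S} (hgu : g * ρ u = ρ u * g) (μ c : F) [FiniteDimensional F V] :
    finrank F (End.eigenspace (resG hgu μ) c) = finrank F (End.eigenspace g c ⊓ End.eigenspace (ρ u) μ : Submodule F V) := by
  have e : (End.eigenspace (resG hgu μ) c).map (End.eigenspace (ρ u) μ).subtype = End.eigenspace g c ⊓ End.eigenspace (ρ u) μ := by
    ext v
    constructor
    · rintro ⟨w, hw, rfl⟩
      refine ⟨?_, w.2⟩
      have h1 := End.mem_eigenspace_iff.mp hw
      rw [SetLike.mem_coe, End.mem_eigenspace_iff]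
      exact congrArg Subtype.val h1
    · rintro ⟨hv1, hv2⟩
      refine ⟨⟨v, hv2⟩, ?_, rfl⟩
      rw [SetLike.mem_coe, End.mem_eigenspace_iff]
      apply Subtype.ext
      exact End.mem_eigenspace_iff.mp hv1
  rw [← e, Submodule.finrank_map_subtype_eq]

end main

end Cfsg.Agent.Lib.ClassMax.ExtraEig
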