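import Mathlib
import Cfsg.Agent.Lib.ClassMax.ExtraEig3

/-! The main estimate for elements of order `r` normalising a system of exponent `r`. -/

set_option autoImplicit false
set_option linter.unusedSectionVars false
set_option linter.unusedVariables false

namespace Cfsg.Agent.Lib.ClassMax.ExtraEig

open Module

universe v w

variable {F : Type*} [Field F]

section cases

variable {V : Type v} {S : Type w} [AddCommGroup V] [Module F V] [Group S] {ρ : S →* End F V} {g : End F V} {r : ℕ}

theorem step_mem {u a : S} {θ : F} (hua : ρ u * ρ a = θ • (ρ a * ρ u)) {μ : F} {v : V}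
    (hv : v ∈ End.eigenspace (ρ u) μ) : ρ a v ∈ End.eigenspace (ρ u) (μ * θ) := by
  rw [End.mem_eigenspace_iff] at hv ⊢
  have := congrArg (fun f : End F V => f v) hua
  simp only [Module.End.mul_apply, LinearMap.smul_apply] at this
  rw [this, hv, map_smul, smul_smul, mul_comm]

theorem step_inv {u a : S} {θ : F} (hθ0 : θ ≠ 0) (hua : ρ u * ρ a = θ • (ρ a * ρ u)) {μ : F} {v : V}
    (hv : v ∈ End.eigenspace (ρ u) (μ * θ)) : ρ a⁻¹ v ∈ End.eigenspace (ρ u) μ := by
  rw [End.mem_eigenspace_iff] at hv ⊢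
  have e1 : ∀ z, ρ a (ρ a⁻¹ z) = z := fun z => by
    have := congrArg (fun f : End F V => f z) (rho_mul_inv ρ a)
    simpa using this
  apply rho_inj ρ a
  have := congrArg (fun f : End F V => f (ρ a⁻¹ v)) hua
  simp only [Module.End.mul_apply, LinearMap.smul_apply, e1] at this
  rw [hv] at this
  rw [map_smul, e1]
  have h2 : (μ * θ) • v = θ • ρ a (ρ u (ρ a⁻¹ v)) := this
  have h3 : θ • ρ a (ρ u (ρ a⁻¹ v)) = θ • (μ • v) := by
    rw [← h2, smul_smul, mul_comm]
  exact smul_right_injective V hθ0 h3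

theorem step_right_inv {a : S} (v : V) : ρ a (ρ a⁻¹ v) = v := by
  have := congrArg (fun f : End F V => f v) (rho_mul_inv ρ a)
  simpa using this

theorem exists_nonzero_eig [FiniteDimensional F V] (hns : ∀ c : F, g ≠ c • 1) {E : Submodule F V} {r : ℕ}
    (hE : r * finrank F E = finrank F V) : ∃ v ∈ E, v ≠ 0 := by
  have hpos : finrank F V ≠ 0 := by
    intro h0
    have hs : Subsingleton V := Module.finrank_zero_iff.mp h0
    apply hns 0
    ext v
    exact Subsingleton.elim _ _
  have hE0 : finrank F E ≠ 0 := by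
    intro h0
    rw [h0, mul_zero] at hE
    exact hpos hE.symm
  have hEne : E ≠ ⊥ := by
    rintro rfl
    exact hE0 (finrank_bot F V)
  exact E.exists_mem_ne_zero_of_ne_bot hEne

/-- Scalar restriction of `s`: the eigenvalues of `g` are values of a quadratic exponential. -/
theorem case_scalar [FiniteDimensional F V] (h : Sys (F := F) r ρ g) (hr : r.Prime) (hr2 : r ≠ 2) {u a s : S} {θ μ₀ : F}
    (hθ : IsPrimitiveRoot θ r) (hua : ρ u * ρ a = θ • (ρ a * ρ u)) (hgu : g * ρ u = ρ u * g) (hμ₀ : μ₀ ^ r = 1)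
    (has : g * ρ a = ρ s * ρ a * g) (hns : ∀ c : F, g ≠ c • 1) {c₀ σ₀ : F}
    (hc₀ : ∀ v ∈ End.eigenspace (ρ u) μ₀, g v = c₀ • v) (hσ : ∀ v ∈ End.eigenspace (ρ u) μ₀, ρ s v = σ₀ • v) (c : F) :
    r * finrank F (End.eigenspace g c) ≤ 2 * finrank F V := by
  classical
  haveI : NeZero r := ⟨hr.ne_zero⟩
  have hθ0 : θ ≠ 0 := hθ.ne_zero hr.ne_zero
  obtain ⟨hk, hn⟩ := h.finrank_eig hr hθ hua hμ₀
  set e := finrank F (End.eigenspace (ρ u) μ₀) with he
  obtain ⟨v₀, hv₀, hv₀0⟩ := exists_nonzero_eig hns hn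
  have hE0 : ∀ v, v ∈ End.eigenspace (ρ u) (μ₀ * θ ^ 0) → v ∈ End.eigenspace (ρ u) μ₀ := by
    intro v hv
    rwa [pow_zero, mul_one] at hv
  have hstep : ∀ (k : ℕ) (v : V), v ∈ End.eigenspace (ρ u) (μ₀ * θ ^ (k + 1)) →
      ρ a⁻¹ v ∈ End.eigenspace (ρ u) (μ₀ * θ ^ k) := by
    intro k v hv
    apply step_inv hθ0 hua
    rwa [mul_assoc, ← pow_succ]
  have hc₀0 : c₀ ≠ 0 := by
    rintro rfl
    have := hc₀ v₀ hv₀
    rw [zero_smul] at this
    exact hv₀0 (h.g_inj hr (by rw [this, map_zero]))
  have hσr : σ₀ ^ r = 1 := by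
    have e1 : ∀ k : ℕ, (ρ s ^ k) v₀ = σ₀ ^ k • v₀ := by
      intro k
      induction k with
      | zero => simp
      | succ k ih =>
        rw [pow_succ, Module.End.mul_apply, hσ v₀ hv₀, map_smul, ih, smul_smul, pow_succ, mul_comm]
    have e2 := e1 r
    rw [h.rho_pow, Module.End.one_apply] at e2
    have e3 : (1 - σ₀ ^ r) • v₀ = 0 := by
      rw [sub_smul, one_smul, ← e2, sub_self]
    have e4 := (smul_eq_zero.mp e3).resolve_right hv₀0
    exact (sub_eq_zero.mp e4).symm
  obtain ⟨δ₁, hδ₁, hsa⟩ := h.hcomm s a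
  obtain ⟨α, -, hα⟩ := hθ.eq_pow_of_pow_eq_one hσr
  obtain ⟨β, -, hβ⟩ := hθ.eq_pow_of_pow_eq_one hδ₁
  -- the action of s
  have hsk : ∀ (k : ℕ) (v : V), v ∈ End.eigenspace (ρ u) (μ₀ * θ ^ k) → ρ s v = (σ₀ * δ₁ ^ k) • v := by
    intro k
    induction k with
    | zero =>
      intro v hv
      rw [pow_zero, mul_one] at hv
      rw [pow_zero, mul_one]
      exact hσ v hv
    | succ k ih =>
      intro v hv
      have hw := hstep k v hv
      have e1 : v = ρ a (ρ a⁻¹ v) := (step_right_inv v).symm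
      have e2 := congrArg (fun f : End F V => f (ρ a⁻¹ v)) hsa
      simp only [Module.End.mul_apply, LinearMap.smul_apply, step_right_inv] at e2
      rw [e2, ih _ hw, map_smul, step_right_inv, smul_smul, pow_succ]
      congr 1
      ring
  let d : ℕ → F := fun k => c₀ * θ ^ (α * k + β * tri k)
  have hgk : ∀ (k : ℕ) (v : V), v ∈ End.eigenspace (ρ u) (μ₀ * θ ^ k) → g v = d k • v := by
    intro k
    induction k with
    | zero =>
      intro v hv
      rw [pow_zero, mul_one] at hv
      rw [hc₀ v hv]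
      simp [d, tri]
    | succ k ih =>
      intro v hv
      have hw := hstep k v hv
      have e2 := congrArg (fun f : End F V => f (ρ a⁻¹ v)) has
      simp only [Module.End.mul_apply, step_right_inv] at e2
      rw [e2, ih _ hw, map_smul, step_right_inv, map_smul, hsk _ _ hv, smul_smul]
      congr 1
      show c₀ * θ ^ (α * k + β * tri k) * (σ₀ * δ₁ ^ (k + 1)) = c₀ * θ ^ (α * (k + 1) + β * tri (k + 1))
      rw [← hα, ← hβ, ← pow_mul, mul_assoc, ← pow_add, ← pow_add]
      congr 2
      show α * k + β * tri k + (α + β * (k + 1)) = α * (k + 1) + β * (tri k + (k + 1))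
      ring
  -- the values
  have hbound : ∀ k : Fin r, finrank F (End.eigenspace g c ⊓ End.eigenspace (ρ u) (μ₀ * θ ^ (k : ℕ)) : Submodule F V) ≤ if d k = c then e else 0 := by
    intro k
    split_ifs with hdk
    · rw [← hk k]
      exact Submodule.finrank_mono inf_le_right
    · have hbot : (End.eigenspace g c ⊓ End.eigenspace (ρ u) (μ₀ * θ ^ (k : ℕ)) : Submodule F V) = ⊥ := by
        rw [eq_bot_iff]
        rintro v ⟨hv1, hv2⟩
        have e1 := End.mem_eigenspace_iff.mp hv1
        have e2 := hgk k v hv2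
        rw [e1] at e2
        have e3 : (c - d k) • v = 0 := by
          rw [sub_smul, e2, sub_self]
        have hne : c - d k ≠ 0 := sub_ne_zero.mpr (Ne.symm hdk)
        exact (Submodule.mem_bot F).mpr ((smul_eq_zero.mp e3).resolve_left hne)
      rw [hbot, finrank_bot]
  have hW : ∀ v ∈ End.eigenspace g c, ρ u v ∈ End.eigenspace g c := by
    intro v hv
    rw [End.mem_eigenspace_iff] at hv ⊢
    have := congrArg (fun f : End F V => f v) hgu
    simp only [Module.End.mul_apply] at this
    rw [this, hv, map_smul]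
  have hsum := finrank_le_sum_eig hr hθ (h.rho_pow u) hμ₀ hW
  have hsum2 : finrank F (End.eigenspace g c) ≤ ∑ k : Fin r, if d k = c then e else 0 :=
    hsum.trans (Finset.sum_le_sum fun k _ => hbound k)
  rw [Finset.sum_ite, Finset.sum_const_zero, add_zero, Finset.sum_const, smul_eq_mul] at hsum2
  have hcard : (Finset.univ.filter fun k : Fin r => d k = c).card ≤ 2 := by
    by_contra hlt
    push Not at hlt
    obtain ⟨k₁, h1, k₂, h2, k₃, h3, h12, h13, h23⟩ := Finset.two_lt_card.mp hlt
    have d1 := (Finset.mem_filter.mp h1).2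
    have d2 := (Finset.mem_filter.mp h2).2
    have d3 := (Finset.mem_filter.mp h3).2
    have e12 : θ ^ (α * (k₁ : ℕ) + β * tri k₁) = θ ^ (α * (k₂ : ℕ) + β * tri k₂) :=
      mul_left_cancel₀ hc₀0 (d1.trans d2.symm)
    have e13 : θ ^ (α * (k₁ : ℕ) + β * tri k₁) = θ ^ (α * (k₃ : ℕ) + β * tri k₃) :=
      mul_left_cancel₀ hc₀0 (d1.trans d3.symm)
    obtain ⟨hrα, hrβ⟩ := three_roots hr hr2 hθ α β h12 h13 h23 e12 e13
    have hd : ∀ k : ℕ, d k = c₀ := by
      intro k
      show c₀ * θ ^ (α * k + β * tri k) = c₀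
      have hr3 : r ∣ α * k + β * tri k := dvd_add (Dvd.dvd.mul_right hrα _) (Dvd.dvd.mul_right hrβ _)
      rw [(hθ.pow_eq_one_iff_dvd _).mpr hr3, mul_one]
    apply hns c₀
    have htop : (⊤ : Submodule F V) ≤ End.eigenspace g c₀ := by
      refine (le_iSup_inf_eig hr hθ (h.rho_pow u) hμ₀ (W := ⊤) (fun _ _ => Submodule.mem_top)).trans ?_
      apply iSup_le
      rintro k v ⟨-, hv⟩
      rw [End.mem_eigenspace_iff, hgk k v hv, hd]
    ext v
    have := End.mem_eigenspace_iff.mp (htop (Submodule.mem_top (x := v)))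
    simpa using this
  calc r * finrank F (End.eigenspace g c) ≤ r * ((Finset.univ.filter fun k : Fin r => d k = c).card * e) := Nat.mul_le_mul_left _ hsum2
    _ ≤ r * (2 * e) := Nat.mul_le_mul_left _ (Nat.mul_le_mul_right _ hcard)
    _ = 2 * finrank F V := by rw [← hn]; ring

/-- Non-scalar restriction of `s`. -/
theorem case_nonscalar [FiniteDimensional F V] (h : Sys (F := F) r ρ g) (hr : r.Prime) {u a s y : S} {θ μ₀ : F}
    (hθ : IsPrimitiveRoot θ r) (hua : ρ u * ρ a = θ • (ρ a * ρ u)) (hgu : g * ρ u = ρ u * g) (hμ₀ : μ₀ ^ r = 1)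
    (has : g * ρ a = ρ s * ρ a * g) (hns : ∀ c : F, g ≠ c • 1) {c₀ ξ : F}
    (hc₀ : ∀ v ∈ End.eigenspace (ρ u) μ₀, g v = c₀ • v) (hy : y ∈ Cen ρ u) (hξ : ξ ^ r = 1) (hξ1 : ξ ≠ 1)
    (hsy : ρ s * ρ y = ξ • (ρ y * ρ s)) {c : F} (hc : c ≠ 0) :
    r * finrank F (End.eigenspace g c) ≤ 2 * finrank F V := by
  classical
  haveI : NeZero r := ⟨hr.ne_zero⟩
  have hθ0 : θ ≠ 0 := hθ.ne_zero hr.ne_zero
  obtain ⟨hk, hn⟩ := h.finrank_eig hr hθ hua hμ₀
  set e := finrank F (End.eigenspace (ρ u) μ₀) with he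
  obtain ⟨v₀, hv₀, hv₀0⟩ := exists_nonzero_eig hns hn
  have hstep : ∀ (k : ℕ) (v : V), v ∈ End.eigenspace (ρ u) (μ₀ * θ ^ (k + 1)) →
      ρ a⁻¹ v ∈ End.eigenspace (ρ u) (μ₀ * θ ^ k) := by
    intro k v hv
    apply step_inv hθ0 hua
    rwa [mul_assoc, ← pow_succ]
  have hc₀0 : c₀ ≠ 0 := by
    rintro rfl
    have := hc₀ v₀ hv₀
    rw [zero_smul] at this
    exact hv₀0 (h.g_inj hr (by rw [this, map_zero]))
  obtain ⟨δ, hδ, has'⟩ := h.hcomm a s
  have hδ0 : δ ≠ 0 := by
    rintro rfl
    rw [zero_pow hr.ne_zero] at hδ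
    exact zero_ne_one hδ
  have hapow : ∀ k : ℕ, ρ a * ρ s ^ k = δ ^ k • (ρ s ^ k * ρ a) := by
    intro k
    induction k with
    | zero => simp
    | succ k ih =>
      rw [pow_succ, ← mul_assoc, ih, smul_mul_assoc, mul_assoc, has', mul_smul_comm, smul_smul, pow_succ, mul_assoc]
  have hgk : ∀ k : ℕ, ∃ ck : F, ck ≠ 0 ∧ ∀ v ∈ End.eigenspace (ρ u) (μ₀ * θ ^ k), g v = ck • (ρ s ^ k) v := by
    intro k
    induction k with
    | zero =>
      refine ⟨c₀, hc₀0, ?_⟩
      intro v hv
      rw [pow_zero, mul_one] at hv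
      rw [hc₀ v hv]
      simp
    | succ k ih =>
      obtain ⟨ck, hck, hck2⟩ := ih
      refine ⟨ck * δ ^ k, mul_ne_zero hck (pow_ne_zero _ hδ0), ?_⟩
      intro v hv
      have hw := hstep k v hv
      have e2 := congrArg (fun f : End F V => f (ρ a⁻¹ v)) has
      simp only [Module.End.mul_apply, step_right_inv] at e2
      have e3 := congrArg (fun f : End F V => f (ρ a⁻¹ v)) (hapow k)
      simp only [Module.End.mul_apply, LinearMap.smul_apply, step_right_inv] at e3
      rw [e2, hck2 _ hw, map_smul, map_smul, e3, map_smul, smul_smul, pow_succ', Module.End.mul_apply]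
  have hspow : ∀ k : ℕ, ρ s ^ k * ρ y = ξ ^ k • (ρ y * ρ s ^ k) := by
    intro k
    induction k with
    | zero => simp
    | succ k ih =>
      rw [pow_succ', mul_assoc, ih, mul_smul_comm, ← mul_assoc, hsy, smul_mul_assoc, smul_smul, mul_assoc, pow_succ]
  have hprim := prim_of_prime hr hξ hξ1
  have hbound : ∀ k : Fin r, r * finrank F (End.eigenspace g c ⊓ End.eigenspace (ρ u) (μ₀ * θ ^ (k : ℕ)) : Submodule F V) ≤
      e + if k = (⟨0, hr.pos⟩ : Fin r) then r * e else 0 := by
    intro k
    split_ifs with hk0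
    · have : finrank F (End.eigenspace g c ⊓ End.eigenspace (ρ u) (μ₀ * θ ^ (k : ℕ)) : Submodule F V) ≤ e := by
        rw [← hk k]
        exact Submodule.finrank_mono inf_le_right
      calc _ ≤ r * e := Nat.mul_le_mul_left _ this
        _ ≤ e + r * e := Nat.le_add_left _ _
    · have hkpos : 0 < (k : ℕ) := by
        apply Nat.pos_of_ne_zero
        intro h0
        exact hk0 (Fin.ext h0)
      obtain ⟨ck, hck, hck2⟩ := hgk k
      rw [add_zero, ← hk k]
      apply shift_bound hr (rho_inj ρ y) (hspow k) (by rw [← pow_mul, mul_comm, pow_mul, hξ, one_pow]) ?_ (div_ne_zero hc hck)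
      · exact cen_stable hy _
      · exact inf_le_right
      · rintro v ⟨hv1, hv2⟩
        rw [End.mem_eigenspace_iff]
        have e1 := End.mem_eigenspace_iff.mp hv1
        have e2 := hck2 v hv2
        rw [e1] at e2
        rw [div_eq_mul_inv, mul_comm, ← smul_smul, e2, smul_smul, inv_mul_cancel₀ hck, one_smul]
      · intro h1
        have := Nat.le_of_dvd hkpos (hprim.dvd_of_pow_eq_one _ h1)
        exact absurd k.2 (by omega)
  have hW : ∀ v ∈ End.eigenspace g c, ρ u v ∈ End.eigenspace g c := by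
    intro v hv
    rw [End.mem_eigenspace_iff] at hv ⊢
    have := congrArg (fun f : End F V => f v) hgu
    simp only [Module.End.mul_apply] at this
    rw [this, hv, map_smul]
  have hsum := finrank_le_sum_eig hr hθ (h.rho_pow u) hμ₀ hW
  have hfin : r * finrank F (End.eigenspace g c) ≤ ∑ k : Fin r, (e + if k = (⟨0, hr.pos⟩ : Fin r) then r * e else 0) := by
    calc r * finrank F (End.eigenspace g c) ≤ r * ∑ k : Fin r, finrank F (End.eigenspace g c ⊓ End.eigenspace (ρ u) (μ₀ * θ ^ (k : ℕ)) : Submodule F V) :=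
          Nat.mul_le_mul_left _ hsum
      _ = ∑ k : Fin r, r * finrank F (End.eigenspace g c ⊓ End.eigenspace (ρ u) (μ₀ * θ ^ (k : ℕ)) : Submodule F V) := by
          rw [Finset.mul_sum]
      _ ≤ _ := Finset.sum_le_sum fun k _ => hbound k
  rw [Finset.sum_add_distrib, Finset.sum_ite_eq', Finset.sum_const] at hfin
  simp only [Finset.mem_univ, if_true, Finset.card_univ, Fintype.card_fin, smul_eq_mul] at hfin
  calc _ ≤ _ := hfin
    _ = 2 * finrank F V := by rw [← hn]; ring

end cases

/-- The main theorem: for an element of order `r` normalising a system of exponent `r` all eigenspaces have dimension at most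
`2 dim V / r`. -/
theorem core {r : ℕ} (hr : r.Prime) (hr2 : r ≠ 2) : ∀ (n : ℕ) (V : Type v) [AddCommGroup V] [Module F V] [FiniteDimensional F V]
    (S : Type w) [Group S] [Finite S] (ρ : S →* End F V) (g : End F V), finrank F V = n → Sys (F := F) r ρ g → (∀ c : F, g ≠ c • 1) →
    ∀ c : F, r * finrank F (End.eigenspace g c) ≤ 2 * n := by
  intro n
  induction n using Nat.strong_induction_on with
  | _ n ih =>
    intro V _ _ _ S _ _ ρ g hn h hns c
    classical
    by_cases hc : c = 0
    · subst hc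
      have hbot : End.eigenspace g 0 = ⊥ := by
        rw [eq_bot_iff]
        intro v hv
        have e1 := End.mem_eigenspace_iff.mp hv
        rw [zero_smul] at e1
        exact (Submodule.mem_bot F).mpr (h.g_inj hr (by rw [e1, map_zero]))
      rw [hbot, finrank_bot]
      simp
    obtain ⟨u, hu, lam, hlam⟩ := h.exists_u hr hns
    have hg0 : g ≠ 0 := by
      intro h0
      apply hns 0
      rw [zero_smul, h0]
    have hlamr : lam ^ r = 1 := by
      have hp : ∀ k : ℕ, g * ρ u ^ k = lam ^ k • (ρ u ^ k * g) := by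
        intro k
        induction k with
        | zero => simp
        | succ k ih2 =>
          rw [pow_succ, ← mul_assoc, ih2, smul_mul_assoc, mul_assoc, hlam, mul_smul_comm, smul_smul, pow_succ, mul_assoc]
      have e1 := hp r
      rw [h.rho_pow, mul_one, one_mul] at e1
      have e2 : (1 - lam ^ r) • g = 0 := by
        rw [sub_smul, one_smul, ← e1, sub_self]
      exact (sub_eq_zero.mp ((smul_eq_zero.mp e2).resolve_right hg0)).symm
    by_cases hlam1 : lam = 1
    · -- `g` commutes with `u`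
      subst hlam1
      rw [one_smul] at hlam
      have hgu := hlam
      -- a member not commuting with `u`
      have hex : ∃ x : S, ρ u * ρ x ≠ ρ x * ρ u := by
        by_contra hall
        push Not at hall
        obtain ⟨c', hc'⟩ := h.hschur (ρ u) hall
        exact hu c' hc'
      obtain ⟨a, ha⟩ := hex
      obtain ⟨θ, hθr, hua⟩ := h.hcomm u a
      have hθ1 : θ ≠ 1 := by
        rintro rfl
        rw [one_smul] at hua
        exact ha hua
      have hθ := prim_of_prime hr hθr hθ1
      have hθ0 : θ ≠ 0 := hθ.ne_zero hr.ne_zero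
      have hdims := fun μ (hμ : μ ^ r = 1) => h.finrank_eig hr hθ hua hμ
      by_cases hall : ∀ μ : F, μ ^ r = 1 → ∀ c' : F, resG hgu μ ≠ c' • 1
      · -- all restrictions are non-scalar: induction
        have hrθ : ∀ k : ℕ, (θ ^ k) ^ r = 1 := fun k => by
          rw [← pow_mul, mul_comm, pow_mul, hθr, one_pow]
        have hW : ∀ v ∈ End.eigenspace g c, ρ u v ∈ End.eigenspace g c := by
          intro v hv
          rw [End.mem_eigenspace_iff] at hv ⊢
          have := congrArg (fun f : End F V => f v) hgu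
          simp only [Module.End.mul_apply] at this
          rw [this, hv, map_smul]
        have hsum := finrank_le_sum_eig hr hθ (h.rho_pow u) (one_pow r) hW
        obtain ⟨hk1, hn1⟩ := hdims 1 (one_pow r)
        set e := finrank F (End.eigenspace (ρ u) (1 : F)) with he
        have hnpos : 0 < n := by
          rw [← hn]
          apply Nat.pos_of_ne_zero
          intro h0
          have hs : Subsingleton V := Module.finrank_zero_iff.mp h0
          apply hns 0
          ext v
          exact Subsingleton.elim _ _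
        have hlt : e < n := by
          rw [← hn, ← hn1]
          have hepos : 0 < e := by
            apply Nat.pos_of_ne_zero
            rintro h0
            rw [h0, mul_zero] at hn1
            omega
          nlinarith [hr.two_le]
        have hbound : ∀ k : Fin r, r * finrank F (End.eigenspace g c ⊓ End.eigenspace (ρ u) (1 * θ ^ (k : ℕ)) : Submodule F V) ≤ 2 * e := by
          intro k
          have hμk : (1 * θ ^ (k : ℕ)) ^ r = 1 := by
            rw [one_mul]
            exact hrθ k
          have hlt' : finrank F (End.eigenspace (ρ u) (1 * θ ^ (k : ℕ))) < n := by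
            rw [hk1 k]
            exact hlt
          have := ih _ hlt' (End.eigenspace (ρ u) (1 * θ ^ (k : ℕ))) (Cen ρ u) (resHom ρ u _) (resG hgu _) rfl
            (h.restrict hr hθ hua hgu hμk) (hall _ hμk) c
          rw [finrank_eig_res, hk1 k] at this
          exact this
        calc r * finrank F (End.eigenspace g c) ≤ r * ∑ k : Fin r, finrank F (End.eigenspace g c ⊓ End.eigenspace (ρ u) (1 * θ ^ (k : ℕ)) : Submodule F V) :=
              Nat.mul_le_mul_left _ hsum
          _ = ∑ k : Fin r, r * finrank F (End.eigenspace g c ⊓ End.eigenspace (ρ u) (1 * θ ^ (k : ℕ)) : Submodule F V) := by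
              rw [Finset.mul_sum]
          _ ≤ ∑ k : Fin r, 2 * e := Finset.sum_le_sum fun k _ => hbound k
          _ = 2 * n := by
              rw [Finset.sum_const, Finset.card_univ, Fintype.card_fin, smul_eq_mul, ← hn, ← hn1]
              ring
      · -- a scalar restriction
        push Not at hall
        obtain ⟨μ₀, hμ₀, c₀, hc₀⟩ := hall
        have hc₀' : ∀ v ∈ End.eigenspace (ρ u) μ₀, g v = c₀ • v := by
          intro v hv
          have := congrArg (fun f : End F (End.eigenspace (ρ u) μ₀) => ((f ⟨v, hv⟩ : End.eigenspace (ρ u) μ₀) : V)) hc₀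
          simpa using this
        -- the element `s`
        obtain ⟨a₁, ha₁⟩ := h.hnorm a
        have hginv := h.g_inv hr
        have hg'u : g ^ (r - 1) * ρ u = ρ u * g ^ (r - 1) := (Commute.pow_left hgu _)
        have hs : ρ (a₁ * a⁻¹) * ρ a = ρ a₁ := by
          rw [← map_mul, inv_mul_cancel_right]
        have has : g * ρ a = ρ (a₁ * a⁻¹) * ρ a * g := by
          rw [hs, ha₁]
        have hua₁ : ρ u * ρ a₁ = θ • (ρ a₁ * ρ u) := by
          have e : ρ a₁ = g * ρ a * g ^ (r - 1) := by
            rw [ha₁, mul_assoc, hginv.1, mul_one]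
          rw [e]
          calc ρ u * (g * ρ a * g ^ (r - 1)) = (ρ u * g) * ρ a * g ^ (r - 1) := by noncomm_ring
            _ = g * (ρ u * ρ a) * g ^ (r - 1) := by
                rw [← hgu]; noncomm_ring
            _ = θ • (g * ρ a * (ρ u * g ^ (r - 1))) := by
                rw [hua, mul_smul_comm, smul_mul_assoc]; noncomm_ring
            _ = θ • (g * ρ a * g ^ (r - 1) * ρ u) := by
                rw [← hg'u]; noncomm_ring
        have hscen : a₁ * a⁻¹ ∈ Cen ρ u := by
          rw [mem_cen, map_mul]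
          have hua' : ρ a⁻¹ * ρ u = θ • (ρ u * ρ a⁻¹) := by
            have e1 : ρ a⁻¹ * (ρ u * ρ a) * ρ a⁻¹ = ρ a⁻¹ * (θ • (ρ a * ρ u)) * ρ a⁻¹ := by rw [hua]
            have e2 : ρ a⁻¹ * (ρ u * ρ a) * ρ a⁻¹ = ρ a⁻¹ * ρ u * (ρ a * ρ a⁻¹) := by noncomm_ring
            have e3 : ρ a⁻¹ * (θ • (ρ a * ρ u)) * ρ a⁻¹ = θ • ((ρ a⁻¹ * ρ a) * (ρ u * ρ a⁻¹)) := by
              rw [mul_smul_comm, smul_mul_assoc]
              congr 1 <;> noncomm_ring
            rw [e2, e3, rho_mul_inv, rho_inv_mul, mul_one, one_mul] at e1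
            exact e1
          calc ρ a₁ * ρ a⁻¹ * ρ u = ρ a₁ * (ρ a⁻¹ * ρ u) := by rw [mul_assoc]
            _ = θ • (ρ a₁ * (ρ u * ρ a⁻¹)) := by rw [hua', mul_smul_comm]
            _ = θ • ((ρ a₁ * ρ u) * ρ a⁻¹) := by rw [mul_assoc]
            _ = θ⁻¹ • θ • θ • ((ρ a₁ * ρ u) * ρ a⁻¹) := by
                rw [smul_smul θ⁻¹, inv_mul_cancel₀ hθ0, one_smul]
            _ = ρ u * (ρ a₁ * ρ a⁻¹) := by
                have hB : ρ a₁ * ρ u = θ⁻¹ • (ρ u * ρ a₁) := by
                  rw [hua₁, smul_smul, inv_mul_cancel₀ hθ0, one_smul]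
                rw [hB, smul_mul_assoc, smul_smul, smul_smul, smul_smul]
                rw [mul_comm θ⁻¹ θ, mul_assoc θ, mul_comm θ⁻¹ θ, mul_inv_cancel₀ hθ0]
                simp [mul_assoc, hθ0]
        by_cases hsc : ∃ σ₀ : F, ∀ v ∈ End.eigenspace (ρ u) μ₀, ρ (a₁ * a⁻¹) v = σ₀ • v
        · obtain ⟨σ₀, hσ⟩ := hsc
          have := case_scalar h hr hr2 hθ hua hgu hμ₀ has hns hc₀' hσ c
          rwa [hn] at this
        · have hsys := h.restrict hr hθ hua hgu hμ₀
          let s₁ : Cen ρ u := ⟨a₁ * a⁻¹, hscen⟩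
          have hex : ∃ y : Cen ρ u, resHom ρ u μ₀ s₁ * resHom ρ u μ₀ y ≠ resHom ρ u μ₀ y * resHom ρ u μ₀ s₁ := by
            by_contra hall2
            push Not at hall2
            obtain ⟨c', hc'⟩ := hsys.hschur (resHom ρ u μ₀ s₁) hall2
            apply hsc
            refine ⟨c', ?_⟩
            intro v hv
            have := congrArg (fun f : End F (End.eigenspace (ρ u) μ₀) => ((f ⟨v, hv⟩ : End.eigenspace (ρ u) μ₀) : V)) hc'
            simpa [s₁] using this
          obtain ⟨y, hy⟩ := hex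
          obtain ⟨ξ, hξ, hsy⟩ := h.hcomm (a₁ * a⁻¹) y
          have hξ1 : ξ ≠ 1 := by
            rintro rfl
            rw [one_smul] at hsy
            apply hy
            ext v
            have := congrArg (fun f : End F V => f (v : V)) hsy
            simpa [s₁] using this
          have := case_nonscalar h hr hθ hua hgu hμ₀ has hns hc₀' y.2 hξ hξ1 hsy hc
          rwa [hn] at this
    · -- the eigenvalue of the commutator is not 1
      have := shift_bound hr (rho_inj ρ u) hlam hlamr hlam1 hc ⊤ (End.eigenspace g c)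
        (fun _ _ => Submodule.mem_top) le_top le_rfl
      rw [finrank_top, hn] at this
      omega

end Cfsg.Agent.Lib.ClassMax.ExtraEig
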