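import Mathlib
import Cfsg.Agent.Lib.ClassMax.ExtraEig4

/-! Isometries of alternating forms acting on commutator quotients. -/

set_option autoImplicit false
set_option linter.unusedSectionVars false
set_option linter.unusedVariables false

namespace Cfsg.Agent.Lib.ClassMax.ExtraEig

open Module

section abstract

section comm

variable {A B : Type*} [CommGroup A] [CommGroup B]

theorem step4 (γ : A →* A) {ϖ r : ℕ} (hpow : ∀ x, γ^[ϖ] x = x) (hexp : ∀ x : A, x ^ r = 1) (hcop : Nat.Coprime ϖ r)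
    {e : A} (he : γ (γ e) * e = γ e * γ e) : γ e = e := by
  obtain ⟨f, hfd⟩ : ∃ f, f = γ e * e⁻¹ := ⟨_, rfl⟩
  have h1 : γ (γ e) = γ e * γ e * e⁻¹ := eq_mul_inv_of_mul_eq he
  have hf : γ f = f := by
    rw [hfd, map_mul, map_inv, h1, mul_right_comm (γ e) (γ e) e⁻¹, mul_inv_cancel_right]
  have hfe : γ e = f * e := by
    rw [hfd, inv_mul_cancel_right]
  have hit : ∀ k : ℕ, γ^[k] e = f ^ k * e := by
    intro k
    induction k with
    | zero => simp
    | succ k ih =>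
      rw [Function.iterate_succ_apply', ih, map_mul, map_pow, hf, hfe, pow_succ, mul_assoc]
  have h2 := hit ϖ
  rw [hpow] at h2
  have h3 : f ^ ϖ = 1 := by
    have : f ^ ϖ * e = 1 * e := by rw [← h2, one_mul]
    exact mul_right_cancel this
  have h4 : f ^ r = 1 := hexp f
  have h5 : orderOf f ∣ Nat.gcd ϖ r := Nat.dvd_gcd (orderOf_dvd_of_pow_eq_one h3) (orderOf_dvd_of_pow_eq_one h4)
  rw [hcop.gcd_eq_one, Nat.dvd_one, orderOf_eq_one_iff] at h5
  rw [hfe, h5, one_mul]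

theorem odd_fix (γ : A →* A) {ϖ : ℕ} (hpow : ∀ x, γ^[ϖ] x = x) (hodd : Odd ϖ) {y : A} (hy : γ (γ y) = y) : γ y = y := by
  obtain ⟨m, rfl⟩ := hodd
  have h1 : ∀ k : ℕ, γ^[2 * k] y = y := by
    intro k
    induction k with
    | zero => simp
    | succ k ih =>
      rw [show 2 * (k + 1) = (2 * k) + 2 from by ring, Function.iterate_add_apply, Function.iterate_succ_apply', Function.iterate_one, hy, ih]
  have h2 := hpow y
  have h3 : γ^[2 * m + 1] y = γ (γ^[2 * m] y) := Function.iterate_succ_apply' _ _ _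
  rw [h3, h1] at h2
  exact h2

/-- An isometry of odd order prime to the exponent, with `ω(x, γ x) = 1` on the commutator, is trivial. -/
theorem gamma_trivial (γ : A →* A) (γ' : A → A) (hγ : ∀ x, γ (γ' x) = x)
    (ω : A → A → B) (hl : ∀ x y z, ω (x * y) z = ω x z * ω y z) (hr : ∀ x y z, ω x (y * z) = ω x y * ω x z)
    (hsw : ∀ x y, ω x y = (ω y x)⁻¹) (hi : ∀ x y, ω (γ x) (γ y) = ω x y) (hnd : ∀ z, (∀ p, ω p z = 1) → z = 1)
    {ϖ r : ℕ} (hpow : ∀ x, γ^[ϖ] x = x) (hexp : ∀ x : A, x ^ r = 1) (hcop : Nat.Coprime ϖ r) (hodd : Odd ϖ)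
    (hyp : ∀ q, ω (q * (γ q)⁻¹) (γ (q * (γ q)⁻¹)) = 1) : ∀ q, γ q = q := by
  have hl1 : ∀ z, ω 1 z = 1 := by
    intro z
    have := hl 1 1 z
    rw [mul_one] at this
    exact mul_eq_left.mp this.symm
  have hr1 : ∀ z, ω z 1 = 1 := by
    intro z
    have := hr z 1 1
    rw [mul_one] at this
    exact mul_eq_left.mp this.symm
  have hlinv : ∀ x z, ω x⁻¹ z = (ω x z)⁻¹ := by
    intro x z
    have := hl x⁻¹ x z
    rw [inv_mul_cancel, hl1] at this
    exact eq_inv_of_mul_eq_one_left this.symm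
  have hrinv : ∀ x z, ω z x⁻¹ = (ω z x)⁻¹ := by
    intro x z
    have := hr z x⁻¹ x
    rw [inv_mul_cancel, hr1] at this
    exact eq_inv_of_mul_eq_one_left this.symm
  let δ : A → A := fun q => q * (γ q)⁻¹
  have hδmul : ∀ p q, δ (p * q) = δ p * δ q := by
    intro p q
    show p * q * (γ (p * q))⁻¹ = p * (γ p)⁻¹ * (q * (γ q)⁻¹)
    rw [map_mul, mul_inv]
    simp only [mul_comm, mul_left_comm, mul_assoc]
  have hy : ∀ q, ω (δ q) (γ (δ q)) = 1 := hyp
  have hpol : ∀ p q, ω (δ p) (γ (δ q)) * ω (δ q) (γ (δ p)) = 1 := by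
    intro p q
    have h1 := hy (p * q)
    rw [hδmul, map_mul, hl, hr, hr, hy p, hy q, one_mul, mul_one] at h1
    exact h1
  have hadj : ∀ x y, ω (γ x) y = ω x (γ' y) := by
    intro x y
    have := hi x (γ' y)
    rwa [hγ] at this
  have hz : ∀ p q, ω (δ p) (γ (δ q) * (γ' (δ q))⁻¹) = 1 := by
    intro p q
    have h1 := hpol p q
    rw [hsw (δ q), hadj] at h1
    rw [hr, hrinv]
    exact h1
  have hzfix : ∀ q, γ (γ (δ q)) * (δ q)⁻¹ = γ (δ q) * (γ' (δ q))⁻¹ := by
    intro q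
    set y := δ q with hyd
    set z := γ y * (γ' y)⁻¹ with hzd
    have h1 : ∀ p, ω p (z * (γ' z)⁻¹) = 1 := by
      intro p
      have h2 := hz p q
      rw [← hyd, ← hzd] at h2
      show ω p (z * (γ' z)⁻¹) = 1
      have h3 : ω (δ p) z = ω p z * (ω (γ p) z)⁻¹ := by
        show ω (p * (γ p)⁻¹) z = _
        rw [hl, hlinv]
      rw [hadj] at h3
      rw [hr, hrinv, ← h3]
      exact h2
    have h4 := hnd _ h1
    have h5 : z = γ' z := by
      have := mul_inv_eq_one.mp h4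
      exact this
    have h6 : γ z = z := by
      calc γ z = γ (γ' z) := by rw [← h5]
        _ = z := hγ z
    rw [hzd, map_mul, map_inv, hγ] at h6
    exact h6
  have hI2 : ∀ q, γ (γ (γ (δ q))) * δ q = γ (γ (δ q)) * γ (δ q) := by
    have key : ∀ y, (γ (γ y) * y⁻¹ = γ y * (γ' y)⁻¹) → γ (γ (γ y)) * y = γ (γ y) * γ y := by
      intro y h
      have h2 := congrArg γ h
      simp only [map_mul, map_inv, hγ] at h2
      have h3 := mul_inv_eq_iff_eq_mul.mp h2
      rw [h3, mul_right_comm (γ (γ y) * y⁻¹), inv_mul_cancel_right]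
    intro q
    exact key _ (hzfix q)
  have hfixδ : ∀ q, γ (δ q) = δ q := by
    intro q
    set y := δ q with hyd
    have h1 : γ (γ (γ y * y)) * (γ y * y) = γ (γ y * y) * γ (γ y * y) := by
      have h2 := hI2 q
      rw [← hyd] at h2
      simp only [map_mul]
      calc γ (γ (γ y)) * γ (γ y) * (γ y * y) = (γ (γ (γ y)) * y) * (γ (γ y) * γ y) := by
            simp only [mul_comm, mul_left_comm, mul_assoc]
        _ = _ := by rw [h2]
    have h3 := step4 γ hpow hexp hcop h1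
    rw [map_mul] at h3
    have h4 : γ (γ y) = y := by
      rw [mul_comm (γ y) y] at h3
      exact mul_right_cancel h3
    exact odd_fix γ hpow hodd h4
  intro q
  apply step4 γ hpow hexp hcop
  have h1 := hfixδ q
  have h2 : γ q * (γ (γ q))⁻¹ = q * (γ q)⁻¹ := by
    have : γ (q * (γ q)⁻¹) = γ q * (γ (γ q))⁻¹ := by rw [map_mul, map_inv]
    rw [← this]
    exact h1
  have key : ∀ a b c : A, a * b⁻¹ = c * a⁻¹ → b * c = a * a := by
    intro a b c h
    have h3 : c = a * b⁻¹ * a := (mul_inv_eq_iff_eq_mul.mp h.symm)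
    rw [h3, mul_assoc a, mul_left_comm b a, mul_inv_cancel_left]
  exact key _ _ _ h2

end comm

theorem gamma_trivial' {A B : Type*} [Group A] [CommGroup B] (hc : ∀ a b : A, a * b = b * a) (γ : A →* A) (γ' : A → A) (hγ : ∀ x, γ (γ' x) = x)
    (ω : A → A → B) (hl : ∀ x y z, ω (x * y) z = ω x z * ω y z) (hr : ∀ x y z, ω x (y * z) = ω x y * ω x z)
    (hsw : ∀ x y, ω x y = (ω y x)⁻¹) (hi : ∀ x y, ω (γ x) (γ y) = ω x y) (hnd : ∀ z, (∀ p, ω p z = 1) → z = 1)
    {ϖ r : ℕ} (hpow : ∀ x, γ^[ϖ] x = x) (hexp : ∀ x : A, x ^ r = 1) (hcop : Nat.Coprime ϖ r) (hodd : Odd ϖ)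
    (hyp : ∀ q, ω (q * (γ q)⁻¹) (γ (q * (γ q)⁻¹)) = 1) : ∀ q, γ q = q := by
  letI : CommGroup A := { (inferInstance : Group A) with mul_comm := hc }
  exact gamma_trivial γ γ' hγ ω hl hr hsw hi hnd hpow hexp hcop hodd hyp

end abstract

end Cfsg.Agent.Lib.ClassMax.ExtraEig
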