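import Mathlib
import Cfsg.Agent.Lib.ClassMax.ExtraEig5

/-! Eigenspaces of an element normalising a family of operators with scalar commutators, modulo scalars. -/

set_option autoImplicit false
set_option linter.unusedSectionVars false
set_option linter.unusedVariables false

namespace Cfsg.Agent.Lib.ClassMax.ExtraEig

open Module

universe v w

variable {F : Type*} [Field F]

section dich

variable {V : Type v} {S : Type w} [AddCommGroup V] [Module F V] [Group S] {ρ : S →* End F V}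

theorem rho_mul_ne_zero (h10 : (1 : End F V) ≠ 0) (x y : S) : ρ x * ρ y ≠ 0 := by
  intro h
  apply h10
  have e : (1 : End F V) = (ρ x * ρ y) * ρ (x * y)⁻¹ := by
    rw [← map_mul, ← map_mul, mul_inv_cancel, map_one]
  rw [e, h, zero_mul]

theorem smul_cancel_ne_zero {T : End F V} (hT : T ≠ 0) {a b : F} (h : a • T = b • T) : a = b := by
  have e : (a - b) • T = 0 := by rw [sub_smul, h, sub_self]
  exact sub_eq_zero.mp ((smul_eq_zero.mp e).resolve_right hT)

/-- The dichotomy: either the commutators `[a, g]` and their images do not commute, for some `a`, or `g` centralises the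
family modulo scalars. -/
theorem dichotomy {r ϖ : ℕ} (hr0 : r ≠ 0) (hϖ0 : ϖ ≠ 0) (h10 : (1 : End F V) ≠ 0)
    (hcomm : ∀ x y : S, ∃ ζ : F, ζ ^ r = 1 ∧ ρ x * ρ y = ζ • (ρ y * ρ x))
    (hschur : ∀ T : End F V, (∀ x : S, T * ρ x = ρ x * T) → ∃ c : F, T = c • 1)
    {g : End F V} (hg : g ^ ϖ = 1) (φ : S → S) (κ : S → F) (hκ : ∀ x, κ x ≠ 0) (hφ : ∀ x, g * ρ x = κ x • (ρ (φ x) * g))
    (hcop : Nat.Coprime ϖ r) (hodd : Odd ϖ)
    (hyp : ∀ a, ρ ((φ a)⁻¹ * a) * ρ (φ ((φ a)⁻¹ * a)) = ρ (φ ((φ a)⁻¹ * a)) * ρ ((φ a)⁻¹ * a)) :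
    ∀ a, ∃ c : F, ρ ((φ a)⁻¹ * a) = c • 1 := by
  classical
  have hcancel : ∀ A B : End F V, A * g = B * g → A = B := by
    intro A B hAB
    have hinv : g * g ^ (ϖ - 1) = 1 := by
      rw [← pow_succ', Nat.sub_add_cancel (Nat.pos_of_ne_zero hϖ0), hg]
    calc A = A * (g * g ^ (ϖ - 1)) := by rw [hinv, mul_one]
      _ = (A * g) * g ^ (ϖ - 1) := by rw [mul_assoc]
      _ = (B * g) * g ^ (ϖ - 1) := by rw [hAB]
      _ = B := by rw [mul_assoc, hinv, mul_one]
  let Z₀ : Subgroup S :=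
    { carrier := {x | ∃ c : F, ρ x = c • 1}
      mul_mem' := by
        rintro a b ⟨c, hc⟩ ⟨d, hd⟩
        refine ⟨c * d, ?_⟩
        rw [map_mul, hc, hd, smul_mul_smul_comm, one_mul]
      one_mem' := ⟨1, by simp⟩
      inv_mem' := by
        rintro a ⟨c, hc⟩
        refine ⟨c⁻¹, ?_⟩
        have hc0 : c ≠ 0 := by
          rintro rfl
          have := rho_mul_inv ρ a
          rw [hc, zero_smul, zero_mul] at this
          exact h10 this.symm
        have e := rho_inv_mul ρ a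
        rw [hc, mul_smul_comm, mul_one] at e
        rw [← e, smul_smul, inv_mul_cancel₀ hc0, one_smul] }
  have hZ : ∀ x, x ∈ Z₀ ↔ ∃ c : F, ρ x = c • 1 := fun x => Iff.rfl
  haveI hZn : Z₀.Normal := by
    constructor
    rintro a ⟨c, hc⟩ b
    refine ⟨c, ?_⟩
    rw [map_mul, map_mul, hc, mul_smul_comm, mul_one, smul_mul_assoc, rho_mul_inv]
  let Q := S ⧸ Z₀
  have hmkeq : ∀ x y : S, (∃ c : F, ρ y = c • ρ x) → ((x : S) : Q) = ((y : S) : Q) := by
    rintro x y ⟨c, hc⟩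
    apply QuotientGroup.eq.mpr
    refine ⟨c, ?_⟩
    rw [map_mul, hc, mul_smul_comm, rho_inv_mul]
  have hmkeq' : ∀ x y : S, ((x : S) : Q) = ((y : S) : Q) → ∃ c : F, c ≠ 0 ∧ ρ y = c • ρ x := by
    intro x y h
    obtain ⟨c, hc⟩ := QuotientGroup.eq.mp h
    have e : ρ y = ρ x * ρ (x⁻¹ * y) := by rw [← map_mul, mul_inv_cancel_left]
    rw [hc, mul_smul_comm, mul_one] at e
    refine ⟨c, ?_, e⟩
    rintro rfl
    rw [zero_smul] at e
    have := rho_mul_ne_zero (ρ := ρ) h10 y y⁻¹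
    rw [e, zero_mul] at this
    exact this rfl
  have hmkone : ∀ y : S, (∃ c : F, ρ y = c • 1) → ((y : S) : Q) = 1 := by
    intro y hy
    exact (QuotientGroup.eq_one_iff y).mpr hy
  have hcommQ : ∀ a b : Q, a * b = b * a := by
    intro a b
    obtain ⟨x, rfl⟩ := QuotientGroup.mk_surjective a
    obtain ⟨y, rfl⟩ := QuotientGroup.mk_surjective b
    rw [← QuotientGroup.mk_mul, ← QuotientGroup.mk_mul]
    apply hmkeq
    obtain ⟨ζ, hζ, he⟩ := hcomm y x
    refine ⟨ζ, ?_⟩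
    rw [map_mul, map_mul, he]
  -- the induced automorphism
  have hφmul : ∀ x y : S, ∃ c : F, ρ (φ x * φ y) = c • ρ (φ (x * y)) := by
    intro x y
    refine ⟨κ (x * y) * (κ x * κ y)⁻¹, ?_⟩
    apply hcancel
    have e1 : g * ρ (x * y) = (κ x * κ y) • (ρ (φ x * φ y) * g) := by
      rw [map_mul, ← mul_assoc, hφ x, smul_mul_assoc, mul_assoc, hφ y, mul_smul_comm, smul_smul, map_mul, ← mul_assoc]
    have e2 := hφ (x * y)
    rw [e1] at e2
    have hne : κ x * κ y ≠ 0 := mul_ne_zero (hκ x) (hκ y)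
    rw [smul_mul_assoc, mul_comm (κ (x * y)), ← smul_smul, ← e2, smul_smul, inv_mul_cancel₀ hne, one_smul]
  have hφone : ∃ c : F, ρ (φ 1) = c • 1 := by
    refine ⟨(κ 1)⁻¹, ?_⟩
    apply hcancel
    have e := hφ 1
    rw [map_one, mul_one] at e
    rw [smul_mul_assoc, one_mul]
    nth_rw 2 [e]
    rw [smul_smul, inv_mul_cancel₀ (hκ 1), one_smul]
  let Φ : S →* Q :=
    { toFun := fun x => ((φ x : S) : Q)
      map_one' := hmkone _ hφone
      map_mul' := by
        intro x y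
        rw [← QuotientGroup.mk_mul]
        exact hmkeq _ _ (hφmul x y) }
  have hker : ∀ z ∈ Z₀, Φ z = 1 := by
    rintro z ⟨c, hc⟩
    apply hmkone
    refine ⟨(κ z)⁻¹ * c, ?_⟩
    apply hcancel
    have e := hφ z
    rw [hc, mul_smul_comm, mul_one] at e
    rw [smul_mul_assoc, one_mul, mul_smul, e, smul_smul, inv_mul_cancel₀ (hκ z), one_smul]
  let γ : Q →* Q := QuotientGroup.lift Z₀ Φ hker
  have hγmk : ∀ x : S, γ (x : Q) = ((φ x : S) : Q) := fun x => rfl
  have hit : ∀ (k : ℕ) (x : S), ∃ (y : S) (c : F), c ≠ 0 ∧ γ^[k] (x : Q) = (y : Q) ∧ g ^ k * ρ x = c • (ρ y * g ^ k) := by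
    intro k x
    induction k with
    | zero => exact ⟨x, 1, one_ne_zero, rfl, by simp⟩
    | succ k ih =>
      obtain ⟨y, c, hc, h1, h2⟩ := ih
      refine ⟨φ y, c * κ y, mul_ne_zero hc (hκ y), ?_, ?_⟩
      · rw [Function.iterate_succ_apply', h1, hγmk]
      · rw [pow_succ', mul_assoc, h2, mul_smul_comm, ← mul_assoc, hφ y, smul_mul_assoc, smul_smul, mul_assoc]
  have hpow : ∀ q : Q, γ^[ϖ] q = q := by
    intro q
    obtain ⟨x, rfl⟩ := QuotientGroup.mk_surjective q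
    obtain ⟨y, c, hc, h1, h2⟩ := hit ϖ x
    rw [hg, one_mul, mul_one] at h2
    rw [h1]
    exact (hmkeq x y ⟨c⁻¹, by rw [h2, smul_smul, inv_mul_cancel₀ hc, one_smul]⟩).symm
  let γ' : Q → Q := fun q => γ^[ϖ - 1] q
  have hγ' : ∀ q, γ (γ' q) = q := by
    intro q
    have e : γ (γ^[ϖ - 1] q) = γ^[ϖ - 1 + 1] q := (Function.iterate_succ_apply' _ _ _).symm
    show γ (γ^[ϖ - 1] q) = q
    rw [e, Nat.sub_add_cancel (Nat.pos_of_ne_zero hϖ0), hpow]
  -- the commutator form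
  choose ζ hζr hζ using hcomm
  have hζ0 : ∀ x y, ζ x y ≠ 0 := by
    intro x y h0
    have := hζr x y
    rw [h0, zero_pow hr0] at this
    exact zero_ne_one this
  let ω : Q → Q → Fˣ := fun a b => Units.mk0 (ζ a.out b.out) (hζ0 _ _)
  have hω : ∀ x y : S, ρ x * ρ y = ((ω (x : Q) (y : Q) : Fˣ) : F) • (ρ y * ρ x) := by
    intro x y
    obtain ⟨c₁, hc₁, e₁⟩ := hmkeq' x (x : Q).out (QuotientGroup.out_eq' _).symm
    obtain ⟨c₂, hc₂, e₂⟩ := hmkeq' y (y : Q).out (QuotientGroup.out_eq' _).symm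
    show ρ x * ρ y = ζ (x : Q).out (y : Q).out • (ρ y * ρ x)
    have e := hζ (x : Q).out (y : Q).out
    rw [e₁, e₂, smul_mul_smul_comm, smul_mul_smul_comm, mul_comm c₂ c₁, smul_comm] at e
    have hne : c₁ * c₂ ≠ 0 := mul_ne_zero hc₁ hc₂
    exact smul_right_injective (End F V) hne e
  have huniq : ∀ x y : S, ∀ a : F, ρ x * ρ y = a • (ρ y * ρ x) → ((ω (x : Q) (y : Q) : Fˣ) : F) = a := by
    intro x y a ha
    apply smul_cancel_ne_zero (rho_mul_ne_zero h10 y x)
    rw [← hω, ← ha]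
  have hl : ∀ a b c : Q, ω (a * b) c = ω a c * ω b c := by
    intro a b c
    obtain ⟨x, rfl⟩ := QuotientGroup.mk_surjective a
    obtain ⟨y, rfl⟩ := QuotientGroup.mk_surjective b
    obtain ⟨z, rfl⟩ := QuotientGroup.mk_surjective c
    apply Units.ext
    rw [← QuotientGroup.mk_mul, Units.val_mul, huniq (x * y) z ((ω (x : Q) (z : Q) : Fˣ) * (ω (y : Q) (z : Q) : Fˣ))]
    rw [map_mul, mul_assoc, hω y z, mul_smul_comm, ← mul_assoc, hω x z, smul_mul_assoc, smul_smul, mul_assoc, mul_comm (ω (x : Q) (z : Q) : F)]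
  have hr' : ∀ a b c : Q, ω a (b * c) = ω a b * ω a c := by
    intro a b c
    obtain ⟨x, rfl⟩ := QuotientGroup.mk_surjective a
    obtain ⟨y, rfl⟩ := QuotientGroup.mk_surjective b
    obtain ⟨z, rfl⟩ := QuotientGroup.mk_surjective c
    apply Units.ext
    rw [← QuotientGroup.mk_mul, Units.val_mul, huniq x (y * z) ((ω (x : Q) (y : Q) : Fˣ) * (ω (x : Q) (z : Q) : Fˣ))]
    rw [map_mul, ← mul_assoc, hω x y, smul_mul_assoc, mul_assoc, hω x z, mul_smul_comm, smul_smul, mul_assoc]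
  have hsw : ∀ a b : Q, ω a b = (ω b a)⁻¹ := by
    intro a b
    obtain ⟨x, rfl⟩ := QuotientGroup.mk_surjective a
    obtain ⟨y, rfl⟩ := QuotientGroup.mk_surjective b
    apply eq_inv_of_mul_eq_one_left
    apply Units.ext
    rw [Units.val_mul, Units.val_one]
    apply smul_cancel_ne_zero (rho_mul_ne_zero h10 x y)
    rw [mul_smul, ← hω y x, ← hω x y, one_smul]
  have hi : ∀ a b : Q, ω (γ a) (γ b) = ω a b := by
    intro a b
    obtain ⟨x, rfl⟩ := QuotientGroup.mk_surjective a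
    obtain ⟨y, rfl⟩ := QuotientGroup.mk_surjective b
    rw [hγmk, hγmk]
    apply Units.ext
    apply huniq
    apply hcancel
    have hne : κ x * κ y ≠ 0 := mul_ne_zero (hκ x) (hκ y)
    have e1 : g * (ρ x * ρ y) = (κ x * κ y) • (ρ (φ x) * ρ (φ y) * g) := by
      rw [← mul_assoc, hφ x, smul_mul_assoc, mul_assoc, hφ y, mul_smul_comm, smul_smul, ← mul_assoc]
    have e2 : g * (ρ y * ρ x) = (κ x * κ y) • (ρ (φ y) * ρ (φ x) * g) := by
      rw [← mul_assoc, hφ y, smul_mul_assoc, mul_assoc, hφ x, mul_smul_comm, smul_smul, ← mul_assoc, mul_comm (κ x)]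
    have e3 : g * (ρ x * ρ y) = ((ω (x : Q) (y : Q) : Fˣ) : F) • (g * (ρ y * ρ x)) := by
      rw [hω x y, mul_smul_comm]
    rw [e1, e2, smul_comm] at e3
    have e4 := smul_right_injective (End F V) hne e3
    rw [e4, smul_mul_assoc]
  have hnd : ∀ z : Q, (∀ p, ω p z = 1) → z = 1 := by
    intro z hz
    obtain ⟨y, rfl⟩ := QuotientGroup.mk_surjective z
    apply hmkone
    apply hschur
    intro x
    have h1 := hz (x : Q)
    have h2 := hω x y
    rw [h1] at h2
    simp only [Units.val_one, one_smul] at h2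
    exact h2.symm
  have hexp : ∀ q : Q, q ^ r = 1 := by
    intro q
    apply hnd
    intro p
    obtain ⟨y, rfl⟩ := QuotientGroup.mk_surjective q
    obtain ⟨x, rfl⟩ := QuotientGroup.mk_surjective p
    have hω1 : ((ω (x : Q) (y : Q) : Fˣ) : F) ^ r = 1 := by
      rw [huniq x y _ (hζ x y)]
      exact hζr x y
    have hpowr : ∀ k : ℕ, ω (x : Q) ((y : Q) ^ k) = ω (x : Q) (y : Q) ^ k := by
      intro k
      induction k with
      | zero =>
        simp only [pow_zero]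
        apply Units.ext
        rw [Units.val_one]
        apply huniq x 1
        simp
      | succ k ih => rw [pow_succ, hr', ih, pow_succ]
    rw [hpowr]
    apply Units.ext
    rw [Units.val_pow_eq_pow_val, hω1, Units.val_one]
  have hyp' : ∀ q : Q, ω (q * (γ q)⁻¹) (γ (q * (γ q)⁻¹)) = 1 := by
    intro q
    obtain ⟨a, rfl⟩ := QuotientGroup.mk_surjective q
    have e : (a : Q) * (γ (a : Q))⁻¹ = (((φ a)⁻¹ * a : S) : Q) := by
      rw [hγmk, QuotientGroup.mk_mul, QuotientGroup.mk_inv, hcommQ]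
    rw [e, hγmk]
    apply Units.ext
    rw [Units.val_one]
    apply huniq
    rw [one_smul]
    exact hyp a
  have hfix := gamma_trivial' hcommQ γ γ' hγ' ω hl hr' hsw hi hnd hpow hexp hcop hodd hyp'
  intro a
  have h1 := hfix (a : Q)
  rw [hγmk] at h1
  exact QuotientGroup.eq.mp h1

end dich

section bounds

variable {V : Type v} {S : Type w} [AddCommGroup V] [Module F V] [Group S] {ρ : S →* End F V} [FiniteDimensional F V]

/-- Eigenspaces of non-scalar members are small. -/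
theorem eig_rho_bound {r : ℕ} (hr : r.Prime) (hcomm : ∀ x y : S, ∃ ζ : F, ζ ^ r = 1 ∧ ρ x * ρ y = ζ • (ρ y * ρ x))
    (hschur : ∀ T : End F V, (∀ x : S, T * ρ x = ρ x * T) → ∃ c : F, T = c • 1) {t : S} (ht : ∀ c : F, ρ t ≠ c • 1) {κ : F} (hκ : κ ≠ 0) :
    r * finrank F (End.eigenspace (ρ t) κ) ≤ finrank F V := by
  have hex : ∃ y : S, ρ t * ρ y ≠ ρ y * ρ t := by
    by_contra hall
    push Not at hall
    obtain ⟨c, hc⟩ := hschur (ρ t) hall
    exact ht c hc
  obtain ⟨y, hy⟩ := hex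
  obtain ⟨ζ, hζ, he⟩ := hcomm t y
  have hζ1 : ζ ≠ 1 := by
    rintro rfl
    rw [one_smul] at he
    exact hy he
  have := shift_bound hr (rho_inj ρ y) he hζ hζ1 hκ ⊤ (End.eigenspace (ρ t) κ) (fun _ _ => Submodule.mem_top) le_top le_rfl
  rwa [finrank_top] at this

theorem two_w_le (W : Submodule F V) (a : S) :
    2 * finrank F W ≤ finrank F V + finrank F (W ⊓ W.map (ρ a⁻¹) : Submodule F V) := by
  have h1 := Submodule.finrank_sup_add_finrank_inf_eq W (W.map (ρ a⁻¹))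
  have h2 := Submodule.finrank_le (W ⊔ W.map (ρ a⁻¹))
  have h3 : finrank F (W.map (ρ a⁻¹)) = finrank F W := finrank_map_of_inj (rho_inj ρ a⁻¹) W
  omega

theorem inter_le {g : End F V} {a y : S} {κ c : F} (hc : c ≠ 0) (hg : g * ρ a = κ • (ρ y * g)) :
    (End.eigenspace g c ⊓ (End.eigenspace g c).map (ρ a⁻¹) : Submodule F V) ≤ End.eigenspace (ρ (y⁻¹ * a)) κ := by
  rintro v ⟨hv1, w, hw, rfl⟩
  have hw' := End.mem_eigenspace_iff.mp hw
  have hv' := End.mem_eigenspace_iff.mp hv1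
  rw [End.mem_eigenspace_iff]
  have e1 : ρ a (ρ a⁻¹ w) = w := step_right_inv w
  have e2 := congrArg (fun f : End F V => f (ρ a⁻¹ w)) hg
  simp only [Module.End.mul_apply, LinearMap.smul_apply, e1] at e2
  rw [hw', hv', map_smul, smul_smul] at e2
  have e3 : w = κ • ρ y (ρ a⁻¹ w) := by
    apply smul_right_injective V hc
    show c • w = c • κ • ρ y (ρ a⁻¹ w)
    rw [e2, smul_smul, mul_comm κ c]
  rw [map_mul, Module.End.mul_apply, e1]
  nth_rw 1 [e3]
  rw [map_smul]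
  have e4 : ∀ z, ρ y⁻¹ (ρ y z) = z := fun z => by
    have := congrArg (fun f : End F V => f z) (rho_inv_mul ρ y)
    simpa using this
  rw [e4]

/-- `g` centralises modulo scalars. -/
theorem case_zero {g : End F V} (hschur : ∀ T : End F V, (∀ x : S, T * ρ x = ρ x * T) → ∃ c : F, T = c • 1)
    (hns : ∀ c : F, g ≠ c • 1) (φ : S → S) (κ : S → F) (hκ : ∀ x, κ x ≠ 0) (hφ : ∀ x, g * ρ x = κ x • (ρ (φ x) * g))
    (hall : ∀ a, ∃ c : F, ρ ((φ a)⁻¹ * a) = c • 1) {c : F} (hc : c ≠ 0) :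
    2 * finrank F (End.eigenspace g c) ≤ finrank F V := by
  have h10 : (1 : End F V) ≠ 0 := by
    intro h1
    apply hns 0
    rw [zero_smul]
    have : g = g * 1 := (mul_one g).symm
    rw [this, h1, mul_zero]
  have hform : ∀ a, ∃ lam : F, lam ≠ 0 ∧ g * ρ a = lam • (ρ a * g) := by
    intro a
    obtain ⟨d, hd⟩ := hall a
    have e : ρ a = d • ρ (φ a) := by
      have e1 : ρ a = ρ (φ a) * ρ ((φ a)⁻¹ * a) := by
        rw [← map_mul, mul_inv_cancel_left]
      rw [hd, mul_smul_comm, mul_one] at e1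
      exact e1
    have hd0 : d ≠ 0 := by
      rintro rfl
      rw [zero_smul] at e
      have := rho_mul_ne_zero (ρ := ρ) h10 a a⁻¹
      rw [e, zero_mul] at this
      exact this rfl
    refine ⟨κ a * d⁻¹, mul_ne_zero (hκ a) (inv_ne_zero hd0), ?_⟩
    rw [hφ a, e, smul_mul_assoc, smul_smul, mul_assoc, inv_mul_cancel₀ hd0, mul_one]
  have hex : ∃ a, ∃ lam : F, lam ≠ 1 ∧ g * ρ a = lam • (ρ a * g) := by
    by_contra hno
    push Not at hno
    obtain ⟨c', hc'⟩ := hschur g (by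
      intro x
      obtain ⟨lam, -, hlam⟩ := hform x
      by_cases h1 : lam = 1
      · rw [h1, one_smul] at hlam
        exact hlam
      · exact absurd hlam (hno x lam h1))
    exact hns c' hc'
  obtain ⟨a, lam, hlam1, hlam⟩ := hex
  have h := two_w_le (ρ := ρ) (End.eigenspace g c) a
  have hbot : (End.eigenspace g c ⊓ (End.eigenspace g c).map (ρ a⁻¹) : Submodule F V) = ⊥ := by
    rw [eq_bot_iff]
    rintro v ⟨hv1, w, hw, rfl⟩
    have hw' := End.mem_eigenspace_iff.mp hw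
    have hv' := End.mem_eigenspace_iff.mp hv1
    have e1 : ρ a (ρ a⁻¹ w) = w := step_right_inv w
    have e2 := congrArg (fun f : End F V => f (ρ a⁻¹ w)) hlam
    simp only [Module.End.mul_apply, LinearMap.smul_apply, e1] at e2
    rw [hw', hv', map_smul, e1, smul_smul] at e2
    have e3 : (c - lam * c) • w = 0 := by
      rw [sub_smul, e2, sub_self]
    have hne : c - lam * c ≠ 0 := by
      intro h0
      apply hlam1
      have : (1 - lam) * c = 0 := by linear_combination h0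
      exact (sub_eq_zero.mp ((mul_eq_zero.mp this).resolve_right hc)).symm
    have hw0 := (smul_eq_zero.mp e3).resolve_left hne
    rw [hw0, map_zero]
    exact Submodule.zero_mem _
  rw [hbot, finrank_bot] at h
  omega

/-- A pair of non-commuting images. -/
theorem case_noncomm {g : End F V} {r : ℕ} (hcomm : ∀ x y : S, ∃ ζ : F, ζ ^ r = 1 ∧ ρ x * ρ y = ζ • (ρ y * ρ x))
    (φ : S → S) (κ : S → F) (hκ : ∀ x, κ x ≠ 0) (hφ : ∀ x, g * ρ x = κ x • (ρ (φ x) * g)) {a : S}
    (hnc : ρ ((φ a)⁻¹ * a) * ρ (φ ((φ a)⁻¹ * a)) ≠ ρ (φ ((φ a)⁻¹ * a)) * ρ ((φ a)⁻¹ * a)) {c : F} (hc : c ≠ 0) :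
    2 * finrank F (End.eigenspace g c) ≤ finrank F V := by
  have h := two_w_le (ρ := ρ) (End.eigenspace g c) a
  set t := (φ a)⁻¹ * a with ht
  have hle := inter_le (ρ := ρ) (a := a) hc (hφ a)
  have hbot : (End.eigenspace g c ⊓ (End.eigenspace g c).map (ρ a⁻¹) : Submodule F V) = ⊥ := by
    rw [eq_bot_iff]
    intro v hv
    have h1 := End.mem_eigenspace_iff.mp (hle hv)
    rw [← ht] at h1
    have hv' := End.mem_eigenspace_iff.mp hv.1
    have e2 := congrArg (fun f : End F V => f v) (hφ t)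
    simp only [Module.End.mul_apply, LinearMap.smul_apply] at e2
    rw [h1, map_smul, hv', map_smul, smul_smul] at e2
    -- `ρ (φ t) v = b v`
    set b := κ a * (κ t)⁻¹ with hb
    have hb0 : b ≠ 0 := mul_ne_zero (hκ a) (inv_ne_zero (hκ t))
    have e3 : ρ (φ t) v = b • v := by
      apply smul_right_injective V (mul_ne_zero (hκ t) hc)
      show (κ t * c) • ρ (φ t) v = (κ t * c) • b • v
      have e2' : (κ t * c) • ρ (φ t) v = (κ a * c) • v := by rw [mul_smul, e2]
      rw [e2', hb, smul_smul]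
      congr 1
      have := hκ t
      field_simp
    obtain ⟨ζ, hζ, he⟩ := hcomm t (φ t)
    have hζ1 : ζ ≠ 1 := by
      rintro rfl
      rw [one_smul] at he
      exact hnc he
    have e4 := congrArg (fun f : End F V => f v) he
    simp only [Module.End.mul_apply, LinearMap.smul_apply] at e4
    rw [h1, e3, map_smul, map_smul, h1, e3] at e4
    simp only [smul_smul] at e4
    have e5 : (b * κ a - ζ * (κ a * b)) • v = 0 := by
      rw [sub_smul, e4, sub_self]
    have hne : b * κ a - ζ * (κ a * b) ≠ 0 := by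
      have e6 : b * κ a - ζ * (κ a * b) = (1 - ζ) * (b * κ a) := by ring
      rw [e6]
      exact mul_ne_zero (sub_ne_zero.mpr (Ne.symm hζ1)) (mul_ne_zero hb0 (hκ a))
    exact (Submodule.mem_bot F).mpr ((smul_eq_zero.mp e5).resolve_left hne)
  rw [hbot, finrank_bot] at h
  omega

/-- The bounds in the case of an arbitrary element of prime order. -/
theorem main_bounds {r ϖ : ℕ} (hr : r.Prime) (hϖ : ϖ.Prime) (hcomm : ∀ x y : S, ∃ ζ : F, ζ ^ r = 1 ∧ ρ x * ρ y = ζ • (ρ y * ρ x))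
    (hschur : ∀ T : End F V, (∀ x : S, T * ρ x = ρ x * T) → ∃ c : F, T = c • 1) {g : End F V} (hg : g ^ ϖ = 1) (hns : ∀ c : F, g ≠ c • 1)
    (φ : S → S) (κ : S → F) (hκ : ∀ x, κ x ≠ 0) (hφ : ∀ x, g * ρ x = κ x • (ρ (φ x) * g)) (c : F) :
    (ϖ = 2 → 4 * finrank F (End.eigenspace g c) ≤ 3 * finrank F V) ∧
    (ϖ = 3 → r = 3 → 3 * finrank F (End.eigenspace g c) ≤ 2 * finrank F V) ∧
    (ϖ ≠ 2 → ϖ ≠ r → 2 * finrank F (End.eigenspace g c) ≤ finrank F V) := by
  have h10 : (1 : End F V) ≠ 0 := by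
    intro h1
    apply hns 0
    rw [zero_smul]
    have : g = g * 1 := (mul_one g).symm
    rw [this, h1, mul_zero]
  have hinv : g * g ^ (ϖ - 1) = 1 ∧ g ^ (ϖ - 1) * g = 1 := by
    have hr1 : ϖ - 1 + 1 = ϖ := Nat.sub_add_cancel hϖ.one_lt.le
    constructor
    · rw [← pow_succ', hr1, hg]
    · rw [← pow_succ, hr1, hg]
  have hginj : Function.Injective g := by
    intro v w hvw
    have h1 := congrArg (g ^ (ϖ - 1)) hvw
    have e : ∀ z, (g ^ (ϖ - 1)) (g z) = z := fun z => by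
      have := congrArg (fun f : End F V => f z) hinv.2
      simpa using this
    rwa [e, e] at h1
  by_cases hc : c = 0
  · subst hc
    have hbot : End.eigenspace g 0 = ⊥ := by
      rw [eq_bot_iff]
      intro v hv
      have e1 := End.mem_eigenspace_iff.mp hv
      rw [zero_smul] at e1
      exact (Submodule.mem_bot F).mpr (hginj (by rw [e1, map_zero]))
    rw [hbot, finrank_bot]
    refine ⟨fun _ => by simp, fun _ _ => by simp, fun _ _ => by simp⟩
  have hdich : (∃ a, ∀ c' : F, ρ ((φ a)⁻¹ * a) ≠ c' • 1) → ∃ e : ℕ, r * e ≤ finrank F V ∧ 2 * finrank F (End.eigenspace g c) ≤ finrank F V + e := by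
    rintro ⟨a, ha⟩
    refine ⟨_, eig_rho_bound hr hcomm hschur ha (hκ a), ?_⟩
    exact (two_w_le (ρ := ρ) (End.eigenspace g c) a).trans (Nat.add_le_add_left (Submodule.finrank_mono (inter_le hc (hφ a))) _)
  have hzero : (∀ a, ∃ c' : F, ρ ((φ a)⁻¹ * a) = c' • 1) → 2 * finrank F (End.eigenspace g c) ≤ finrank F V :=
    fun h => case_zero hschur hns φ κ hκ hφ h hc
  refine ⟨?_, ?_, ?_⟩
  · intro _
    by_cases hex : ∃ a, ∀ c' : F, ρ ((φ a)⁻¹ * a) ≠ c' • 1
    · obtain ⟨e, h1, h2⟩ := hdich hex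
      have h3 : 2 * e ≤ finrank F V := (Nat.mul_le_mul_right _ hr.two_le).trans h1
      omega
    · push Not at hex
      have := hzero hex
      omega
  · rintro _ rfl
    by_cases hex : ∃ a, ∀ c' : F, ρ ((φ a)⁻¹ * a) ≠ c' • 1
    · obtain ⟨e, h1, h2⟩ := hdich hex
      omega
    · push Not at hex
      have := hzero hex
      omega
  · intro h2 hne
    have hcop : Nat.Coprime ϖ r := (Nat.coprime_primes hϖ hr).mpr hne
    have hodd : Odd ϖ := hϖ.odd_of_ne_two h2
    by_cases hex : ∃ a, ρ ((φ a)⁻¹ * a) * ρ (φ ((φ a)⁻¹ * a)) ≠ ρ (φ ((φ a)⁻¹ * a)) * ρ ((φ a)⁻¹ * a)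
    · obtain ⟨a, ha⟩ := hex
      exact case_noncomm hcomm φ κ hκ hφ ha hc
    · push Not at hex
      exact hzero (dichotomy hr.ne_zero hϖ.ne_zero h10 hcomm hschur hg φ κ hκ hφ hcop hodd hex)

end bounds

end Cfsg.Agent.Lib.ClassMax.ExtraEig
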