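import Mathlib
import Cfsg.Agent.Lib.ClassMax.ExtraEig6

/-! The final form of the eigenspace bounds. -/

set_option autoImplicit false
set_option linter.unusedSectionVars false
set_option linter.unusedVariables false

namespace Cfsg.Agent.Lib.ClassMax.ExtraEig

open Module

universe v w

variable {F : Type*} [Field F]

theorem smul_one_cancel {V : Type v} [AddCommGroup V] [Module F V] (h10 : (1 : End F V) ≠ 0) {a b : F}
    (h : a • (1 : End F V) = b • 1) : a = b := smul_cancel_ne_zero h10 h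

/-- The bounds on the dimension of the eigenspaces. -/
theorem final_abstract {V : Type v} {S : Type w} [AddCommGroup V] [Module F V] [FiniteDimensional F V] [Group S] [Finite S]
    {ρ : S →* End F V} {g : End F V} {r ϖ : ℕ} (hr : r.Prime) (hϖ : ϖ.Prime)
    (hcomm' : ∀ x y : S, ∃ ζ : F, ζ ^ r = 1 ∧ ρ (x * y * x⁻¹ * y⁻¹) = ζ • 1 ∧ ρ x * ρ y = ζ • (ρ y * ρ x))
    (hschur : ∀ T : End F V, (∀ x : S, T * ρ x = ρ x * T) → ∃ c : F, T = c • 1)
    (hg1 : g ^ ϖ = 1) (hns : ∀ c : F, g ≠ c • 1)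
    (hnormal : ∀ x : S, ∃ (y : S) (κ : F), κ ≠ 0 ∧ g * ρ x = κ • (ρ y * g))
    (hexp' : ϖ = r → 5 ≤ ϖ → ∀ x : S, x ^ ϖ = 1)
    (hnc : ∃ x y : S, ρ x * ρ y ≠ ρ y * ρ x) (hrn : r ∣ finrank F V) (c : F) :
    (ϖ = 2 → 4 * finrank F (End.eigenspace g c) ≤ 3 * finrank F V) ∧
    (ϖ = 3 → 3 * finrank F (End.eigenspace g c) ≤ 2 * finrank F V) ∧
    (3 < ϖ → 2 * finrank F (End.eigenspace g c) ≤ finrank F V) ∧
    (ϖ = 3 → ¬ 3 ∣ finrank F V → 2 * finrank F (End.eigenspace g c) ≤ finrank F V) := by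
  classical
  have hcomm : ∀ x y : S, ∃ ζ : F, ζ ^ r = 1 ∧ ρ x * ρ y = ζ • (ρ y * ρ x) := by
    intro x y
    obtain ⟨ζ, h1, -, h3⟩ := hcomm' x y
    exact ⟨ζ, h1, h3⟩
  choose φ κ hκ hφ using hnormal
  obtain ⟨h2, h3, hne⟩ := main_bounds hr hϖ hcomm hschur hg1 hns φ κ hκ hφ c
  obtain ⟨x₁, y₁, hxy⟩ := hnc
  obtain ⟨θ, hθr, hθz, hθ⟩ := hcomm' x₁ y₁
  have hθ1 : θ ≠ 1 := by
    rintro rfl
    rw [one_smul] at hθ
    exact hxy hθ
  have hθp := prim_of_prime hr hθr hθ1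
  have hr3 : (¬ 3 ∣ finrank F V) → r ≠ 3 := by
    rintro h3n rfl
    exact h3n hrn
  refine ⟨h2, ?_, ?_, ?_⟩
  · intro h3ϖ
    by_cases hr3' : r = 3
    · exact h3 h3ϖ hr3'
    · have := hne (by omega) (by omega)
      omega
  · intro hϖ3
    by_cases hϖr : ϖ = r
    · subst hϖr
      have hodd : ϖ ≠ 2 := by omega
      have hϖ5 : 5 ≤ ϖ := by
        have : ϖ ≠ 4 := by
          rintro rfl
          norm_num at hϖ
        omega
      have hexp2 := hexp' rfl hϖ5
      have hgne : g ≠ 0 := by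
        intro h0
        apply hns 0
        rw [zero_smul, h0]
      have hsys : Sys (F := F) ϖ ρ g := by
        refine ⟨hexp2, hcomm, hschur, ?_, hg1⟩
        intro x
        have hp : ∀ k : ℕ, g * ρ x ^ k = κ x ^ k • (ρ (φ x) ^ k * g) := by
          intro k
          induction k with
          | zero => simp
          | succ k ih =>
            rw [pow_succ, ← mul_assoc, ih, smul_mul_assoc, mul_assoc, hφ x, mul_smul_comm, smul_smul, pow_succ, pow_succ (ρ (φ x)), mul_assoc]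
        have hp' := hp ϖ
        have e0 : ∀ z : S, ρ z ^ ϖ = 1 := fun z => by rw [← map_pow, hexp2 z, map_one]
        rw [e0, e0, mul_one, one_mul] at hp'
        have e2 : (1 - κ x ^ ϖ) • g = 0 := by
          rw [sub_smul, one_smul, ← hp', sub_self]
        have hκr : κ x ^ ϖ = 1 := (sub_eq_zero.mp ((smul_eq_zero.mp e2).resolve_right hgne)).symm
        haveI : NeZero ϖ := ⟨hϖ.ne_zero⟩
        obtain ⟨k, -, hk⟩ := hθp.eq_pow_of_pow_eq_one hκr
        refine ⟨(x₁ * y₁ * x₁⁻¹ * y₁⁻¹) ^ k * φ x, ?_⟩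
        rw [hφ x, map_mul, map_pow, hθz, smul_pow, one_pow, smul_mul_assoc, one_mul, smul_mul_assoc, hk]
      have hcore := core hϖ hodd _ V S ρ g rfl hsys hns c
      have h5 : 5 * finrank F (End.eigenspace g c) ≤ ϖ * finrank F (End.eigenspace g c) := Nat.mul_le_mul_right _ hϖ5
      have h6 := h5.trans hcore
      omega
    · exact hne (by omega) hϖr
  · intro h3ϖ hn3
    exact hne (by omega) (by
      rw [h3ϖ]
      exact Ne.symm (hr3 hn3))

end Cfsg.Agent.Lib.ClassMax.ExtraEig
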