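import Mathlib
import Cfsg.Agent.Lib.ClassMax.QuadOver
import Cfsg.Agent.Lib.Classical.HermBasis
import Cfsg.Agent.Lib.Classical.HermWitt

/-! Overgroups of the unitary similarity group in `SL`: a subgroup containing `Sim(f) ∩ SL` and a non-similarity
contains every transvection. -/

set_option autoImplicit false

namespace Cfsg.Agent.Lib.ClassMax.HermOver

open Matrix Cfsg.Geo Cfsg.Agent.Lib.ClassMax
open Cfsg.Agent.Lib.ClassMax.QuadOver (comm_formula mem_SL_of_det)

variable {ι : Type} [Fintype ι] [DecidableEq ι] {F : Type*} [Field F]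

section Basic

variable {σ : F ≃+* F} {f : (ι → F) → (ι → F) → F} (hf : IsUnitaryForm σ f)
include hf

theorem add_right (v x y : ι → F) : f v (x + y) = f v x + f v y := by
  rw [hf.herm, hf.add_left, map_add, ← hf.herm, ← hf.herm]

theorem smul_right (c : F) (v x : ι → F) : f v (c • x) = σ c * f v x := by
  rw [hf.herm, hf.smul_left, map_mul, ← hf.herm]

theorem zero_left (v : ι → F) : f 0 v = 0 := by
  have := hf.smul_left 0 0 v
  simpa using this

theorem zero_right (v : ι → F) : f v 0 = 0 := by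
  have := smul_right hf 0 v 0
  simpa using this

theorem neg_left (x v : ι → F) : f (-x) v = - f x v := by
  have := hf.smul_left (-1) x v
  simpa using this

theorem neg_right (v x : ι → F) : f v (-x) = - f v x := by
  have := smul_right hf (-1) v x
  simpa using this

theorem sub_left (x y v : ι → F) : f (x - y) v = f x v - f y v := by
  rw [sub_eq_add_neg, hf.add_left, neg_left hf]; ring

theorem sub_right (v x y : ι → F) : f v (x - y) = f v x - f v y := by
  rw [sub_eq_add_neg, add_right hf, neg_right hf]; ring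

theorem sig_f (v w : ι → F) : σ (f v w) = f w v := (hf.herm w v).symm

theorem dual_dot (x v : ι → F) : fdual f x ⬝ᵥ v = f v x := fdual_dot hf.add_left hf.smul_left x v

theorem fdual_add' (x y : ι → F) : fdual f (x + y) = fdual f x + fdual f y := by
  funext i
  exact add_right hf _ x y

theorem fdual_smul' (c : F) (x : ι → F) : fdual f (c • x) = σ c • fdual f x := by
  funext i
  exact smul_right hf c _ x

theorem exists_fdual (χ : ι → F) : ∃ z, fdual f z = χ := by
  let L : (ι → F) →ₗ[F] (ι → F) :=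
    { toFun := fun z i => f z (Pi.single i 1)
      map_add' := fun a b => by funext i; exact hf.add_left _ _ _
      map_smul' := fun c a => by funext i; simpa using hf.smul_left c a _ }
  have hinj : Function.Injective L := by
    rw [← LinearMap.ker_eq_bot, LinearMap.ker_eq_bot']
    intro z hz
    by_contra hz0
    obtain ⟨x, hx⟩ := (hf.nondegenerate z hz0).1
    apply hx
    rw [← dual_dot hf]
    have : fdual f z = 0 := by
      funext i
      show f (Pi.single i 1) z = 0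
      rw [hf.herm]
      have h1 : f z (Pi.single i 1) = 0 := congrFun hz i
      rw [h1, map_zero]
    rw [this, zero_dotProduct]
  obtain ⟨z, hz⟩ := LinearMap.injective_iff_surjective.mp hinj (fun i => σ (χ i))
  refine ⟨z, ?_⟩
  funext i
  show f (Pi.single i 1) z = χ i
  rw [hf.herm]
  have h1 : f z (Pi.single i 1) = σ (χ i) := congrFun hz i
  rw [h1, hf.involutive]

theorem exists_sep {S : Submodule F (ι → F)} {y : ι → F} (hy : y ∉ S) :
    ∃ τ, (∀ s ∈ S, f s τ = 0) ∧ f y τ = 1 := by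
  obtain ⟨φ, h1, h2⟩ := exists_dotProduct_of_notMem hy
  obtain ⟨τ, rfl⟩ := exists_fdual hf φ
  refine ⟨τ, fun s hs => ?_, ?_⟩
  · rw [← dual_dot hf]; exact h1 s hs
  · rw [← dual_dot hf]; exact h2

theorem perp_of_span {k : ℕ} {c : Fin k → (ι → F)} {v : ι → F} (h : ∀ i, f (c i) v = 0) {t : ι → F}
    (ht : t ∈ Submodule.span F (Set.range c)) : f t v = 0 := by
  induction ht using Submodule.span_induction with
  | mem x hx =>
    obtain ⟨i, rfl⟩ := hx
    exact h i
  | zero => exact zero_left hf v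
  | add x y _ _ hx hy => rw [hf.add_left, hx, hy, add_zero]
  | smul a x _ hx => rw [hf.smul_left, hx, mul_zero]

/-- A vector outside a span and orthogonal to finitely many vectors. -/
theorem exists_perp_not_mem {k l : ℕ} (c : Fin k → (ι → F)) (e : Fin l → (ι → F)) (h : l + k < Fintype.card ι) :
    ∃ v, (∀ i, f (c i) v = 0) ∧ v ∉ Submodule.span F (Set.range e) := by
  let L : (ι → F) →ₗ[F] (Fin k → F) :=
    { toFun := fun v i => f v (c i)
      map_add' := fun a b => by funext i; exact hf.add_left _ _ _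
      map_smul' := fun d a => by funext i; simpa using hf.smul_left d a _ }
  have h1 : Module.finrank F (LinearMap.ker L) + Module.finrank F (LinearMap.range L) = Fintype.card ι := by
    rw [add_comm, LinearMap.finrank_range_add_finrank_ker]
    simp
  have h2 : Module.finrank F (LinearMap.range L) ≤ k := by
    calc Module.finrank F (LinearMap.range L) ≤ Module.finrank F (Fin k → F) := Submodule.finrank_le _
      _ = k := by simp
  have h3 : Module.finrank F (Submodule.span F (Set.range e)) ≤ l := by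
    have := finrank_range_le_card (R := F) e
    simpa [Set.finrank] using this
  have h4 : ¬ LinearMap.ker L ≤ Submodule.span F (Set.range e) := fun hle => by
    have := Submodule.finrank_mono hle
    omega
  obtain ⟨v, hv, hv2⟩ := SetLike.not_le_iff_exists.mp h4
  refine ⟨v, fun i => ?_, hv2⟩
  rw [hf.herm]
  have h5 : f v (c i) = 0 := congrFun (LinearMap.mem_ker.mp hv) i
  rw [h5, map_zero]

end Basic

section Fin

variable [Fintype F] {σ : F ≃+* F} {f : (ι → F) → (ι → F) → F} (hf : IsUnitaryForm σ f)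
include hf

theorem sig_ne : (σ : F →+* F) ≠ RingHom.id F := by
  intro h
  apply hf.ne_refl
  ext a
  exact congrFun (congrArg DFunLike.coe h) a

theorem exists_trace (μ : F) (hμ : σ μ = μ) : ∃ κ, κ + σ κ = μ :=
  Cfsg.Agent.Lib.Classical.exists_trace_eq (σ : F →+* F) (sig_ne hf) hf.involutive μ hμ

theorem exists_norm (μ : F) (hμ0 : μ ≠ 0) (hμ : σ μ = μ) : ∃ l, l * σ l = μ :=
  Cfsg.Agent.Lib.Classical.exists_norm_eq (σ : F →+* F) (sig_ne hf) hf.involutive μ hμ0 hμ

/-- A non-zero skew element. -/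
theorem exists_skew : ∃ a : F, a ≠ 0 ∧ a + σ a = 0 := by
  obtain ⟨κ, hκ⟩ := exists_trace hf 1 (by simp)
  by_cases h : κ = σ κ
  · -- characteristic two situation: `κ` is fixed; pick a non-fixed element
    obtain ⟨ζ, hζ⟩ : ∃ ζ, σ ζ ≠ ζ := by
      by_contra hcon
      push Not at hcon
      apply hf.ne_refl
      ext a
      exact hcon a
    refine ⟨ζ - σ ζ, sub_ne_zero.mpr (Ne.symm hζ), ?_⟩
    rw [map_sub, hf.involutive]; ring
  · refine ⟨κ - σ κ, sub_ne_zero.mpr h, ?_⟩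
    rw [map_sub, hf.involutive]; ring

/-- A hyperbolic pair orthogonal to given vectors. -/
theorem exists_hyp_pair {k : ℕ} (c : Fin k → (ι → F)) (hk : 2 * k + 1 < Fintype.card ι) :
    ∃ b b' : ι → F, f b b = 0 ∧ f b' b' = 0 ∧ f b b' = 1 ∧ (∀ i, f (c i) b = 0) ∧ (∀ i, f (c i) b' = 0) := by
  set S := Submodule.span F (Set.range c) with hS
  obtain ⟨r, hrQ, hrc, hrS⟩ : ∃ r, f r r = 0 ∧ (∀ i, f (c i) r = 0) ∧ r ∉ S := by
    obtain ⟨p, hp, hpS⟩ := exists_perp_not_mem hf c c (by omega)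
    by_cases hQp : f p p = 0
    · exact ⟨p, hQp, hp, hpS⟩
    obtain ⟨q, hq, hqS⟩ := exists_perp_not_mem hf (Fin.cons p c : Fin (k + 1) → (ι → F)) c (by omega)
    have hq0 : f p q = 0 := hq 0
    have hqp : f q p = 0 := by rw [hf.herm, hq0, map_zero]
    have hqc : ∀ i, f (c i) q = 0 := fun i => hq i.succ
    by_cases hQq : f q q = 0
    · exact ⟨q, hQq, hqc, hqS⟩
    have hμ0 : - f q q / f p p ≠ 0 := div_ne_zero (neg_ne_zero.mpr hQq) hQp
    obtain ⟨l, hl⟩ := exists_norm hf (- f q q / f p p) hμ0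
      (by rw [map_div₀, map_neg, sig_f hf, sig_f hf])
    have hl0 : l ≠ 0 := by
      rintro rfl
      rw [zero_mul] at hl
      exact hμ0 hl.symm
    refine ⟨l • p + q, ?_, fun i => ?_, fun hmem => ?_⟩
    · rw [hf.add_left, add_right hf, add_right hf, hf.smul_left, hf.smul_left, smul_right hf, smul_right hf, hq0, hqp]
      have : l * (σ l * f p p) = (l * σ l) * f p p := by ring
      rw [this, hl]
      field_simp
      ring
    · rw [add_right hf, smul_right hf, hp, hqc]; ring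
    · have h3 : f (l • p + q) p = 0 := perp_of_span hf hp hmem
      rw [hf.add_left, hf.smul_left, hqp, add_zero] at h3
      rcases mul_eq_zero.mp h3 with h | h
      · exact hl0 h
      · exact hQp h
  obtain ⟨w, hw1, hw2⟩ := exists_sep hf hrS
  obtain ⟨t, ht⟩ := exists_trace hf (f w w) (sig_f hf w w)
  have hwr : f w r = 1 := by rw [hf.herm, hw2, map_one]
  refine ⟨r, w + (-t) • r, hrQ, ?_, ?_, hrc, fun i => ?_⟩
  · rw [hf.add_left, add_right hf, add_right hf, hf.smul_left, hf.smul_left, smul_right hf, smul_right hf, hrQ, hwr, hw2,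
      map_neg]
    rw [← ht]; ring
  · rw [add_right hf, smul_right hf, hw2, hrQ]; ring
  · rw [add_right hf, smul_right hf, hw1 _ (Submodule.subset_span ⟨i, rfl⟩), hrc]; ring

/-- The norm on `v + b + t b'`. -/
theorem norm_level {v b b' : ι → F} (hb0 : f b b = 0) (hb'0 : f b' b' = 0) (hbb' : f b b' = 1) (h1 : f v b = 0)
    (h2 : f v b' = 0) (t : F) : f (v + b + t • b') (v + b + t • b') = f v v + t + σ t := by
  have h3 : f b v = 0 := by rw [hf.herm, h1, map_zero]
  have h4 : f b' v = 0 := by rw [hf.herm, h2, map_zero]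
  have h5 : f b' b = 1 := by rw [hf.herm, hbb', map_one]
  simp only [hf.add_left, add_right hf, hf.smul_left, smul_right hf, h1, h2, h3, h4, h5, hb0, hb'0, hbb']
  ring

/-- An isotropic vector not orthogonal to two given non-zero vectors. -/
theorem exists_sing_nonorth (hn : 7 < Fintype.card ι) {z z' : ι → F} (hz : z ≠ 0) (hz' : z' ≠ 0) :
    ∃ w, f w w = 0 ∧ f w z ≠ 0 ∧ f w z' ≠ 0 := by
  obtain ⟨v, hv1, hv2⟩ : ∃ v, f v z ≠ 0 ∧ f v z' ≠ 0 := by
    obtain ⟨x, hx⟩ := (hf.nondegenerate z hz).1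
    obtain ⟨x', hx'⟩ := (hf.nondegenerate z' hz').1
    by_cases h1 : f x z' = 0
    · by_cases h2 : f x' z = 0
      · refine ⟨x + x', ?_, ?_⟩
        · rw [hf.add_left, h2, add_zero]; exact hx
        · rw [hf.add_left, h1, zero_add]; exact hx'
      · exact ⟨x', h2, hx'⟩
    · exact ⟨x, hx, h1⟩
  obtain ⟨b, b', hb0, hb'0, hbb', hc, hc'⟩ := exists_hyp_pair hf ![v, z, z'] (by simp; omega)
  have h1 : f v b = 0 := hc 0
  have h2 : f v b' = 0 := hc' 0
  have h3 : f b z = 0 := by rw [hf.herm]; have : f z b = 0 := hc 1; rw [this, map_zero]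
  have h4 : f b' z = 0 := by rw [hf.herm]; have : f z b' = 0 := hc' 1; rw [this, map_zero]
  have h5 : f b z' = 0 := by rw [hf.herm]; have : f z' b = 0 := hc 2; rw [this, map_zero]
  have h6 : f b' z' = 0 := by rw [hf.herm]; have : f z' b' = 0 := hc' 2; rw [this, map_zero]
  obtain ⟨t, ht⟩ := exists_trace hf (- f v v) (by rw [map_neg, sig_f hf])
  refine ⟨v + b + t • b', ?_, ?_, ?_⟩
  · rw [norm_level hf hb0 hb'0 hbb' h1 h2, add_assoc, ht]; ring
  · rw [hf.add_left, hf.add_left, hf.smul_left, h3, h4]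
    simpa using hv1
  · rw [hf.add_left, hf.add_left, hf.smul_left, h5, h6]
    simpa using hv2

/-- Every vector is a sum of three isotropic vectors, inside the perp of given vectors it lies in. -/
theorem exists_three_sing {k : ℕ} (c : Fin k → (ι → F)) (v : ι → F) (hk : 2 * (k + 1) + 1 < Fintype.card ι)
    (hv : ∀ i, f (c i) v = 0) :
    ∃ z₁ z₂ z₃ b' : ι → F, f z₁ z₁ = 0 ∧ f z₂ z₂ = 0 ∧ f z₃ z₃ = 0 ∧ z₁ + z₂ + z₃ = v ∧
      (∀ i, f (c i) z₁ = 0) ∧ (∀ i, f (c i) z₂ = 0) ∧ (∀ i, f (c i) z₃ = 0) ∧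
      (∀ i, f (c i) b' = 0) ∧ f z₁ b' = 1 ∧ f z₂ b' = -1 ∧ f b' b' = 0 ∧ (∃ t : F, z₃ = t • b') := by
  obtain ⟨b, b', hb0, hb'0, hbb', hc, hc'⟩ := exists_hyp_pair hf (Fin.cons v c : Fin (k + 1) → (ι → F)) hk
  have h1 : f v b = 0 := hc 0
  have h2 : f v b' = 0 := hc' 0
  have h3 : ∀ i, f (c i) b = 0 := fun i => hc i.succ
  have h4 : ∀ i, f (c i) b' = 0 := fun i => hc' i.succ
  obtain ⟨t, ht⟩ := exists_trace hf (- f v v) (by rw [map_neg, sig_f hf])
  refine ⟨v + b + t • b', -b, (-t) • b', b', ?_, ?_, ?_, ?_, ?_, ?_, ?_, h4, ?_, ?_, hb'0, ⟨-t, rfl⟩⟩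
  · rw [norm_level hf hb0 hb'0 hbb' h1 h2, add_assoc, ht]; ring
  · rw [neg_left hf, neg_right hf, hb0]; ring
  · rw [hf.smul_left, smul_right hf, hb'0]; ring
  · ext i
    simp only [Pi.add_apply, Pi.smul_apply, Pi.neg_apply, smul_eq_mul]
    ring
  · intro i
    rw [add_right hf, add_right hf, smul_right hf, hv, h3, h4]; ring
  · intro i
    rw [neg_right hf, h3, neg_zero]
  · intro i
    rw [smul_right hf, h4, mul_zero]
  · rw [hf.add_left, hf.add_left, hf.smul_left, h2, hbb', hb'0]; ring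
  · rw [neg_left hf, hbb']

/-- If `g` multiplies the functional of each isotropic vector by a scalar then `g` is a similarity. -/
theorem mem_sim_of_scalar (hn : 7 < Fintype.card ι) (g : GL ι F)
    (h : ∀ z : ι → F, z ≠ 0 → f z z = 0 → ∃ a : F, ∀ v, f v z = a * f ((g : Matrix ι ι F) *ᵥ v) ((g : Matrix ι ι F) *ᵥ z)) :
    g ∈ similarityGroup f := by
  set G : (ι → F) → (ι → F) := fun v => (g : Matrix ι ι F) *ᵥ v with hG
  have hGadd : ∀ a b, G (a + b) = G a + G b := fun a b => Matrix.mulVec_add _ _ _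
  have hG0 : G 0 = 0 := Matrix.mulVec_zero _
  have pair : ∀ {z z' : ι → F} {a a' : F}, f z z' ≠ 0 → (∀ v, f v z = a * f (G v) (G z)) →
      (∀ v, f v z' = a' * f (G v) (G z')) → a' = σ a := by
    intro z z' a a' hzz' ha ha'
    have e1 := ha z'
    have e2 := ha' z
    have e3 : f z z' = σ a * f (G z) (G z') := by
      rw [hf.herm, e1, map_mul, sig_f hf]
    have hX : f (G z) (G z') ≠ 0 := by
      intro h0
      rw [h0, mul_zero] at e2
      exact hzz' e2
    exact mul_right_cancel₀ hX (e2.symm.trans e3)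
  obtain ⟨b, b', hb0, hb'0, hbb', -, -⟩ := exists_hyp_pair hf (Fin.elim0 : Fin 0 → (ι → F)) (by omega)
  have hbne : b ≠ 0 := by
    rintro rfl
    rw [zero_left hf] at hbb'
    exact zero_ne_one hbb'
  obtain ⟨a₀, ha₀⟩ := h b hbne hb0
  have hsing : ∀ z : ι → F, f z z = 0 → ∀ v, f v z = a₀ * f (G v) (G z) := by
    intro z hz v
    by_cases hz0 : z = 0
    · subst hz0
      rw [hG0, zero_right hf, zero_right hf, mul_zero]
    obtain ⟨a, ha⟩ := h z hz0 hz
    obtain ⟨w, hw, hw1, hw2⟩ := exists_sing_nonorth hf hn hz0 hbne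
    have hw0 : w ≠ 0 := by
      rintro rfl
      exact hw1 (zero_left hf z)
    obtain ⟨a', ha'⟩ := h w hw0 hw
    have hzw : f z w ≠ 0 := by
      intro h0
      apply hw1
      rw [hf.herm, h0, map_zero]
    have hbw : f b w ≠ 0 := by
      intro h0
      apply hw2
      rw [hf.herm, h0, map_zero]
    have e1 : a' = σ a := pair hzw ha ha'
    have e2 : a' = σ a₀ := pair hbw ha₀ ha'
    have e3 : a = a₀ := σ.injective (e1.symm.trans e2)
    rw [← e3]
    exact ha v
  have hall : ∀ v y, f v y = a₀ * f (G v) (G y) := by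
    intro v y
    obtain ⟨z₁, z₂, z₃, -, h1, h2, h3, rfl, -⟩ := exists_three_sing hf (Fin.elim0 : Fin 0 → (ι → F)) y
      (by omega) (fun i => i.elim0)
    rw [hGadd, hGadd, add_right hf, add_right hf, add_right hf, add_right hf, hsing z₁ h1, hsing z₂ h2, hsing z₃ h3]
    ring
  have ha₀0 : a₀ ≠ 0 := by
    rintro rfl
    have := ha₀ b'
    rw [zero_mul, hf.herm, hbb', map_one] at this
    exact one_ne_zero this
  refine ⟨Units.mk0 a₀⁻¹ (inv_ne_zero ha₀0), fun u v => ?_⟩
  rw [hall u v, Units.val_mk0, ← mul_assoc, inv_mul_cancel₀ ha₀0, one_mul]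

/-- The trace-zero transvection along an isotropic vector. -/
theorem utv_aux {z : ι → F} (hz : f z z = 0) (a : F) : (a • fdual f z) ⬝ᵥ z = 0 := by
  rw [smul_dotProduct, dual_dot hf, hz]; simp

theorem utv_mem (M : Subgroup (GL ι F)) (hH : similarityGroup f ⊓ specialLinear ι F ≤ M) {z : ι → F} (hz : f z z = 0)
    {a : F} (ha : a + σ a = 0) : tv z (a • fdual f z) (utv_aux hf hz a) ∈ M := by
  refine hH ⟨⟨1, fun u v => ?_⟩, tv_mem_specialLinear _ _ _⟩
  rw [tv_mulVec, tv_mulVec, smul_dotProduct, smul_dotProduct, dual_dot hf, dual_dot hf]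
  simp only [smul_eq_mul, hf.add_left, add_right hf, hf.smul_left, smul_right hf, map_mul, hz]
  rw [sig_f hf v z]
  simp only [Units.val_one, one_mul]
  linear_combination (f u z * f z v) * ha

/-- Not a similarity: an isotropic vector witnessing it. -/
theorem exists_not_scalar (hn : 7 < Fintype.card ι) (g : GL ι F) (hg : g ∉ similarityGroup f) :
    ∃ z : ι → F, z ≠ 0 ∧ f z z = 0 ∧ ∀ a : F, ∃ v, f v z ≠ a * f ((g : Matrix ι ι F) *ᵥ v) ((g : Matrix ι ι F) *ᵥ z) := by
  by_contra hcon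
  push Not at hcon
  exact hg (mem_sim_of_scalar hf hn g hcon)

/-- `g ∉ Sim` gives a transvection in `M`. -/
theorem exists_tv_mem (hn : 9 < Fintype.card ι) (M : Subgroup (GL ι F)) (hH : similarityGroup f ⊓ specialLinear ι F ≤ M)
    (g : GL ι F) (hgM : g ∈ M) {z : ι → F} (hz0 : z ≠ 0) (hz : f z z = 0)
    (hne : ∀ a : F, ∃ v, f v z ≠ a * f ((g : Matrix ι ι F) *ᵥ v) ((g : Matrix ι ι F) *ᵥ z)) :
    ∃ x w₂ : ι → F, ∃ h : fdual f w₂ ⬝ᵥ x = 0, x ≠ 0 ∧ f w₂ w₂ = 0 ∧ (∀ c : F, w₂ ≠ c • x) ∧ f x w₂ = 0 ∧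
      tv x (fdual f w₂) h ∈ M := by
  set G : (ι → F) → (ι → F) := fun v => (g : Matrix ι ι F) *ᵥ v with hG
  set G' : (ι → F) → (ι → F) := fun v => ((g⁻¹ : GL ι F) : Matrix ι ι F) *ᵥ v with hG'
  have hGG' : ∀ v, G (G' v) = v := fun v => by simp [hG, hG', Matrix.mulVec_mulVec]
  have hG'G : ∀ v, G' (G v) = v := fun v => by simp [hG, hG', Matrix.mulVec_mulVec]
  set y := G z with hy
  have hy0 : y ≠ 0 := by
    intro h0
    apply hz0
    rw [← hG'G z, ← hy, h0]
    exact Matrix.mulVec_zero _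
  -- the functional
  set φ : ι → F := fdual f z ᵥ* ((g⁻¹ : GL ι F) : Matrix ι ι F) with hφ
  have hφv : ∀ v, φ ⬝ᵥ v = f (G' v) z := fun v => by
    rw [hφ, ← dotProduct_mulVec, dual_dot hf]
  -- a vector orthogonal to `y` not killed by `φ`
  obtain ⟨x₀, hx₀⟩ := (hf.nondegenerate y hy0).1
  obtain ⟨v₁, hv₁⟩ := hne ((φ ⬝ᵥ x₀) / f x₀ y)
  set u₁ := G v₁ - (f (G v₁) y / f x₀ y) • x₀ with hu₁
  have hu₁y : f u₁ y = 0 := by
    rw [hu₁, sub_left hf, hf.smul_left]
    field_simp
    ring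
  have hφu₁ : φ ⬝ᵥ u₁ ≠ 0 := by
    rw [hu₁, dotProduct_sub, dotProduct_smul, smul_eq_mul, hφv (G v₁), hG'G]
    intro h0
    apply hv₁
    have : f v₁ z = f (G v₁) y / f x₀ y * (φ ⬝ᵥ x₀) := by linear_combination h0
    rw [this]
    field_simp
    exact mul_comm _ _
  obtain ⟨a₁, ha₁0, ha₁⟩ := exists_skew hf
  -- the conjugate of a unitary transvection
  have hT := utv_mem hf M hH hz ha₁
  obtain ⟨hh, hconj⟩ := conj_tv g z (a₁ • fdual f z) (utv_aux hf hz a₁)
  have hXM : g * tv z (a₁ • fdual f z) (utv_aux hf hz a₁) * g⁻¹ ∈ M := M.mul_mem (M.mul_mem hgM hT) (M.inv_mem hgM)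
  set ψ : ι → F := (a₁ • fdual f z) ᵥ* ((g⁻¹ : GL ι F) : Matrix ι ι F) with hψ
  rw [hconj] at hXM
  have hψv : ∀ v, ψ ⬝ᵥ v = a₁ * (φ ⬝ᵥ v) := fun v => by
    rw [hψ, ← dotProduct_mulVec, smul_dotProduct, dual_dot hf, hφv]
    rfl
  have hψu₁ : ψ ⬝ᵥ u₁ ≠ 0 := by
    rw [hψv]
    exact mul_ne_zero ha₁0 hφu₁
  -- an isotropic vector orthogonal to `y` not killed by `ψ`
  obtain ⟨z₁, hz₁, hz₁y, hz₁n⟩ : ∃ z₁, f z₁ z₁ = 0 ∧ f y z₁ = 0 ∧ ψ ⬝ᵥ z₁ ≠ 0 ∧ ∀ c : F, z₁ ≠ c • y := by
    have hu₁y' : f y u₁ = 0 := by rw [hf.herm, hu₁y, map_zero]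
    obtain ⟨z₁, z₂, z₃, b', h1, h2, h3, hsum, d1, d2, d3, d4, e1, e2, e3, ⟨t, ht⟩⟩ :=
      exists_three_sing hf ![y] u₁ (by simp; omega)
        (fun i => by
          have : i = 0 := Subsingleton.elim i 0
          subst this
          exact hu₁y')
    have hyb' : f y b' = 0 := d4 0
    have hnot : ∀ w : ι → F, f w b' ≠ 0 → ∀ c : F, w ≠ c • y := by
      rintro w hw c rfl
      rw [hf.smul_left, hyb', mul_zero] at hw
      exact hw rfl
    rw [← hsum, dotProduct_add, dotProduct_add] at hψu₁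
    by_cases s1 : ψ ⬝ᵥ z₁ = 0
    · by_cases s2 : ψ ⬝ᵥ z₂ = 0
      · have s3 : ψ ⬝ᵥ z₃ ≠ 0 := by
          intro h0
          apply hψu₁
          rw [s1, s2, h0]; ring
        have ht0 : t ≠ 0 := by
          rintro rfl
          apply s3
          rw [ht, zero_smul, dotProduct_zero]
        -- `z₃ = t b'` is not proportional to `y`: it pairs non-trivially with `z₁`
        refine ⟨z₃, h3, d3 0, s3, fun c hc => ?_⟩
        -- use `z₁`
        have hb'z₁ : f b' z₁ = 1 := by rw [hf.herm, e1, map_one]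
        have e4 : f z₃ z₁ = t := by rw [ht, hf.smul_left, hb'z₁, mul_one]
        have e5 : f y z₁ = 0 := d1 0
        rw [hc, hf.smul_left, e5, mul_zero] at e4
        exact ht0 e4.symm
      · exact ⟨z₂, h2, d2 0, s2, hnot z₂ (by rw [e2]; exact neg_ne_zero.mpr one_ne_zero)⟩
    · exact ⟨z₁, h1, d1 0, s1, hnot z₁ (by rw [e1]; exact one_ne_zero)⟩
  obtain ⟨hψz₁, hz₁n⟩ := hz₁n
  -- the commutator
  have hψy : ψ ⬝ᵥ y = 0 := hh
  have hT₁ := utv_mem hf M hH hz₁ ha₁
  set X := tv y ψ hh with hX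
  set Y := tv z₁ (a₁ • fdual f z₁) (utv_aux hf hz₁ a₁) with hY
  have hz₁y' : f z₁ y = 0 := by rw [hf.herm, hz₁y, map_zero]
  have hform := comm_formula X Y (fun v => (ψ ⬝ᵥ v) • y) (fun v => (a₁ * f v z₁) • z₁)
    (fun v => tv_mulVec y ψ hh v)
    (fun v => by
      rw [hY, tv_mulVec, smul_dotProduct, dual_dot hf]
      rfl)
    (fun v => by
      rw [dotProduct_smul, hψy]
      simp)
    (fun v => by
      rw [hf.smul_left, hz₁]
      simp)
    (fun v => by
      rw [hf.smul_left, hz₁y]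
      simp)
    (fun a b => by
      rw [dotProduct_add, add_smul])
    (fun a b => by
      rw [hf.add_left, mul_add, add_smul])
  set c := a₁ * (ψ ⬝ᵥ z₁) with hc
  have hc0 : c ≠ 0 := mul_ne_zero ha₁0 hψz₁
  set w₂ := (σ c) • z₁ with hw₂
  have hw₂z : ∀ v, f v w₂ = c * f v z₁ := fun v => by
    rw [hw₂, smul_right hf, hf.involutive]
  have hyw₂ : f y w₂ = 0 := by rw [hw₂z, hz₁y, mul_zero]
  have hh' : fdual f w₂ ⬝ᵥ y = 0 := by rw [dual_dot hf, hyw₂]
  have hcomm : X * Y * X⁻¹ * Y⁻¹ = tv y (fdual f w₂) hh' := by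
    apply gl_ext_mulVec
    intro v
    rw [hform, tv_mulVec, dual_dot hf, hw₂z, dotProduct_smul, smul_eq_mul, hc]
    congr 2
    ring
  refine ⟨y, w₂, hh', hy0, ?_, ?_, hyw₂, ?_⟩
  · rw [hw₂, hf.smul_left, smul_right hf, hz₁]; ring
  · intro c' hc'
    apply hz₁n ((σ c)⁻¹ * c')
    rw [mul_smul, ← hc', hw₂, smul_smul, inv_mul_cancel₀ (by
      intro h0
      exact hc0 (by simpa using h0)), one_smul]
  · rw [← hcomm]
    exact M.mul_mem (M.mul_mem (M.mul_mem hXM hT₁) (M.inv_mem hXM)) (M.inv_mem hT₁)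

end Fin

section Final

variable [Fintype F] {σ : F ≃+* F} {f : (ι → F) → (ι → F) → F} (hf : IsUnitaryForm σ f)
include hf

/-- The sesquilinear map with the conjugate-linear slot first. -/
noncomputable def sesqOf : (ι → F) →ₛₗ[(σ : F →+* F)] (ι → F) →ₗ[F] F :=
  LinearMap.mk₂'ₛₗ (σ : F →+* F) (RingHom.id F) (fun a b => f b a)
    (fun a a' b => add_right hf b a a')
    (fun c a b => by simpa using smul_right hf c b a)
    (fun a b b' => hf.add_left b b' a)
    (fun c a b => by simpa using hf.smul_left c b a)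

omit [Fintype F] in
@[simp] theorem sesqOf_apply (a b : ι → F) : sesqOf hf a b = f b a := rfl

/-- Witt extension for unitary forms given as functions. -/
theorem witt_herm_fun (X : Submodule F (ι → F)) (T : (ι → F) →ₗ[F] (ι → F))
    (hiso : ∀ u ∈ X, ∀ v ∈ X, f (T u) (T v) = f u v) (hinj : ∀ u ∈ X, T u = 0 → u = 0) :
    ∃ g : GL ι F, (∀ u v, f ((g : Matrix ι ι F) *ᵥ u) ((g : Matrix ι ι F) *ᵥ v) = f u v) ∧
      ∀ x ∈ X, (g : Matrix ι ι F) *ᵥ x = T x := by
  have hS : (sesqOf hf).IsSymm := ⟨fun x y => by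
    simp only [sesqOf_apply]
    show σ (f y x) = f x y
    exact sig_f hf y x⟩
  have hnd : (sesqOf hf).Nondegenerate := by
    refine ⟨fun x hx => ?_, fun y hy => ?_⟩
    · by_contra h0
      obtain ⟨w, hw⟩ := (hf.nondegenerate x h0).1
      exact hw (hx w)
    · by_contra h0
      obtain ⟨w, hw⟩ := (hf.nondegenerate y h0).2
      exact hw (hy w)
  obtain ⟨g, hg1, hg2⟩ := Cfsg.Agent.Lib.Classical.witt_herm (sesqOf hf) (sig_ne hf) hf.involutive hS hnd X _
    (equivOfInjOn X T hinj) (fun x x' => hiso x' x'.2 x x.2)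
  refine ⟨glOfEquiv g, fun u v => ?_, fun x hx => ?_⟩
  · rw [glOfEquiv_mulVec, glOfEquiv_mulVec]
    exact hg1 v u
  · rw [glOfEquiv_mulVec]
    exact hg2 ⟨x, hx⟩

/-- The determinant of an isometry has norm one. -/
theorem det_norm_of_iso (h : GL ι F) (hiso : ∀ u v, f ((h : Matrix ι ι F) *ᵥ u) ((h : Matrix ι ι F) *ᵥ v) = f u v) :
    (h : Matrix ι ι F).det * σ ((h : Matrix ι ι F).det) = 1 := by
  set Gm : Matrix ι ι F := Matrix.of fun i j => f (Pi.single i 1) (Pi.single j 1) with hGm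
  set sg : F →+* F := (σ : F →+* F) with hsg
  have hsgv : ∀ a, sg a = σ a := fun a => rfl
  have hG : ∀ v : ι → F, Gm *ᵥ (sg ∘ v) = fdual f v := by
    intro v
    funext i
    have e : f (Pi.single i 1) v = σ (fdual f (Pi.single i 1) ⬝ᵥ v) := by
      rw [dual_dot hf]
      exact hf.herm _ _
    show (Gm *ᵥ (sg ∘ v)) i = f (Pi.single i 1) v
    rw [e]
    simp only [Matrix.mulVec, dotProduct, hGm, Matrix.of_apply, map_sum, map_mul, Function.comp, hsgv, fdual]
    refine Finset.sum_congr rfl fun j _ => ?_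
    rw [sig_f hf]
  have hinvol : ∀ x : ι → F, sg ∘ (sg ∘ x) = x := fun x => by
    funext i
    exact hf.involutive _
  have hdet : Gm.det ≠ 0 := by
    intro h0
    obtain ⟨x, hx, hx2⟩ := Matrix.exists_mulVec_eq_zero_iff.mpr h0
    have hx3 := hG (sg ∘ x)
    rw [hinvol, hx2] at hx3
    have hne : sg ∘ x ≠ 0 := by
      intro h1
      apply hx
      rw [← hinvol x, h1]
      funext i
      simp
    obtain ⟨u, hu⟩ := (hf.nondegenerate (sg ∘ x) hne).1
    apply hu
    rw [← dual_dot hf, ← hx3, zero_dotProduct]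
  have hkey : (h : Matrix ι ι F)ᵀ * Gm * (h : Matrix ι ι F).map sg = Gm := by
    apply Cfsg.Agent.Lib.Classical.mat_ext_mulVec
    intro x
    obtain ⟨v, rfl⟩ : ∃ v, x = sg ∘ v := ⟨sg ∘ x, (hinvol x).symm⟩
    have e1 : (h : Matrix ι ι F).map sg *ᵥ (sg ∘ v) = sg ∘ ((h : Matrix ι ι F) *ᵥ v) := by
      funext i
      exact (RingHom.map_mulVec sg _ v i).symm
    rw [← Matrix.mulVec_mulVec, ← Matrix.mulVec_mulVec, e1, hG, hG, Matrix.mulVec_transpose]
    apply dotProduct_eq
    intro u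
    rw [← dotProduct_mulVec, dual_dot hf, dual_dot hf, hiso]
  have h3 := congrArg Matrix.det hkey
  rw [Matrix.det_mul, Matrix.det_mul, Matrix.det_transpose] at h3
  have e2 : ((h : Matrix ι ι F).map sg).det = σ (h : Matrix ι ι F).det := by
    have := RingHom.map_det sg (h : Matrix ι ι F)
    rw [RingHom.mapMatrix_apply] at this
    exact this.symm
  rw [e2] at h3
  have h4 : ((h : Matrix ι ι F).det * σ (h : Matrix ι ι F).det - 1) * Gm.det = 0 := by linear_combination h3
  rcases mul_eq_zero.mp h4 with h5 | h5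
  · linear_combination h5
  · exact absurd h5 hdet

/-- A quasi-reflection with prescribed determinant of norm one. -/
theorem exists_qrefl (w : ι → F) (he : f w w ≠ 0) (δ : F) (hδ : δ * σ δ = 1) :
    ∃ r : GL ι F, (r : Matrix ι ι F).det = δ ∧
      (∀ u v, f ((r : Matrix ι ι F) *ᵥ u) ((r : Matrix ι ι F) *ᵥ v) = f u v) ∧
      ∀ v, f v w = 0 → (r : Matrix ι ι F) *ᵥ v = v := by
  set e := f w w with hE
  have hσe : σ e = e := sig_f hf w w
  set c := (δ - 1) / e with hc
  have hσc : σ c = (σ δ - 1) / e := by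
    rw [hc, map_div₀, map_sub, map_one, hσe]
  have hkey : c + σ c + c * σ c * e = 0 := by
    rw [hσc, hc]
    field_simp
    linear_combination hδ
  set φ : ι → F := c • fdual f w with hφ
  have hφv : ∀ v, φ ⬝ᵥ v = c * f v w := fun v => by
    rw [hφ, smul_dotProduct, dual_dot hf, smul_eq_mul]
  have hd : (1 + vecMulVec w φ).det = δ := by
    rw [vecMulVec_eq Unit, det_one_add_replicateCol_mul_replicateRow, hφv, ← hE, hc]
    field_simp
    ring
  have hδ0 : δ ≠ 0 := by
    rintro rfl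
    rw [zero_mul] at hδ
    exact zero_ne_one hδ
  have hne : (1 + vecMulVec w φ).det ≠ 0 := by
    rw [hd]; exact hδ0
  have hmv : ∀ v, (1 + vecMulVec w φ) *ᵥ v = v + (c * f v w) • w := fun v => by
    rw [Matrix.add_mulVec, Matrix.one_mulVec, vecMulVec_mulVec, op_smul_eq_smul, hφv]
  refine ⟨Matrix.GeneralLinearGroup.mkOfDetNeZero _ hne, hd, fun u v => ?_, fun v hv => ?_⟩
  · show f ((1 + vecMulVec w φ) *ᵥ u) ((1 + vecMulVec w φ) *ᵥ v) = f u v
    rw [hmv, hmv]
    simp only [hf.add_left, add_right hf, hf.smul_left, smul_right hf, map_mul, ← hE]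
    rw [sig_f hf v w]
    linear_combination (f u w * f w v) * hkey
  · show (1 + vecMulVec w φ) *ᵥ v = v
    rw [hmv, hv]
    simp

/-- Witt's lemma with determinant one, for a pair. -/
theorem exists_H_map (hn : 5 < Fintype.card ι) {x w x' z : ι → F} (hx0 : x ≠ 0) (hwx : ∀ c : F, w ≠ c • x) (hQw : f w w = 0)
    (hxw : f x w = 0) (hQ' : f x' x' = f x x) (hQz : f z z = 0) (hx'z : f x' z = 0) (hz0 : z ≠ 0)
    (hx'nz : ∀ c : F, x' ≠ c • z) :
    ∃ h : GL ι F, h ∈ specialLinear ι F ∧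
      (∀ u v, f ((h : Matrix ι ι F) *ᵥ u) ((h : Matrix ι ι F) *ᵥ v) = f u v) ∧
      (h : Matrix ι ι F) *ᵥ x = x' ∧ (h : Matrix ι ι F) *ᵥ w = z := by
  obtain ⟨φ₂, hφ₂1, hφ₂2⟩ : ∃ φ : ι → F, (∀ s ∈ Submodule.span F {x}, φ ⬝ᵥ s = 0) ∧ φ ⬝ᵥ w = 1 := by
    apply exists_dotProduct_of_notMem
    intro hmem
    obtain ⟨c, hc⟩ := Submodule.mem_span_singleton.mp hmem
    exact hwx c hc.symm
  obtain ⟨φ₁, hφ₁1, hφ₁2⟩ : ∃ φ : ι → F, (∀ s ∈ Submodule.span F {w}, φ ⬝ᵥ s = 0) ∧ φ ⬝ᵥ x = 1 := by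
    apply exists_dotProduct_of_notMem
    intro hmem
    obtain ⟨c, hc⟩ := Submodule.mem_span_singleton.mp hmem
    have hc0 : c ≠ 0 := by
      rintro rfl
      rw [zero_smul] at hc
      exact hx0 hc.symm
    apply hwx c⁻¹
    rw [← hc, smul_smul, inv_mul_cancel₀ hc0, one_smul]
  have hφ₂x : φ₂ ⬝ᵥ x = 0 := hφ₂1 x (Submodule.mem_span_singleton_self x)
  have hφ₁w : φ₁ ⬝ᵥ w = 0 := hφ₁1 w (Submodule.mem_span_singleton_self w)
  let T : (ι → F) →ₗ[F] (ι → F) :=
    { toFun := fun v => (φ₁ ⬝ᵥ v) • x' + (φ₂ ⬝ᵥ v) • z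
      map_add' := fun a c => by
        rw [dotProduct_add, dotProduct_add, add_smul, add_smul]
        abel
      map_smul' := fun c a => by
        rw [dotProduct_smul, dotProduct_smul, smul_eq_mul, smul_eq_mul, mul_smul, mul_smul, smul_add]
        rfl }
  have hT : ∀ a c : F, T (a • x + c • w) = a • x' + c • z := by
    intro a c
    show (φ₁ ⬝ᵥ (a • x + c • w)) • x' + (φ₂ ⬝ᵥ (a • x + c • w)) • z = _
    rw [dotProduct_add, dotProduct_add, dotProduct_smul, dotProduct_smul, dotProduct_smul, dotProduct_smul, hφ₁2, hφ₁w, hφ₂x,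
      hφ₂2]
    simp
  have hwx' : f w x = 0 := by rw [hf.herm, hxw, map_zero]
  have hzx' : f z x' = 0 := by rw [hf.herm, hx'z, map_zero]
  obtain ⟨h₀, h₀iso, h₀map⟩ := witt_herm_fun hf (Submodule.span F {x, w}) T
    (by
      intro u hu v hv
      obtain ⟨a, c, rfl⟩ := Submodule.mem_span_pair.mp hu
      obtain ⟨a', c', rfl⟩ := Submodule.mem_span_pair.mp hv
      rw [hT, hT]
      simp only [hf.add_left, add_right hf, hf.smul_left, smul_right hf, hQw, hQz, hQ', hxw, hx'z, hwx', hzx'])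
    (by
      intro u hu hTu
      obtain ⟨a, c, rfl⟩ := Submodule.mem_span_pair.mp hu
      rw [hT] at hTu
      have ha : a = 0 := by
        by_contra ha
        apply hx'nz (-(a⁻¹ * c))
        have : a⁻¹ • (a • x' + c • z) = 0 := by rw [hTu, smul_zero]
        rw [smul_add, smul_smul, inv_mul_cancel₀ ha, one_smul, smul_smul] at this
        rw [neg_smul]
        exact eq_neg_of_add_eq_zero_left this
      subst ha
      rw [zero_smul, zero_add] at hTu
      rcases smul_eq_zero.mp hTu with h | h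
      · subst h
        simp
      · exact absurd h hz0)
  have hT1 : T x = x' := by
    have := hT 1 0
    simpa using this
  have hT2 : T w = z := by
    have := hT 0 1
    simpa using this
  have h₀x : (h₀ : Matrix ι ι F) *ᵥ x = x' := by
    rw [h₀map x (Submodule.subset_span (by simp)), hT1]
  have h₀w : (h₀ : Matrix ι ι F) *ᵥ w = z := by
    rw [h₀map w (Submodule.subset_span (by simp)), hT2]
  have hdet := det_norm_of_iso hf h₀ h₀iso
  set d := (h₀ : Matrix ι ι F).det with hd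
  have hd0 : d ≠ 0 := by
    intro h0
    rw [h0, zero_mul] at hdet
    exact zero_ne_one hdet
  obtain ⟨b, b', hb0, hb'0, hbb', hc, hc'⟩ := exists_hyp_pair hf ![x, w] (by simp; omega)
  obtain ⟨t, ht⟩ := exists_trace hf 1 (by simp)
  have hb'b : f b' b = 1 := by rw [hf.herm, hbb', map_one]
  have hy : f (b + t • b') (b + t • b') = 1 := by
    rw [hf.add_left, add_right hf, add_right hf, hf.smul_left, hf.smul_left, smul_right hf, smul_right hf, hb0, hb'0, hbb', hb'b]
    linear_combination ht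
  obtain ⟨r, hr1, hr2, hr3⟩ := exists_qrefl hf (b + t • b') (by rw [hy]; exact one_ne_zero) d⁻¹
    (by
      rw [map_inv₀, ← mul_inv, hdet, inv_one])
  have e1 : f x (b + t • b') = 0 := by
    have h1 : f x b = 0 := hc 0
    have h2 : f x b' = 0 := hc' 0
    rw [add_right hf, smul_right hf, h1, h2]; ring
  have e2 : f w (b + t • b') = 0 := by
    have h1 : f w b = 0 := hc 1
    have h2 : f w b' = 0 := hc' 1
    rw [add_right hf, smul_right hf, h1, h2]; ring
  refine ⟨h₀ * r, mem_SL_of_det _ ?_, fun u v => ?_, ?_, ?_⟩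
  · rw [Units.val_mul, Matrix.det_mul, ← hd, hr1, mul_inv_cancel₀ hd0]
  · rw [Units.val_mul, ← Matrix.mulVec_mulVec, ← Matrix.mulVec_mulVec, h₀iso, hr2]
  · rw [Units.val_mul, ← Matrix.mulVec_mulVec, hr3 x e1, h₀x]
  · rw [Units.val_mul, ← Matrix.mulVec_mulVec, hr3 w e2, h₀w]

theorem tv_aux {x w : ι → F} (h : f x w = 0) : fdual f w ⬝ᵥ x = 0 := by
  rw [dual_dot hf, h]

/-- Transport of a transvection in `M`. -/
theorem tv_transport (hn : 5 < Fintype.card ι) (M : Subgroup (GL ι F)) (hH : similarityGroup f ⊓ specialLinear ι F ≤ M)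
    {x w x' z : ι → F} (hh : fdual f w ⬝ᵥ x = 0) (hM : tv x (fdual f w) hh ∈ M)
    (hx0 : x ≠ 0) (hwx : ∀ c : F, w ≠ c • x) (hQw : f w w = 0)
    (hxw : f x w = 0) (hQ' : f x' x' = f x x) (hQz : f z z = 0) (hx'z : f x' z = 0) (hz0 : z ≠ 0)
    (hx'nz : ∀ c : F, x' ≠ c • z) (hh' : fdual f z ⬝ᵥ x' = 0) : tv x' (fdual f z) hh' ∈ M := by
  obtain ⟨h, h1, h2, h3, h4⟩ := exists_H_map hf hn hx0 hwx hQw hxw hQ' hQz hx'z hz0 hx'nz
  have hhM : h ∈ M := hH ⟨⟨1, fun u v => by rw [h2]; simp⟩, h1⟩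
  rw [← conj_tv' h x (fdual f w) x' (fdual f z) hh hh' h3 ?_]
  · exact M.mul_mem (M.mul_mem hhM hM) (M.inv_mem hhM)
  · apply dotProduct_eq
    intro v
    rw [← dotProduct_mulVec, dual_dot hf, dual_dot hf, ← h4, h2]

/-- From one transvection in `M`, all with an isotropic functional vector. -/
theorem tv_level (hn : 9 < Fintype.card ι) (M : Subgroup (GL ι F)) (hH : similarityGroup f ⊓ specialLinear ι F ≤ M)
    {x w : ι → F} (hh : fdual f w ⬝ᵥ x = 0) (hM : tv x (fdual f w) hh ∈ M)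
    (hx0 : x ≠ 0) (hwx : ∀ c : F, w ≠ c • x) (hQw : f w w = 0)
    (hxw : f x w = 0) {v z : ι → F} (hQz : f z z = 0) (hvz : f v z = 0) (hh' : fdual f z ⬝ᵥ v = 0) :
    tv v (fdual f z) hh' ∈ M := by
  by_cases hz0 : z = 0
  · subst hz0
    have : tv v (fdual f 0) hh' = 1 := by
      apply gl_ext_mulVec
      intro u
      rw [tv_mulVec, dual_dot hf, zero_right hf]
      simp
    rw [this]
    exact M.one_mem
  set κ := f x x with hκ
  have hσκ : σ κ = κ := sig_f hf x x
  obtain ⟨u₀, hu₀1, hu₀2⟩ : ∃ u₀, f u₀ z = 0 ∧ f v u₀ + σ (f v u₀) = - f v v := by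
    by_cases hv : v ∈ Submodule.span F {z}
    · obtain ⟨c, rfl⟩ := Submodule.mem_span_singleton.mp hv
      refine ⟨0, zero_left hf z, ?_⟩
      rw [zero_right hf, hf.smul_left, smul_right hf, hQz]
      simp
    · obtain ⟨τ, hτ1, hτ2⟩ := exists_sep hf hv
      obtain ⟨ρ, hρ⟩ := exists_trace hf (- f v v) (by rw [map_neg, sig_f hf])
      refine ⟨(σ ρ) • τ, ?_, ?_⟩
      · have h1 : f z τ = 0 := hτ1 z (Submodule.mem_span_singleton_self z)
        rw [hf.smul_left, hf.herm, h1, map_zero, mul_zero]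
      · rw [smul_right hf, hτ2, hf.involutive, mul_one, hρ]
  obtain ⟨b, b', hb0, hb'0, hbb', hc, hc'⟩ := exists_hyp_pair hf ![z, v, u₀] (by simp; omega)
  have c1 : f z b = 0 := hc 0
  have c2 : f v b = 0 := hc 1
  have c3 : f u₀ b = 0 := hc 2
  have c1' : f z b' = 0 := hc' 0
  have c2' : f v b' = 0 := hc' 1
  have c3' : f u₀ b' = 0 := hc' 2
  have c1r : f b z = 0 := by rw [hf.herm, c1, map_zero]
  have c1r' : f b' z = 0 := by rw [hf.herm, c1', map_zero]
  obtain ⟨t, ht⟩ := exists_trace hf (κ - f u₀ u₀) (by rw [map_sub, hσκ, sig_f hf])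
  set x₂ := u₀ + b + t • b' with hx₂
  have hQx₂ : f x₂ x₂ = κ := by
    rw [hx₂, norm_level hf hb0 hb'0 hbb' c3 c3', add_assoc, ht]; ring
  have hx₂z : f x₂ z = 0 := by
    rw [hx₂, hf.add_left, hf.add_left, hf.smul_left, hu₀1, c1r, c1r']; ring
  have hvx₂ : f v x₂ = f v u₀ := by
    rw [hx₂, add_right hf, add_right hf, smul_right hf, c2, c2']; ring
  have hx₂b' : f x₂ b' = 1 := by
    rw [hx₂, hf.add_left, hf.add_left, hf.smul_left, c3', hbb', hb'0]; ring
  set x₁ := v + x₂ with hx₁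
  have hQx₁ : f x₁ x₁ = κ := by
    rw [hx₁, hf.add_left, add_right hf v v x₂, add_right hf x₂ v x₂, hQx₂, hvx₂, hf.herm x₂ v, hvx₂]
    linear_combination hu₀2
  have hx₁z : f x₁ z = 0 := by
    rw [hx₁, hf.add_left, hvz, hx₂z, add_zero]
  have hx₁b' : f x₁ b' = 1 := by
    rw [hx₁, hf.add_left, c2', hx₂b', zero_add]
  have hnot : ∀ y : ι → F, f y b' = 1 → ∀ c : F, y ≠ c • z := by
    rintro y hy c rfl
    rw [hf.smul_left, c1', mul_zero] at hy
    exact zero_ne_one hy
  have m1 := tv_transport hf (by omega) M hH hh hM hx0 hwx hQw hxw (x' := x₁) (z := z) hQx₁ hQz hx₁z hz0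
    (hnot _ hx₁b') (tv_aux hf hx₁z)
  have m2 := tv_transport hf (by omega) M hH hh hM hx0 hwx hQw hxw (x' := x₂) (z := z) hQx₂ hQz hx₂z hz0
    (hnot _ hx₂b') (tv_aux hf hx₂z)
  have e : tv v (fdual f z) hh' = tv x₁ (fdual f z) (tv_aux hf hx₁z) * (tv x₂ (fdual f z) (tv_aux hf hx₂z))⁻¹ := by
    apply gl_ext_mulVec
    intro u
    rw [Units.val_mul, ← Matrix.mulVec_mulVec, tv_mulVec, tv_mulVec, tv_inv_mulVec, dual_dot hf, dual_dot hf, sub_left hf,
      hf.smul_left, hx₂z, hx₁]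
    ext i
    simp only [Pi.add_apply, Pi.sub_apply, Pi.smul_apply, smul_eq_mul]
    ring
  rw [e]
  exact M.mul_mem m1 (M.inv_mem m2)

/-- From one transvection in `M`, all of them. -/
theorem tv_all (hn : 9 < Fintype.card ι) (M : Subgroup (GL ι F)) (hH : similarityGroup f ⊓ specialLinear ι F ≤ M)
    {x w : ι → F} (hh : fdual f w ⬝ᵥ x = 0) (hM : tv x (fdual f w) hh ∈ M)
    (hx0 : x ≠ 0) (hwx : ∀ c : F, w ≠ c • x) (hQw : f w w = 0)
    (hxw : f x w = 0) (v φ : ι → F) (hφ : φ ⬝ᵥ v = 0) : tv v φ hφ ∈ M := by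
  obtain ⟨z', rfl⟩ := exists_fdual hf φ
  have hvz' : f v z' = 0 := by rw [← dual_dot hf]; exact hφ
  obtain ⟨z₁, z₂, z₃, -, h1, h2, h3, rfl, d1, d2, d3, -⟩ := exists_three_sing hf ![v] z' (by simp; omega)
    (fun i => by
      have : i = 0 := Subsingleton.elim i 0
      subst this
      exact hvz')
  have e1 : f v z₁ = 0 := d1 0
  have e2 : f v z₂ = 0 := d2 0
  have e3 : f v z₃ = 0 := d3 0
  have a1 := tv_level hf hn M hH hh hM hx0 hwx hQw hxw h1 e1 (tv_aux hf e1)
  have a2 := tv_level hf hn M hH hh hM hx0 hwx hQw hxw h2 e2 (tv_aux hf e2)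
  have a3 := tv_level hf hn M hH hh hM hx0 hwx hQw hxw h3 e3 (tv_aux hf e3)
  have e : tv v (fdual f (z₁ + z₂ + z₃)) hφ = tv v (fdual f z₁) (tv_aux hf e1) * tv v (fdual f z₂) (tv_aux hf e2) *
      tv v (fdual f z₃) (tv_aux hf e3) := by
    apply gl_ext_mulVec
    intro u
    simp only [Units.val_mul, ← Matrix.mulVec_mulVec, tv_mulVec, dual_dot hf]
    simp only [hf.add_left, add_right hf, hf.smul_left, e1, e2, e3]
    ext i
    simp only [Pi.add_apply, Pi.smul_apply, smul_eq_mul]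
    ring
  rw [e]
  exact M.mul_mem (M.mul_mem a1 a2) a3

/-- The similarity group of a unitary form is maximal in `SL`. -/
theorem isMaximalIn_herm (hn : 13 ≤ Fintype.card ι) :
    IsMaximalIn (specialLinear ι F) (similarityGroup f ⊓ specialLinear ι F) := by
  constructor
  · refine lt_of_le_of_ne inf_le_right fun heq => ?_
    -- a transvection not in the similarity group
    obtain ⟨b, b', hb0, hb'0, hbb', -, -⟩ := exists_hyp_pair hf (Fin.elim0 : Fin 0 → (ι → F)) (by omega)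
    obtain ⟨w, w', hw0, hw'0, hww', hc, hc'⟩ := exists_hyp_pair hf ![b, b'] (by simp; omega)
    have c1 : f b w = 0 := hc 0
    have c2 : f b' w = 0 := hc 1
    have c3 : f b w' = 0 := hc' 0
    have c4 : f b' w' = 0 := hc' 1
    have c5 : f w' b = 0 := by rw [hf.herm, c3, map_zero]
    have c6 : f w' b' = 0 := by rw [hf.herm, c4, map_zero]
    have c7 : f w' w = 1 := by rw [hf.herm, hww', map_one]
    have c8 : f b' b = 1 := by rw [hf.herm, hbb', map_one]
    obtain ⟨β, hβ⟩ := exists_trace hf 1 (by simp)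
    set v := b' + β • w' with hv
    have hv1 : f v v = 0 := by
      simp only [hv, hf.add_left, add_right hf, hf.smul_left, smul_right hf, hb'0, hw'0, c4, c6]
      ring
    have hv2 : f v w = β := by
      rw [hv, hf.add_left, hf.smul_left, c2, c7]; ring
    have hv3 : f v b = 1 := by
      rw [hv, hf.add_left, hf.smul_left, c8, c5]; ring
    have hv4 : f b v = 1 := by rw [hf.herm, hv3, map_one]
    have hmem : tv b (fdual f w) (tv_aux hf c1) ∈ similarityGroup f ⊓ specialLinear ι F := by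
      rw [heq]
      exact tv_mem_specialLinear _ _ _
    obtain ⟨c, hc⟩ := hmem.1
    have h1 := hc v v
    rw [hv1, mul_zero, tv_mulVec, dual_dot hf, hv2] at h1
    simp only [hf.add_left, add_right hf, hf.smul_left, smul_right hf, hv1, hv3, hv4, hb0] at h1
    have : β + σ β = 0 := by linear_combination h1
    rw [hβ] at this
    exact one_ne_zero this
  · intro M hHM hMS
    by_cases hM : M ≤ similarityGroup f ⊓ specialLinear ι F
    · exact Or.inl (le_antisymm hM hHM)
    · right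
      obtain ⟨g, hgM, hgH⟩ := SetLike.not_le_iff_exists.mp hM
      have hg : g ∉ similarityGroup f := fun h => hgH ⟨h, hMS hgM⟩
      obtain ⟨z, hz0, hz, hne⟩ := exists_not_scalar hf (by omega) g hg
      obtain ⟨x, w₂, h, hx0, hw₂, hw₂x, hxw₂, hmem⟩ := exists_tv_mem hf (by omega) M hHM g hgM hz0 hz hne
      refine le_antisymm hMS (specialLinear_le_of_tv M fun v φ hφ => ?_)
      exact tv_all hf (by omega) M hHM h hmem hx0 hw₂x hw₂ hxw₂ v φ hφ

end Final

end Cfsg.Agent.Lib.ClassMax.HermOver
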