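import Mathlib
import Cfsg.Prelude.Def_GeometricClasses
import Cfsg.Agent.Lib.Classical.Card
import Cfsg.Agent.Lib.Classical.Symp

/-!
The extraspecial group of order 27 in `GL_3(F)`: explicit generators, their relations, a normal form for a non-abelian
subgroup of order 27 and exponent 3, and elements of its normaliser.
-/

set_option autoImplicit false
set_option linter.unusedSimpArgs false
set_option linter.unusedVariables false
set_option linter.unusedSectionVars false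

namespace Cfsg.Agent.Lib.ClassMax.Hessian

open Matrix

variable {F : Type*} [Field F]

/-- The scalar matrices. -/
noncomputable def sc (t : Fˣ) : GL (Fin 3) F := GeneralLinearGroup.scalar (Fin 3) t

@[simp] theorem coe_sc (t : Fˣ) : ((sc t : GL (Fin 3) F) : Matrix (Fin 3) (Fin 3) F) = (t : F) • 1 := by
  unfold sc
  rw [GeneralLinearGroup.coe_scalar]
  ext i j
  simp [Matrix.scalar_apply, Matrix.diagonal_apply, Matrix.one_apply]

theorem sc_mul (s t : Fˣ) : (sc s * sc t : GL (Fin 3) F) = sc (s * t) := by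
  unfold sc
  rw [map_mul]

theorem sc_pow (s : Fˣ) (n : ℕ) : (sc s ^ n : GL (Fin 3) F) = sc (s ^ n) := by
  unfold sc
  rw [map_pow]

theorem sc_one : (sc 1 : GL (Fin 3) F) = 1 := by
  unfold sc
  rw [map_one]

theorem sc_comm (s : Fˣ) (g : GL (Fin 3) F) : sc s * g = g * sc s :=
  GeneralLinearGroup.scalar_commute s g

/-- Diagonal elements. -/
noncomputable def Eg (a b c : Fˣ) : GL (Fin 3) F where
  val := !![(a : F), 0, 0; 0, (b : F), 0; 0, 0, (c : F)]
  inv := !![((a⁻¹ : Fˣ) : F), 0, 0; 0, ((b⁻¹ : Fˣ) : F), 0; 0, 0, ((c⁻¹ : Fˣ) : F)]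
  val_inv := by
    rw [Matrix.mul_fin_three]
    ext i j
    fin_cases i <;> fin_cases j <;> simp
  inv_val := by
    rw [Matrix.mul_fin_three]
    ext i j
    fin_cases i <;> fin_cases j <;> simp

/-- The cyclic permutation matrix. -/
def Cm : Matrix (Fin 3) (Fin 3) F := !![0, 0, 1; 1, 0, 0; 0, 1, 0]

/-- The cyclic permutation. -/
noncomputable def Cg : GL (Fin 3) F where
  val := !![0, 0, 1; 1, 0, 0; 0, 1, 0]
  inv := !![0, 1, 0; 0, 0, 1; 1, 0, 0]
  val_inv := by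
    rw [Matrix.mul_fin_three]
    ext i j
    fin_cases i <;> fin_cases j <;> simp
  inv_val := by
    rw [Matrix.mul_fin_three]
    ext i j
    fin_cases i <;> fin_cases j <;> simp

/-- The transposition of the last two coordinates. -/
noncomputable def Pg : GL (Fin 3) F where
  val := !![1, 0, 0; 0, 0, 1; 0, 1, 0]
  inv := !![1, 0, 0; 0, 0, 1; 0, 1, 0]
  val_inv := by
    rw [Matrix.mul_fin_three]
    ext i j
    fin_cases i <;> fin_cases j <;> simp
  inv_val := by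
    rw [Matrix.mul_fin_three]
    ext i j
    fin_cases i <;> fin_cases j <;> simp

theorem coe_Eg (a b c : Fˣ) : ((Eg a b c : GL (Fin 3) F) : Matrix (Fin 3) (Fin 3) F) = !![(a : F), 0, 0; 0, (b : F), 0; 0, 0, (c : F)] := rfl

theorem coe_Cg : ((Cg : GL (Fin 3) F) : Matrix (Fin 3) (Fin 3) F) = !![0, 0, 1; 1, 0, 0; 0, 1, 0] := rfl

theorem coe_Pg : ((Pg : GL (Fin 3) F) : Matrix (Fin 3) (Fin 3) F) = !![1, 0, 0; 0, 0, 1; 0, 1, 0] := rfl

theorem Eg_mul (a b c a' b' c' : Fˣ) : (Eg a b c * Eg a' b' c' : GL (Fin 3) F) = Eg (a * a') (b * b') (c * c') := by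
  apply Units.ext
  rw [Units.val_mul, coe_Eg, coe_Eg, coe_Eg, Matrix.mul_fin_three]
  ext i j
  fin_cases i <;> fin_cases j <;> simp

theorem Eg_one : (Eg 1 1 1 : GL (Fin 3) F) = 1 := by
  apply Units.ext
  rw [coe_Eg, Units.val_one]
  ext i j
  fin_cases i <;> fin_cases j <;> simp

theorem Eg_pow (a b c : Fˣ) (n : ℕ) : (Eg a b c ^ n : GL (Fin 3) F) = Eg (a ^ n) (b ^ n) (c ^ n) := by
  induction n with
  | zero => simp [Eg_one]
  | succ n ih => rw [pow_succ, ih, Eg_mul, pow_succ, pow_succ, pow_succ]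

theorem Eg_inv (a b c : Fˣ) : ((Eg a b c)⁻¹ : GL (Fin 3) F) = Eg a⁻¹ b⁻¹ c⁻¹ := by
  rw [inv_eq_iff_mul_eq_one, Eg_mul]
  simp [Eg_one]

theorem Eg_comm (a b c a' b' c' : Fˣ) : (Eg a b c * Eg a' b' c' : GL (Fin 3) F) = Eg a' b' c' * Eg a b c := by
  rw [Eg_mul, Eg_mul, mul_comm a, mul_comm b, mul_comm c]

theorem Eg_Cg (a b c : Fˣ) : (Eg a b c * Cg : GL (Fin 3) F) = Cg * Eg b c a := by
  apply Units.ext
  rw [Units.val_mul, Units.val_mul, coe_Eg, coe_Eg, coe_Cg, Matrix.mul_fin_three, Matrix.mul_fin_three]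
  ext i j
  fin_cases i <;> fin_cases j <;> simp

theorem Pg_Eg (a b c : Fˣ) : (Pg * Eg a b c : GL (Fin 3) F) = Eg a c b * Pg := by
  apply Units.ext
  rw [Units.val_mul, Units.val_mul, coe_Eg, coe_Eg, coe_Pg, Matrix.mul_fin_three, Matrix.mul_fin_three]
  ext i j
  fin_cases i <;> fin_cases j <;> simp

theorem Pg_Cg : (Pg * Cg : GL (Fin 3) F) = Cg * Cg * Pg := by
  apply Units.ext
  rw [Units.val_mul, Units.val_mul, Units.val_mul, coe_Cg, coe_Pg, Matrix.mul_fin_three, Matrix.mul_fin_three, Matrix.mul_fin_three]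
  ext i j
  fin_cases i <;> fin_cases j <;> simp

theorem Pg_Pg : (Pg * Pg : GL (Fin 3) F) = 1 := by
  apply Units.ext
  rw [Units.val_mul, coe_Pg, Matrix.mul_fin_three, Units.val_one]
  ext i j
  fin_cases i <;> fin_cases j <;> simp

theorem Cg_cube : (Cg * (Cg * Cg) : GL (Fin 3) F) = 1 := by
  apply Units.ext
  rw [Units.val_mul, Units.val_mul, coe_Cg, Matrix.mul_fin_three, Matrix.mul_fin_three, Units.val_one]
  ext i j
  fin_cases i <;> fin_cases j <;> simp

theorem det_Eg (a b c : Fˣ) : (GeneralLinearGroup.det (Eg a b c : GL (Fin 3) F)) = a * b * c := by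
  ext
  change ((Eg a b c : GL (Fin 3) F) : Matrix (Fin 3) (Fin 3) F).det = _
  rw [coe_Eg, Matrix.det_fin_three]
  simp

theorem det_Cg : (GeneralLinearGroup.det (Cg : GL (Fin 3) F)) = 1 := by
  ext
  change ((Cg : GL (Fin 3) F) : Matrix (Fin 3) (Fin 3) F).det = _
  rw [coe_Cg, Matrix.det_fin_three]
  simp

theorem Eg_mulVec (a b c : Fˣ) (i : Fin 3) (v : Fin 3 → F) :
    (((Eg a b c : GL (Fin 3) F) : Matrix (Fin 3) (Fin 3) F) *ᵥ v) i = (![(a : F), (b : F), (c : F)] i) * v i := by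
  rw [coe_Eg]
  fin_cases i <;> simp [Matrix.mulVec, dotProduct, Fin.sum_univ_three]

/-- A matrix commuting with a diagonal matrix with distinct entries is diagonal. -/
theorem diag_of_comm {A : Matrix (Fin 3) (Fin 3) F} {l : Fin 3 → F} (hl : Function.Injective l)
    (h : A * Matrix.diagonal l = Matrix.diagonal l * A) : A = Matrix.diagonal (fun i => A i i) := by
  ext i j
  by_cases hij : i = j
  · subst hij
    simp
  · have h1 := congrFun (congrFun h i) j
    rw [Matrix.mul_diagonal, Matrix.diagonal_mul] at h1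
    have h2 : (l j - l i) * A i j = 0 := by linear_combination h1
    have h3 : l j - l i ≠ 0 := sub_ne_zero.mpr (fun h => hij (hl h).symm)
    rw [Matrix.diagonal_apply_ne _ hij]
    exact (mul_eq_zero.mp h2).resolve_left h3


/-- A spanning set of the three-dimensional space contains a basis. -/
theorem exists_basis_of_span (S : Set (Fin 3 → F)) (hS : Submodule.span F S = ⊤) :
    ∃ u : Fin 3 → (Fin 3 → F), (∀ i, u i ∈ S) ∧ LinearIndependent F u := by
  classical
  obtain ⟨b, hbS, hbspan, hbind⟩ := exists_linearIndependent F S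
  have hb : LinearIndependent F ((↑) : b → (Fin 3 → F)) := hbind
  haveI : Finite b := hb.finite
  haveI := Fintype.ofFinite b
  have hcard : Fintype.card b = 3 := by
    have h1 := finrank_span_eq_card hb
    rw [Subtype.range_coe, hbspan, hS, finrank_top, Module.finrank_pi] at h1
    simpa using h1.symm
  let e : Fin 3 ≃ b := (Fintype.equivFinOfCardEq hcard).symm
  exact ⟨fun i => ((e i : b) : Fin 3 → F), fun i => hbS (e i).2, hb.comp e e.injective⟩

/-- An invertible matrix with prescribed independent columns. -/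
theorem gl_of_indep {u : Fin 3 → (Fin 3 → F)} (hu : LinearIndependent F u) :
    ∃ G : GL (Fin 3) F, ∀ i, (G : Matrix (Fin 3) (Fin 3) F) *ᵥ (Pi.single i 1) = u i := by
  let A : Matrix (Fin 3) (Fin 3) F := Matrix.of (fun i j => u j i)
  have hA : IsUnit A := Matrix.linearIndependent_cols_iff_isUnit.mp (by
    have : A.col = u := by
      funext j i
      rfl
    rwa [this])
  refine ⟨hA.unit, fun i => ?_⟩
  rw [IsUnit.unit_spec, Matrix.mulVec_single_one]
  funext j
  rfl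

/-- Checking a relation on the columns. -/
theorem rel_of_cols {M G N : GL (Fin 3) F} (h : ∀ i, (M : Matrix (Fin 3) (Fin 3) F) *ᵥ ((G : Matrix (Fin 3) (Fin 3) F) *ᵥ (Pi.single i 1)) =
    (G : Matrix (Fin 3) (Fin 3) F) *ᵥ ((N : Matrix (Fin 3) (Fin 3) F) *ᵥ (Pi.single i 1))) : M * G = G * N := by
  apply Units.ext
  rw [Units.val_mul, Units.val_mul]
  apply Matrix.ext_of_mulVec_single
  intro i
  rw [← Matrix.mulVec_mulVec, ← Matrix.mulVec_mulVec]
  exact h i

/-- Eigenvectors span for a map of order dividing three. -/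
theorem eig_three {ω : F} (h1 : ω ^ 2 + ω + 1 = 0) (h2 : ω ≠ 1) (X : Module.End F (Fin 3 → F)) (hX : ∀ v, X (X (X v)) = v) :
    Submodule.span F {v | ∃ l : F, l ^ 3 = 1 ∧ X v = l • v} = ⊤ := by
  have h3 : (3 : F) ≠ 0 := by
    intro h
    apply h2
    have : (ω - 1) ^ 2 = 0 := by linear_combination h1 - ω * h
    have := pow_eq_zero_iff (two_ne_zero) |>.mp this
    exact sub_eq_zero.mp this
  have hc : ω ^ 3 = 1 := by linear_combination (ω - 1) * h1
  rw [eq_top_iff]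
  intro v _
  have hv : v = (3 : F)⁻¹ • ((v + X v + X (X v)) + (v + ω ^ 2 • X v + ω • X (X v)) + (v + ω • X v + ω ^ 2 • X (X v))) := by
    have e : (v + X v + X (X v)) + (v + ω ^ 2 • X v + ω • X (X v)) + (v + ω • X v + ω ^ 2 • X (X v)) = (3 : F) • v := by
      have e1 : (v + X v + X (X v)) + (v + ω ^ 2 • X v + ω • X (X v)) + (v + ω • X v + ω ^ 2 • X (X v)) = (3 : F) • v + (ω ^ 2 + ω + 1) • X v + (ω ^ 2 + ω + 1) • X (X v) := by module
      rw [e1, h1, zero_smul, zero_smul, add_zero, add_zero]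
    rw [e, smul_smul, inv_mul_cancel₀ h3, one_smul]
  rw [hv]
  apply Submodule.smul_mem
  apply Submodule.add_mem
  · apply Submodule.add_mem
    · apply Submodule.subset_span
      refine ⟨1, by ring, ?_⟩
      simp only [map_add, hX, one_smul]
      abel
    · apply Submodule.subset_span
      refine ⟨ω, hc, ?_⟩
      simp only [map_add, map_smul, hX]
      have : ω • (v + ω ^ 2 • X v + ω • X (X v)) = ω • v + (ω ^ 3) • X v + ω ^ 2 • X (X v) := by module
      rw [this, hc, one_smul]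
      abel
  · apply Submodule.subset_span
    refine ⟨ω ^ 2, by rw [← pow_mul, mul_comm, pow_mul, hc, one_pow], ?_⟩
    simp only [map_add, map_smul, hX]
    have : ω ^ 2 • (v + ω • X v + ω ^ 2 • X (X v)) = ω ^ 2 • v + (ω ^ 3) • X v + (ω ^ 3 * ω) • X (X v) := by module
    rw [this, hc, one_smul, one_mul]
    abel

/-- Eigenvectors span for an involution. -/
theorem eig_two (h2 : (2 : F) ≠ 0) (X : Module.End F (Fin 3 → F)) (hX : ∀ v, X (X v) = v) :
    Submodule.span F {v | ∃ l : F, l ^ 2 = 1 ∧ X v = l • v} = ⊤ := by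
  rw [eq_top_iff]
  intro v _
  have hv : v = (2 : F)⁻¹ • ((v + X v) + (v - X v)) := by
    have e : (v + X v) + (v - X v) = (2 : F) • v := by module
    rw [e, smul_smul, inv_mul_cancel₀ h2, one_smul]
  rw [hv]
  apply Submodule.smul_mem
  apply Submodule.add_mem
  · apply Submodule.subset_span
    refine ⟨1, by ring, ?_⟩
    simp only [map_add, hX, one_smul]
    abel
  · apply Submodule.subset_span
    refine ⟨-1, by ring, ?_⟩
    simp only [map_sub, hX]
    module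

/-- Commutators are central in a group of order 27. -/
theorem comm_central {G : Type*} [Group G] (h : Nat.card G = 27) (a b c : G) : (a * b * a⁻¹ * b⁻¹) * c = c * (a * b * a⁻¹ * b⁻¹) := by
  haveI : Finite G := Nat.finite_of_card_ne_zero (by omega)
  haveI : Fact (Nat.Prime 3) := ⟨by norm_num⟩
  have hp : IsPGroup 3 G := IsPGroup.of_card (n := 3) (by rw [h]; norm_num)
  haveI : Nontrivial G := (Finite.one_lt_card_iff_nontrivial).mp (by omega)
  haveI := hp.center_nontrivial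
  have h1 := Subgroup.card_eq_card_quotient_mul_card_subgroup (Subgroup.center G)
  have h2 : Nat.card (Subgroup.center G) ≠ 1 := by
    intro h3
    have := (Nat.card_eq_one_iff_unique.mp h3).1
    exact not_subsingleton _ this
  rw [h] at h1
  have hQ : ∀ x y : G ⧸ Subgroup.center G, x * y = y * x := by
    have h3 : Nat.card (G ⧸ Subgroup.center G) ∣ 3 ^ 3 := ⟨Nat.card (Subgroup.center G), by rw [← h1]; norm_num⟩
    obtain ⟨k, hk, hk2⟩ := (Nat.dvd_prime_pow Nat.prime_three).mp h3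
    interval_cases k
    · intro x y
      haveI : Subsingleton (G ⧸ Subgroup.center G) := (Nat.card_eq_one_iff_unique.mp (by simpa using hk2)).1
      exact Subsingleton.elim _ _
    · intro x y
      haveI : Fact (Nat.card (G ⧸ Subgroup.center G)).Prime := ⟨by rw [hk2]; norm_num⟩
      haveI := isCyclic_of_prime_card (α := G ⧸ Subgroup.center G) rfl
      exact IsCyclic.commutative.is_comm.comm x y
    · exact IsPGroup.commutative_of_card_eq_prime_sq (p := 3) (by omega)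
    · exfalso
      have h5 : (3 : ℕ) ^ 3 = 27 := by norm_num
      rw [hk2, h5] at h1
      apply h2
      omega
  have h4 : a * b * a⁻¹ * b⁻¹ ∈ Subgroup.center G := by
    rw [← QuotientGroup.eq_one_iff]
    have : ((a * b * a⁻¹ * b⁻¹ : G) : G ⧸ Subgroup.center G) = (a : G ⧸ Subgroup.center G) * (b : G ⧸ Subgroup.center G) * (a : G ⧸ Subgroup.center G)⁻¹ * (b : G ⧸ Subgroup.center G)⁻¹ := rfl
    rw [this, hQ (a : G ⧸ Subgroup.center G) (b : G ⧸ Subgroup.center G)]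
    group
  exact (Subgroup.mem_center_iff.mp h4 c).symm

/-- Groups of order dividing 9 are commutative. -/
theorem comm_of_card {G : Type*} [Group G] (h : Nat.card G ∣ 3 ^ 2) (a b : G) : a * b = b * a := by
  haveI : Fact (Nat.Prime 3) := ⟨by norm_num⟩
  obtain ⟨k, hk, hk2⟩ := (Nat.dvd_prime_pow Nat.prime_three).mp h
  interval_cases k
  · haveI : Subsingleton G := (Nat.card_eq_one_iff_unique.mp (by simpa using hk2)).1
    exact Subsingleton.elim _ _
  · haveI : Fact (Nat.card G).Prime := ⟨by rw [hk2]; norm_num⟩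
    haveI := isCyclic_of_prime_card (α := G) rfl
    exact IsCyclic.commutative.is_comm.comm a b
  · exact IsPGroup.commutative_of_card_eq_prime_sq (p := 3) hk2 a b

/-- Conjugating a commuting element into a diagonal basis. -/
theorem conj_comm {c a G : GL (Fin 3) F} {L : Matrix (Fin 3) (Fin 3) F} (h1 : ((c : Matrix (Fin 3) (Fin 3) F)) * (G : Matrix (Fin 3) (Fin 3) F) = (G : Matrix (Fin 3) (Fin 3) F) * L)
    (h2 : c * a = a * c) :
    ((G⁻¹ * a * G : GL (Fin 3) F) : Matrix (Fin 3) (Fin 3) F) * L = L * ((G⁻¹ * a * G : GL (Fin 3) F) : Matrix (Fin 3) (Fin 3) F) := by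
  have hL : ((G⁻¹ * c * G : GL (Fin 3) F) : Matrix (Fin 3) (Fin 3) F) = L := by
    rw [mul_assoc, Units.val_mul, Units.val_mul, h1, ← mul_assoc, Units.inv_mul, one_mul]
  rw [← hL, ← Units.val_mul, ← Units.val_mul]
  congr 1
  have : G⁻¹ * a * G * (G⁻¹ * c * G) = G⁻¹ * (a * c) * G := by group
  rw [this, ← h2]
  group



/-- The relation given by a basis of eigenvectors. -/
theorem rel_diag {x G : GL (Fin 3) F} {l : Fin 3 → F} {u : Fin 3 → (Fin 3 → F)} (hG : ∀ i, (G : Matrix (Fin 3) (Fin 3) F) *ᵥ (Pi.single i 1) = u i)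
    (hu : ∀ i, (x : Matrix (Fin 3) (Fin 3) F) *ᵥ u i = l i • u i) :
    (x : Matrix (Fin 3) (Fin 3) F) * (G : Matrix (Fin 3) (Fin 3) F) = (G : Matrix (Fin 3) (Fin 3) F) * Matrix.diagonal l := by
  apply Matrix.ext_of_mulVec_single
  intro i
  rw [← Matrix.mulVec_mulVec, ← Matrix.mulVec_mulVec, hG, hu, Matrix.diagonal_mulVec_single, mul_one]
  have e : (Pi.single i (l i) : Fin 3 → F) = l i • Pi.single i 1 := by
    funext j
    by_cases hj : j = i
    · subst hj
      simp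
    · simp [hj]
  rw [e, Matrix.mulVec_smul, hG]

/-- Diagonalising elements of order dividing three. -/
theorem exists_eig_three {ω : F} (h1 : ω ^ 2 + ω + 1 = 0) (h2 : ω ≠ 1) (x : GL (Fin 3) F) (hx : x ^ 3 = 1) :
    ∃ (u : Fin 3 → (Fin 3 → F)) (l : Fin 3 → F), LinearIndependent F u ∧ (∀ i, l i ^ 3 = 1) ∧ ∀ i, (x : Matrix (Fin 3) (Fin 3) F) *ᵥ u i = l i • u i := by
  have hX : ∀ v, Matrix.toLin' (x : Matrix (Fin 3) (Fin 3) F) (Matrix.toLin' (x : Matrix (Fin 3) (Fin 3) F) (Matrix.toLin' (x : Matrix (Fin 3) (Fin 3) F) v)) = v := by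
    intro v
    simp only [Matrix.toLin'_apply, Matrix.mulVec_mulVec]
    have : (x : Matrix (Fin 3) (Fin 3) F) * (x : Matrix (Fin 3) (Fin 3) F) * (x : Matrix (Fin 3) (Fin 3) F) = 1 := by
      have h3 := congrArg (fun g : GL (Fin 3) F => (g : Matrix (Fin 3) (Fin 3) F)) hx
      simpa [pow_succ] using h3
    rw [← mul_assoc, this, Matrix.one_mulVec]
  obtain ⟨u, hu, hind⟩ := exists_basis_of_span _ (eig_three h1 h2 _ hX)
  choose l hl hXl using hu
  exact ⟨u, l, hind, hl, fun i => hXl i⟩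

/-- The commutator of two non-commuting elements commuting with it is scalar. -/
theorem comm_scalar {ω : F} (h1 : ω ^ 2 + ω + 1 = 0) (h2 : ω ≠ 1) {a b c : GL (Fin 3) F} (hc : c = a * b * a⁻¹ * b⁻¹) (hc3 : c ^ 3 = 1)
    (hca : c * a = a * c) (hcb : c * b = b * c) (hab : a * b ≠ b * a) :
    ∃ t : Fˣ, c = sc t ∧ (t : F) ≠ 1 ∧ t ^ 3 = 1 := by
  obtain ⟨u, l, hind, hl, hu⟩ := exists_eig_three h1 h2 c hc3
  obtain ⟨G, hGu⟩ := gl_of_indep hind
  have hG := rel_diag hGu hu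
  have hdetc : (c : Matrix (Fin 3) (Fin 3) F).det = 1 := by
    have h3 : GeneralLinearGroup.det c = 1 := by
      rw [hc]
      simp only [map_mul, map_inv]
      rw [mul_comm (GeneralLinearGroup.det a)]
      group
    have h4 := congrArg Units.val h3
    simpa using h4
  have hdet : l 0 * l 1 * l 2 = 1 := by
    have h3 := congrArg Matrix.det hG
    rw [Matrix.det_mul, Matrix.det_mul, Matrix.det_diagonal, Fin.prod_univ_three, hdetc, one_mul] at h3
    have h4 : (G : Matrix (Fin 3) (Fin 3) F).det ≠ 0 := by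
      have := (Matrix.isUnit_iff_isUnit_det _).mp G.isUnit
      exact this.ne_zero
    have h5 : (G : Matrix (Fin 3) (Fin 3) F).det * (l 0 * l 1 * l 2 - 1) = 0 := by linear_combination -h3
    have h6 := (mul_eq_zero.mp h5).resolve_left h4
    linear_combination h6
  by_cases hinj : Function.Injective l
  · exfalso
    apply hab
    have hA := conj_comm hG hca
    have hB := conj_comm hG hcb
    have dA := diag_of_comm hinj hA
    have dB := diag_of_comm hinj hB
    have h3 : (G⁻¹ * a * G) * (G⁻¹ * b * G) = (G⁻¹ * b * G) * (G⁻¹ * a * G) := by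
      apply Units.ext
      have e : ∀ A B : Matrix (Fin 3) (Fin 3) F, A = Matrix.diagonal (fun i => A i i) → B = Matrix.diagonal (fun i => B i i) → A * B = B * A := by
        intro A B hA hB
        rw [hA, hB, Matrix.diagonal_mul_diagonal, Matrix.diagonal_mul_diagonal]
        congr 1
        funext i
        exact mul_comm _ _
      rw [Units.val_mul (G⁻¹ * a * G), Units.val_mul (G⁻¹ * b * G)]
      exact e _ _ dA dB
    have h4 : G⁻¹ * (a * b) * G = G⁻¹ * (b * a) * G := by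
      have e1 : (G⁻¹ * a * G) * (G⁻¹ * b * G) = G⁻¹ * (a * b) * G := by group
      have e2 : (G⁻¹ * b * G) * (G⁻¹ * a * G) = G⁻¹ * (b * a) * G := by group
      rw [← e1, ← e2, h3]
    exact mul_left_cancel (mul_right_cancel h4)
  · have key : ∀ x z : F, x ^ 3 = 1 → x * x * z = 1 → z = x := by
      intro x z hx hxz
      have hx0 : x ≠ 0 := by
        rintro rfl
        norm_num at hx
      have h3 : x * x * (z - x) = 0 := by linear_combination hxz - hx
      have h4 := (mul_eq_zero.mp h3).resolve_left (mul_ne_zero hx0 hx0)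
      exact sub_eq_zero.mp h4
    have hall : l 1 = l 0 ∧ l 2 = l 0 := by
      simp only [Function.Injective] at hinj
      push Not at hinj
      obtain ⟨i, j, hij, hne⟩ := hinj
      fin_cases i <;> fin_cases j <;> simp only [Fin.zero_eta, Fin.mk_one, Fin.reduceFinMk] at hij hne
      · exact absurd rfl hne
      · exact ⟨hij.symm, key _ _ (hl 0) (by linear_combination hdet + l 0 * l 2 * hij)⟩
      · exact ⟨key _ _ (hl 0) (by linear_combination hdet + l 0 * l 1 * hij), hij.symm⟩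
      · exact ⟨hij, key _ _ (hl 0) (by linear_combination hdet - l 0 * l 2 * hij)⟩
      · exact absurd rfl hne
      · have h3 := key (l 1) (l 0) (hl 1) (by linear_combination hdet + l 0 * l 1 * hij)
        exact ⟨h3.symm, hij.symm.trans h3.symm⟩
      · exact ⟨key _ _ (hl 0) (by linear_combination hdet - l 0 * l 1 * hij), hij⟩
      · have h3 := key (l 1) (l 0) (hl 1) (by linear_combination hdet - l 0 * l 1 * hij)
        exact ⟨h3.symm, hij.trans h3.symm⟩
      · exact absurd rfl hne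
    have hl0 : l 0 ≠ 0 := by
      intro h
      have := hl 0
      rw [h] at this
      norm_num at this
    let t : Fˣ := Units.mk0 (l 0) hl0
    have hLt : Matrix.diagonal l = (sc t : Matrix (Fin 3) (Fin 3) F) := by
      rw [coe_sc]
      ext i j
      fin_cases i <;> fin_cases j <;> simp [t, Matrix.diagonal_apply, Matrix.one_apply, hall.1, hall.2]
    have hct : c = sc t := by
      apply mul_right_cancel (b := G)
      apply Units.ext
      rw [Units.val_mul, hG, hLt, Units.val_mul]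
      rw [← Units.val_mul, ← Units.val_mul, sc_comm]
    refine ⟨t, hct, ?_, ?_⟩
    · intro ht
      have h3 : t = 1 := Units.ext ht
      rw [h3, sc_one] at hct
      apply hab
      rw [hc] at hct
      have h4 : a * b * a⁻¹ * b⁻¹ * (b * a) = b * a := by rw [hct, one_mul]
      rw [← h4]
      group
    · apply Units.ext
      simpa [t] using hl 0

/-- A non-zero eigenvector. -/
theorem exists_eigvec {ω : F} (h1 : ω ^ 2 + ω + 1 = 0) (h2 : ω ≠ 1) (x : GL (Fin 3) F) (hx : x ^ 3 = 1) :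
    ∃ (v : Fin 3 → F) (l : F), v ≠ 0 ∧ l ^ 3 = 1 ∧ (x : Matrix (Fin 3) (Fin 3) F) *ᵥ v = l • v := by
  obtain ⟨u, l, hind, hl, hu⟩ := exists_eig_three h1 h2 x hx
  exact ⟨u 0, l 0, hind.ne_zero 0, hl 0, hu 0⟩

theorem gl_mulVec_ne {b : GL (Fin 3) F} {v : Fin 3 → F} (hv : v ≠ 0) : (b : Matrix (Fin 3) (Fin 3) F) *ᵥ v ≠ 0 := by
  intro h
  apply hv
  have h1 := congrArg (fun w => ((b⁻¹ : GL (Fin 3) F) : Matrix (Fin 3) (Fin 3) F) *ᵥ w) h
  simp only [Matrix.mulVec_mulVec, Units.inv_mul, Matrix.one_mulVec, Matrix.mulVec_zero] at h1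
  exact h1

/-- The basis attached to a pair of elements commuting up to a primitive cube root of unity. -/
theorem basis_of_pair {ω : Fˣ} (hω : (ω : F) ^ 2 + ω + 1 = 0) (hω1 : (ω : F) ≠ 1) {a b : GL (Fin 3) F} (hab : a * b = sc ω * (b * a))
    (ha : a ^ 3 = 1) (hb : b ^ 3 = 1) :
    ∃ (h : GL (Fin 3) F) (μ : Fˣ), μ ^ 3 = 1 ∧ a * h = h * (sc μ * Eg 1 ω (ω ^ 2)) ∧ b * h = h * Cg := by
  obtain ⟨v₀, l, hv₀, hl, hav⟩ := exists_eigvec hω hω1 a ha
  have hl0 : l ≠ 0 := by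
    rintro rfl
    norm_num at hl
  let μ : Fˣ := Units.mk0 l hl0
  have hrel : ∀ v, (a : Matrix (Fin 3) (Fin 3) F) *ᵥ ((b : Matrix (Fin 3) (Fin 3) F) *ᵥ v) = (ω : F) • ((b : Matrix (Fin 3) (Fin 3) F) *ᵥ ((a : Matrix (Fin 3) (Fin 3) F) *ᵥ v)) := by
    intro v
    have e : (a : Matrix (Fin 3) (Fin 3) F) * (b : Matrix (Fin 3) (Fin 3) F) = (ω : F) • ((b : Matrix (Fin 3) (Fin 3) F) * (a : Matrix (Fin 3) (Fin 3) F)) := by
      have h3 := congrArg Units.val hab
      rw [Units.val_mul, Units.val_mul, Units.val_mul, coe_sc, Matrix.smul_mul, Matrix.one_mul] at h3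
      exact h3
    rw [Matrix.mulVec_mulVec, e, Matrix.smul_mulVec, ← Matrix.mulVec_mulVec]
  let u : Fin 3 → (Fin 3 → F) := ![v₀, (b : Matrix (Fin 3) (Fin 3) F) *ᵥ v₀, (b : Matrix (Fin 3) (Fin 3) F) *ᵥ ((b : Matrix (Fin 3) (Fin 3) F) *ᵥ v₀)]
  have hω3 : (ω : F) ^ 3 = 1 := by linear_combination ((ω : F) - 1) * hω
  have hω2 : (ω : F) ^ 2 ≠ 1 := by
    intro h
    apply hω1
    linear_combination hω3 - (ω : F) * h
  have hev : ∀ i : Fin 3, (a : Matrix (Fin 3) (Fin 3) F) *ᵥ u i = (l * ![1, (ω : F), (ω : F) ^ 2] i) • u i := by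
    intro i
    fin_cases i
    · simp [u, hav]
    · show (a : Matrix (Fin 3) (Fin 3) F) *ᵥ ((b : Matrix (Fin 3) (Fin 3) F) *ᵥ v₀) = (l * (ω : F)) • ((b : Matrix (Fin 3) (Fin 3) F) *ᵥ v₀)
      rw [hrel, hav, Matrix.mulVec_smul, smul_smul, mul_comm]
    · show (a : Matrix (Fin 3) (Fin 3) F) *ᵥ ((b : Matrix (Fin 3) (Fin 3) F) *ᵥ ((b : Matrix (Fin 3) (Fin 3) F) *ᵥ v₀)) = (l * (ω : F) ^ 2) • ((b : Matrix (Fin 3) (Fin 3) F) *ᵥ ((b : Matrix (Fin 3) (Fin 3) F) *ᵥ v₀))
      rw [hrel, hrel, hav, Matrix.mulVec_smul, Matrix.mulVec_smul, Matrix.mulVec_smul, smul_smul, smul_smul]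
      congr 1
      ring
  have hne : ∀ i, u i ≠ 0 := by
    intro i
    fin_cases i
    · exact hv₀
    · exact gl_mulVec_ne hv₀
    · exact gl_mulVec_ne (gl_mulVec_ne hv₀)
  have hinj : Function.Injective (fun i : Fin 3 => l * ![1, (ω : F), (ω : F) ^ 2] i) := by
    intro i j hij
    have h3 : ![1, (ω : F), (ω : F) ^ 2] i = ![1, (ω : F), (ω : F) ^ 2] j := mul_left_cancel₀ hl0 hij
    have hne12 : (ω : F) ≠ (ω : F) ^ 2 := by
      intro h
      apply hω1
      have hω0 : (ω : F) ≠ 0 := ω.ne_zero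
      have h4 : (ω : F) * ((ω : F) - 1) = 0 := by linear_combination -h
      have h5 := (mul_eq_zero.mp h4).resolve_left hω0
      exact sub_eq_zero.mp h5
    fin_cases i <;> fin_cases j <;> first | rfl | (exfalso; first | exact hω1 h3.symm | exact hω2 h3.symm | exact hω1 h3 | exact hne12 h3 | exact hω2 h3 | exact hne12 h3.symm)
  have hind : LinearIndependent F u := by
    refine Module.End.eigenvectors_linearIndependent' (Matrix.toLin' (a : Matrix (Fin 3) (Fin 3) F)) _ hinj u (fun i => ?_)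
    refine ⟨?_, hne i⟩
    rw [Module.End.mem_eigenspace_iff]
    exact hev i
  obtain ⟨G, hG⟩ := gl_of_indep hind
  refine ⟨G, μ, Units.ext (by simpa [μ] using hl), ?_, ?_⟩
  · apply rel_of_cols
    intro i
    rw [hG, hev]
    have e : ((sc μ * Eg 1 ω (ω ^ 2) : GL (Fin 3) F) : Matrix (Fin 3) (Fin 3) F) *ᵥ (Pi.single i 1) = (l * ![1, (ω : F), (ω : F) ^ 2] i) • Pi.single i 1 := by
      rw [Units.val_mul, coe_sc, coe_Eg]
      funext j
      fin_cases i <;> fin_cases j <;> simp [Matrix.mulVec, dotProduct, Fin.sum_univ_three, Matrix.smul_apply, μ]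
    rw [e, Matrix.mulVec_smul, hG]
  · apply rel_of_cols
    intro i
    rw [hG]
    have e : ∀ i : Fin 3, ((Cg : GL (Fin 3) F) : Matrix (Fin 3) (Fin 3) F) *ᵥ (Pi.single i 1) = Pi.single (i + 1) 1 := by
      intro i
      rw [coe_Cg]
      funext j
      fin_cases i <;> fin_cases j <;> simp [Matrix.mulVec, dotProduct, Fin.sum_univ_three]
    rw [e, hG]
    fin_cases i
    · rfl
    · rfl
    · show (b : Matrix (Fin 3) (Fin 3) F) *ᵥ ((b : Matrix (Fin 3) (Fin 3) F) *ᵥ ((b : Matrix (Fin 3) (Fin 3) F) *ᵥ v₀)) = v₀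
      simp only [Matrix.mulVec_mulVec]
      have : (b : Matrix (Fin 3) (Fin 3) F) * (b : Matrix (Fin 3) (Fin 3) F) * (b : Matrix (Fin 3) (Fin 3) F) = 1 := by
        have h3 := congrArg (fun g : GL (Fin 3) F => (g : Matrix (Fin 3) (Fin 3) F)) hb
        simpa [pow_succ] using h3
      rw [← mul_assoc, this, Matrix.one_mulVec]



/-- Normal form of a non-abelian subgroup of order 27 and exponent 3. -/
structure NF (R : Subgroup (GL (Fin 3) F)) (ω : Fˣ) (h : GL (Fin 3) F) : Prop where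
  w1 : (ω : F) ^ 2 + ω + 1 = 0
  w2 : (ω : F) ≠ 1
  sc_mem : sc ω ∈ R
  d_mem : h * Eg 1 ω (ω ^ 2) * h⁻¹ ∈ R
  c_mem : h * Cg * h⁻¹ ∈ R
  eq : R = Subgroup.closure {h * Eg 1 ω (ω ^ 2) * h⁻¹, h * Cg * h⁻¹}

theorem Eg_inj {a b c a' b' c' : Fˣ} (h : (Eg a b c : GL (Fin 3) F) = Eg a' b' c') : a = a' ∧ b = b' ∧ c = c' := by
  have h1 := congrArg (fun g : GL (Fin 3) F => (g : Matrix (Fin 3) (Fin 3) F)) h
  simp only [coe_Eg] at h1
  refine ⟨Units.ext ?_, Units.ext ?_, Units.ext ?_⟩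
  · simpa using congrFun (congrFun h1 0) 0
  · simpa using congrFun (congrFun h1 1) 1
  · simpa using congrFun (congrFun h1 2) 2

theorem conj_mul (h A B : GL (Fin 3) F) : (h * A * h⁻¹) * (h * B * h⁻¹) = h * (A * B) * h⁻¹ := by group

theorem exists_nf {ω₀ : F} (h1 : ω₀ ^ 2 + ω₀ + 1 = 0) (h2 : ω₀ ≠ 1) {R : Subgroup (GL (Fin 3) F)} (hR : Nat.card R = 27) (hRe : Monoid.exponent R = 3)
    (hRna : ¬ IsMulCommutative R) : ∃ ω h, NF R ω h := by
  haveI : Finite R := Nat.finite_of_card_ne_zero (by omega)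
  have hcube : ∀ g ∈ R, g ^ 3 = 1 := by
    intro g hg
    have h3 := Monoid.pow_exponent_eq_one (⟨g, hg⟩ : R)
    rw [hRe] at h3
    exact congrArg Subtype.val h3
  obtain ⟨a, b, hab⟩ : ∃ a b : R, a * b ≠ b * a := by
    by_contra hcon
    push Not at hcon
    exact hRna ⟨⟨hcon⟩⟩
  have hab' : (a : GL (Fin 3) F) * b ≠ b * a := fun h3 => hab (Subtype.ext h3)
  have hcz := comm_central hR a b
  have hcR : (a : GL (Fin 3) F) * b * (a : GL (Fin 3) F)⁻¹ * (b : GL (Fin 3) F)⁻¹ ∈ R :=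
    R.mul_mem (R.mul_mem (R.mul_mem a.2 b.2) (R.inv_mem a.2)) (R.inv_mem b.2)
  obtain ⟨t, hct, ht1, ht3⟩ := comm_scalar h1 h2 (a := (a : GL (Fin 3) F)) (b := (b : GL (Fin 3) F)) rfl (hcube _ hcR)
    (congrArg Subtype.val (hcz a)) (congrArg Subtype.val (hcz b)) hab'
  have hω : (t : F) ^ 2 + t + 1 = 0 := by
    have h3 : ((t : F) - 1) * ((t : F) ^ 2 + t + 1) = 0 := by
      have h4 : (t : F) ^ 3 = 1 := by
        have := congrArg Units.val ht3
        simpa using this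
      linear_combination h4
    exact (mul_eq_zero.mp h3).resolve_left (sub_ne_zero.mpr ht1)
  have hab'' : (a : GL (Fin 3) F) * b = sc t * ((b : GL (Fin 3) F) * a) := by
    rw [← hct]
    group
  obtain ⟨h, μ, hμ, ha, hb⟩ := basis_of_pair hω ht1 hab'' (hcube _ a.2) (hcube _ b.2)
  have hg₂ : h * Cg * h⁻¹ = (b : GL (Fin 3) F) := by
    rw [← hb]
    group
  have hscR : sc t ∈ R := by
    rw [← hct]
    exact hcR
  have hg₁ : h * Eg 1 t (t ^ 2) * h⁻¹ = sc μ⁻¹ * (a : GL (Fin 3) F) := by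
    have e1 : sc μ⁻¹ * sc μ = (1 : GL (Fin 3) F) := by
      rw [sc_mul, inv_mul_cancel, sc_one]
    have e2 : (a : GL (Fin 3) F) = sc μ * (h * Eg 1 t (t ^ 2) * h⁻¹) := by
      have e3 : (a : GL (Fin 3) F) * h = sc μ * (h * Eg 1 t (t ^ 2)) := by
        rw [ha, ← mul_assoc, ← mul_assoc, sc_comm]
      calc (a : GL (Fin 3) F) = (a : GL (Fin 3) F) * h * h⁻¹ := by group
        _ = _ := by rw [e3]; group
    rw [e2, ← mul_assoc, e1, one_mul]
  have hμR : sc μ ∈ R := by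
    have h3 : ((μ : F) - 1) * (((μ : F) - t) * ((μ : F) - (t : F) ^ 2)) = 0 := by
      have h4 : (μ : F) ^ 3 = 1 := by
        have := congrArg Units.val hμ
        simpa using this
      have h5 : (t : F) ^ 3 = 1 := by
        have := congrArg Units.val ht3
        simpa using this
      linear_combination h4 - ((μ : F) - 1) * (μ : F) * hω + ((μ : F) - 1) * h5
    rcases mul_eq_zero.mp h3 with h4 | h4
    · have : μ = 1 := Units.ext (sub_eq_zero.mp h4)
      rw [this, sc_one]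
      exact R.one_mem
    · rcases mul_eq_zero.mp h4 with h5 | h5
      · have : μ = t := Units.ext (sub_eq_zero.mp h5)
        rw [this]
        exact hscR
      · have : μ = t ^ 2 := Units.ext (by simpa using sub_eq_zero.mp h5)
        rw [this, ← sc_pow]
        exact R.pow_mem hscR 2
  have hμinv : sc μ⁻¹ ∈ R := by
    have e1 : sc μ⁻¹ = (sc μ : GL (Fin 3) F)⁻¹ := by
      rw [eq_inv_iff_mul_eq_one, sc_mul, inv_mul_cancel, sc_one]
    rw [e1]
    exact R.inv_mem hμR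
  have hg₁R : h * Eg 1 t (t ^ 2) * h⁻¹ ∈ R := by
    rw [hg₁]
    exact R.mul_mem hμinv a.2
  have hg₂R : h * Cg * h⁻¹ ∈ R := by
    rw [hg₂]
    exact b.2
  refine ⟨t, h, hω, ht1, hscR, hg₁R, hg₂R, ?_⟩
  -- the two generators generate
  have hle : Subgroup.closure {h * Eg 1 t (t ^ 2) * h⁻¹, h * Cg * h⁻¹} ≤ R := by
    rw [Subgroup.closure_le]
    rintro x (rfl | rfl)
    · exact hg₁R
    · exact hg₂R
  symm
  apply Subgroup.eq_of_le_of_card_ge hle
  rw [hR]
  set S := Subgroup.closure {h * Eg 1 t (t ^ 2) * h⁻¹, h * Cg * h⁻¹} with hS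
  have hdvd : Nat.card S ∣ 3 ^ 3 := by
    have := Subgroup.card_dvd_of_le hle
    rw [hR] at this
    simpa using this
  obtain ⟨k, hk, hk2⟩ := (Nat.dvd_prime_pow Nat.prime_three).mp hdvd
  by_contra hcon
  have hk3 : k ≤ 2 := by
    by_contra h3
    have : k = 3 := by omega
    subst this
    rw [hk2] at hcon
    norm_num at hcon
  have hcomm := comm_of_card (G := S) (by rw [hk2]; exact pow_dvd_pow 3 hk3)
  have hm1 : h * Eg 1 t (t ^ 2) * h⁻¹ ∈ S := Subgroup.subset_closure (Or.inl rfl)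
  have hm2 : h * Cg * h⁻¹ ∈ S := Subgroup.subset_closure (Or.inr rfl)
  have h3 := congrArg Subtype.val (hcomm ⟨_, hm1⟩ ⟨_, hm2⟩)
  change (h * Eg 1 t (t ^ 2) * h⁻¹) * (h * Cg * h⁻¹) = (h * Cg * h⁻¹) * (h * Eg 1 t (t ^ 2) * h⁻¹) at h3
  rw [conj_mul, conj_mul] at h3
  have h4 : Eg 1 t (t ^ 2) * Cg = (Cg : GL (Fin 3) F) * Eg 1 t (t ^ 2) := by
    have h5 : h * (Eg 1 t (t ^ 2) * Cg) = h * ((Cg : GL (Fin 3) F) * Eg 1 t (t ^ 2)) := mul_right_cancel h3
    exact mul_left_cancel h5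
  rw [Eg_Cg] at h4
  have h5 := (Eg_inj (mul_left_cancel h4)).1
  apply ht1
  rw [h5]
  simp

/-- A criterion for normalising a finite subgroup generated by a set. -/
theorem norm_of_gens {R : Subgroup (GL (Fin 3) F)} [Finite R] {S : Set (GL (Fin 3) F)} (hRS : R = Subgroup.closure S) {y : GL (Fin 3) F}
    (hy : ∀ s ∈ S, y * s * y⁻¹ ∈ R) : y ∈ Subgroup.normalizer (R : Set (GL (Fin 3) F)) := by
  have hfwd : ∀ g ∈ R, y * g * y⁻¹ ∈ R := by
    intro g hg
    rw [hRS] at hg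
    induction hg using Subgroup.closure_induction with
    | mem x hx => exact hy x hx
    | one =>
      have : y * 1 * y⁻¹ = 1 := by group
      rw [this]
      exact R.one_mem
    | mul a b _ _ ha hb =>
      have : y * (a * b) * y⁻¹ = (y * a * y⁻¹) * (y * b * y⁻¹) := by group
      rw [this]
      exact R.mul_mem ha hb
    | inv a _ ha =>
      have : y * a⁻¹ * y⁻¹ = (y * a * y⁻¹)⁻¹ := by group
      rw [this]
      exact R.inv_mem ha
  rw [Subgroup.mem_normalizer_iff]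
  intro g
  refine ⟨hfwd g, fun hg => ?_⟩
  let f : R → R := fun s => ⟨y * s * y⁻¹, hfwd s s.2⟩
  have hinj : Function.Injective f := by
    intro s s' hss
    have h1 : y * (s : GL (Fin 3) F) * y⁻¹ = y * s' * y⁻¹ := congrArg Subtype.val hss
    exact Subtype.ext (mul_left_cancel (mul_right_cancel h1))
  obtain ⟨s, hs⟩ := (Finite.injective_iff_surjective.mp hinj) ⟨_, hg⟩
  have h1 : y * (s : GL (Fin 3) F) * y⁻¹ = y * g * y⁻¹ := congrArg Subtype.val hs
  have h2 : (s : GL (Fin 3) F) = g := mul_left_cancel (mul_right_cancel h1)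
  rw [← h2]
  exact s.2

namespace NF

variable {R : Subgroup (GL (Fin 3) F)} {ω : Fˣ} {h : GL (Fin 3) F} (hn : NF R ω h)

include hn

theorem w3 : ω ^ 3 = 1 := by
  apply Units.ext
  have := hn.w1
  push_cast
  linear_combination ((ω : F) - 1) * this

theorem le_sl : R ≤ Cfsg.Geo.specialLinear (Fin 3) F := by
  have hd : ∀ g : GL (Fin 3) F, GeneralLinearGroup.det g = 1 → h * g * h⁻¹ ∈ Cfsg.Geo.specialLinear (Fin 3) F := by
    intro g hg
    show GeneralLinearGroup.det (h * g * h⁻¹) = 1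
    rw [map_mul, map_mul, map_inv, hg, mul_one, mul_inv_cancel]
  rw [hn.eq, Subgroup.closure_le]
  rintro x (rfl | rfl)
  · apply hd
    rw [det_Eg, one_mul, ← pow_succ', hn.w3]
  · exact hd _ det_Cg

theorem norm_sc (t : Fˣ) : sc t ∈ Subgroup.normalizer (R : Set (GL (Fin 3) F)) := by
  rw [Subgroup.mem_normalizer_iff]
  intro g
  rw [sc_comm, mul_inv_cancel_right]

theorem norm_T [Finite R] : h * Eg 1 1 ω * h⁻¹ ∈ Subgroup.normalizer (R : Set (GL (Fin 3) F)) := by
  apply norm_of_gens hn.eq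
  have hinv : (h * Eg 1 1 ω * h⁻¹)⁻¹ = h * (Eg 1 1 ω)⁻¹ * h⁻¹ := by group
  rintro s (rfl | rfl)
  · have e : h * Eg 1 1 ω * h⁻¹ * (h * Eg 1 ω (ω ^ 2) * h⁻¹) * (h * Eg 1 1 ω * h⁻¹)⁻¹ = h * Eg 1 ω (ω ^ 2) * h⁻¹ := by
      rw [hinv, conj_mul, conj_mul, Eg_comm, mul_inv_cancel_right]
    rw [e]
    exact hn.d_mem
  · have e0 : (Eg 1 1 ω * Cg : GL (Fin 3) F) * (Eg 1 1 ω)⁻¹ = Cg * Eg 1 ω (ω ^ 2) := by
      rw [Eg_Cg, mul_assoc, Eg_inv, Eg_mul]
      congr 2
      · simp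
      · simp
      · rw [one_mul, inv_eq_iff_mul_eq_one, ← pow_succ', hn.w3]
    have e : h * Eg 1 1 ω * h⁻¹ * (h * Cg * h⁻¹) * (h * Eg 1 1 ω * h⁻¹)⁻¹ = (h * Cg * h⁻¹) * (h * Eg 1 ω (ω ^ 2) * h⁻¹) := by
      rw [hinv, conj_mul, conj_mul, conj_mul, e0]
    rw [e]
    exact R.mul_mem hn.c_mem hn.d_mem

theorem norm_P [Finite R] : h * Pg * h⁻¹ ∈ Subgroup.normalizer (R : Set (GL (Fin 3) F)) := by
  apply norm_of_gens hn.eq
  have hPinv : (Pg : GL (Fin 3) F)⁻¹ = Pg := by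
    rw [inv_eq_iff_mul_eq_one, Pg_Pg]
  have hinv : (h * Pg * h⁻¹)⁻¹ = h * Pg * h⁻¹ := by
    rw [_root_.mul_inv_rev, _root_.mul_inv_rev, inv_inv, hPinv, mul_assoc]
  rintro s (rfl | rfl)
  · have e0 : (Pg * Eg 1 ω (ω ^ 2) : GL (Fin 3) F) * Pg = Eg 1 ω (ω ^ 2) * Eg 1 ω (ω ^ 2) := by
      rw [Pg_Eg, mul_assoc, Pg_Pg, mul_one, Eg_mul]
      congr 1
      · simp
      · rw [← pow_two]
      · have : ω ^ 2 * ω ^ 2 = ω ^ 3 * ω := by rw [← pow_add, ← pow_succ]
        rw [this, hn.w3, one_mul]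
    have e : h * Pg * h⁻¹ * (h * Eg 1 ω (ω ^ 2) * h⁻¹) * (h * Pg * h⁻¹)⁻¹ = (h * Eg 1 ω (ω ^ 2) * h⁻¹) * (h * Eg 1 ω (ω ^ 2) * h⁻¹) := by
      rw [hinv, conj_mul, conj_mul, conj_mul, e0]
    rw [e]
    exact R.mul_mem hn.d_mem hn.d_mem
  · have e0 : (Pg * Cg : GL (Fin 3) F) * Pg = Cg * Cg := by
      rw [Pg_Cg, mul_assoc, Pg_Pg, mul_one]
    have e : h * Pg * h⁻¹ * (h * Cg * h⁻¹) * (h * Pg * h⁻¹)⁻¹ = (h * Cg * h⁻¹) * (h * Cg * h⁻¹) := by
      rw [hinv, conj_mul, conj_mul, conj_mul, e0]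
    rw [e]
    exact R.mul_mem hn.c_mem hn.c_mem

theorem cg_conj (a b c : Fˣ) : (Cg : GL (Fin 3) F) * Eg b c a * Cg⁻¹ = Eg a b c := by
  rw [← Eg_Cg]
  group

theorem norm_Eg [Finite R] {a b c : Fˣ} (ha : a ^ 3 = 1) (hb : b ^ 3 = 1) (hc : c ^ 3 = 1) :
    h * Eg a b c * h⁻¹ ∈ Subgroup.normalizer (R : Set (GL (Fin 3) F)) := by
  have hN := Subgroup.le_normalizer (H := R)
  have hT := hn.norm_T
  have hg₂ : h * Cg * h⁻¹ ∈ Subgroup.normalizer (R : Set (GL (Fin 3) F)) := hN hn.c_mem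
  have hconj : ∀ a b c : Fˣ, h * Eg b c a * h⁻¹ ∈ Subgroup.normalizer (R : Set (GL (Fin 3) F)) → h * Eg a b c * h⁻¹ ∈ Subgroup.normalizer (R : Set (GL (Fin 3) F)) := by
    intro a b c h1
    have h2 := Subgroup.mul_mem _ (Subgroup.mul_mem _ hg₂ h1) (Subgroup.inv_mem _ hg₂)
    have e : (h * Cg * h⁻¹) * (h * Eg b c a * h⁻¹) * (h * Cg * h⁻¹)⁻¹ = h * ((Cg : GL (Fin 3) F) * Eg b c a * Cg⁻¹) * h⁻¹ := by group
    rw [e, hn.cg_conj] at h2
    exact h2
  have h3 : ∀ n : ℕ, h * Eg 1 1 (ω ^ n) * h⁻¹ ∈ Subgroup.normalizer (R : Set (GL (Fin 3) F)) := by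
    intro n
    have h2 := Subgroup.pow_mem _ hT n
    have e : (h * Eg 1 1 ω * h⁻¹) ^ n = h * (Eg 1 1 ω) ^ n * h⁻¹ := by
      have := conj_pow (a := h) (b := (Eg 1 1 ω : GL (Fin 3) F)) (i := n)
      exact this
    rw [e, Eg_pow, one_pow] at h2
    exact h2
  have hmu : ∀ t : Fˣ, t ^ 3 = 1 → ∃ n : ℕ, t = ω ^ n := by
    intro t ht
    have h4 : ((t : F) - 1) * (((t : F) - ω) * ((t : F) - (ω : F) ^ 2)) = 0 := by
      have h5 : (t : F) ^ 3 = 1 := by
        have := congrArg Units.val ht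
        simpa using this
      have h6 : (ω : F) ^ 3 = 1 := by
        have := congrArg Units.val hn.w3
        simpa using this
      linear_combination h5 - ((t : F) - 1) * (t : F) * hn.w1 + ((t : F) - 1) * h6
    rcases mul_eq_zero.mp h4 with h5 | h5
    · exact ⟨0, Units.ext (by simpa using sub_eq_zero.mp h5)⟩
    · rcases mul_eq_zero.mp h5 with h6 | h6
      · exact ⟨1, Units.ext (by simpa using sub_eq_zero.mp h6)⟩
      · exact ⟨2, Units.ext (by simpa using sub_eq_zero.mp h6)⟩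
  obtain ⟨i, rfl⟩ := hmu a ha
  obtain ⟨j, rfl⟩ := hmu b hb
  obtain ⟨k, rfl⟩ := hmu c hc
  have h4 : Eg (ω ^ i) (ω ^ j) (ω ^ k) = (Eg (ω ^ i) 1 1 : GL (Fin 3) F) * Eg 1 (ω ^ j) 1 * Eg 1 1 (ω ^ k) := by
    rw [Eg_mul, Eg_mul]
    simp
  have e : h * Eg (ω ^ i) (ω ^ j) (ω ^ k) * h⁻¹ = (h * Eg (ω ^ i) 1 1 * h⁻¹) * (h * Eg 1 (ω ^ j) 1 * h⁻¹) * (h * Eg 1 1 (ω ^ k) * h⁻¹) := by
    rw [h4]
    group
  rw [e]
  exact Subgroup.mul_mem _ (Subgroup.mul_mem _ (hconj _ _ _ (h3 i)) (hconj _ _ _ (hconj _ _ _ (h3 j)))) (h3 k)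

/-- An element commuting with the two generators is scalar. -/
theorem scalar_of_comm {y : GL (Fin 3) F} (h1 : y * (h * Eg 1 ω (ω ^ 2) * h⁻¹) = (h * Eg 1 ω (ω ^ 2) * h⁻¹) * y)
    (h2 : y * (h * Cg * h⁻¹) = (h * Cg * h⁻¹) * y) : ∃ t : Fˣ, y = sc t := by
  set y₀ := h⁻¹ * y * h with hy₀
  have e1 : y₀ * Eg 1 ω (ω ^ 2) = Eg 1 ω (ω ^ 2) * y₀ := by
    have : h⁻¹ * (y * (h * Eg 1 ω (ω ^ 2) * h⁻¹)) * h = h⁻¹ * ((h * Eg 1 ω (ω ^ 2) * h⁻¹) * y) * h := by rw [h1]
    rw [hy₀]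
    calc h⁻¹ * y * h * Eg 1 ω (ω ^ 2) = h⁻¹ * (y * (h * Eg 1 ω (ω ^ 2) * h⁻¹)) * h := by group
      _ = h⁻¹ * ((h * Eg 1 ω (ω ^ 2) * h⁻¹) * y) * h := this
      _ = _ := by group
  have e2 : y₀ * Cg = Cg * y₀ := by
    have : h⁻¹ * (y * (h * Cg * h⁻¹)) * h = h⁻¹ * ((h * Cg * h⁻¹) * y) * h := by rw [h2]
    rw [hy₀]
    calc h⁻¹ * y * h * Cg = h⁻¹ * (y * (h * Cg * h⁻¹)) * h := by group
      _ = h⁻¹ * ((h * Cg * h⁻¹) * y) * h := this
      _ = _ := by group
  set M : Matrix (Fin 3) (Fin 3) F := (y₀ : Matrix (Fin 3) (Fin 3) F) with hM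
  have hD : ((Eg 1 ω (ω ^ 2) : GL (Fin 3) F) : Matrix (Fin 3) (Fin 3) F) = Matrix.diagonal ![1, (ω : F), (ω : F) ^ 2] := by
    rw [coe_Eg]
    ext i j
    fin_cases i <;> fin_cases j <;> simp
  have e3 : M * Matrix.diagonal ![1, (ω : F), (ω : F) ^ 2] = Matrix.diagonal ![1, (ω : F), (ω : F) ^ 2] * M := by
    have := congrArg Units.val e1
    rw [Units.val_mul y₀, Units.val_mul _ y₀, hD] at this
    exact this
  have hω3 : (ω : F) ^ 3 = 1 := by linear_combination ((ω : F) - 1) * hn.w1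
  have hinj : Function.Injective ![1, (ω : F), (ω : F) ^ 2] := by
    have hω1 := hn.w2
    have hω2 : (ω : F) ^ 2 ≠ 1 := by
      intro h
      apply hω1
      linear_combination hω3 - (ω : F) * h
    have hne12 : (ω : F) ≠ (ω : F) ^ 2 := by
      intro h
      apply hω1
      have hω0 : (ω : F) ≠ 0 := ω.ne_zero
      have h4 : (ω : F) * ((ω : F) - 1) = 0 := by linear_combination -h
      have h5 := (mul_eq_zero.mp h4).resolve_left hω0
      exact sub_eq_zero.mp h5
    intro i j h3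
    fin_cases i <;> fin_cases j <;> first | rfl | (exfalso; first | exact hω1 h3.symm | exact hω2 h3.symm | exact hω1 h3 | exact hne12 h3 | exact hω2 h3 | exact hne12 h3.symm)
  have hdiag := diag_of_comm hinj e3
  have e4 : M * ((Cg : GL (Fin 3) F) : Matrix (Fin 3) (Fin 3) F) = ((Cg : GL (Fin 3) F) : Matrix (Fin 3) (Fin 3) F) * M := by
    have := congrArg Units.val e2
    rw [Units.val_mul y₀, Units.val_mul _ y₀] at this
    exact this
  rw [hdiag, coe_Cg] at e4
  have h10 : M 1 1 = M 0 0 := by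
    have := congrFun (congrFun e4 1) 0
    simpa [Matrix.mul_apply, Fin.sum_univ_three, Matrix.diagonal_apply] using this
  have h21 : M 2 2 = M 1 1 := by
    have := congrFun (congrFun e4 2) 1
    simpa [Matrix.mul_apply, Fin.sum_univ_three, Matrix.diagonal_apply] using this
  have hM0 : M 0 0 ≠ 0 := by
    intro h0
    have h3 : M = 0 := by
      rw [hdiag]
      ext i j
      fin_cases i <;> fin_cases j <;> simp [h10, h21, h0, Matrix.diagonal_apply]
    have h4 : (y₀ : Matrix (Fin 3) (Fin 3) F) * ((y₀⁻¹ : GL (Fin 3) F) : Matrix (Fin 3) (Fin 3) F) = 1 := by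
      rw [← Units.val_mul, mul_inv_cancel, Units.val_one]
    rw [← hM, h3, zero_mul] at h4
    exact zero_ne_one h4
  let t : Fˣ := Units.mk0 (M 0 0) hM0
  have hyt : y₀ = sc t := by
    apply Units.ext
    rw [coe_sc, ← hM, hdiag]
    ext i j
    fin_cases i <;> fin_cases j <;> simp [t, h10, h21, Matrix.diagonal_apply, Matrix.one_apply]
  refine ⟨t, ?_⟩
  have : y = h * y₀ * h⁻¹ := by
    rw [hy₀]
    group
  rw [this, hyt, ← sc_comm, sc_comm t, ← sc_comm]
  group

end NF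


end Cfsg.Agent.Lib.ClassMax.Hessian
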