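import Mathlib
import Cfsg.Agent.Lib.ClassMax.Hessian

/-!
Elements of the normaliser of the extraspecial group of order 27: elements of large prime order centralise it,
and conjugates of elements with scalar square or cube.
-/

set_option autoImplicit false
set_option linter.unusedSimpArgs false
set_option linter.unusedVariables false
set_option linter.unusedSectionVars false

namespace Cfsg.Agent.Lib.ClassMax.Hessian

open Matrix

variable {F : Type*} [Field F]

/-- An element of prime order at least five normalising the group centralises it. -/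
theorem centralizes {R : Subgroup (GL (Fin 3) F)} {ω : Fˣ} {h : GL (Fin 3) F} (hn : NF R ω h) (hR : Nat.card R = 27) {y : GL (Fin 3) F}
    (hy : y ∈ Subgroup.normalizer (R : Set (GL (Fin 3) F))) {r : ℕ} [hfr : Fact r.Prime] (hr : 5 ≤ r) (hyr : y ^ r = 1) :
    ∀ g ∈ R, y * g = g * y := by
  classical
  have hr' : r.Prime := hfr.out
  haveI : Finite R := Nat.finite_of_card_ne_zero (by omega)
  haveI : Fintype R := Fintype.ofFinite R
  have hy' := Subgroup.mem_normalizer_iff.mp hy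
  let f : Function.End R := fun s => ⟨y * s * y⁻¹, (hy' s).mp s.2⟩
  have hfpow : ∀ (n : ℕ) (s : R), (((f ^ n) s : R) : GL (Fin 3) F) = y ^ n * s * (y ^ n)⁻¹ := by
    intro n
    induction n with
    | zero =>
      intro s
      have e : (f ^ 0) s = s := rfl
      rw [e]
      simp
    | succ n ih =>
      intro s
      rw [pow_succ, show (f ^ n * f) s = (f ^ n) (f s) from rfl, ih]
      show y ^ n * (y * s * y⁻¹) * (y ^ n)⁻¹ = _
      rw [pow_succ]
      group
  have hf1 : f ^ r ^ 1 = 1 := by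
    rw [pow_one]
    funext s
    apply Subtype.ext
    rw [hfpow, hyr]
    show 1 * (s : GL (Fin 3) F) * 1⁻¹ = s
    simp
  have hmod := Equiv.Perm.card_fixedPoints_modEq hf1
  let K : Subgroup R := (Subgroup.centralizer {y}).subgroupOf R
  have hK : ∀ s : R, s ∈ K ↔ y * s = s * y := by
    intro s
    rw [Subgroup.mem_subgroupOf, Subgroup.mem_centralizer_iff]
    constructor
    · intro h1
      exact h1 y rfl
    · rintro h1 _ rfl
      exact h1
  have hfix : Fintype.card f.fixedPoints = Nat.card K := by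
    rw [← Nat.card_eq_fintype_card]
    refine Nat.card_congr (Equiv.subtypeEquivRight (fun s => ?_))
    rw [hK, Function.mem_fixedPoints, Function.IsFixedPt]
    constructor
    · intro h1
      have h2 : y * (s : GL (Fin 3) F) * y⁻¹ = s := congrArg Subtype.val h1
      calc y * (s : GL (Fin 3) F) = (y * (s : GL (Fin 3) F) * y⁻¹) * y := by group
        _ = s * y := by rw [h2]
    · intro h1
      apply Subtype.ext
      show y * (s : GL (Fin 3) F) * y⁻¹ = s
      rw [h1]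
      group
  rw [hfix, ← Nat.card_eq_fintype_card, hR] at hmod
  have hdvd : Nat.card K ∣ 3 ^ 3 := by
    have := Subgroup.card_subgroup_dvd_card K
    rw [hR] at this
    simpa using this
  obtain ⟨k, hk, hk2⟩ := (Nat.dvd_prime_pow Nat.prime_three).mp hdvd
  have hle : Nat.card K ≤ 27 := by
    rw [hk2]
    calc 3 ^ k ≤ 3 ^ 3 := Nat.pow_le_pow_right (by norm_num) hk
      _ = 27 := by norm_num
  have hrd : r ∣ 27 - Nat.card K := (Nat.modEq_iff_dvd' hle).mp hmod.symm
  have hr3 : ∀ m : ℕ, r ∣ 2 ^ m * 3 ^ 2 → False := by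
    intro m hm
    rcases (hr'.dvd_mul).mp hm with h1 | h1
    · have := Nat.le_of_dvd (by norm_num) (hr'.dvd_of_dvd_pow h1 |>.trans (dvd_refl 2))
      omega
    · have := Nat.le_of_dvd (by norm_num) (hr'.dvd_of_dvd_pow h1)
      omega
  have hkcase : k = 3 := by
    interval_cases k
    · exfalso
      have h3 : Nat.card K = 1 := by simpa using hk2
      have hsc : (⟨sc ω, hn.sc_mem⟩ : R) ∈ K := by
        rw [hK]
        exact (sc_comm ω y).symm
      haveI : Subsingleton K := (Nat.card_eq_one_iff_unique.mp h3).1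
      have h4 : (⟨⟨sc ω, hn.sc_mem⟩, hsc⟩ : K) = 1 := Subsingleton.elim _ _
      have h5 : (sc ω : GL (Fin 3) F) = 1 := congrArg (fun s : K => (((s : R) : GL (Fin 3) F))) h4
      have h6 := congrArg (fun g : GL (Fin 3) F => (g : Matrix (Fin 3) (Fin 3) F) 0 0) h5
      simp at h6
      exact hn.w2 (by simpa using h6)
    · exfalso
      apply hr3 3
      rw [hk2] at hrd
      have : (2 : ℕ) ^ 3 * 3 ^ 2 = 72 := by norm_num
      rw [this]
      exact hrd.trans (by norm_num)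
    · exfalso
      apply hr3 1
      rw [hk2] at hrd
      have : (2 : ℕ) ^ 1 * 3 ^ 2 = 18 := by norm_num
      rw [this]
      exact hrd
    · rfl
  subst hkcase
  have htop : K = ⊤ := by
    apply Subgroup.eq_top_of_card_eq
    rw [hk2, hR]
    norm_num
  intro g hg
  have : (⟨g, hg⟩ : R) ∈ K := by
    rw [htop]
    trivial
  exact (hK _).mp this

/-- Moving a conjugation by a matrix into the special linear group. -/
theorem conj_fix {R : Subgroup (GL (Fin 3) F)} {x h G y₀ : GL (Fin 3) F} (hxy : x * G = G * y₀) (hτ : ∀ d : Fˣ, Eg d 1 1 * y₀ = y₀ * Eg d 1 1)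
    (hy₀ : h * y₀ * h⁻¹ ∈ Subgroup.normalizer (R : Set (GL (Fin 3) F))) :
    ∃ g ∈ Cfsg.Geo.specialLinear (Fin 3) F, g⁻¹ * x * g ∈ Subgroup.normalizer (R : Set (GL (Fin 3) F)) := by
  set d : Fˣ := GeneralLinearGroup.det h * (GeneralLinearGroup.det G)⁻¹ with hd
  refine ⟨G * Eg d 1 1 * h⁻¹, ?_, ?_⟩
  · show GeneralLinearGroup.det (G * Eg d 1 1 * h⁻¹) = 1
    rw [map_mul, map_mul, map_inv, det_Eg, mul_one, mul_one, hd]
    have : ∀ a b : Fˣ, a * (b * a⁻¹) * b⁻¹ = 1 := by
      intro a b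
      rw [mul_comm b, ← mul_assoc, mul_inv_cancel, one_mul, mul_inv_cancel]
    exact this _ _
  · have e1 : G⁻¹ * x * G = y₀ := by
      rw [mul_assoc, hxy, inv_mul_cancel_left]
    have e2 : (Eg d 1 1 : GL (Fin 3) F)⁻¹ * y₀ * Eg d 1 1 = y₀ := by
      rw [mul_assoc, ← hτ, inv_mul_cancel_left]
    have e : (G * Eg d 1 1 * h⁻¹)⁻¹ * x * (G * Eg d 1 1 * h⁻¹) = h * ((Eg d 1 1 : GL (Fin 3) F)⁻¹ * (G⁻¹ * x * G) * Eg d 1 1) * h⁻¹ := by group
    rw [e, e1, e2]
    exact hy₀

/-- Elements with scalar cube, when the cube roots of unity are cubes. -/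
theorem elem_three {R : Subgroup (GL (Fin 3) F)} [Finite R] {ω : Fˣ} {h : GL (Fin 3) F} (hn : NF R ω h) (hcube : ∀ z : Fˣ, z ^ 3 = 1 → ∃ t : Fˣ, t ^ 3 = z)
    {x : GL (Fin 3) F} (hx : x ∈ Cfsg.Geo.specialLinear (Fin 3) F) {z : F} (hz : ((x ^ 3 : GL (Fin 3) F) : Matrix (Fin 3) (Fin 3) F) = z • (1 : Matrix (Fin 3) (Fin 3) F)) :
    ∃ g ∈ Cfsg.Geo.specialLinear (Fin 3) F, g⁻¹ * x * g ∈ Subgroup.normalizer (R : Set (GL (Fin 3) F)) := by
  have hdetx : (x : Matrix (Fin 3) (Fin 3) F).det = 1 := by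
    have := congrArg Units.val (show GeneralLinearGroup.det x = 1 from hx)
    simpa using this
  have hz3 : z ^ 3 = 1 := by
    have h1 := congrArg Matrix.det hz
    rw [Units.val_pow_eq_pow_val, Matrix.det_pow, hdetx, one_pow, Matrix.det_smul, Matrix.det_one] at h1
    simpa using h1.symm
  have hz0 : z ≠ 0 := by
    rintro rfl
    norm_num at hz3
  let z' : Fˣ := Units.mk0 z hz0
  obtain ⟨t, ht⟩ := hcube z' (Units.ext (by simpa [z'] using hz3))
  have hxz : x ^ 3 = sc z' := by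
    apply Units.ext
    rw [hz, coe_sc]
    rfl
  let x' : GL (Fin 3) F := sc t⁻¹ * x
  have hx' : x' ^ 3 = 1 := by
    have e : x' ^ 3 = sc t⁻¹ ^ 3 * x ^ 3 := (Commute.mul_pow (sc_comm t⁻¹ x) 3)
    rw [e, hxz, sc_pow, sc_mul, ← ht]
    rw [inv_pow, inv_mul_cancel, sc_one]
  obtain ⟨u, l, hind, hl, hu⟩ := exists_eig_three hn.w1 hn.w2 x' hx'
  obtain ⟨G, hG⟩ := gl_of_indep hind
  have hl0 : ∀ i, l i ≠ 0 := by
    intro i h0
    have := hl i
    rw [h0] at this
    norm_num at this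
  let a : Fin 3 → Fˣ := fun i => Units.mk0 (l i) (hl0 i)
  have ha3 : ∀ i, a i ^ 3 = 1 := fun i => Units.ext (by simpa [a] using hl i)
  have hE : ((Eg (a 0) (a 1) (a 2) : GL (Fin 3) F) : Matrix (Fin 3) (Fin 3) F) = Matrix.diagonal l := by
    rw [coe_Eg]
    ext i j
    fin_cases i <;> fin_cases j <;> simp [a]
  have hrel : x' * G = G * Eg (a 0) (a 1) (a 2) := by
    apply Units.ext
    rw [Units.val_mul x' G, Units.val_mul G _, hE]
    exact rel_diag hG hu
  have hxy : x * G = G * (sc t * Eg (a 0) (a 1) (a 2)) := by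
    have e : x = sc t * x' := by
      show x = sc t * (sc t⁻¹ * x)
      rw [← mul_assoc, sc_mul, mul_inv_cancel, sc_one, one_mul]
    rw [e, mul_assoc, hrel, ← mul_assoc, ← mul_assoc, sc_comm]
  refine conj_fix (h := h) hxy ?_ ?_
  · intro d
    rw [← mul_assoc, ← sc_comm, mul_assoc, Eg_comm, ← mul_assoc]
  · have e : h * (sc t * Eg (a 0) (a 1) (a 2)) * h⁻¹ = sc t * (h * Eg (a 0) (a 1) (a 2) * h⁻¹) := by
      rw [← mul_assoc, ← sc_comm]
      group
    rw [e]
    exact Subgroup.mul_mem _ (hn.norm_sc t) (hn.norm_Eg (ha3 0) (ha3 1) (ha3 2))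

/-- Elements with scalar square. -/
theorem elem_two {R : Subgroup (GL (Fin 3) F)} [Finite R] {ω : Fˣ} {h : GL (Fin 3) F} (hn : NF R ω h) (h2 : (2 : F) ≠ 0)
    {x : GL (Fin 3) F} (hx : x ∈ Cfsg.Geo.specialLinear (Fin 3) F) {z : F} (hz : ((x ^ 2 : GL (Fin 3) F) : Matrix (Fin 3) (Fin 3) F) = z • (1 : Matrix (Fin 3) (Fin 3) F))
    (hns : ∀ t : F, (x : Matrix (Fin 3) (Fin 3) F) ≠ t • (1 : Matrix (Fin 3) (Fin 3) F)) :
    ∃ g ∈ Cfsg.Geo.specialLinear (Fin 3) F, g⁻¹ * x * g ∈ Subgroup.normalizer (R : Set (GL (Fin 3) F)) := by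
  have hdetx : (x : Matrix (Fin 3) (Fin 3) F).det = 1 := by
    have := congrArg Units.val (show GeneralLinearGroup.det x = 1 from hx)
    simpa using this
  have hz3 : z ^ 3 = 1 := by
    have h1 := congrArg Matrix.det hz
    rw [Units.val_pow_eq_pow_val, Matrix.det_pow, hdetx, one_pow, Matrix.det_smul, Matrix.det_one] at h1
    simpa using h1.symm
  have hz0 : z ≠ 0 := by
    rintro rfl
    norm_num at hz3
  let z' : Fˣ := Units.mk0 z hz0
  have hz'3 : z' ^ 3 = 1 := Units.ext (by simpa [z'] using hz3)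
  have hxz : x ^ 2 = sc z' := by
    apply Units.ext
    rw [hz, coe_sc]
    rfl
  let x' : GL (Fin 3) F := sc z' * x
  have hx' : x' * x' = 1 := by
    have e : x' ^ 2 = sc z' ^ 2 * x ^ 2 := (Commute.mul_pow (sc_comm z' x) 2)
    rw [← sq, e, hxz, sc_pow, sc_mul, ← pow_succ, hz'3, sc_one]
  have hX : ∀ v, Matrix.toLin' (x' : Matrix (Fin 3) (Fin 3) F) (Matrix.toLin' (x' : Matrix (Fin 3) (Fin 3) F) v) = v := by
    intro v
    simp only [Matrix.toLin'_apply, Matrix.mulVec_mulVec]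
    rw [← Units.val_mul, hx', Units.val_one, Matrix.one_mulVec]
  obtain ⟨u, hu, hind⟩ := exists_basis_of_span _ (eig_two h2 _ hX)
  choose l hl hul using hu
  have hu' : ∀ i, (x' : Matrix (Fin 3) (Fin 3) F) *ᵥ u i = l i • u i := hul
  have hlpm : ∀ i, l i = 1 ∨ l i = -1 := by
    intro i
    have h3 : (l i - 1) * (l i + 1) = 0 := by linear_combination hl i
    rcases mul_eq_zero.mp h3 with h4 | h4
    · left; exact sub_eq_zero.mp h4
    · right; exact eq_neg_of_add_eq_zero_left h4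
  -- not all equal
  have hnotall : ¬ (l 1 = l 0 ∧ l 2 = l 0) := by
    rintro ⟨h3, h4⟩
    obtain ⟨G, hG⟩ := gl_of_indep hind
    have hrel := rel_diag hG hu'
    have hdiag : Matrix.diagonal l = l 0 • (1 : Matrix (Fin 3) (Fin 3) F) := by
      ext i j
      fin_cases i <;> fin_cases j <;> simp [h3, h4, Matrix.diagonal_apply, Matrix.one_apply]
    have hx's : (x' : Matrix (Fin 3) (Fin 3) F) = l 0 • (1 : Matrix (Fin 3) (Fin 3) F) := by
      have h5 : (x' : Matrix (Fin 3) (Fin 3) F) * (G : Matrix (Fin 3) (Fin 3) F) = (l 0 • (1 : Matrix (Fin 3) (Fin 3) F)) * (G : Matrix (Fin 3) (Fin 3) F) := by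
        rw [hrel, hdiag, Matrix.smul_mul, Matrix.mul_smul, Matrix.mul_one, Matrix.one_mul]
      have h6 := congrArg (fun M => M * ((G⁻¹ : GL (Fin 3) F) : Matrix (Fin 3) (Fin 3) F)) h5
      simp only [mul_assoc, Units.mul_inv, mul_one] at h6
      exact h6
    apply hns (z⁻¹ * l 0)
    have h5 : (x' : Matrix (Fin 3) (Fin 3) F) = z • (x : Matrix (Fin 3) (Fin 3) F) := by
      show ((sc z' * x : GL (Fin 3) F) : Matrix (Fin 3) (Fin 3) F) = _
      rw [Units.val_mul, coe_sc, Matrix.smul_mul, Matrix.one_mul]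
      rfl
    have h6 : (x : Matrix (Fin 3) (Fin 3) F) = z⁻¹ • (x' : Matrix (Fin 3) (Fin 3) F) := by
      rw [h5, smul_smul, inv_mul_cancel₀ hz0, one_smul]
    rw [h6, hx's, smul_smul]
  -- reordering
  obtain ⟨s, e, hs0, hs1, hs2, he⟩ : ∃ (s : Equiv.Perm (Fin 3)) (e : F), l (s 0) = e ∧ l (s 1) = e ∧ l (s 2) = -e ∧ (e = 1 ∨ e = -1) := by
    have h1ne : (1 : F) ≠ -1 := by
      intro h3
      apply h2
      linear_combination h3
    have s0 : Equiv.swap (1 : Fin 3) 2 0 = 0 := by decide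
    have s1 : Equiv.swap (1 : Fin 3) 2 1 = 2 := by decide
    have s2 : Equiv.swap (1 : Fin 3) 2 2 = 1 := by decide
    have t0 : Equiv.swap (0 : Fin 3) 2 0 = 2 := by decide
    have t1 : Equiv.swap (0 : Fin 3) 2 1 = 1 := by decide
    have t2 : Equiv.swap (0 : Fin 3) 2 2 = 0 := by decide
    rcases hlpm 0 with a0 | a0 <;> rcases hlpm 1 with a1 | a1 <;> rcases hlpm 2 with a2 | a2
    · exact absurd ⟨a1.trans a0.symm, a2.trans a0.symm⟩ hnotall
    · exact ⟨1, 1, by simpa using a0, by simpa using a1, by simpa using a2, Or.inl rfl⟩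
    · exact ⟨Equiv.swap 1 2, 1, by rw [s0]; exact a0, by rw [s1]; exact a2, by rw [s2]; exact a1, Or.inl rfl⟩
    · exact ⟨Equiv.swap 0 2, -1, by rw [t0]; exact a2, by rw [t1]; exact a1, by rw [t2, neg_neg]; exact a0, Or.inr rfl⟩
    · exact ⟨Equiv.swap 0 2, 1, by rw [t0]; exact a2, by rw [t1]; exact a1, by rw [t2]; exact a0, Or.inl rfl⟩
    · exact ⟨Equiv.swap 1 2, -1, by rw [s0]; exact a0, by rw [s1]; exact a2, by rw [s2, neg_neg]; exact a1, Or.inr rfl⟩
    · exact ⟨1, -1, by simpa using a0, by simpa using a1, by simpa using a2, Or.inr rfl⟩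
    · exact absurd ⟨a1.trans a0.symm, a2.trans a0.symm⟩ hnotall
  have he0 : e ≠ 0 := by
    rcases he with rfl | rfl
    · exact one_ne_zero
    · exact neg_ne_zero.mpr one_ne_zero
  let e' : Fˣ := Units.mk0 e he0
  have hind' := hind.comp s s.injective
  let v₀ := u (s 0)
  let v₁ := u (s 1)
  let v₂ := u (s 2)
  have hv₀ : (x' : Matrix (Fin 3) (Fin 3) F) *ᵥ v₀ = e • v₀ := by
    show _ *ᵥ u (s 0) = e • u (s 0)
    rw [hu', hs0]
  have hv₁ : (x' : Matrix (Fin 3) (Fin 3) F) *ᵥ v₁ = e • v₁ := by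
    show _ *ᵥ u (s 1) = e • u (s 1)
    rw [hu', hs1]
  have hv₂ : (x' : Matrix (Fin 3) (Fin 3) F) *ᵥ v₂ = -e • v₂ := by
    show _ *ᵥ u (s 2) = -e • u (s 2)
    rw [hu', hs2]
  let w : Fin 3 → (Fin 3 → F) := ![v₀, v₁ + v₂, v₁ - v₂]
  have hw : LinearIndependent F w := by
    rw [Fintype.linearIndependent_iff]
    intro g hg
    rw [Fin.sum_univ_three] at hg
    have hg' : g 0 • v₀ + (g 1 + g 2) • v₁ + (g 1 - g 2) • v₂ = 0 := by
      have e1 : g 0 • v₀ + g 1 • (v₁ + v₂) + g 2 • (v₁ - v₂) = g 0 • v₀ + (g 1 + g 2) • v₁ + (g 1 - g 2) • v₂ := by module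
      rw [← e1]
      exact hg
    have h3 := Fintype.linearIndependent_iff.mp hind' ![g 0, g 1 + g 2, g 1 - g 2] (by
      rw [Fin.sum_univ_three]
      exact hg')
    have h30 : g 0 = 0 := by simpa using h3 0
    have h31 : g 1 + g 2 = 0 := by simpa using h3 1
    have h32 : g 1 - g 2 = 0 := by simpa using h3 2
    have h33 : (2 : F) * g 1 = 0 := by linear_combination h31 + h32
    have h34 : g 1 = 0 := (mul_eq_zero.mp h33).resolve_left h2
    have h35 : g 2 = 0 := by linear_combination h31 - h34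
    intro i
    fin_cases i
    · exact h30
    · exact h34
    · exact h35
  obtain ⟨G, hG⟩ := gl_of_indep hw
  have hPe : ∀ i : Fin 3, ((sc e' * Pg : GL (Fin 3) F) : Matrix (Fin 3) (Fin 3) F) *ᵥ (Pi.single i 1) = e • (Pi.single (![0, 2, 1] i) 1 : Fin 3 → F) := by
    intro i
    rw [Units.val_mul, coe_sc, coe_Pg]
    funext j
    fin_cases i <;> fin_cases j <;> simp [Matrix.mulVec, dotProduct, Fin.sum_univ_three, Matrix.smul_apply, e']
  have hrel : x' * G = G * (sc e' * Pg) := by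
    apply rel_of_cols
    intro i
    rw [hG, hPe, Matrix.mulVec_smul, hG]
    fin_cases i
    · exact hv₀
    · show (x' : Matrix (Fin 3) (Fin 3) F) *ᵥ (v₁ + v₂) = e • (v₁ - v₂)
      rw [Matrix.mulVec_add, hv₁, hv₂, smul_sub, neg_smul, sub_eq_add_neg]
    · show (x' : Matrix (Fin 3) (Fin 3) F) *ᵥ (v₁ - v₂) = e • (v₁ + v₂)
      rw [Matrix.mulVec_sub, hv₁, hv₂, smul_add, neg_smul, sub_neg_eq_add]
  have hxy : x * G = G * (sc (z'⁻¹ * e') * Pg) := by
    have e1 : x = sc z'⁻¹ * x' := by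
      show x = sc z'⁻¹ * (sc z' * x)
      rw [← mul_assoc, sc_mul, inv_mul_cancel, sc_one, one_mul]
    rw [e1, mul_assoc, hrel, ← mul_assoc (sc z'⁻¹), sc_comm, mul_assoc, ← mul_assoc (sc z'⁻¹), sc_mul]
  refine conj_fix (h := h) hxy ?_ ?_
  · intro d
    have e1 : (Pg : GL (Fin 3) F) * Eg d 1 1 = Eg d 1 1 * Pg := Pg_Eg d 1 1
    rw [← mul_assoc, ← sc_comm, mul_assoc, mul_assoc, e1]
  · have e1 : h * (sc (z'⁻¹ * e') * Pg) * h⁻¹ = sc (z'⁻¹ * e') * (h * Pg * h⁻¹) := by
      rw [← mul_assoc, ← sc_comm]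
      group
    rw [e1]
    exact Subgroup.mul_mem _ (hn.norm_sc _) hn.norm_P

end Cfsg.Agent.Lib.ClassMax.Hessian
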