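import Mathlib
import Cfsg.Prelude.Def_LieClassical
import Cfsg.Agent.Lib.ClassMax.Hessian2
import Cfsg.Agent.Lib.KnownSimple.HermNormal
import Cfsg.Agent.Lib.Classical.SUOrder

/-!
The unitary version: orthonormal bases of eigenvectors, normal form with a unitary change of basis, and conjugates in `SU_3`.
-/

set_option autoImplicit false
set_option linter.unusedSimpArgs false
set_option linter.unusedVariables false
set_option linter.unusedSectionVars false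

namespace Cfsg.Agent.Lib.ClassMax.Hessian

open Matrix Cfsg.Agent.Lib.Classical Cfsg.Agent.Lib.KnownSimple

variable {F : Type*} [Field F] [Fintype F] {q : ℕ}

/-- The norm map is onto the fixed field. -/
theorem exists_norm (hF : Fintype.card F = q ^ 2) (hq : 2 ≤ q) {t : F} (ht0 : t ≠ 0) (ht : t ^ q = t) : ∃ l : F, l ^ (q + 1) = t := by
  classical
  obtain ⟨ω, hω⟩ := IsCyclic.exists_generator (α := Fˣ)
  have hord : orderOf ω = q ^ 2 - 1 := by
    rw [orderOf_eq_card_of_forall_mem_zpowers hω, Nat.card_eq_fintype_card, Fintype.card_units, hF]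
  have hq2 : q ^ 2 - 1 = (q - 1) * (q + 1) := by
    obtain ⟨k, rfl⟩ : ∃ k, q = k + 1 := ⟨q - 1, by omega⟩
    simp only [Nat.add_sub_cancel]
    have : (k + 1) ^ 2 = k * (k + 1 + 1) + 1 := by ring
    omega
  have hpow : (Units.mk0 t ht0) ^ (q - 1) = 1 := by
    apply Units.ext
    simp only [Units.val_pow_eq_pow_val, Units.val_mk0, Units.val_one]
    have : t ^ (q - 1) * t = t := by
      rw [← pow_succ, Nat.sub_add_cancel (by omega), ht]
    exact mul_right_cancel₀ ht0 (this.trans (one_mul t).symm)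
  obtain ⟨k, hk⟩ : ∃ k : ℕ, ω ^ k = Units.mk0 t ht0 := by
    have : Units.mk0 t ht0 ∈ Submonoid.powers ω := by
      rw [mem_powers_iff_mem_zpowers]
      exact hω _
    exact this
  have hdvd : orderOf ω ∣ k * (q - 1) := by
    rw [orderOf_dvd_iff_pow_eq_one, pow_mul, hk, hpow]
  rw [hord, hq2, mul_comm k] at hdvd
  have hdvd' : q + 1 ∣ k := Nat.dvd_of_mul_dvd_mul_left (by omega) hdvd
  obtain ⟨k', rfl⟩ := hdvd'
  refine ⟨((ω ^ k' : Fˣ) : F), ?_⟩
  have : (ω ^ k') ^ (q + 1) = Units.mk0 t ht0 := by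
    rw [← pow_mul, mul_comm]
    exact hk
  have h2 := congrArg Units.val this
  simpa using h2

/-- The field facts in odd characteristic. -/
theorem hermField_odd (hF : Fintype.card F = q ^ 2) (h2 : (2 : F) ≠ 0) : HermField q F := by
  have hq := two_le_q hF
  refine ⟨by omega, fun a b => ?_, fun a => ?_, fun t ht0 ht => exists_norm hF hq ht0 ht, ⟨1, ?_⟩⟩
  · have := (frobQ hF).map_add a b
    simpa [frobQ_apply] using this
  · rw [← pow_mul, ← pow_two, ← hF, FiniteField.pow_card]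
  · rw [one_pow]
    norm_num
    exact h2

theorem isHerm_std (hF : Fintype.card F = q ^ 2) : IsHerm q (Cfsg.hermForm 3 F q) where
  add_left := herm_add_left
  smul_left := herm_smul_left
  swap := fun u v => herm_conj hF u v


section eig

/-- Eigenvectors inside an invariant subspace, order three. -/
theorem eig_three_sub {ω : F} (h1 : ω ^ 2 + ω + 1 = 0) (h2 : ω ≠ 1) {X : Module.End F (Fin 3 → F)} (hX : ∀ v, X (X (X v)) = v)
    {W : Submodule F (Fin 3 → F)} (hW : ∀ w ∈ W, X w ∈ W) {v : Fin 3 → F} (hv : v ∈ W) :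
    v ∈ Submodule.span F {w | w ∈ W ∧ ∃ l : F, l ^ 3 = 1 ∧ X w = l • w} := by
  have h3 : (3 : F) ≠ 0 := by
    intro h
    apply h2
    have : (ω - 1) ^ 2 = 0 := by linear_combination h1 - ω * h
    have := pow_eq_zero_iff (two_ne_zero) |>.mp this
    exact sub_eq_zero.mp this
  have hc : ω ^ 3 = 1 := by linear_combination (ω - 1) * h1
  have hv1 := hW v hv
  have hv2 := hW _ hv1
  have hv' : v = (3 : F)⁻¹ • ((v + X v + X (X v)) + (v + ω ^ 2 • X v + ω • X (X v)) + (v + ω • X v + ω ^ 2 • X (X v))) := by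
    have e : (v + X v + X (X v)) + (v + ω ^ 2 • X v + ω • X (X v)) + (v + ω • X v + ω ^ 2 • X (X v)) = (3 : F) • v := by
      have e1 : (v + X v + X (X v)) + (v + ω ^ 2 • X v + ω • X (X v)) + (v + ω • X v + ω ^ 2 • X (X v)) = (3 : F) • v + (ω ^ 2 + ω + 1) • X v + (ω ^ 2 + ω + 1) • X (X v) := by module
      rw [e1, h1, zero_smul, zero_smul, add_zero, add_zero]
    rw [e, smul_smul, inv_mul_cancel₀ h3, one_smul]
  rw [hv']
  apply Submodule.smul_mem
  apply Submodule.add_mem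
  · apply Submodule.add_mem
    · apply Submodule.subset_span
      refine ⟨W.add_mem (W.add_mem hv hv1) hv2, 1, by ring, ?_⟩
      simp only [map_add, hX, one_smul]
      abel
    · apply Submodule.subset_span
      refine ⟨W.add_mem (W.add_mem hv (W.smul_mem _ hv1)) (W.smul_mem _ hv2), ω, hc, ?_⟩
      simp only [map_add, map_smul, hX]
      have : ω • (v + ω ^ 2 • X v + ω • X (X v)) = ω • v + (ω ^ 3) • X v + ω ^ 2 • X (X v) := by module
      rw [this, hc, one_smul]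
      abel
  · apply Submodule.subset_span
    refine ⟨W.add_mem (W.add_mem hv (W.smul_mem _ hv1)) (W.smul_mem _ hv2), ω ^ 2, by rw [← pow_mul, mul_comm, pow_mul, hc, one_pow], ?_⟩
    simp only [map_add, map_smul, hX]
    have : ω ^ 2 • (v + ω • X v + ω ^ 2 • X (X v)) = ω ^ 2 • v + (ω ^ 3) • X v + (ω ^ 3 * ω) • X (X v) := by module
    rw [this, hc, one_smul, one_mul]
    abel

/-- Eigenvectors inside an invariant subspace, order two. -/
theorem eig_two_sub (h2 : (2 : F) ≠ 0) {X : Module.End F (Fin 3 → F)} (hX : ∀ v, X (X v) = v)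
    {W : Submodule F (Fin 3 → F)} (hW : ∀ w ∈ W, X w ∈ W) {v : Fin 3 → F} (hv : v ∈ W) :
    v ∈ Submodule.span F {w | w ∈ W ∧ ∃ l : F, l ^ 2 = 1 ∧ X w = l • w} := by
  have hv1 := hW v hv
  have hv' : v = (2 : F)⁻¹ • ((v + X v) + (v - X v)) := by
    have e : (v + X v) + (v - X v) = (2 : F) • v := by module
    rw [e, smul_smul, inv_mul_cancel₀ h2, one_smul]
  rw [hv']
  apply Submodule.smul_mem
  apply Submodule.add_mem
  · apply Submodule.subset_span
    refine ⟨W.add_mem hv hv1, 1, by ring, ?_⟩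
    simp only [map_add, hX, one_smul]
    abel
  · apply Submodule.subset_span
    refine ⟨W.sub_mem hv hv1, -1, by ring, ?_⟩
    simp only [map_sub, hX]
    module

end eig

section orth

variable {T : Module.End F (Fin 3 → F)} {P : F → Prop}

/-- An eigenvector of norm one in a non-degenerate invariant subspace. -/
theorem orth_step (hF : Fintype.card F = q ^ 2) (h2 : (2 : F) ≠ 0) (hiso : ∀ u v, Cfsg.hermForm 3 F q (T u) (T v) = Cfsg.hermForm 3 F q u v)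
    (hP1 : ∀ l, P l → l ≠ 0) (hP2 : ∀ l l', P l → P l' → l * l' ^ q = 1 → l = l')
    (hsplit : ∀ W : Submodule F (Fin 3 → F), (∀ w ∈ W, T w ∈ W) → ∀ v ∈ W, v ∈ Submodule.span F {w | w ∈ W ∧ ∃ l, P l ∧ T w = l • w})
    {W : Submodule F (Fin 3 → F)} (hinv : ∀ w ∈ W, T w ∈ W) (hnd : ∀ u ∈ W, u ≠ 0 → ∃ v ∈ W, Cfsg.hermForm 3 F q u v ≠ 0) (hW : W ≠ ⊥) :
    ∃ c ∈ W, Cfsg.hermForm 3 F q c c = 1 ∧ ∃ l, P l ∧ T c = l • c := by
  have hh := isHerm_std hF
  have hf := hermField_odd hF h2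
  -- a non-zero eigenvector
  obtain ⟨w₀, hw₀, hw₀ne⟩ := (Submodule.ne_bot_iff W).mp hW
  obtain ⟨e, ⟨heW, l, hl, hTe⟩, hene⟩ : ∃ e ∈ {w | w ∈ W ∧ ∃ l, P l ∧ T w = l • w}, e ≠ 0 := by
    by_contra hcon
    push Not at hcon
    apply hw₀ne
    have h3 := hsplit W hinv w₀ hw₀
    have h4 : Submodule.span F {w | w ∈ W ∧ ∃ l, P l ∧ T w = l • w} ≤ ⊥ := by
      rw [Submodule.span_le]
      intro w hw
      exact hcon w hw
    simpa using h4 h3
  obtain ⟨v, hv, hev⟩ := hnd e heW hene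
  -- a component of `v` not orthogonal to `e`
  obtain ⟨s, ⟨hsW, l', hl', hTs⟩, hse⟩ : ∃ s ∈ {w | w ∈ W ∧ ∃ l, P l ∧ T w = l • w}, Cfsg.hermForm 3 F q s e ≠ 0 := by
    by_contra hcon
    push Not at hcon
    have h3 := hsplit W hinv v hv
    have h4 : Submodule.span F {w | w ∈ W ∧ ∃ l, P l ∧ T w = l • w} ≤ LinearMap.ker (hh.lin e) := by
      rw [Submodule.span_le]
      intro w hw
      exact hcon w hw
    have h5 : Cfsg.hermForm 3 F q v e = 0 := h4 h3
    apply hev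
    rw [herm_conj hF v e, h5, zero_pow (by have := two_le_q hF; omega)]
  have hll' : l' = l := by
    have h3 := hiso s e
    rw [hTs, hTe, herm_smul_left, herm_smul_right] at h3
    have h4 : (l' * l ^ q - 1) * Cfsg.hermForm 3 F q s e = 0 := by linear_combination h3
    have h5 := (mul_eq_zero.mp h4).resolve_right hse
    exact hP2 l' l hl' hl (sub_eq_zero.mp h5)
  subst hll'
  -- polarisation in the eigenspace
  let E : Submodule F (Fin 3 → F) :=
    { carrier := {w | w ∈ W ∧ T w = l' • w}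
      add_mem' := by
        rintro a b ⟨ha, ha'⟩ ⟨hb, hb'⟩
        exact ⟨W.add_mem ha hb, by rw [map_add, ha', hb', smul_add]⟩
      zero_mem' := ⟨W.zero_mem, by simp⟩
      smul_mem' := by
        rintro c a ⟨ha, ha'⟩
        exact ⟨W.smul_mem _ ha, by rw [map_smul, ha', smul_comm]⟩ }
  have hhE := hh.restrict E
  obtain ⟨w, hw⟩ := hhE.exists_diag hf (u := ⟨s, hsW, hTs⟩) (v := ⟨e, heW, hTe⟩) hse
  have hwE := w.2
  have hw' : Cfsg.hermForm 3 F q (w : Fin 3 → F) w ≠ 0 := hw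
  have hfix : (Cfsg.hermForm 3 F q (w : Fin 3 → F) w)⁻¹ ^ q = (Cfsg.hermForm 3 F q (w : Fin 3 → F) w)⁻¹ := by
    rw [inv_pow, ← herm_conj hF]
  obtain ⟨a, ha⟩ := hf.norm _ (inv_ne_zero hw') hfix
  refine ⟨a • (w : Fin 3 → F), W.smul_mem _ hwE.1, ?_, l', hl', ?_⟩
  · rw [herm_smul_left, herm_smul_right]
    calc a * (a ^ q * Cfsg.hermForm 3 F q (w : Fin 3 → F) w) = a ^ (q + 1) * Cfsg.hermForm 3 F q (w : Fin 3 → F) w := by ring
      _ = 1 := by rw [ha, inv_mul_cancel₀ hw']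
  · rw [map_smul, hwE.2, smul_comm]

/-- The orthogonal complement of a vector of norm one inside a non-degenerate invariant subspace. -/
theorem orth_perp (hF : Fintype.card F = q ^ 2) (hiso : ∀ u v, Cfsg.hermForm 3 F q (T u) (T v) = Cfsg.hermForm 3 F q u v)
    {W : Submodule F (Fin 3 → F)} (hinv : ∀ w ∈ W, T w ∈ W) (hnd : ∀ u ∈ W, u ≠ 0 → ∃ v ∈ W, Cfsg.hermForm 3 F q u v ≠ 0)
    {c : Fin 3 → F} (hc : c ∈ W) (hcc : Cfsg.hermForm 3 F q c c = 1) {l : F} (hl : l ≠ 0) (hTc : T c = l • c) :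
    (∀ w ∈ W ⊓ LinearMap.ker ((isHerm_std hF).lin c), T w ∈ W ⊓ LinearMap.ker ((isHerm_std hF).lin c)) ∧
    (∀ u ∈ W ⊓ LinearMap.ker ((isHerm_std hF).lin c), u ≠ 0 → ∃ v ∈ W ⊓ LinearMap.ker ((isHerm_std hF).lin c), Cfsg.hermForm 3 F q u v ≠ 0) := by
  have hq0 : q ≠ 0 := by
    have := two_le_q hF
    omega
  have hker : ∀ w, w ∈ LinearMap.ker ((isHerm_std hF).lin c) ↔ Cfsg.hermForm 3 F q w c = 0 := fun w => Iff.rfl
  constructor
  · rintro w ⟨hw, hw'⟩
    refine ⟨hinv w hw, (hker _).2 ?_⟩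
    have h3 := hiso w c
    rw [hTc, herm_smul_right, (hker _).1 hw'] at h3
    exact (mul_eq_zero.mp h3).resolve_left (pow_ne_zero _ hl)
  · rintro u ⟨hu, hu'⟩ hu0
    obtain ⟨v, hv, huv⟩ := hnd u hu hu0
    have e1 : v + (-(Cfsg.hermForm 3 F q v c)) • c = v - (Cfsg.hermForm 3 F q v c) • c := by
      rw [neg_smul, sub_eq_add_neg]
    refine ⟨v + (-(Cfsg.hermForm 3 F q v c)) • c, ⟨W.add_mem hv (W.smul_mem _ hc), (hker _).2 ?_⟩, ?_⟩
    · rw [herm_add_left, herm_smul_left, hcc]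
      ring
    · rw [herm_add_right hF, herm_smul_right, (hker _).1 hu', mul_zero, add_zero]
      exact huv

/-- An orthonormal basis of eigenvectors. -/
theorem exists_orth_eig (hF : Fintype.card F = q ^ 2) (h2 : (2 : F) ≠ 0) (hiso : ∀ u v, Cfsg.hermForm 3 F q (T u) (T v) = Cfsg.hermForm 3 F q u v)
    (hP1 : ∀ l, P l → l ≠ 0) (hP2 : ∀ l l', P l → P l' → l * l' ^ q = 1 → l = l')
    (hsplit : ∀ W : Submodule F (Fin 3 → F), (∀ w ∈ W, T w ∈ W) → ∀ v ∈ W, v ∈ Submodule.span F {w | w ∈ W ∧ ∃ l, P l ∧ T w = l • w}) :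
    ∃ (c : Fin 3 → (Fin 3 → F)) (l : Fin 3 → F), (∀ i j, Cfsg.hermForm 3 F q (c i) (c j) = if i = j then 1 else 0) ∧ (∀ i, P (l i)) ∧ ∀ i, T (c i) = l i • c i := by
  have hq0 : q ≠ 0 := by
    have := two_le_q hF
    omega
  have hndtop : ∀ u ∈ (⊤ : Submodule F (Fin 3 → F)), u ≠ 0 → ∃ v ∈ (⊤ : Submodule F (Fin 3 → F)), Cfsg.hermForm 3 F q u v ≠ 0 := by
    intro u _ hu
    by_contra hcon
    push Not at hcon
    exact hu (herm_nondeg_right hF (fun v => hcon v trivial))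
  -- a common orthogonal vector
  have hperp : ∀ a b : Fin 3 → F, ∃ v : Fin 3 → F, v ≠ 0 ∧ Cfsg.hermForm 3 F q v a = 0 ∧ Cfsg.hermForm 3 F q v b = 0 := by
    intro a b
    let φ : (Fin 3 → F) →ₗ[F] (F × F) := ((isHerm_std hF).lin a).prod ((isHerm_std hF).lin b)
    have h3 : Module.finrank F (F × F) < Module.finrank F (Fin 3 → F) := by
      simp
    obtain ⟨v, hv, hv0⟩ := (Submodule.ne_bot_iff _).mp (LinearMap.ker_ne_bot_of_finrank_lt (f := φ) h3)
    refine ⟨v, hv0, ?_, ?_⟩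
    · have := congrArg Prod.fst (LinearMap.mem_ker.mp hv)
      exact this
    · have := congrArg Prod.snd (LinearMap.mem_ker.mp hv)
      exact this
  obtain ⟨c₀, -, hc₀, l₀, hl₀, hT₀⟩ := orth_step hF h2 hiso hP1 hP2 hsplit (W := ⊤) (fun _ _ => trivial) hndtop (by
    rw [Submodule.ne_bot_iff]
    exact ⟨Pi.single 0 1, trivial, by
      intro h
      have := congrFun h 0
      simp at this⟩)
  have hl₀0 := hP1 _ hl₀
  obtain ⟨hinv₁, hnd₁⟩ := orth_perp hF hiso (W := ⊤) (fun _ _ => trivial) hndtop trivial hc₀ hl₀0 hT₀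
  set W₁ := (⊤ : Submodule F (Fin 3 → F)) ⊓ LinearMap.ker ((isHerm_std hF).lin c₀) with hW₁
  have hW₁mem : ∀ w, w ∈ W₁ ↔ Cfsg.hermForm 3 F q w c₀ = 0 := by
    intro w
    constructor
    · intro h
      exact h.2
    · intro h
      exact ⟨trivial, h⟩
  have hW₁ne : W₁ ≠ ⊥ := by
    obtain ⟨v, hv0, hv1, -⟩ := hperp c₀ c₀
    rw [Submodule.ne_bot_iff]
    exact ⟨v, (hW₁mem v).2 hv1, hv0⟩
  obtain ⟨c₁, hc₁W, hc₁, l₁, hl₁, hT₁⟩ := orth_step hF h2 hiso hP1 hP2 hsplit hinv₁ hnd₁ hW₁ne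
  have hl₁0 := hP1 _ hl₁
  obtain ⟨hinv₂, hnd₂⟩ := orth_perp hF hiso hinv₁ hnd₁ hc₁W hc₁ hl₁0 hT₁
  set W₂ := W₁ ⊓ LinearMap.ker ((isHerm_std hF).lin c₁) with hW₂
  have hW₂mem : ∀ w, w ∈ W₂ ↔ Cfsg.hermForm 3 F q w c₀ = 0 ∧ Cfsg.hermForm 3 F q w c₁ = 0 := by
    intro w
    constructor
    · intro h
      exact ⟨(hW₁mem w).1 h.1, h.2⟩
    · rintro ⟨h3, h4⟩
      exact ⟨(hW₁mem w).2 h3, h4⟩
  have hW₂ne : W₂ ≠ ⊥ := by
    obtain ⟨v, hv0, hv1, hv2⟩ := hperp c₀ c₁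
    rw [Submodule.ne_bot_iff]
    exact ⟨v, (hW₂mem v).2 ⟨hv1, hv2⟩, hv0⟩
  obtain ⟨c₂, hc₂W, hc₂, l₂, hl₂, hT₂⟩ := orth_step hF h2 hiso hP1 hP2 hsplit hinv₂ hnd₂ hW₂ne
  have h10 := (hW₁mem c₁).1 hc₁W
  obtain ⟨h20, h21⟩ := (hW₂mem c₂).1 hc₂W
  have hswap : ∀ a b : Fin 3 → F, Cfsg.hermForm 3 F q a b = 0 → Cfsg.hermForm 3 F q b a = 0 := by
    intro a b hab
    rw [herm_conj hF a b, hab, zero_pow hq0]
  refine ⟨![c₀, c₁, c₂], ![l₀, l₁, l₂], ?_, ?_, ?_⟩
  · intro i j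
    fin_cases i <;> fin_cases j <;> simp only [Fin.zero_eta, Fin.mk_one, Fin.reduceFinMk, Matrix.cons_val] <;>
      simp [hc₀, hc₁, hc₂, h10, h20, h21, hswap _ _ h10, hswap _ _ h20, hswap _ _ h21]
  · intro i
    fin_cases i
    · exact hl₀
    · exact hl₁
    · exact hl₂
  · intro i
    fin_cases i
    · exact hT₀
    · exact hT₁
    · exact hT₂

end orth

/-- A matrix with orthonormal columns is unitary. -/
theorem mem_gu_of_cols (hF : Fintype.card F = q ^ 2) {G : GL (Fin 3) F}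
    (hG : ∀ i j, Cfsg.hermForm 3 F q ((G : Matrix (Fin 3) (Fin 3) F) *ᵥ (Pi.single i 1)) ((G : Matrix (Fin 3) (Fin 3) F) *ᵥ (Pi.single j 1)) = if i = j then 1 else 0) :
    G ∈ Cfsg.GU 3 F q := by
  have he : ∀ u : Fin 3 → F, u = u 0 • Pi.single 0 1 + u 1 • Pi.single 1 1 + u 2 • Pi.single 2 1 := by
    intro u
    funext j
    fin_cases j <;> simp
  intro u v
  change Cfsg.hermForm 3 F q ((G : Matrix (Fin 3) (Fin 3) F) *ᵥ u) ((G : Matrix (Fin 3) (Fin 3) F) *ᵥ v) = _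
  conv_lhs => rw [he u, he v]
  simp only [Matrix.mulVec_add, Matrix.mulVec_smul, herm_add_left, herm_add_right hF, herm_smul_left, herm_smul_right, hG]
  rw [herm_apply, Fin.sum_univ_three]
  simp
  ring

/-- An orthonormal family gives a unitary matrix. -/
theorem gl_of_orth (hF : Fintype.card F = q ^ 2) {c : Fin 3 → (Fin 3 → F)} (hc : ∀ i j, Cfsg.hermForm 3 F q (c i) (c j) = if i = j then 1 else 0) :
    ∃ G : GL (Fin 3) F, G ∈ Cfsg.GU 3 F q ∧ ∀ i, (G : Matrix (Fin 3) (Fin 3) F) *ᵥ (Pi.single i 1) = c i := by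
  have hind : LinearIndependent F c := by
    rw [Fintype.linearIndependent_iff]
    intro g hg j
    have h3 := congrArg (fun w => Cfsg.hermForm 3 F q w (c j)) hg
    simp only [Fin.sum_univ_three, herm_add_left, herm_smul_left, hc] at h3
    have h0 : Cfsg.hermForm 3 F q (0 : Fin 3 → F) (c j) = 0 := by
      have := herm_smul_left (q := q) (0 : F) (0 : Fin 3 → F) (c j)
      simpa using this
    rw [h0] at h3
    fin_cases j <;> simpa using h3
  obtain ⟨G, hG⟩ := gl_of_indep hind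
  refine ⟨G, mem_gu_of_cols hF (fun i j => ?_), hG⟩
  rw [hG, hG, hc]

/-- An element of the unitary group has determinant of norm one. -/
theorem eg_mem_gu (hF : Fintype.card F = q ^ 2) {d : Fˣ} (hd : (d : F) ^ (q + 1) = 1) : (Eg d 1 1 : GL (Fin 3) F) ∈ Cfsg.GU 3 F q := by
  intro u v
  change Cfsg.hermForm 3 F q (((Eg d 1 1 : GL (Fin 3) F) : Matrix (Fin 3) (Fin 3) F) *ᵥ u) (((Eg d 1 1 : GL (Fin 3) F) : Matrix (Fin 3) (Fin 3) F) *ᵥ v) = _
  rw [herm_apply, herm_apply, Fin.sum_univ_three, Fin.sum_univ_three, Eg_mulVec, Eg_mulVec, Eg_mulVec, Eg_mulVec, Eg_mulVec, Eg_mulVec]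
  simp only [Matrix.cons_val, mul_pow, Units.val_one, one_mul, one_pow]
  have : (d : F) * u 0 * ((d : F) ^ q * v 0 ^ q) = (d : F) ^ (q + 1) * (u 0 * v 0 ^ q) := by ring
  rw [this, hd, one_mul]

/-- Conjugation inside the special unitary group. -/
theorem conj_fix_u (hF : Fintype.card F = q ^ 2) {R : Subgroup (GL (Fin 3) F)} {x h G y₀ : GL (Fin 3) F} (hh : h ∈ Cfsg.GU 3 F q) (hG : G ∈ Cfsg.GU 3 F q) (hxy : x * G = G * y₀)
    (hτ : ∀ d : Fˣ, Eg d 1 1 * y₀ = y₀ * Eg d 1 1)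
    (hy₀ : h * y₀ * h⁻¹ ∈ Subgroup.normalizer (R : Set (GL (Fin 3) F))) :
    ∃ g ∈ Cfsg.GU 3 F q ⊓ Cfsg.Geo.specialLinear (Fin 3) F, g⁻¹ * x * g ∈ Subgroup.normalizer (R : Set (GL (Fin 3) F)) := by
  set d : Fˣ := GeneralLinearGroup.det h * (GeneralLinearGroup.det G)⁻¹ with hd
  have hdh : ((GeneralLinearGroup.det h : Fˣ) : F) ^ (q + 1) = 1 := gu_det_norm hF _ hh
  have hdG : ((GeneralLinearGroup.det G : Fˣ) : F) ^ (q + 1) = 1 := gu_det_norm hF _ hG
  have hdd : (d : F) ^ (q + 1) = 1 := by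
    have h3 : d ^ (q + 1) = 1 := by
      have h4 : GeneralLinearGroup.det h ^ (q + 1) = 1 := Units.ext (by simpa using hdh)
      have h5 : GeneralLinearGroup.det G ^ (q + 1) = 1 := Units.ext (by simpa using hdG)
      rw [hd, mul_pow, inv_pow, h4, h5]
      simp
    have := congrArg Units.val h3
    simpa using this
  refine ⟨G * Eg d 1 1 * h⁻¹, ⟨Subgroup.mul_mem _ (Subgroup.mul_mem _ hG (eg_mem_gu hF hdd)) (Subgroup.inv_mem _ hh), ?_⟩, ?_⟩
  · show GeneralLinearGroup.det (G * Eg d 1 1 * h⁻¹) = 1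
    rw [map_mul, map_mul, map_inv, det_Eg, mul_one, mul_one, hd]
    have : ∀ a b : Fˣ, a * (b * a⁻¹) * b⁻¹ = 1 := by
      intro a b
      rw [mul_comm b, ← mul_assoc, mul_inv_cancel, one_mul, mul_inv_cancel]
    exact this _ _
  · have e1 : G⁻¹ * x * G = y₀ := by
      rw [mul_assoc, hxy, inv_mul_cancel_left]
    have e2 : (Eg d 1 1 : GL (Fin 3) F)⁻¹ * y₀ * Eg d 1 1 = y₀ := by
      rw [mul_assoc, ← hτ, inv_mul_cancel_left]
    have e : (G * Eg d 1 1 * h⁻¹)⁻¹ * x * (G * Eg d 1 1 * h⁻¹) = h * ((Eg d 1 1 : GL (Fin 3) F)⁻¹ * (G⁻¹ * x * G) * Eg d 1 1) * h⁻¹ := by group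
    rw [e, e1, e2]
    exact hy₀



theorem sc_mem_gu (hF : Fintype.card F = q ^ 2) {t : Fˣ} (ht : (t : F) ^ (q + 1) = 1) : (sc t : GL (Fin 3) F) ∈ Cfsg.GU 3 F q := by
  intro u v
  change Cfsg.hermForm 3 F q (((sc t : GL (Fin 3) F) : Matrix (Fin 3) (Fin 3) F) *ᵥ u) (((sc t : GL (Fin 3) F) : Matrix (Fin 3) (Fin 3) F) *ᵥ v) = _
  rw [coe_sc, Matrix.smul_mulVec, Matrix.smul_mulVec, Matrix.one_mulVec, Matrix.one_mulVec, herm_smul_left, herm_smul_right, ← mul_assoc, ← pow_succ', ht, one_mul]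

theorem Eg_single (a b c : Fˣ) (i : Fin 3) : ((Eg a b c : GL (Fin 3) F) : Matrix (Fin 3) (Fin 3) F) *ᵥ (Pi.single i 1) = (![(a : F), (b : F), (c : F)] i) • (Pi.single i 1 : Fin 3 → F) := by
  rw [coe_Eg]
  funext j
  fin_cases i <;> fin_cases j <;> simp [Matrix.mulVec, dotProduct, Fin.sum_univ_three]

theorem Cg_single (i : Fin 3) : ((Cg : GL (Fin 3) F) : Matrix (Fin 3) (Fin 3) F) *ᵥ (Pi.single i 1) = (Pi.single (i + 1) 1 : Fin 3 → F) := by
  rw [coe_Cg]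
  funext j
  fin_cases i <;> fin_cases j <;> simp [Matrix.mulVec, dotProduct, Fin.sum_univ_three]

set_option maxHeartbeats 2000000 in
/-- The normal form can be taken with a unitary change of basis. -/
theorem NF.exists_unitary (hF : Fintype.card F = q ^ 2) (h2 : (2 : F) ≠ 0) (hq3 : q % 3 = 2) {R : Subgroup (GL (Fin 3) F)} {ω : Fˣ} {h : GL (Fin 3) F} (hn : NF R ω h)
    (hRU : R ≤ Cfsg.GU 3 F q) : ∃ h', NF R ω h' ∧ h' ∈ Cfsg.GU 3 F q := by
  have hq0 : q ≠ 0 := by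
    have := two_le_q hF
    omega
  set u : Fin 3 → (Fin 3 → F) := fun i => (h : Matrix (Fin 3) (Fin 3) F) *ᵥ (Pi.single i 1) with hu
  have hω3 : (ω : F) ^ 3 = 1 := by linear_combination ((ω : F) - 1) * hn.w1
  set l : Fin 3 → F := ![1, (ω : F), (ω : F) ^ 2] with hl
  have hl3 : ∀ i, l i ^ 3 = 1 := by
    intro i
    fin_cases i
    · show (1 : F) ^ 3 = 1
      norm_num
    · exact hω3
    · show ((ω : F) ^ 2) ^ 3 = 1
      rw [← pow_mul, mul_comm, pow_mul, hω3, one_pow]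
  have hlq : ∀ i, l i ^ q = l i ^ 2 := by
    intro i
    obtain ⟨k, hk⟩ : ∃ k, q = 3 * k + 2 := ⟨q / 3, by omega⟩
    rw [hk, pow_add, pow_mul, hl3, one_pow, one_mul]
  have hinj : Function.Injective l := by
    have hω1 := hn.w2
    have hω2 : (ω : F) ^ 2 ≠ 1 := by
      intro h
      apply hω1
      linear_combination hω3 - (ω : F) * h
    have hne12 : (ω : F) ≠ (ω : F) ^ 2 := by
      intro h
      apply hω1
      have hω0 : (ω : F) ≠ 0 := ω.ne_zero
      have h4 : (ω : F) * ((ω : F) - 1) = 0 := by linear_combination -h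
      have h5 := (mul_eq_zero.mp h4).resolve_left hω0
      exact sub_eq_zero.mp h5
    intro i j h3
    have e0 : l 0 = 1 := by simp [hl]
    have e1 : l 1 = ω := by simp [hl]
    have e2 : l 2 = (ω : F) ^ 2 := by simp [hl]
    fin_cases i <;> fin_cases j <;> first | rfl | (exfalso; simp only [Fin.zero_eta, Fin.mk_one, Fin.reduceFinMk, e0, e1, e2] at h3; first | exact hω1 h3.symm | exact hω2 h3.symm | exact hω1 h3 | exact hne12 h3 | exact hω2 h3 | exact hne12 h3.symm)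
  have hg₁ : ∀ i, ((h * Eg 1 ω (ω ^ 2) * h⁻¹ : GL (Fin 3) F) : Matrix (Fin 3) (Fin 3) F) *ᵥ u i = l i • u i := by
    intro i
    have e : ((h * Eg 1 ω (ω ^ 2) * h⁻¹ : GL (Fin 3) F) : Matrix (Fin 3) (Fin 3) F) *ᵥ u i = (h : Matrix (Fin 3) (Fin 3) F) *ᵥ (((Eg 1 ω (ω ^ 2) : GL (Fin 3) F) : Matrix (Fin 3) (Fin 3) F) *ᵥ (Pi.single i 1)) := by
      rw [hu]
      simp only [Matrix.mulVec_mulVec, ← Units.val_mul]
      congr 2
      group
    rw [e, Eg_single, Matrix.mulVec_smul]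
    congr 1
  have hg₂ : ∀ i, ((h * Cg * h⁻¹ : GL (Fin 3) F) : Matrix (Fin 3) (Fin 3) F) *ᵥ u i = u (i + 1) := by
    intro i
    have e : ((h * Cg * h⁻¹ : GL (Fin 3) F) : Matrix (Fin 3) (Fin 3) F) *ᵥ u i = (h : Matrix (Fin 3) (Fin 3) F) *ᵥ (((Cg : GL (Fin 3) F) : Matrix (Fin 3) (Fin 3) F) *ᵥ (Pi.single i 1)) := by
      rw [hu]
      simp only [Matrix.mulVec_mulVec, ← Units.val_mul]
      congr 2
      group
    rw [e, Cg_single]
  have hiso₁ : ∀ a b, Cfsg.hermForm 3 F q (((h * Eg 1 ω (ω ^ 2) * h⁻¹ : GL (Fin 3) F) : Matrix (Fin 3) (Fin 3) F) *ᵥ a) (((h * Eg 1 ω (ω ^ 2) * h⁻¹ : GL (Fin 3) F) : Matrix (Fin 3) (Fin 3) F) *ᵥ b) = Cfsg.hermForm 3 F q a b :=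
    hRU hn.d_mem
  have hiso₂ : ∀ a b, Cfsg.hermForm 3 F q (((h * Cg * h⁻¹ : GL (Fin 3) F) : Matrix (Fin 3) (Fin 3) F) *ᵥ a) (((h * Cg * h⁻¹ : GL (Fin 3) F) : Matrix (Fin 3) (Fin 3) F) *ᵥ b) = Cfsg.hermForm 3 F q a b :=
    hRU hn.c_mem
  have horth : ∀ i j, i ≠ j → Cfsg.hermForm 3 F q (u i) (u j) = 0 := by
    intro i j hij
    have h3 := hiso₁ (u i) (u j)
    rw [hg₁, hg₁, herm_smul_left, herm_smul_right, hlq] at h3
    have h4 : (l i * l j ^ 2 - 1) * Cfsg.hermForm 3 F q (u i) (u j) = 0 := by linear_combination h3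
    rcases mul_eq_zero.mp h4 with h5 | h5
    · exfalso
      apply hij
      apply hinj
      have h6 := hl3 j
      have h7 : l i * l j ^ 2 = 1 := sub_eq_zero.mp h5
      have h8 : l j ≠ 0 := by
        intro h0
        rw [h0] at h6
        norm_num at h6
      have h9 : l j ^ 2 * (l i - l j) = 0 := by linear_combination h7 - h6
      have h10 := (mul_eq_zero.mp h9).resolve_left (pow_ne_zero _ h8)
      exact sub_eq_zero.mp h10
    · exact h5
  have hnorm : ∀ i, Cfsg.hermForm 3 F q (u (i + 1)) (u (i + 1)) = Cfsg.hermForm 3 F q (u i) (u i) := by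
    intro i
    have h3 := hiso₂ (u i) (u i)
    rwa [hg₂] at h3
  have hn1 : Cfsg.hermForm 3 F q (u 1) (u 1) = Cfsg.hermForm 3 F q (u 0) (u 0) := hnorm 0
  have hn2 : Cfsg.hermForm 3 F q (u 2) (u 2) = Cfsg.hermForm 3 F q (u 0) (u 0) := (hnorm 1).trans hn1
  set c := Cfsg.hermForm 3 F q (u 0) (u 0) with hc
  have hu0 : u 0 ≠ 0 := by
    apply gl_mulVec_ne
    intro h3
    have := congrFun h3 0
    simp at this
  have hc0 : c ≠ 0 := by
    intro h0
    apply hu0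
    apply herm_nondeg_right hF
    intro v
    have hv : v = (h : Matrix (Fin 3) (Fin 3) F) *ᵥ (((h⁻¹ : GL (Fin 3) F) : Matrix (Fin 3) (Fin 3) F) *ᵥ v) := by
      rw [Matrix.mulVec_mulVec, Units.mul_inv, Matrix.one_mulVec]
    set w := ((h⁻¹ : GL (Fin 3) F) : Matrix (Fin 3) (Fin 3) F) *ᵥ v with hw
    have hw' : w = w 0 • Pi.single 0 1 + w 1 • Pi.single 1 1 + w 2 • Pi.single 2 1 := by
      funext j
      fin_cases j <;> simp
    rw [hv, hw', Matrix.mulVec_add, Matrix.mulVec_add, Matrix.mulVec_smul, Matrix.mulVec_smul, Matrix.mulVec_smul]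
    rw [herm_add_right hF, herm_add_right hF, herm_smul_right, herm_smul_right, herm_smul_right]
    have e1 := horth 0 1 (by decide)
    have e2 := horth 0 2 (by decide)
    have e0 : Cfsg.hermForm 3 F q (u 0) (u 0) = 0 := h0
    simp only [hu] at e0 e1 e2
    rw [e0, e1, e2]
    simp
  have hcfix : c⁻¹ ^ q = c⁻¹ := by
    rw [inv_pow, ← herm_conj hF]
  obtain ⟨a, ha⟩ := exists_norm hF (two_le_q hF) (inv_ne_zero hc0) hcfix
  have ha0 : a ≠ 0 := by
    rintro rfl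
    rw [zero_pow (by omega)] at ha
    exact (inv_ne_zero hc0) ha.symm
  let a' : Fˣ := Units.mk0 a ha0
  have hconj : ∀ A : GL (Fin 3) F, (sc a' * h) * A * (sc a' * h)⁻¹ = h * A * h⁻¹ := by
    intro A
    have e : (sc a' * h) * A * (sc a' * h)⁻¹ = sc a' * (h * A * h⁻¹) * (sc a')⁻¹ := by group
    rw [e, sc_comm, mul_inv_cancel_right]
  refine ⟨sc a' * h, ⟨hn.w1, hn.w2, hn.sc_mem, by rw [hconj]; exact hn.d_mem, by rw [hconj]; exact hn.c_mem, by rw [hconj, hconj]; exact hn.eq⟩, ?_⟩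
  apply mem_gu_of_cols hF
  intro i j
  have e : ∀ i, ((sc a' * h : GL (Fin 3) F) : Matrix (Fin 3) (Fin 3) F) *ᵥ (Pi.single i 1) = a • u i := by
    intro i
    rw [Units.val_mul, coe_sc, Matrix.smul_mul, Matrix.one_mul, Matrix.smul_mulVec]
    rfl
  rw [e, e, herm_smul_left, herm_smul_right, ← mul_assoc, ← pow_succ', ha]
  by_cases hij : i = j
  · subst hij
    rw [if_pos rfl]
    have h3 : Cfsg.hermForm 3 F q (u i) (u i) = c := by
      fin_cases i
      · rfl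
      · exact hn1
      · exact hn2
    rw [h3, inv_mul_cancel₀ hc0]
  · rw [if_neg hij, horth i j hij, mul_zero]

/-- Elements with scalar cube in the unitary group. -/
theorem elem_three_u (hF : Fintype.card F = q ^ 2) (h2 : (2 : F) ≠ 0) (hq3 : q % 3 = 2) {R : Subgroup (GL (Fin 3) F)} [Finite R] {ω : Fˣ} {h : GL (Fin 3) F} (hn : NF R ω h)
    (hh : h ∈ Cfsg.GU 3 F q) (hcube : ∀ z : Fˣ, z ^ 3 = 1 → ∃ t : Fˣ, t ^ 3 = z ∧ (t : F) ^ (q + 1) = 1)
    {x : GL (Fin 3) F} (hx : x ∈ Cfsg.GU 3 F q ⊓ Cfsg.Geo.specialLinear (Fin 3) F) {z : F} (hz : ((x ^ 3 : GL (Fin 3) F) : Matrix (Fin 3) (Fin 3) F) = z • (1 : Matrix (Fin 3) (Fin 3) F)) :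
    ∃ g ∈ Cfsg.GU 3 F q ⊓ Cfsg.Geo.specialLinear (Fin 3) F, g⁻¹ * x * g ∈ Subgroup.normalizer (R : Set (GL (Fin 3) F)) := by
  have hdetx : (x : Matrix (Fin 3) (Fin 3) F).det = 1 := by
    have := congrArg Units.val (show GeneralLinearGroup.det x = 1 from hx.2)
    simpa using this
  have hz3 : z ^ 3 = 1 := by
    have h1 := congrArg Matrix.det hz
    rw [Units.val_pow_eq_pow_val, Matrix.det_pow, hdetx, one_pow, Matrix.det_smul, Matrix.det_one] at h1
    simpa using h1.symm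
  have hz0 : z ≠ 0 := by
    rintro rfl
    norm_num at hz3
  let z' : Fˣ := Units.mk0 z hz0
  obtain ⟨t, ht, htn⟩ := hcube z' (Units.ext (by simpa [z'] using hz3))
  have hxz : x ^ 3 = sc z' := by
    apply Units.ext
    rw [hz, coe_sc]
    rfl
  have htinv : ((t⁻¹ : Fˣ) : F) ^ (q + 1) = 1 := by
    rw [Units.val_inv_eq_inv_val, inv_pow, htn, inv_one]
  let x' : GL (Fin 3) F := sc t⁻¹ * x
  have hx' : x' ^ 3 = 1 := by
    have e : x' ^ 3 = sc t⁻¹ ^ 3 * x ^ 3 := (Commute.mul_pow (sc_comm t⁻¹ x) 3)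
    rw [e, hxz, sc_pow, sc_mul, ← ht]
    rw [inv_pow, inv_mul_cancel, sc_one]
  have hx'U : x' ∈ Cfsg.GU 3 F q := Subgroup.mul_mem _ (sc_mem_gu hF htinv) hx.1
  let X : Module.End F (Fin 3 → F) := Matrix.toLin' (x' : Matrix (Fin 3) (Fin 3) F)
  have hXv : ∀ v, X v = (x' : Matrix (Fin 3) (Fin 3) F) *ᵥ v := fun v => rfl
  have hX : ∀ v, X (X (X v)) = v := by
    intro v
    simp only [hXv, Matrix.mulVec_mulVec]
    have : (x' : Matrix (Fin 3) (Fin 3) F) * ((x' : Matrix (Fin 3) (Fin 3) F) * (x' : Matrix (Fin 3) (Fin 3) F)) = 1 := by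
      have h3 := congrArg (fun g : GL (Fin 3) F => (g : Matrix (Fin 3) (Fin 3) F)) hx'
      simpa [pow_succ, mul_assoc] using h3
    rw [this, Matrix.one_mulVec]
  obtain ⟨c, l, hc, hl, hcl⟩ := exists_orth_eig (T := X) (P := fun l => l ^ 3 = 1) hF h2 (fun u v => hx'U u v)
    (fun l hl h0 => by
      rw [h0] at hl
      norm_num at hl)
    (fun l l' hl hl' hll => by
      obtain ⟨k, hk⟩ : ∃ k, q = 3 * k + 2 := ⟨q / 3, by omega⟩
      rw [hk, pow_add, pow_mul, hl', one_pow, one_mul] at hll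
      linear_combination (l') * hll - l * hl' + l * 0)
    (fun W hW v hv => eig_three_sub hn.w1 hn.w2 hX hW hv)
  obtain ⟨G, hGU, hG⟩ := gl_of_orth hF hc
  have hl0 : ∀ i, l i ≠ 0 := by
    intro i h0
    have := hl i
    rw [h0] at this
    norm_num at this
  let a : Fin 3 → Fˣ := fun i => Units.mk0 (l i) (hl0 i)
  have ha3 : ∀ i, a i ^ 3 = 1 := fun i => Units.ext (by simpa [a] using hl i)
  have hE : ((Eg (a 0) (a 1) (a 2) : GL (Fin 3) F) : Matrix (Fin 3) (Fin 3) F) = Matrix.diagonal l := by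
    rw [coe_Eg]
    ext i j
    fin_cases i <;> fin_cases j <;> simp [a]
  have hrel : x' * G = G * Eg (a 0) (a 1) (a 2) := by
    apply Units.ext
    rw [Units.val_mul x' G, Units.val_mul G _, hE]
    exact rel_diag hG hcl
  have hxy : x * G = G * (sc t * Eg (a 0) (a 1) (a 2)) := by
    have e : x = sc t * x' := by
      show x = sc t * (sc t⁻¹ * x)
      rw [← mul_assoc, sc_mul, mul_inv_cancel, sc_one, one_mul]
    rw [e, mul_assoc, hrel, ← mul_assoc, ← mul_assoc, sc_comm]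
  refine conj_fix_u hF hh hGU hxy ?_ ?_
  · intro d
    rw [← mul_assoc, ← sc_comm, mul_assoc, Eg_comm, ← mul_assoc]
  · have e : h * (sc t * Eg (a 0) (a 1) (a 2)) * h⁻¹ = sc t * (h * Eg (a 0) (a 1) (a 2) * h⁻¹) := by
      rw [← mul_assoc, ← sc_comm]
      group
    rw [e]
    exact Subgroup.mul_mem _ (hn.norm_sc t) (hn.norm_Eg (ha3 0) (ha3 1) (ha3 2))

/-- Elements with scalar square in the unitary group. -/
theorem elem_two_u (hF : Fintype.card F = q ^ 2) (h2 : (2 : F) ≠ 0) (hq3 : q % 3 = 2) (hqo : Odd q) {R : Subgroup (GL (Fin 3) F)} [Finite R] {ω : Fˣ} {h : GL (Fin 3) F} (hn : NF R ω h)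
    (hh : h ∈ Cfsg.GU 3 F q)
    {x : GL (Fin 3) F} (hx : x ∈ Cfsg.GU 3 F q ⊓ Cfsg.Geo.specialLinear (Fin 3) F) {z : F} (hz : ((x ^ 2 : GL (Fin 3) F) : Matrix (Fin 3) (Fin 3) F) = z • (1 : Matrix (Fin 3) (Fin 3) F))
    (hns : ∀ t : F, (x : Matrix (Fin 3) (Fin 3) F) ≠ t • (1 : Matrix (Fin 3) (Fin 3) F)) :
    ∃ g ∈ Cfsg.GU 3 F q ⊓ Cfsg.Geo.specialLinear (Fin 3) F, g⁻¹ * x * g ∈ Subgroup.normalizer (R : Set (GL (Fin 3) F)) := by
  have hq2 := two_le_q hF
  have hdetx : (x : Matrix (Fin 3) (Fin 3) F).det = 1 := by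
    have := congrArg Units.val (show GeneralLinearGroup.det x = 1 from hx.2)
    simpa using this
  have hz3 : z ^ 3 = 1 := by
    have h1 := congrArg Matrix.det hz
    rw [Units.val_pow_eq_pow_val, Matrix.det_pow, hdetx, one_pow, Matrix.det_smul, Matrix.det_one] at h1
    simpa using h1.symm
  have hz0 : z ≠ 0 := by
    rintro rfl
    norm_num at hz3
  let z' : Fˣ := Units.mk0 z hz0
  have hz'3 : z' ^ 3 = 1 := Units.ext (by simpa [z'] using hz3)
  have hz'n : (z' : F) ^ (q + 1) = 1 := by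
    obtain ⟨k, hk⟩ : ∃ k, q + 1 = 3 * k := ⟨(q + 1) / 3, by omega⟩
    show z ^ (q + 1) = 1
    rw [hk, pow_mul, hz3, one_pow]
  have hxz : x ^ 2 = sc z' := by
    apply Units.ext
    rw [hz, coe_sc]
    rfl
  let x' : GL (Fin 3) F := sc z' * x
  have hx' : x' * x' = 1 := by
    have e : x' ^ 2 = sc z' ^ 2 * x ^ 2 := (Commute.mul_pow (sc_comm z' x) 2)
    rw [← sq, e, hxz, sc_pow, sc_mul, ← pow_succ, hz'3, sc_one]
  have hx'U : x' ∈ Cfsg.GU 3 F q := Subgroup.mul_mem _ (sc_mem_gu hF hz'n) hx.1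
  let X : Module.End F (Fin 3 → F) := Matrix.toLin' (x' : Matrix (Fin 3) (Fin 3) F)
  have hXv : ∀ v, X v = (x' : Matrix (Fin 3) (Fin 3) F) *ᵥ v := fun v => rfl
  have hX : ∀ v, X (X v) = v := by
    intro v
    simp only [hXv, Matrix.mulVec_mulVec]
    rw [← Units.val_mul, hx', Units.val_one, Matrix.one_mulVec]
  have hpm : ∀ l : F, l ^ 2 = 1 → l = 1 ∨ l = -1 := by
    intro l hl
    have h3 : (l - 1) * (l + 1) = 0 := by linear_combination hl
    rcases mul_eq_zero.mp h3 with h4 | h4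
    · left; exact sub_eq_zero.mp h4
    · right; exact eq_neg_of_add_eq_zero_left h4
  obtain ⟨c, l, hc, hl, hcl⟩ := exists_orth_eig (T := X) (P := fun l => l ^ 2 = 1) hF h2 (fun u v => hx'U u v)
    (fun l hl h0 => by
      rw [h0] at hl
      norm_num at hl)
    (fun l l' hl hl' hll => by
      have h3 : l' ^ q = l' := by
        obtain ⟨k, hk⟩ := hqo
        rw [hk, pow_succ, pow_mul, hl', one_pow, one_mul]
      rw [h3] at hll
      linear_combination l' * hll - l * hl')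
    (fun W hW v hv => eig_two_sub h2 hX hW hv)
  have hu' : ∀ i, (x' : Matrix (Fin 3) (Fin 3) F) *ᵥ c i = l i • c i := hcl
  have hlpm : ∀ i, l i = 1 ∨ l i = -1 := fun i => hpm _ (hl i)
  have hnotall : ¬ (l 1 = l 0 ∧ l 2 = l 0) := by
    rintro ⟨h3, h4⟩
    obtain ⟨G, -, hG⟩ := gl_of_orth hF hc
    have hrel := rel_diag hG hu'
    have hdiag : Matrix.diagonal l = l 0 • (1 : Matrix (Fin 3) (Fin 3) F) := by
      ext i j
      fin_cases i <;> fin_cases j <;> simp [h3, h4, Matrix.diagonal_apply, Matrix.one_apply]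
    have hx's : (x' : Matrix (Fin 3) (Fin 3) F) = l 0 • (1 : Matrix (Fin 3) (Fin 3) F) := by
      have h5 : (x' : Matrix (Fin 3) (Fin 3) F) * (G : Matrix (Fin 3) (Fin 3) F) = (l 0 • (1 : Matrix (Fin 3) (Fin 3) F)) * (G : Matrix (Fin 3) (Fin 3) F) := by
        rw [hrel, hdiag, Matrix.smul_mul, Matrix.mul_smul, Matrix.mul_one, Matrix.one_mul]
      have h6 := congrArg (fun M => M * ((G⁻¹ : GL (Fin 3) F) : Matrix (Fin 3) (Fin 3) F)) h5
      simp only [mul_assoc, Units.mul_inv, mul_one] at h6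
      exact h6
    apply hns (z⁻¹ * l 0)
    have h5 : (x' : Matrix (Fin 3) (Fin 3) F) = z • (x : Matrix (Fin 3) (Fin 3) F) := by
      show ((sc z' * x : GL (Fin 3) F) : Matrix (Fin 3) (Fin 3) F) = _
      rw [Units.val_mul, coe_sc, Matrix.smul_mul, Matrix.one_mul]
      rfl
    have h6 : (x : Matrix (Fin 3) (Fin 3) F) = z⁻¹ • (x' : Matrix (Fin 3) (Fin 3) F) := by
      rw [h5, smul_smul, inv_mul_cancel₀ hz0, one_smul]
    rw [h6, hx's, smul_smul]
  obtain ⟨s, e, hs0, hs1, hs2, he⟩ : ∃ (s : Equiv.Perm (Fin 3)) (e : F), l (s 0) = e ∧ l (s 1) = e ∧ l (s 2) = -e ∧ (e = 1 ∨ e = -1) := by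
    have s0 : Equiv.swap (1 : Fin 3) 2 0 = 0 := by decide
    have s1 : Equiv.swap (1 : Fin 3) 2 1 = 2 := by decide
    have s2 : Equiv.swap (1 : Fin 3) 2 2 = 1 := by decide
    have t0 : Equiv.swap (0 : Fin 3) 2 0 = 2 := by decide
    have t1 : Equiv.swap (0 : Fin 3) 2 1 = 1 := by decide
    have t2 : Equiv.swap (0 : Fin 3) 2 2 = 0 := by decide
    rcases hlpm 0 with a0 | a0 <;> rcases hlpm 1 with a1 | a1 <;> rcases hlpm 2 with a2 | a2
    · exact absurd ⟨a1.trans a0.symm, a2.trans a0.symm⟩ hnotall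
    · exact ⟨1, 1, by simpa using a0, by simpa using a1, by simpa using a2, Or.inl rfl⟩
    · exact ⟨Equiv.swap 1 2, 1, by rw [s0]; exact a0, by rw [s1]; exact a2, by rw [s2]; exact a1, Or.inl rfl⟩
    · exact ⟨Equiv.swap 0 2, -1, by rw [t0]; exact a2, by rw [t1]; exact a1, by rw [t2, neg_neg]; exact a0, Or.inr rfl⟩
    · exact ⟨Equiv.swap 0 2, 1, by rw [t0]; exact a2, by rw [t1]; exact a1, by rw [t2]; exact a0, Or.inl rfl⟩
    · exact ⟨Equiv.swap 1 2, -1, by rw [s0]; exact a0, by rw [s1]; exact a2, by rw [s2, neg_neg]; exact a1, Or.inr rfl⟩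
    · exact ⟨1, -1, by simpa using a0, by simpa using a1, by simpa using a2, Or.inr rfl⟩
    · exact absurd ⟨a1.trans a0.symm, a2.trans a0.symm⟩ hnotall
  have he0 : e ≠ 0 := by
    rcases he with rfl | rfl
    · exact one_ne_zero
    · exact neg_ne_zero.mpr one_ne_zero
  let e' : Fˣ := Units.mk0 e he0
  have hen : (e' : F) ^ (q + 1) = 1 := by
    show e ^ (q + 1) = 1
    obtain ⟨k, hk⟩ := hqo
    have : q + 1 = 2 * (k + 1) := by omega
    rw [this, pow_mul]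
    rcases he with rfl | rfl <;> norm_num
  let v₀ := c (s 0)
  let v₁ := c (s 1)
  let v₂ := c (s 2)
  have hv₀ : (x' : Matrix (Fin 3) (Fin 3) F) *ᵥ v₀ = e • v₀ := by
    show _ *ᵥ c (s 0) = e • c (s 0)
    rw [hu', hs0]
  have hv₁ : (x' : Matrix (Fin 3) (Fin 3) F) *ᵥ v₁ = e • v₁ := by
    show _ *ᵥ c (s 1) = e • c (s 1)
    rw [hu', hs1]
  have hv₂ : (x' : Matrix (Fin 3) (Fin 3) F) *ᵥ v₂ = -e • v₂ := by
    show _ *ᵥ c (s 2) = -e • c (s 2)
    rw [hu', hs2]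
  have h00 : Cfsg.hermForm 3 F q v₀ v₀ = 1 := by
    show Cfsg.hermForm 3 F q (c (s 0)) (c (s 0)) = 1
    rw [hc]; simp
  have h11 : Cfsg.hermForm 3 F q v₁ v₁ = 1 := by
    show Cfsg.hermForm 3 F q (c (s 1)) (c (s 1)) = 1
    rw [hc]; simp
  have h22 : Cfsg.hermForm 3 F q v₂ v₂ = 1 := by
    show Cfsg.hermForm 3 F q (c (s 2)) (c (s 2)) = 1
    rw [hc]; simp
  have hoff : ∀ i j : Fin 3, i ≠ j → Cfsg.hermForm 3 F q (c (s i)) (c (s j)) = 0 := by
    intro i j hij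
    rw [hc, if_neg (fun h => hij (s.injective h))]
  have h01 : Cfsg.hermForm 3 F q v₀ v₁ = 0 := hoff 0 1 (by decide)
  have h02 : Cfsg.hermForm 3 F q v₀ v₂ = 0 := hoff 0 2 (by decide)
  have h10 : Cfsg.hermForm 3 F q v₁ v₀ = 0 := hoff 1 0 (by decide)
  have h12 : Cfsg.hermForm 3 F q v₁ v₂ = 0 := hoff 1 2 (by decide)
  have h20 : Cfsg.hermForm 3 F q v₂ v₀ = 0 := hoff 2 0 (by decide)
  have h21 : Cfsg.hermForm 3 F q v₂ v₁ = 0 := hoff 2 1 (by decide)
  -- a scalar of norm one half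
  have hfix2 : (2 : F)⁻¹ ^ q = (2 : F)⁻¹ := by
    have h3 : (2 : F) ^ q = 2 := by
      have := (frobQ hF).map_add (1 : F) 1
      rw [frobQ_apply, map_one] at this
      rw [show (2 : F) = 1 + 1 by norm_num]
      exact this
    rw [inv_pow, h3]
  obtain ⟨a, ha⟩ := exists_norm hF hq2 (inv_ne_zero h2) hfix2
  have hnegq : (-1 : F) ^ q = -1 := Odd.neg_one_pow hqo
  let w : Fin 3 → (Fin 3 → F) := ![v₀, a • (v₁ + v₂), a • (v₁ + (-1 : F) • v₂)]
  have hw : ∀ i j, Cfsg.hermForm 3 F q (w i) (w j) = if i = j then 1 else 0 := by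
    have e1 : a * (a ^ q * (2 : F)) = 1 := by
      calc a * (a ^ q * (2 : F)) = a ^ (q + 1) * 2 := by ring
        _ = 1 := by rw [ha, inv_mul_cancel₀ h2]
    intro i j
    fin_cases i <;> fin_cases j <;> simp only [w, Fin.zero_eta, Fin.mk_one, Fin.reduceFinMk, Matrix.cons_val, herm_smul_left, herm_smul_right, herm_add_left, herm_add_right hF,
        h00, h01, h02, h10, h11, h12, h20, h21, h22, hnegq] <;> simp
    · linear_combination e1
    · linear_combination e1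
  obtain ⟨G, hGU, hG⟩ := gl_of_orth hF hw
  have hPe : ∀ i : Fin 3, ((sc e' * Pg : GL (Fin 3) F) : Matrix (Fin 3) (Fin 3) F) *ᵥ (Pi.single i 1) = e • (Pi.single (![0, 2, 1] i) 1 : Fin 3 → F) := by
    intro i
    rw [Units.val_mul, coe_sc, coe_Pg]
    funext j
    fin_cases i <;> fin_cases j <;> simp [Matrix.mulVec, dotProduct, Fin.sum_univ_three, Matrix.smul_apply, e']
  have hrel : x' * G = G * (sc e' * Pg) := by
    apply rel_of_cols
    intro i
    rw [hG, hPe, Matrix.mulVec_smul, hG]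
    fin_cases i
    · exact hv₀
    · show (x' : Matrix (Fin 3) (Fin 3) F) *ᵥ (a • (v₁ + v₂)) = e • (a • (v₁ + (-1 : F) • v₂))
      rw [Matrix.mulVec_smul, Matrix.mulVec_add, hv₁, hv₂]
      module
    · show (x' : Matrix (Fin 3) (Fin 3) F) *ᵥ (a • (v₁ + (-1 : F) • v₂)) = e • (a • (v₁ + v₂))
      rw [Matrix.mulVec_smul, Matrix.mulVec_add, Matrix.mulVec_smul, hv₁, hv₂]
      module
  have hxy : x * G = G * (sc (z'⁻¹ * e') * Pg) := by
    have e1 : x = sc z'⁻¹ * x' := by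
      show x = sc z'⁻¹ * (sc z' * x)
      rw [← mul_assoc, sc_mul, inv_mul_cancel, sc_one, one_mul]
    rw [e1, mul_assoc, hrel, ← mul_assoc (sc z'⁻¹), sc_comm, mul_assoc, ← mul_assoc (sc z'⁻¹), sc_mul]
  refine conj_fix_u hF hh hGU hxy ?_ ?_
  · intro d
    have e1 : (Pg : GL (Fin 3) F) * Eg d 1 1 = Eg d 1 1 * Pg := Pg_Eg d 1 1
    rw [← mul_assoc, ← sc_comm, mul_assoc, mul_assoc, e1]
  · have e1 : h * (sc (z'⁻¹ * e') * Pg) * h⁻¹ = sc (z'⁻¹ * e') * (h * Pg * h⁻¹) := by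
      rw [← mul_assoc, ← sc_comm]
      group
    rw [e1]
    exact Subgroup.mul_mem _ (hn.norm_sc _) hn.norm_P


end Cfsg.Agent.Lib.ClassMax.Hessian
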