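import Mathlib
import Cfsg.Agent.Lib.ClassMax.HermOver

/-! Eichler transformations of a unitary form: the elementary calculus, unitary transvections, and groups generated
by transvections of a summand. -/

set_option autoImplicit false

namespace Cfsg.Agent.Lib.ClassMax.UnitCore

open Matrix Cfsg.Geo Cfsg.Agent.Lib.ClassMax Cfsg.Agent.Lib.ClassMax.QuadOver
open Cfsg.Agent.Lib.ClassMax.HermOver

variable {ι : Type} [Fintype ι] [DecidableEq ι] {F : Type*} [Field F] {σ : F ≃+* F} {f : (ι → F) → (ι → F) → F}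

local notation "VV" => (ι → F)
local notation "MM" => Matrix ι ι F
local notation "GG" => GL ι F

/-- The Eichler map `v ↦ v + f(v,z) u - f(v,u) z + γ f(v,z) z`. -/
def egFun (f : (ι → F) → (ι → F) → F) (z u : ι → F) (γ : F) (v : ι → F) : ι → F :=
  v + f v z • u - f v u • z + (γ * f v z) • z

section Basic

variable (hf : IsUnitaryForm σ f)
include hf

theorem egFun_add {z u : VV} {γ : F} (a b : VV) : egFun f z u γ (a + b) = egFun f z u γ a + egFun f z u γ b := by
  unfold egFun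
  rw [hf.add_left, hf.add_left]
  module

theorem egFun_smul {z u : VV} {γ : F} (c : F) (a : VV) : egFun f z u γ (c • a) = c • egFun f z u γ a := by
  unfold egFun
  rw [hf.smul_left, hf.smul_left]
  module

theorem egFun_comp {z u u' : VV} {γ γ' : F} (hz : f z z = 0) (hu : f z u = 0) (hu' : f z u' = 0) (v : VV) :
    egFun f z u γ (egFun f z u' γ' v) = egFun f z (u + u') (γ + γ' - f u' u) v := by
  unfold egFun
  have h1 : f u' z = 0 := by rw [hf.herm, hu', map_zero]
  simp only [hf.add_left, sub_left hf, add_right hf, hf.smul_left, hu, hz, h1]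
  module

theorem egFun_zero (z v : VV) : egFun f z 0 0 v = v := by
  unfold egFun
  rw [zero_right hf]
  module

/-- The Eichler transformations exist. -/
theorem exists_eg {z u : VV} {γ : F} (hz : f z z = 0) (hu : f z u = 0) (hγ : γ + σ γ = - f u u) :
    ∃ E : GG, ∀ v, (E : MM) *ᵥ v = egFun f z u γ v := by
  have hu' : f z (-u) = 0 := by rw [neg_right hf, hu, neg_zero]
  have e1 : γ + σ γ - f (-u) u = 0 := by rw [neg_left hf, hγ]; ring
  have e2 : σ γ + γ - f u (-u) = 0 := by rw [neg_right hf, add_comm, hγ]; ring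
  let e : VV ≃ₗ[F] VV :=
    { toFun := egFun f z u γ
      map_add' := egFun_add hf
      map_smul' := fun c a => by simpa using egFun_smul hf c a
      invFun := egFun f z (-u) (σ γ)
      left_inv := fun v => by
        rw [egFun_comp hf hz hu' hu, neg_add_cancel, e2, egFun_zero hf]
      right_inv := fun v => by
        rw [egFun_comp hf hz hu hu', add_neg_cancel, e1, egFun_zero hf] }
  exact ⟨glOfEquiv e, fun v => glOfEquiv_mulVec e v⟩

end Basic

/-- The Eichler transformation attached to `z`, `u`, `γ`. -/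
noncomputable def eg (f : (ι → F) → (ι → F) → F) (z u : ι → F) (γ : F) : GL ι F := by
  classical
  exact if h : ∃ E : GL ι F, ∀ v, (E : Matrix ι ι F) *ᵥ v = egFun f z u γ v then h.choose else 1

section Eg

variable (hf : IsUnitaryForm σ f)
include hf

theorem eg_apply {z u : VV} {γ : F} (hz : f z z = 0) (hu : f z u = 0) (hγ : γ + σ γ = - f u u) (v : VV) :
    (eg f z u γ : MM) *ᵥ v = egFun f z u γ v := by
  have h := exists_eg hf hz hu hγ
  unfold eg
  rw [dif_pos h]
  exact h.choose_spec v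

theorem eg_iso {z u : VV} {γ : F} (hz : f z z = 0) (hu : f z u = 0) (hγ : γ + σ γ = - f u u) (v w : VV) :
    f ((eg f z u γ : MM) *ᵥ v) ((eg f z u γ : MM) *ᵥ w) = f v w := by
  rw [eg_apply hf hz hu hγ, eg_apply hf hz hu hγ]
  unfold egFun
  have h1 : f u z = 0 := by rw [hf.herm, hu, map_zero]
  simp only [hf.add_left, sub_left hf, add_right hf, sub_right hf, hf.smul_left, smul_right hf, hu, hz, h1, map_mul,
    hf.involutive]
  rw [sig_f hf w z, sig_f hf w u]
  linear_combination (f v z * f z w) * hγ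

theorem eg_mul {z u u' : VV} {γ γ' : F} (hz : f z z = 0) (hu : f z u = 0) (hu' : f z u' = 0) (hγ : γ + σ γ = - f u u)
    (hγ' : γ' + σ γ' = - f u' u') : eg f z u γ * eg f z u' γ' = eg f z (u + u') (γ + γ' - f u' u) := by
  have hsum : f z (u + u') = 0 := by rw [add_right hf, hu, hu', add_zero]
  have hsum' : (γ + γ' - f u' u) + σ (γ + γ' - f u' u) = - f (u + u') (u + u') := by
    rw [map_sub, map_add, sig_f hf u' u, hf.add_left, add_right hf, add_right hf]
    linear_combination hγ + hγ'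
  apply gl_ext_mulVec
  intro v
  rw [Units.val_mul, ← Matrix.mulVec_mulVec, eg_apply hf hz hu hγ, eg_apply hf hz hu' hγ', eg_apply hf hz hsum hsum',
    egFun_comp hf hz hu hu']

theorem eg_zero (z : VV) (hz : f z z = 0) : eg f z 0 0 = 1 := by
  apply gl_ext_mulVec
  intro v
  rw [eg_apply hf hz (zero_right hf z) (by simp [zero_left hf]), egFun_zero hf]
  simp

theorem eg_inv {z u : VV} {γ : F} (hz : f z z = 0) (hu : f z u = 0) (hγ : γ + σ γ = - f u u) :
    (eg f z u γ)⁻¹ = eg f z (-u) (σ γ) := by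
  have hu' : f z (-u) = 0 := by rw [neg_right hf, hu, neg_zero]
  have hγ' : σ γ + σ (σ γ) = - f (-u) (-u) := by
    rw [hf.involutive, neg_left hf, neg_right hf, add_comm, hγ]
    ring
  rw [inv_eq_iff_mul_eq_one, eg_mul hf hz hu hu' hγ hγ', add_neg_cancel]
  have e : γ + σ γ - f (-u) u = 0 := by rw [neg_left hf, hγ]; ring
  rw [e, eg_zero hf z hz]

theorem eg_fix {z u v : VV} {γ : F} (hz : f z z = 0) (hu : f z u = 0) (hγ : γ + σ γ = - f u u) (h1 : f v z = 0)
    (h2 : f v u = 0) : (eg f z u γ : MM) *ᵥ v = v := by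
  rw [eg_apply hf hz hu hγ]
  unfold egFun
  rw [h1, h2]
  module

/-- Conjugation. -/
theorem eg_conj {g : GG} (hg : ∀ v w, f ((g : MM) *ᵥ v) ((g : MM) *ᵥ w) = f v w) {z u : VV} {γ : F} (hz : f z z = 0)
    (hu : f z u = 0) (hγ : γ + σ γ = - f u u) :
    g * eg f z u γ * g⁻¹ = eg f ((g : MM) *ᵥ z) ((g : MM) *ᵥ u) γ := by
  have hz' : f ((g : MM) *ᵥ z) ((g : MM) *ᵥ z) = 0 := by rw [hg, hz]
  have hu' : f ((g : MM) *ᵥ z) ((g : MM) *ᵥ u) = 0 := by rw [hg, hu]
  have hγ' : γ + σ γ = - f ((g : MM) *ᵥ u) ((g : MM) *ᵥ u) := by rw [hg, hγ]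
  apply gl_ext_mulVec
  intro v
  have e : (g : MM) *ᵥ (((g⁻¹ : GG) : MM) *ᵥ v) = v := by
    rw [Matrix.mulVec_mulVec, ← Units.val_mul, mul_inv_cancel, Units.val_one, Matrix.one_mulVec]
  rw [Units.val_mul, Units.val_mul, ← Matrix.mulVec_mulVec, ← Matrix.mulVec_mulVec, eg_apply hf hz hu hγ,
    eg_apply hf hz' hu' hγ']
  unfold egFun
  simp only [Matrix.mulVec_add, Matrix.mulVec_sub, Matrix.mulVec_smul, e]
  conv_rhs => rw [← e]
  rw [hg, hg, e]

/-- Scaling the centre. -/
theorem eg_smul_left (c : F) {z u : VV} {γ : F} (hz : f z z = 0) (hu : f z u = 0) (hγ : γ + σ γ = - f u u) :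
    eg f (c • z) u γ = eg f z (σ c • u) (γ * (c * σ c)) := by
  have hz' : f (c • z) (c • z) = 0 := by rw [hf.smul_left, smul_right hf, hz]; ring
  have hu' : f (c • z) u = 0 := by rw [hf.smul_left, hu, mul_zero]
  have hu'' : f z (σ c • u) = 0 := by rw [smul_right hf, hu, mul_zero]
  have hγ'' : γ * (c * σ c) + σ (γ * (c * σ c)) = - f (σ c • u) (σ c • u) := by
    simp only [map_mul, hf.involutive, hf.smul_left, smul_right hf]
    linear_combination (c * σ c) * hγ
  apply gl_ext_mulVec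
  intro v
  rw [eg_apply hf hz' hu' hγ, eg_apply hf hz hu'' hγ'']
  unfold egFun
  simp only [smul_right hf, hf.involutive, smul_smul]
  module

/-- The key mapping property. -/
theorem eg_map {z a a' : VV} (hz : f z z = 0) (h1 : f a z = 1) (h2 : f a' z = 1) (h3 : f a a = f a' a') :
    ∃ (hu : f z (a' - a) = 0) (hγ : f a (a' - a) + σ (f a (a' - a)) = - f (a' - a) (a' - a)),
      (eg f z (a' - a) (f a (a' - a)) : MM) *ᵥ a = a' := by
  have hu : f z (a' - a) = 0 := by
    rw [sub_right hf, hf.herm z a', hf.herm z a, h1, h2, sub_self]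
  have hγ : f a (a' - a) + σ (f a (a' - a)) = - f (a' - a) (a' - a) := by
    rw [sig_f hf, sub_left hf, sub_left hf, sub_right hf, sub_right hf, h3]
    ring
  refine ⟨hu, hγ, ?_⟩
  rw [eg_apply hf hz hu hγ]
  unfold egFun
  rw [h1]
  module

/-- An Eichler transformation with `u = 0` is a transvection. -/
theorem eg_tv [Fintype F] {z : VV} {a : F} (hz : f z z = 0) (ha : a + σ a = 0) :
    eg f z 0 a = tv z (a • fdual f z) (utv_aux hf hz a) := by
  apply gl_ext_mulVec
  intro v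
  rw [eg_apply hf hz (zero_right hf z) (by rw [ha, zero_left hf]; simp), tv_mulVec, smul_dotProduct, dual_dot hf]
  unfold egFun
  rw [zero_right hf]
  simp only [smul_eq_mul]
  module

theorem eg_tv_mem_SL [Fintype F] {z : VV} {a : F} (hz : f z z = 0) (ha : a + σ a = 0) : eg f z 0 a ∈ specialLinear ι F := by
  rw [eg_tv hf hz ha]
  exact tv_mem_specialLinear _ _ _

theorem skew_ok {a : F} (ha : a + σ a = 0) : a + σ a = - f (0 : VV) 0 := by
  rw [ha, zero_left hf]; simp

end Eg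

/-- The group generated by the unitary transvections with centre in `A`. -/
def inTv (σ : F ≃+* F) (f : (ι → F) → (ι → F) → F) (A : Submodule F (ι → F)) : Subgroup (GL ι F) :=
  Subgroup.closure {g | ∃ z ∈ A, ∃ a : F, f z z = 0 ∧ a + σ a = 0 ∧ g = eg f z 0 a}

theorem tv_mem_inTv {A : Submodule F VV} {z : VV} {a : F} (hzA : z ∈ A) (hz : f z z = 0) (ha : a + σ a = 0) :
    eg f z 0 a ∈ inTv σ f A :=
  Subgroup.subset_closure ⟨z, hzA, a, hz, ha, rfl⟩

theorem inTv_mono {A A' : Submodule F VV} (h : A ≤ A') : inTv σ f A ≤ inTv σ f A' := by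
  apply Subgroup.closure_mono
  rintro g ⟨z, hz, a, h1, h2, rfl⟩
  exact ⟨z, h hz, a, h1, h2, rfl⟩

theorem gl_inv_fix {g : GG} {v : VV} (h : (g : MM) *ᵥ v = v) : ((g⁻¹ : GG) : MM) *ᵥ v = v := by
  conv_lhs => rw [← h]
  rw [Matrix.mulVec_mulVec, ← Units.val_mul, inv_mul_cancel, Units.val_one, Matrix.one_mulVec]

theorem gl_inv_apply {g : GG} {v w : VV} (h : (g : MM) *ᵥ v = w) : ((g⁻¹ : GG) : MM) *ᵥ w = v := by
  rw [← h, Matrix.mulVec_mulVec, ← Units.val_mul, inv_mul_cancel, Units.val_one, Matrix.one_mulVec]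

theorem gl_apply_inv {g : GG} {v w : VV} (h : ((g⁻¹ : GG) : MM) *ᵥ v = w) : (g : MM) *ᵥ w = v := by
  rw [← h, Matrix.mulVec_mulVec, ← Units.val_mul, mul_inv_cancel, Units.val_one, Matrix.one_mulVec]

theorem iso_inv {g : GG} (hg : ∀ v w, f ((g : MM) *ᵥ v) ((g : MM) *ᵥ w) = f v w) (v w : VV) :
    f (((g⁻¹ : GG) : MM) *ᵥ v) (((g⁻¹ : GG) : MM) *ᵥ w) = f v w := by
  rw [← hg (((g⁻¹ : GG) : MM) *ᵥ v), Matrix.mulVec_mulVec, Matrix.mulVec_mulVec, ← Units.val_mul, mul_inv_cancel, Units.val_one,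
    Matrix.one_mulVec, Matrix.one_mulVec]

theorem iso_mul {g h : GG} (hg : ∀ v w, f ((g : MM) *ᵥ v) ((g : MM) *ᵥ w) = f v w)
    (hh : ∀ v w, f ((h : MM) *ᵥ v) ((h : MM) *ᵥ w) = f v w) (v w : VV) :
    f (((g * h : GG) : MM) *ᵥ v) (((g * h : GG) : MM) *ᵥ w) = f v w := by
  rw [Units.val_mul, ← Matrix.mulVec_mulVec, ← Matrix.mulVec_mulVec, hg, hh]

section Tv

variable (hf : IsUnitaryForm σ f)
include hf

theorem inTv_iso {A : Submodule F VV} {g : GG} (hg : g ∈ inTv σ f A) :
    ∀ v w, f ((g : MM) *ᵥ v) ((g : MM) *ᵥ w) = f v w := by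
  induction hg using Subgroup.closure_induction with
  | mem g h0 =>
    obtain ⟨z, -, a, h1, h2, rfl⟩ := h0
    exact eg_iso hf h1 (zero_right hf z) (skew_ok hf h2)
  | one => intro v w; simp
  | mul a b _ _ ha hb => exact iso_mul ha hb
  | inv a _ ha => exact iso_inv ha

theorem inTv_SL [Fintype F] {A : Submodule F VV} : inTv σ f A ≤ specialLinear ι F := by
  rw [inTv, Subgroup.closure_le]
  rintro g ⟨z, -, a, h1, h2, rfl⟩
  exact eg_tv_mem_SL hf h1 h2

theorem inTv_fix {A : Submodule F VV} {g : GG} (hg : g ∈ inTv σ f A) {v : VV} (hv : ∀ a ∈ A, f v a = 0) :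
    (g : MM) *ᵥ v = v := by
  induction hg using Subgroup.closure_induction with
  | mem g h0 =>
    obtain ⟨z, hz, a, h1, h2, rfl⟩ := h0
    exact eg_fix hf h1 (zero_right hf z) (skew_ok hf h2) (hv z hz) (zero_right hf v)
  | one => simp
  | mul a b _ _ ha hb =>
    rw [Units.val_mul, ← Matrix.mulVec_mulVec, hb, ha]
  | inv a _ ha => exact gl_inv_fix ha

theorem inTv_top_conj {g : GG} (hg : ∀ v w, f ((g : MM) *ᵥ v) ((g : MM) *ᵥ w) = f v w) {x : GG} (hx : x ∈ inTv σ f ⊤) :
    g * x * g⁻¹ ∈ inTv σ f ⊤ := by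
  induction hx using Subgroup.closure_induction with
  | mem x h0 =>
    obtain ⟨z, -, a, h1, h2, rfl⟩ := h0
    rw [eg_conj hf hg h1 (zero_right hf z) (skew_ok hf h2), Matrix.mulVec_zero]
    exact tv_mem_inTv trivial (by rw [hg, h1]) h2
  | one => simp [Subgroup.one_mem]
  | mul a b _ _ ha hb =>
    have : g * (a * b) * g⁻¹ = (g * a * g⁻¹) * (g * b * g⁻¹) := by group
    rw [this]
    exact Subgroup.mul_mem _ ha hb
  | inv a _ ha =>
    have : g * a⁻¹ * g⁻¹ = (g * a * g⁻¹)⁻¹ := by group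
    rw [this]
    exact Subgroup.inv_mem _ ha

/-- A non-zero skew element (no finiteness needed). -/
theorem exists_skew' : ∃ a : F, a ≠ 0 ∧ a + σ a = 0 := by
  obtain ⟨ζ, hζ⟩ : ∃ ζ, σ ζ ≠ ζ := by
    by_contra hcon
    push Not at hcon
    apply hf.ne_refl
    ext a
    exact hcon a
  refine ⟨ζ - σ ζ, sub_ne_zero.mpr (Ne.symm hζ), ?_⟩
  rw [map_sub, hf.involutive]; ring

/-- An Eichler transformation with isotropic parameter is a product of transvections. -/
theorem eg_iso_mem {A : Submodule F VV} {z u : VV} {γ : F} (hzA : z ∈ A) (huA : u ∈ A) (hz : f z z = 0) (hu : f z u = 0)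
    (huu : f u u = 0) (hγ : γ + σ γ = 0) : eg f z u γ ∈ inTv σ f A := by
  obtain ⟨a₀, ha₀, ha₀'⟩ := exists_skew' hf
  have hσa₀ : σ a₀ = - a₀ := by linear_combination ha₀'
  have huz : f u z = 0 := by rw [hf.herm, hu, map_zero]
  set c := a₀⁻¹ with hc
  set u₁ := c • u with hu₁
  have h1 : f u₁ u₁ = 0 := by rw [hu₁, hf.smul_left, smul_right hf, huu]; ring
  have h2 : f z u₁ = 0 := by rw [hu₁, smul_right hf, hu, mul_zero]
  have h3 : f u₁ z = 0 := by rw [hu₁, hf.smul_left, huz, mul_zero]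
  have h4 : f (z + u₁) (z + u₁) = 0 := by
    rw [hf.add_left, add_right hf, add_right hf, hz, h1, h2, h3]; ring
  have h5 : f (z + u₁) z = 0 := by rw [hf.add_left, hz, h3, add_zero]
  have h6 : f (z + u₁) u₁ = 0 := by rw [hf.add_left, h1, h2, add_zero]
  have hneg : -a₀ + σ (-a₀) = 0 := by rw [map_neg, hσa₀]; ring
  have m1 : eg f (z + u₁) 0 a₀ ∈ inTv σ f A := tv_mem_inTv (A.add_mem hzA (A.smul_mem _ huA)) h4 ha₀'
  have m2 : eg f z 0 (-a₀) ∈ inTv σ f A := tv_mem_inTv hzA hz hneg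
  have m3 : eg f u₁ 0 (-a₀) ∈ inTv σ f A := tv_mem_inTv (A.smul_mem _ huA) h1 hneg
  have m4 : eg f z 0 γ ∈ inTv σ f A := tv_mem_inTv hzA hz hγ
  have e : eg f z u γ = eg f (z + u₁) 0 a₀ * (eg f z 0 (-a₀) * (eg f u₁ 0 (-a₀) * eg f z 0 γ)) := by
    apply gl_ext_mulVec
    intro v
    simp only [Units.val_mul, ← Matrix.mulVec_mulVec]
    rw [eg_apply hf hz hu (by rw [hγ, huu]; simp), eg_apply hf hz (zero_right hf z) (skew_ok hf hγ),
      eg_apply hf h1 (zero_right hf u₁) (skew_ok hf hneg), eg_apply hf hz (zero_right hf z) (skew_ok hf hneg),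
      eg_apply hf h4 (zero_right hf _) (skew_ok hf ha₀')]
    unfold egFun
    have h7 : ∀ w, f w u₁ = σ c * f w u := fun w => by rw [hu₁, smul_right hf]
    have h8 : a₀ * σ c = -1 := by
      rw [hc, map_inv₀, hσa₀]
      field_simp
    have h9 : a₀ • u₁ = u := by rw [hu₁, hc, smul_smul, mul_inv_cancel₀ ha₀, one_smul]
    simp only [zero_right hf, zero_smul, add_zero, sub_zero, hf.add_left, add_right hf, hf.smul_left, h5, h6, hz, h2, h3, h1,
      mul_zero, smul_zero, zero_add]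
    rw [h7 v]
    set X := f v z
    set Y := f v u
    have e1 : -a₀ * (σ c * Y) = Y := by linear_combination (-Y) * h8
    have e2 : a₀ * (X + σ c * Y) = a₀ * X - Y := by linear_combination Y * h8
    rw [e1, e2]
    conv_lhs => rw [← h9]
    module
  rw [e]
  exact mul_mem m1 (mul_mem m2 (mul_mem m3 m4))

end Tv

end Cfsg.Agent.Lib.ClassMax.UnitCore
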