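import Mathlib
import Cfsg.Agent.Lib.ClassMax.UnitCore

/-! Orthogonal pairs of subspaces for a unitary form: isotropic vectors and hyperbolic pairs in a summand; the
Eichler transformations are products of transvections; transitivity on isotropic vectors. -/

set_option autoImplicit false

namespace Cfsg.Agent.Lib.ClassMax.UnitCore

open Matrix Cfsg.Geo Cfsg.Agent.Lib.ClassMax Cfsg.Agent.Lib.ClassMax.QuadOver
open Cfsg.Agent.Lib.ClassMax.HermOver

variable {ι : Type} [Fintype ι] [DecidableEq ι] {F : Type*} [Field F] {σ : F ≃+* F} {f : (ι → F) → (ι → F) → F}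

local notation "VV" => (ι → F)
local notation "MM" => Matrix ι ι F
local notation "GG" => GL ι F

/-- An orthogonal decomposition of the whole space. -/
structure UPair (f : (ι → F) → (ι → F) → F) (A C : Submodule F (ι → F)) : Prop where
  compl : IsCompl A C
  orth : ∀ a ∈ A, ∀ c ∈ C, f a c = 0

theorem UPair.decomp {A C : Submodule F VV} (h : UPair f A C) (v : VV) : ∃ a ∈ A, ∃ c ∈ C, a + c = v := by
  have : v ∈ A ⊔ C := by rw [h.compl.sup_eq_top]; trivial
  exact Submodule.mem_sup.mp this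

theorem UPair.inter {A C : Submodule F VV} (h : UPair f A C) {x : VV} (h1 : x ∈ A) (h2 : x ∈ C) : x = 0 := by
  have := h.compl.disjoint.le_bot (Submodule.mem_inf.mpr ⟨h1, h2⟩)
  simpa using this

theorem UPair.finrank_add {A C : Submodule F VV} (h : UPair f A C) :
    Module.finrank F A + Module.finrank F C = Fintype.card ι := by
  have h1 := Submodule.finrank_sup_add_finrank_inf_eq A C
  rw [h.compl.sup_eq_top, h.compl.inf_eq_bot, finrank_bot, finrank_top, add_zero] at h1
  simpa using h1.symm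

theorem finrank_sup_span_le (T : Submodule F VV) (v : VV) :
    Module.finrank F (T ⊔ Submodule.span F {v} : Submodule F VV) ≤ Module.finrank F T + 1 := by
  refine (Submodule.finrank_add_le_finrank_add_finrank _ _).trans ?_
  have := finrank_span_le_card (R := F) ({v} : Set VV)
  simp only [Set.toFinset_singleton, Finset.card_singleton] at this
  omega

section Nondeg

variable (hf : IsUnitaryForm σ f)
include hf

theorem UPair.symm {A C : Submodule F VV} (h : UPair f A C) : UPair f C A :=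
  ⟨h.compl.symm, fun a ha c hc => by rw [hf.herm, h.orth c hc a ha, map_zero]⟩

theorem UPair.orth' {A C : Submodule F VV} (h : UPair f A C) {a c : VV} (ha : a ∈ A) (hc : c ∈ C) : f c a = 0 := by
  rw [hf.herm, h.orth a ha c hc, map_zero]

theorem UPair.top : UPair f (⊤ : Submodule F VV) ⊥ :=
  ⟨isCompl_top_bot, fun a _ c hc => by
    rw [Submodule.mem_bot] at hc
    subst hc
    exact zero_right hf a⟩

/-- A vector orthogonal to the second summand lies in the first. -/
theorem UPair.mem_left {A C : Submodule F VV} (h : UPair f A C) {z : VV} (hz : ∀ c ∈ C, f c z = 0) : z ∈ A := by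
  obtain ⟨a, ha, c, hc, rfl⟩ := h.decomp z
  have hc0 : c = 0 := by
    by_contra h0
    obtain ⟨w, hw⟩ := (hf.nondegenerate c h0).2
    apply hw
    obtain ⟨a', ha', c', hc', rfl⟩ := h.decomp w
    have h2 := hz c' hc'
    rw [add_right hf, h.orth' hf ha hc', zero_add] at h2
    rw [add_right hf, h.orth' hf ha' hc, zero_add]
    rw [hf.herm, h2, map_zero]
  rw [hc0, add_zero]
  exact ha

theorem exists_mem_not_mem {A C T : Submodule F VV} (h : UPair f A C) {κ : Type*} [Fintype κ] (c : κ → VV) (hCT : C ≤ T)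
    (hc : Fintype.card κ + Module.finrank F T < Fintype.card ι) : ∃ v ∈ A, (∀ i, f (c i) v = 0) ∧ v ∉ T := by
  by_contra hcon
  push Not at hcon
  let L : VV →ₗ[F] (κ → F) :=
    { toFun := fun v i => f v (c i)
      map_add' := fun a b => by funext i; exact hf.add_left _ _ _
      map_smul' := fun d a => by funext i; simpa using hf.smul_left d a _ }
  have hL : ∀ v, v ∈ LinearMap.ker L ↔ ∀ i, f (c i) v = 0 := by
    intro v
    rw [LinearMap.mem_ker]
    constructor
    · intro hv i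
      have h0 : f v (c i) = 0 := congrFun hv i
      rw [hf.herm, h0, map_zero]
    · intro hv
      funext i
      show f v (c i) = 0
      rw [hf.herm, hv i, map_zero]
  have hle : A ⊓ LinearMap.ker L ≤ A ⊓ T := by
    intro v hv
    exact ⟨hv.1, hcon v hv.1 ((hL v).mp hv.2)⟩
  have h1 := Submodule.finrank_mono hle
  have h2 := Submodule.finrank_sup_add_finrank_inf_eq A T
  have htop : A ⊔ T = ⊤ := top_le_iff.mp (h.compl.sup_eq_top ▸ sup_le_sup_left hCT A)
  rw [htop, finrank_top] at h2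
  have h3 := Submodule.finrank_sup_add_finrank_inf_eq A (LinearMap.ker L)
  have h4 : Module.finrank F (A ⊔ LinearMap.ker L : Submodule F VV) ≤ Fintype.card ι := by
    have := Submodule.finrank_le (A ⊔ LinearMap.ker L)
    simpa using this
  have h5 := LinearMap.finrank_range_add_finrank_ker L
  have h6 : Module.finrank F (LinearMap.range L) ≤ Fintype.card κ := by
    have := Submodule.finrank_le (LinearMap.range L)
    simpa using this
  simp only [Module.finrank_fintype_fun_eq_card] at h2 h5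
  omega

/-- A separation. -/
theorem exists_sep_mem {A C S : Submodule F VV} (h : UPair f A C) (hCS : C ≤ S) {y : VV} (hy : y ∉ S) :
    ∃ τ ∈ A, (∀ s ∈ S, f s τ = 0) ∧ f y τ = 1 := by
  obtain ⟨τ, h1, h2⟩ := exists_sep hf hy
  exact ⟨τ, h.mem_left hf (fun c hc => h1 c (hCS hc)), h1, h2⟩

section Finite

variable [Fintype F]

/-- A non-zero isotropic vector in a summand orthogonal to a short list. -/
theorem exists_iso_vec {A C : Submodule F VV} (h : UPair f A C) {κ : Type*} [Fintype κ] (c : κ → VV)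
    (hc : Fintype.card κ + 2 ≤ Module.finrank F A) :
    ∃ r ∈ A, r ≠ 0 ∧ f r r = 0 ∧ ∀ i, f (c i) r = 0 := by
  have h2 := h.finrank_add
  obtain ⟨v₁, hv₁, hc₁, hn₁⟩ := exists_mem_not_mem hf h c (le_refl C) (by omega)
  have hv₁0 : v₁ ≠ 0 := fun h0 => hn₁ (h0 ▸ C.zero_mem)
  by_cases h1 : f v₁ v₁ = 0
  · exact ⟨v₁, hv₁, hv₁0, h1, hc₁⟩
  obtain ⟨v₂, hv₂, hc₂, hn₂⟩ := exists_mem_not_mem hf h (κ := Option κ) (fun o => o.elim v₁ c) (le_refl C) (by simp; omega)
  have hv₂0 : v₂ ≠ 0 := fun h0 => hn₂ (h0 ▸ C.zero_mem)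
  have h12 : f v₁ v₂ = 0 := hc₂ none
  have h21 : f v₂ v₁ = 0 := by rw [hf.herm, h12, map_zero]
  have hc₂' : ∀ i, f (c i) v₂ = 0 := fun i => hc₂ (some i)
  by_cases h3 : f v₂ v₂ = 0
  · exact ⟨v₂, hv₂, hv₂0, h3, hc₂'⟩
  have hμ0 : - f v₂ v₂ / f v₁ v₁ ≠ 0 := div_ne_zero (neg_ne_zero.mpr h3) h1
  obtain ⟨l, hl⟩ := exists_norm hf (- f v₂ v₂ / f v₁ v₁) hμ0 (by rw [map_div₀, map_neg, sig_f hf, sig_f hf])
  have hl0 : l ≠ 0 := by
    rintro rfl
    rw [zero_mul] at hl
    exact hμ0 hl.symm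
  refine ⟨l • v₁ + v₂, A.add_mem (A.smul_mem _ hv₁) hv₂, fun h0 => ?_, ?_, fun i => ?_⟩
  · have h5 : f (l • v₁ + v₂) v₁ = 0 := by rw [h0, zero_left hf]
    rw [hf.add_left, hf.smul_left, h21, add_zero] at h5
    rcases mul_eq_zero.mp h5 with h6 | h6
    · exact hl0 h6
    · exact h1 h6
  · rw [hf.add_left, add_right hf, add_right hf, hf.smul_left, hf.smul_left, smul_right hf, smul_right hf, h12, h21]
    have : l * (σ l * f v₁ v₁) = (l * σ l) * f v₁ v₁ := by ring
    rw [this, hl]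
    field_simp
    ring
  · rw [add_right hf, smul_right hf, hc₁, hc₂']; ring

/-- An isotropic vector outside a subspace. -/
theorem exists_sing {A C T : Submodule F VV} (h : UPair f A C) {κ : Type*} [Fintype κ] (c : κ → VV) (hCT : C ≤ T)
    (hc : Fintype.card κ + Module.finrank F T + 2 < Fintype.card ι) :
    ∃ z ∈ A, f z z = 0 ∧ (∀ i, f (c i) z = 0) ∧ z ∉ T := by
  obtain ⟨v₁, hv₁, hc₁, hn₁⟩ := exists_mem_not_mem hf h c hCT (by omega)
  by_cases h1 : f v₁ v₁ = 0
  · exact ⟨v₁, hv₁, h1, hc₁, hn₁⟩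
  have ht₂ := finrank_sup_span_le T v₁
  obtain ⟨v₂, hv₂, hc₂, hn₂⟩ := exists_mem_not_mem hf h (κ := Option κ) (T := T ⊔ Submodule.span F {v₁}) (fun o => o.elim v₁ c)
    (hCT.trans le_sup_left) (by simp; omega)
  have h12 : f v₁ v₂ = 0 := hc₂ none
  have h21 : f v₂ v₁ = 0 := by rw [hf.herm, h12, map_zero]
  have hc₂' : ∀ i, f (c i) v₂ = 0 := fun i => hc₂ (some i)
  by_cases h3 : f v₂ v₂ = 0
  · exact ⟨v₂, hv₂, h3, hc₂', fun hin => hn₂ (Submodule.mem_sup_left hin)⟩
  have hμ0 : - f v₂ v₂ / f v₁ v₁ ≠ 0 := div_ne_zero (neg_ne_zero.mpr h3) h1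
  obtain ⟨l, hl⟩ := exists_norm hf (- f v₂ v₂ / f v₁ v₁) hμ0 (by rw [map_div₀, map_neg, sig_f hf, sig_f hf])
  refine ⟨l • v₁ + v₂, A.add_mem (A.smul_mem _ hv₁) hv₂, ?_, fun i => ?_, fun hin => ?_⟩
  · rw [hf.add_left, add_right hf, add_right hf, hf.smul_left, hf.smul_left, smul_right hf, smul_right hf, h12, h21]
    have : l * (σ l * f v₁ v₁) = (l * σ l) * f v₁ v₁ := by ring
    rw [this, hl]
    field_simp
    ring
  · rw [add_right hf, smul_right hf, hc₁, hc₂']; ring
  · apply hn₂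
    have e : v₂ = (l • v₁ + v₂) + (-l) • v₁ := by module
    rw [e]
    exact Submodule.add_mem _ (Submodule.mem_sup_left hin)
      (Submodule.mem_sup_right (Submodule.smul_mem _ _ (Submodule.mem_span_singleton_self v₁)))

/-- A partner of an isotropic vector. -/
theorem exists_partner {A C S : Submodule F VV} (h : UPair f A C) {z : VV} (hz : z ∈ A) (hzQ : f z z = 0) (hCS : C ≤ S)
    (hn : z ∉ S) : ∃ z' ∈ A, f z' z' = 0 ∧ f z z' = 1 ∧ ∀ s ∈ S, f s z = 0 → f s z' = 0 := by
  obtain ⟨τ, hτA, hτ, hτ1⟩ := exists_sep_mem hf h hCS hn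
  obtain ⟨d, hd⟩ := exists_trace hf (- f τ τ) (by rw [map_neg, sig_f hf])
  have hτz : f τ z = 1 := by rw [hf.herm, hτ1, map_one]
  refine ⟨τ + d • z, A.add_mem hτA (A.smul_mem _ hz), ?_, ?_, fun s hs hsz => ?_⟩
  · simp only [hf.add_left, add_right hf, hf.smul_left, smul_right hf, hzQ, hτz, hτ1]
    linear_combination hd
  · rw [add_right hf, smul_right hf, hzQ, hτ1]; ring
  · rw [add_right hf, smul_right hf, hsz, hτ s hs]; ring

/-- A hyperbolic pair in a summand, orthogonal to a short list of vectors. -/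
theorem exists_hyp {A C : Submodule F VV} (h : UPair f A C) {κ : Type*} [Fintype κ] (c : κ → VV)
    (hc : 2 * Fintype.card κ + 3 ≤ Module.finrank F A) :
    ∃ p ∈ A, ∃ p' ∈ A, f p p = 0 ∧ f p' p' = 0 ∧ f p p' = 1 ∧ (∀ i, f (c i) p = 0) ∧ ∀ i, f (c i) p' = 0 := by
  set T : Submodule F VV := C ⊔ Submodule.span F (Set.range c) with hT
  have h1 : Module.finrank F T ≤ Module.finrank F C + Fintype.card κ := by
    refine (Submodule.finrank_add_le_finrank_add_finrank _ _).trans ?_
    have : Module.finrank F (Submodule.span F (Set.range c)) ≤ Fintype.card κ := finrank_range_le_card c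
    omega
  have h2 := h.finrank_add
  have hCT : C ≤ T := le_sup_left
  obtain ⟨z, hz, hzQ, hzc, hzT⟩ := exists_sing hf h c hCT (by omega)
  obtain ⟨z', hz', hzQ', hzz', hs⟩ := exists_partner hf h hz hzQ hCT hzT
  exact ⟨z, hz, z', hz', hzQ, hzQ', hzz', hzc, fun i => hs _ (Submodule.mem_sup_right (Submodule.subset_span ⟨i, rfl⟩)) (hzc i)⟩

/-- A hyperbolic pair in a summand, orthogonal to a non-degenerate family in that summand. -/
theorem exists_hyp_nd {A C : Submodule F VV} (h : UPair f A C) {κ : Type*} [Fintype κ] (c : κ → VV)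
    (hcA : ∀ i, c i ∈ A) (hnd : ∀ s ∈ Submodule.span F (Set.range c), (∀ i, f (c i) s = 0) → s = 0)
    (hc : Fintype.card κ + 2 ≤ Module.finrank F A) :
    ∃ p ∈ A, ∃ p' ∈ A, f p p = 0 ∧ f p' p' = 0 ∧ f p p' = 1 ∧ (∀ i, f (c i) p = 0) ∧ ∀ i, f (c i) p' = 0 := by
  set T : Submodule F VV := C ⊔ Submodule.span F (Set.range c) with hT
  obtain ⟨z, hz, hz0, hzQ, hzc⟩ := exists_iso_vec hf h c hc
  have hzT : z ∉ T := by
    intro hin
    obtain ⟨c', hc', s, hs, e⟩ := Submodule.mem_sup.mp hin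
    have hs0 : s = 0 := by
      apply hnd s hs
      intro i
      have h3 := hzc i
      rw [← e, add_right hf, h.orth _ (hcA i) c' hc', zero_add] at h3
      exact h3
    apply hz0
    rw [hs0, add_zero] at e
    exact h.inter hz (e ▸ hc')
  obtain ⟨z', hz', hzQ', hzz', hs⟩ := exists_partner hf h hz hzQ (le_sup_left : C ≤ T) hzT
  exact ⟨z, hz, z', hz', hzQ, hzQ', hzz', hzc, fun i => hs _ (Submodule.mem_sup_right (Submodule.subset_span ⟨i, rfl⟩)) (hzc i)⟩

/-- A vector in a subspace containing a hyperbolic pair is a sum of two isotropic vectors. -/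
theorem exists_split {p p' u : VV} (hp : f p p = 0) (hp' : f p' p' = 0) (hpp' : f p p' = 1) :
    ∃ (i₁ i₂ : VV) (a b c : F), f i₁ i₁ = 0 ∧ f i₂ i₂ = 0 ∧ i₁ + i₂ = u ∧ i₁ = a • u + b • p + c • p' := by
  have hp'p : f p' p = 1 := by rw [hf.herm, hpp', map_one]
  by_cases huu : f u u = 0
  · exact ⟨0, u, 0, 0, 0, zero_left hf _, huu, zero_add _, by simp⟩
  obtain ⟨z, hz, hne, a, b, c, hzc⟩ : ∃ z, f z z = 0 ∧ f u z ≠ 0 ∧ ∃ a b c : F, z = a • u + b • p + c • p' := by
    by_cases h1 : f u p = 0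
    · by_cases h2 : f u p' = 0
      · obtain ⟨t, ht⟩ := exists_trace hf (- f u u) (by rw [map_neg, sig_f hf])
        refine ⟨u + p + t • p', ?_, ?_, 1, 1, t, by simp⟩
        · rw [norm_level hf hp hp' hpp' h1 h2, add_assoc, ht]; ring
        · rw [add_right hf, add_right hf, smul_right hf, h1, h2]
          simpa using huu
      · exact ⟨p', hp', h2, 0, 0, 1, by simp⟩
    · exact ⟨p, hp, h1, 0, 1, 0, by simp⟩
  set β := f u z with hβ
  have hσβ : σ β ≠ 0 := fun h0 => hne (σ.injective (by rw [h0, map_zero]))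
  obtain ⟨x, hx⟩ := exists_trace hf (f u u) (sig_f hf u u)
  set d := x / σ β with hd
  have h3 : d * σ β = x := by rw [hd]; field_simp
  have h4 : σ d * β = σ x := by
    have := congrArg σ h3
    rwa [map_mul, hf.involutive] at this
  have hzu : f z u = σ β := by rw [hβ, sig_f hf]
  refine ⟨d • z, u - d • z, d * a, d * b, d * c, ?_, ?_, by abel, ?_⟩
  · rw [hf.smul_left, smul_right hf, hz]; ring
  · rw [sub_left hf, sub_right hf, sub_right hf, hf.smul_left, hf.smul_left, smul_right hf, smul_right hf, hz, ← hβ, hzu]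
    linear_combination -hx - h3 - h4
  · rw [hzc, smul_add, smul_add, smul_smul, smul_smul, smul_smul]

/-- An Eichler transformation is a product of transvections, given a hyperbolic pair orthogonal to its centre. -/
theorem eg_mem {A : Submodule F VV} {z u p p' : VV} {γ : F} (hzA : z ∈ A) (huA : u ∈ A) (hpA : p ∈ A) (hpA' : p' ∈ A)
    (hz : f z z = 0) (hu : f z u = 0) (hγ : γ + σ γ = - f u u) (hp : f p p = 0) (hp' : f p' p' = 0) (hpp' : f p p' = 1)
    (hzp : f z p = 0) (hzp' : f z p' = 0) : eg f z u γ ∈ inTv σ f A := by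
  obtain ⟨i₁, i₂, a, b, c, h1, h2, e, hi⟩ := exists_split hf (u := u) hp hp' hpp'
  have hi₁A : i₁ ∈ A := by
    rw [hi]
    exact A.add_mem (A.add_mem (A.smul_mem _ huA) (A.smul_mem _ hpA)) (A.smul_mem _ hpA')
  have hi₂A : i₂ ∈ A := by
    have : i₂ = u - i₁ := by rw [← e]; abel
    rw [this]
    exact A.sub_mem huA hi₁A
  have hzi₁ : f z i₁ = 0 := by
    rw [hi, add_right hf, add_right hf, smul_right hf, smul_right hf, smul_right hf, hu, hzp, hzp']; ring
  have hzi₂ : f z i₂ = 0 := by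
    have : i₂ = u - i₁ := by rw [← e]; abel
    rw [this, sub_right hf, hu, hzi₁, sub_zero]
  have h0 : (0 : F) + σ 0 = - f i₁ i₁ := by rw [h1]; simp
  have h0' : (0 : F) + σ 0 = - f i₂ i₂ := by rw [h2]; simp
  have m1 := eg_iso_mem hf (γ := 0) hzA hi₁A hz hzi₁ h1 (by simp)
  have m2 := eg_iso_mem hf (γ := 0) hzA hi₂A hz hzi₂ h2 (by simp)
  set δ := γ + f i₂ i₁ with hδ
  have hδ' : δ + σ δ = 0 := by
    rw [hδ, map_add, sig_f hf]
    have e1 : f u u = f i₁ i₂ + f i₂ i₁ := by
      rw [← e, hf.add_left, add_right hf, add_right hf, h1, h2]; ring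
    linear_combination hγ - e1
  have m3 : eg f z 0 δ ∈ inTv σ f A := tv_mem_inTv hzA hz hδ'
  have e2 : eg f z u γ = eg f z i₁ 0 * eg f z i₂ 0 * eg f z 0 δ := by
    rw [eg_mul hf hz hzi₁ hzi₂ h0 h0', e]
    have hus : (0 : F) + 0 - f i₂ i₁ + σ (0 + 0 - f i₂ i₁) = - f u u := by
      rw [← e, hf.add_left, add_right hf, add_right hf, h1, h2]
      simp only [map_sub, map_add, map_zero, sig_f hf]
      ring
    rw [eg_mul hf hz hu (zero_right hf z) hus (skew_ok hf hδ'), add_zero, zero_left hf]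
    congr 1
    rw [hδ]; ring
  rw [e2]
  exact mul_mem (mul_mem m1 m2) m3

/-- A pair of isotropic vectors spanning a hyperbolic line is a non-degenerate family. -/
theorem hnd_pair {b c : VV} (hb : f b b = 0) (hc : f c c = 0) (hbc : f b c ≠ 0) :
    ∀ s ∈ Submodule.span F (Set.range ![b, c]), (∀ i, f (![b, c] i) s = 0) → s = 0 := by
  intro s hs hperp
  have hr : Set.range ![b, c] = {b, c} := by
    ext y
    simp [Matrix.range_cons, Matrix.range_empty, eq_comm]
    exact or_comm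
  rw [hr, Submodule.mem_span_pair] at hs
  obtain ⟨α, γ, rfl⟩ := hs
  have h1 := hperp 0
  have h2 := hperp 1
  simp only [Matrix.cons_val_zero, Matrix.cons_val_one, add_right hf, smul_right hf, hb, hc] at h1 h2
  rw [mul_zero, zero_add] at h1
  rw [mul_zero, add_zero, hf.herm c b] at h2
  have hσ : σ (f b c) ≠ 0 := fun h0 => hbc (σ.injective (by rw [h0, map_zero]))
  have h3 : σ γ = 0 := (mul_eq_zero.mp h1).resolve_right hbc
  have h4 : σ α = 0 := (mul_eq_zero.mp h2).resolve_right hσ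
  have h5 : γ = 0 := σ.injective (by rw [h3, map_zero])
  have h6 : α = 0 := σ.injective (by rw [h4, map_zero])
  rw [h5, h6]
  simp

/-- A hyperbolic pair of a summand of dimension at least four orthogonal to a non-zero isotropic vector. -/
theorem exists_hyp_perp {A C : Submodule F VV} (h : UPair f A C) (hA : 4 ≤ Module.finrank F A) {z : VV} (hzA : z ∈ A)
    (hz0 : z ≠ 0) (hz : f z z = 0) :
    ∃ z' ∈ A, f z' z' = 0 ∧ f z z' = 1 ∧ ∃ p ∈ A, ∃ p' ∈ A, f p p = 0 ∧ f p' p' = 0 ∧ f p p' = 1 ∧ f z p = 0 ∧ f z p' = 0 ∧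
      f z' p = 0 ∧ f z' p' = 0 := by
  have hzC : z ∉ C := fun hin => hz0 (h.inter hzA hin)
  obtain ⟨z', hz'A, hz'Q, hzz', -⟩ := exists_partner hf h hzA hz (le_refl C) hzC
  have hne : f z z' ≠ 0 := by rw [hzz']; exact one_ne_zero
  obtain ⟨p, hp, p', hp', hpQ, hpQ', hpp', h1, h2⟩ := exists_hyp_nd hf h ![z, z']
    (fun i => by fin_cases i <;> simpa) (hnd_pair hf hz hz'Q hne) (by simpa using hA)
  exact ⟨z', hz'A, hz'Q, hzz', p, hp, p', hp', hpQ, hpQ', hpp', h1 0, h2 0, h1 1, h2 1⟩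

/-- A common partner of two independent vectors, given a hyperbolic pair orthogonal to both. -/
theorem common_partner {A C : Submodule F VV} (h : UPair f A C) {b c p p' : VV} (hb : b ∈ A) (hc : c ∈ A) (hp : p ∈ A)
    (hp' : p' ∈ A) (hind : ∀ α β : F, α • b + β • c = 0 → α = 0 ∧ β = 0) (hpQ : f p p = 0) (hpp' : f p p' = 1)
    (hbp : f b p = 0) (hbp' : f b p' = 0) (hcp : f c p = 0) (hcp' : f c p' = 0) (hp'Q : f p' p' = 0) :
    ∃ u ∈ A, f u u = 0 ∧ f b u = 1 ∧ f c u = 1 := by
  have hp'p : f p' p = 1 := by rw [hf.herm, hpp', map_one]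
  have key : ∀ {y z : VV}, y ∈ A → z ∈ A → (∀ α β : F, α • y + β • z = 0 → α = 0 ∧ β = 0) →
      ∃ τ ∈ A, f z τ = 0 ∧ f y τ = 1 := by
    intro y z hy hz hyz
    have hn : y ∉ C ⊔ Submodule.span F {z} := by
      intro hin
      obtain ⟨c', hc', s, hs, e⟩ := Submodule.mem_sup.mp hin
      obtain ⟨t, rfl⟩ := Submodule.mem_span_singleton.mp hs
      have hc0 : c' = 0 := by
        apply h.inter (x := c') _ hc'
        have : c' = y - t • z := eq_sub_of_add_eq e
        rw [this]
        exact A.sub_mem hy (A.smul_mem _ hz)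
      rw [hc0, zero_add] at e
      have := (hyz 1 (-t) (by rw [one_smul, neg_smul, ← e]; abel)).1
      exact one_ne_zero this
    obtain ⟨τ, hτA, hτ, hτ1⟩ := exists_sep_mem hf h (le_sup_left : C ≤ C ⊔ Submodule.span F {z}) hn
    exact ⟨τ, hτA, hτ z (Submodule.mem_sup_right (Submodule.mem_span_singleton_self z)), hτ1⟩
  obtain ⟨τ₁, hτ₁, h1, h2⟩ := key hb hc hind
  obtain ⟨τ₂, hτ₂, h3, h4⟩ := key hc hb (fun α β e => (hind β α (by rwa [add_comm])).symm)
  set t := τ₁ + τ₂ with ht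
  have h5 : f b t = 1 := by rw [ht, add_right hf, h2, h3, add_zero]
  have h6 : f c t = 1 := by rw [ht, add_right hf, h1, h4, zero_add]
  have htA : t ∈ A := A.add_mem hτ₁ hτ₂
  set s := 1 - f t p with hs
  set w := t + s • p' with hw
  have h7 : f w p = 1 := by rw [hw, hf.add_left, hf.smul_left, hp'p, hs]; ring
  have h8 : f p w = 1 := by rw [hf.herm, h7, map_one]
  have h9 : f b w = 1 := by rw [hw, add_right hf, smul_right hf, h5, hbp']; ring
  have h10 : f c w = 1 := by rw [hw, add_right hf, smul_right hf, h6, hcp']; ring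
  obtain ⟨d, hd⟩ := exists_trace hf (- f w w) (by rw [map_neg, sig_f hf])
  refine ⟨w + d • p, A.add_mem (A.add_mem htA (A.smul_mem _ hp')) (A.smul_mem _ hp), ?_, ?_, ?_⟩
  · simp only [hf.add_left, add_right hf, hf.smul_left, smul_right hf, hpQ, h7, h8]
    linear_combination hd
  · rw [add_right hf, smul_right hf, h9, hbp]; ring
  · rw [add_right hf, smul_right hf, h10, hcp]; ring

/-- A common partner of two orthogonal independent vectors, the first isotropic. -/
theorem common_partner_orth {A C : Submodule F VV} (h : UPair f A C) {b c : VV} (hb : b ∈ A) (hc : c ∈ A)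
    (hbQ : f b b = 0) (hbc : f b c = 0) (hind : ∀ α β : F, α • b + β • c = 0 → α = 0 ∧ β = 0) :
    ∃ u ∈ A, f u u = 0 ∧ f b u = 1 ∧ f c u = 1 := by
  have hcb : f c b = 0 := by rw [hf.herm, hbc, map_zero]
  have key : ∀ {y z : VV}, y ∈ A → z ∈ A → (∀ α β : F, α • y + β • z = 0 → α = 0 ∧ β = 0) →
      ∃ τ ∈ A, f z τ = 0 ∧ f y τ = 1 := by
    intro y z hy hz hyz
    have hn : y ∉ C ⊔ Submodule.span F {z} := by
      intro hin
      obtain ⟨c', hc', s, hs, e⟩ := Submodule.mem_sup.mp hin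
      obtain ⟨t, rfl⟩ := Submodule.mem_span_singleton.mp hs
      have hc0 : c' = 0 := by
        apply h.inter (x := c') _ hc'
        have : c' = y - t • z := eq_sub_of_add_eq e
        rw [this]
        exact A.sub_mem hy (A.smul_mem _ hz)
      rw [hc0, zero_add] at e
      have := (hyz 1 (-t) (by rw [one_smul, neg_smul, ← e]; abel)).1
      exact one_ne_zero this
    obtain ⟨τ, hτA, hτ, hτ1⟩ := exists_sep_mem hf h (le_sup_left : C ≤ C ⊔ Submodule.span F {z}) hn
    exact ⟨τ, hτA, hτ z (Submodule.mem_sup_right (Submodule.mem_span_singleton_self z)), hτ1⟩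
  obtain ⟨τ₁, hτ₁, h1, h2⟩ := key hb hc hind
  obtain ⟨τ₂, hτ₂, h3, h4⟩ := key hc hb (fun α β e => (hind β α (by rwa [add_comm])).symm)
  set t := τ₁ + τ₂ with ht
  have h5 : f b t = 1 := by rw [ht, add_right hf, h2, h3, add_zero]
  have h6 : f c t = 1 := by rw [ht, add_right hf, h1, h4, zero_add]
  have h7 : f t b = 1 := by rw [hf.herm, h5, map_one]
  obtain ⟨d, hd⟩ := exists_trace hf (- f t t) (by rw [map_neg, sig_f hf])
  refine ⟨t + d • b, A.add_mem (A.add_mem hτ₁ hτ₂) (A.smul_mem _ hb), ?_, ?_, ?_⟩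
  · simp only [hf.add_left, add_right hf, hf.smul_left, smul_right hf, hbQ, h5, h7]
    linear_combination hd
  · rw [add_right hf, smul_right hf, h5, hbQ]; ring
  · rw [add_right hf, smul_right hf, h6, hcb]; ring

/-- With a common partner: a transitivity step. -/
theorem step_of_partner {A C : Submodule F VV} (h : UPair f A C) (hA : 4 ≤ Module.finrank F A) {x y u : VV} (hx : x ∈ A) (hy : y ∈ A)
    (hu : u ∈ A) (hxy : f x x = f y y) (huQ : f u u = 0) (h1 : f x u = 1) (h2 : f y u = 1) :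
    ∃ s ∈ inTv σ f A, (s : MM) *ᵥ x = y := by
  have hu0 : u ≠ 0 := by
    rintro rfl
    rw [zero_right hf] at h1
    exact zero_ne_one h1
  obtain ⟨z', -, -, -, p, hp, p', hp', hpQ, hpQ', hpp', h3, h4, -, -⟩ := exists_hyp_perp hf h hA hu hu0 huQ
  obtain ⟨h5, h6, h7⟩ := eg_map hf huQ h1 h2 hxy
  exact ⟨_, eg_mem hf hu (A.sub_mem hy hx) hp hp' huQ h5 h6 hpQ hpQ' hpp' h3 h4, h7⟩

/-- Transitivity of the transvections of a summand of dimension at least four on its non-zero isotropic vectors. -/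
theorem trans_iso {A C : Submodule F VV} (h : UPair f A C) (hA : 4 ≤ Module.finrank F A) {b c : VV}
    (hb : b ∈ A) (hc : c ∈ A) (hbQ : f b b = 0) (hcQ : f c c = 0) (hb0 : b ≠ 0) (hc0 : c ≠ 0) :
    ∃ x ∈ inTv σ f A, (x : MM) *ᵥ b = c := by
  by_cases hdep : ∃ l : F, c = l • b
  · obtain ⟨l, rfl⟩ := hdep
    have hl : l ≠ 0 := by
      rintro rfl
      simp at hc0
    obtain ⟨b', hb'A, hb'Q, hbb', p, hp, p', hp', hpQ, hpQ', hpp', h1, h3, h4, h5⟩ := exists_hyp_perp hf h hA hb hb0 hbQ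
    have hind : ∀ α β : F, α • b + β • p = 0 → α = 0 ∧ β = 0 := by
      intro α β e
      have e1 : f (α • b + β • p) p' = 0 := by rw [e, zero_left hf]
      rw [hf.add_left, hf.smul_left, hf.smul_left, h3, hpp', mul_zero, zero_add, mul_one] at e1
      rw [e1, zero_smul, add_zero] at e
      exact ⟨(smul_eq_zero.mp e).resolve_right hb0, e1⟩
    obtain ⟨u₁, hu₁, hu₁Q, e1, e2⟩ := common_partner_orth hf h hb hp hbQ h1 hind
    obtain ⟨x₁, hx₁, e₁⟩ := step_of_partner hf h hA hb hp hu₁ (by rw [hbQ, hpQ]) hu₁Q e1 e2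
    have h6 : f p (l • b) = 0 := by
      rw [smul_right hf, hf.herm, h1, map_zero, mul_zero]
    have hind2 : ∀ α β : F, α • p + β • (l • b) = 0 → α = 0 ∧ β = 0 := by
      intro α β e
      have e' : (β * l) • b + α • p = 0 := by rw [← smul_smul, add_comm]; exact e
      obtain ⟨h6, h7⟩ := hind _ _ e'
      exact ⟨h7, (mul_eq_zero.mp h6).resolve_right hl⟩
    obtain ⟨u₂, hu₂, hu₂Q, e3, e4⟩ := common_partner_orth hf h hp hc hpQ h6 hind2
    obtain ⟨x₂, hx₂, e₂⟩ := step_of_partner hf h hA hp hc hu₂ (by rw [hpQ, hcQ]) hu₂Q e3 e4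
    refine ⟨x₂ * x₁, mul_mem hx₂ hx₁, ?_⟩
    rw [Units.val_mul, ← Matrix.mulVec_mulVec, e₁, e₂]
  · push Not at hdep
    have hind : ∀ α β : F, α • b + β • c = 0 → α = 0 ∧ β = 0 := by
      intro α β e
      have hβ : β = 0 := by
        by_contra hβ
        apply hdep (-(β⁻¹ * α))
        have : c = β⁻¹ • (β • c) := by rw [smul_smul, inv_mul_cancel₀ hβ, one_smul]
        rw [this, neg_smul, ← smul_smul, ← smul_neg]
        congr 1
        exact eq_neg_of_add_eq_zero_right e
      rw [hβ, zero_smul, add_zero] at e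
      exact ⟨(smul_eq_zero.mp e).resolve_right hb0, hβ⟩
    by_cases hbc : f b c = 0
    · obtain ⟨u, hu, huQ, e1, e2⟩ := common_partner_orth hf h hb hc hbQ hbc hind
      exact step_of_partner hf h hA hb hc hu (by rw [hbQ, hcQ]) huQ e1 e2
    · obtain ⟨p, hp, p', hp', hpQ, hpQ', hpp', h1, h2⟩ := exists_hyp_nd hf h ![b, c]
        (fun i => by fin_cases i <;> simpa) (hnd_pair hf hbQ hcQ hbc) (by simpa using hA)
      obtain ⟨u, hu, huQ, e1, e2⟩ := common_partner hf h hb hc hp hp' hind hpQ hpp' (h1 0) (h2 0) (h1 1) (h2 1) hpQ'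
      exact step_of_partner hf h hA hb hc hu (by rw [hbQ, hcQ]) huQ e1 e2

/-- Transitivity on vectors of a given norm for the whole space. -/
theorem trans_norm (hn : 6 ≤ Fintype.card ι) {x y : VV} (hxy : f x x = f y y) (hx0 : x ≠ 0) (hy0 : y ≠ 0) (hx : f x x ≠ 0) :
    ∃ s ∈ inTv σ f ⊤, (s : MM) *ᵥ x = y := by
  have htop := UPair.top hf (ι := ι) (F := F)
  have hA : 4 ≤ Module.finrank F (⊤ : Submodule F VV) := by simp; omega
  have indep_case : ∀ {a b : VV}, f a a = f b b → (∀ α β : F, α • a + β • b = 0 → α = 0 ∧ β = 0) →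
      ∃ s ∈ inTv σ f ⊤, (s : MM) *ᵥ a = b := by
    intro a b hab hind
    obtain ⟨p, p', hp, hp', hpp', h1, h2⟩ := exists_hyp_pair hf ![a, b] (by simp; omega)
    obtain ⟨u, -, huQ, e1, e2⟩ := common_partner hf htop (b := a) (c := b) (p := p) (p' := p') trivial trivial trivial trivial hind hp hpp'
      (h1 0) (h2 0) (h1 1) (h2 1) hp'
    exact step_of_partner hf htop hA trivial trivial trivial hab huQ e1 e2
  by_cases hdep : ∃ l : F, y = l • x
  · obtain ⟨l, hl⟩ := hdep
    obtain ⟨p, p', hp, hp', hpp', h1, h2⟩ := exists_hyp_pair hf ![x] (by simp; omega)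
    have h3 : f x p = 0 := h1 0
    have h4 : f x p' = 0 := h2 0
    have h5 : f p x = 0 := by rw [hf.herm, h3, map_zero]
    have h6 : f p' x = 0 := by rw [hf.herm, h4, map_zero]
    have hp'p : f p' p = 1 := by rw [hf.herm, hpp', map_one]
    have hp0 : p ≠ 0 := by
      rintro rfl
      rw [zero_left hf] at hpp'
      exact zero_ne_one hpp'
    set w := x + p with hw
    have hww : f w w = f x x := by
      rw [hw, hf.add_left, add_right hf, add_right hf, h3, h5, hp]; ring
    have hwp' : f w p' = 1 := by rw [hw, hf.add_left, h4, hpp', zero_add]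
    have hl0 : l ≠ 0 := by
      rintro rfl
      rw [zero_smul] at hl
      exact hy0 hl
    have ind1 : ∀ α β : F, α • x + β • w = 0 → α = 0 ∧ β = 0 := by
      intro α β e
      have e1 : f (α • x + β • w) p' = 0 := by rw [e, zero_left hf]
      rw [hf.add_left, hf.smul_left, hf.smul_left, h4, hwp', mul_zero, zero_add, mul_one] at e1
      rw [e1, zero_smul, add_zero] at e
      exact ⟨(smul_eq_zero.mp e).resolve_right hx0, e1⟩
    have ind2 : ∀ α β : F, α • w + β • y = 0 → α = 0 ∧ β = 0 := by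
      intro α β e
      have e0 : f (α • w + β • y) p' = 0 := by rw [e, zero_left hf]
      have e2 : f y p' = 0 := by rw [hl, hf.smul_left, h4, mul_zero]
      rw [hf.add_left, hf.smul_left, hf.smul_left, e2, hwp', mul_zero, add_zero, mul_one] at e0
      rw [e0, zero_smul, zero_add] at e
      exact ⟨e0, (smul_eq_zero.mp e).resolve_right hy0⟩
    obtain ⟨s₁, hs₁, e₁⟩ := indep_case hww.symm ind1
    obtain ⟨s₂, hs₂, e₂⟩ := indep_case (hww.trans hxy) ind2
    refine ⟨s₂ * s₁, mul_mem hs₂ hs₁, ?_⟩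
    rw [Units.val_mul, ← Matrix.mulVec_mulVec, e₁, e₂]
  · push Not at hdep
    apply indep_case hxy
    intro α β e
    have hβ : β = 0 := by
      by_contra hβ
      apply hdep (-(β⁻¹ * α))
      have : y = β⁻¹ • (β • y) := by rw [smul_smul, inv_mul_cancel₀ hβ, one_smul]
      rw [this, neg_smul, ← smul_smul, ← smul_neg]
      congr 1
      exact eq_neg_of_add_eq_zero_right e
    rw [hβ, zero_smul, add_zero] at e
    exact ⟨(smul_eq_zero.mp e).resolve_right hx0, hβ⟩

end Finite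

end Nondeg

end Cfsg.Agent.Lib.ClassMax.UnitCore
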