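import Mathlib
import Cfsg.Agent.Lib.ClassMax.UnitPair

/-! The unitary transvections generate the special unitary group (dimension at least six). -/

set_option autoImplicit false

namespace Cfsg.Agent.Lib.ClassMax.UnitCore

open Matrix Cfsg.Geo Cfsg.Agent.Lib.ClassMax Cfsg.Agent.Lib.ClassMax.QuadOver
open Cfsg.Agent.Lib.ClassMax.HermOver

variable {ι : Type} [Fintype ι] [DecidableEq ι] {F : Type*} [Field F] {σ : F ≃+* F} {f : (ι → F) → (ι → F) → F}

local notation "VV" => (ι → F)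
local notation "MM" => Matrix ι ι F
local notation "GG" => GL ι F

section Nondeg

variable (hf : IsUnitaryForm σ f)
include hf

/-- The orthogonal complement in `A` of a hyperbolic pair. -/
def hypPerp (hf : IsUnitaryForm σ f) (A : Submodule F (ι → F)) (p p' : ι → F) : Submodule F (ι → F) where
  carrier := {v | v ∈ A ∧ f p v = 0 ∧ f p' v = 0}
  add_mem' := by
    rintro a b ⟨h1, h2, h3⟩ ⟨h4, h5, h6⟩
    exact ⟨A.add_mem h1 h4, by rw [add_right hf, h2, h5, add_zero], by rw [add_right hf, h3, h6, add_zero]⟩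
  zero_mem' := ⟨A.zero_mem, zero_right hf _, zero_right hf _⟩
  smul_mem' := by
    rintro c a ⟨h1, h2, h3⟩
    exact ⟨A.smul_mem _ h1, by rw [smul_right hf, h2, mul_zero], by rw [smul_right hf, h3, mul_zero]⟩

theorem mem_hypPerp {A : Submodule F VV} {p p' v : VV} : v ∈ hypPerp hf A p p' ↔ v ∈ A ∧ f p v = 0 ∧ f p' v = 0 := Iff.rfl

/-- Removing a hyperbolic pair from an orthogonal decomposition. -/
theorem UPair.hyp_step {A C : Submodule F VV} (h : UPair f A C) {p p' : VV} (hp : p ∈ A) (hp' : p' ∈ A) (hpQ : f p p = 0)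
    (hpQ' : f p' p' = 0) (hpp' : f p p' = 1) :
    UPair f (hypPerp hf A p p') (C ⊔ Submodule.span F {p, p'}) := by
  have hp'p : f p' p = 1 := by rw [hf.herm, hpp', map_one]
  refine ⟨⟨?_, ?_⟩, ?_⟩
  · rw [Submodule.disjoint_def]
    intro x hx hx2
    obtain ⟨hxA, h1, h2⟩ := (mem_hypPerp hf).mp hx
    obtain ⟨c, hc, s, hs, e⟩ := Submodule.mem_sup.mp hx2
    obtain ⟨α, β, rfl⟩ := Submodule.mem_span_pair.mp hs
    have hc0 : c = 0 := by
      apply h.inter _ hc
      have : c = x - (α • p + β • p') := eq_sub_of_add_eq e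
      rw [this]
      exact A.sub_mem hxA (A.add_mem (A.smul_mem _ hp) (A.smul_mem _ hp'))
    rw [hc0, zero_add] at e
    rw [← e, add_right hf, smul_right hf, smul_right hf, hpQ, hpp'] at h1
    rw [← e, add_right hf, smul_right hf, smul_right hf, hp'p, hpQ'] at h2
    have hα : σ α = 0 := by linear_combination h2
    have hβ : σ β = 0 := by linear_combination h1
    have hα' : α = 0 := σ.injective (by rw [hα, map_zero])
    have hβ' : β = 0 := σ.injective (by rw [hβ, map_zero])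
    rw [← e, hα', hβ']
    simp
  · rw [codisjoint_iff, eq_top_iff]
    intro v _
    obtain ⟨a, ha, c, hc, rfl⟩ := h.decomp v
    have e : a + c = (a - (f a p') • p - (f a p) • p') + (c + ((f a p') • p + (f a p) • p')) := by abel
    rw [e]
    apply Submodule.add_mem_sup
    · refine (mem_hypPerp hf).mpr ⟨A.sub_mem (A.sub_mem ha (A.smul_mem _ hp)) (A.smul_mem _ hp'), ?_, ?_⟩
      · simp only [sub_right hf, smul_right hf, hpQ, hpp', sig_f hf]
        ring
      · simp only [sub_right hf, smul_right hf, hp'p, hpQ', sig_f hf]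
        ring
    · apply Submodule.add_mem_sup hc
      exact Submodule.mem_span_pair.mpr ⟨_, _, rfl⟩
  · intro a ha y hy
    obtain ⟨haA, h1, h2⟩ := (mem_hypPerp hf).mp ha
    obtain ⟨c, hc, s, hs, rfl⟩ := Submodule.mem_sup.mp hy
    obtain ⟨α, β, rfl⟩ := Submodule.mem_span_pair.mp hs
    have h3 : f a p = 0 := by rw [hf.herm, h1, map_zero]
    have h4 : f a p' = 0 := by rw [hf.herm, h2, map_zero]
    rw [add_right hf, add_right hf, smul_right hf, smul_right hf, h.orth a haA c hc, h3, h4]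
    ring

/-- The dimension drops by two along a step. -/
theorem finrank_hypPerp {A C : Submodule F VV} (h : UPair f A C) {p p' : VV} (hp : p ∈ A) (hp' : p' ∈ A) (hpQ : f p p = 0)
    (hpQ' : f p' p' = 0) (hpp' : f p p' = 1) :
    Module.finrank F (hypPerp hf A p p') + 2 = Module.finrank F A := by
  have h1 := (UPair.hyp_step hf h hp hp' hpQ hpQ' hpp').finrank_add
  have h2 := h.finrank_add
  have hp'p : f p' p = 1 := by rw [hf.herm, hpp', map_one]
  have hind : LinearIndependent F ![p, p'] := by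
    rw [LinearIndependent.pair_iff]
    intro s t e
    have e1 := congrArg (fun w => f w p') e
    have e2 := congrArg (fun w => f w p) e
    simp only [hf.add_left, hf.smul_left, hpQ, hpp', hp'p, hpQ', zero_left hf] at e1 e2
    constructor
    · linear_combination e1
    · linear_combination e2
  have hr : Set.range ![p, p'] = {p, p'} := by
    ext y
    simp [Matrix.range_cons, Matrix.range_empty, eq_comm]
    exact or_comm
  have hspan : Module.finrank F (Submodule.span F ({p, p'} : Set VV)) = 2 := by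
    have := finrank_span_eq_card hind
    rw [hr] at this
    simpa using this
  have hdisj : C ⊓ Submodule.span F {p, p'} = ⊥ := by
    rw [eq_bot_iff]
    intro x hx
    obtain ⟨hxC, hxs⟩ := Submodule.mem_inf.mp hx
    have : x ∈ A := by
      have hle : Submodule.span F {p, p'} ≤ A := by
        rw [Submodule.span_le]
        rintro y (rfl | rfl)
        · exact hp
        · exact hp'
      exact hle hxs
    rw [h.inter this hxC]
    exact Submodule.zero_mem _
  have h3 := Submodule.finrank_sup_add_finrank_inf_eq C (Submodule.span F {p, p'})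
  rw [hdisj, finrank_bot, add_zero, hspan] at h3
  omega

/-- Isometries fixing `C` preserve `A`. -/
theorem iso_pres {A C : Submodule F VV} (h : UPair f A C) {g : GG} (hg : ∀ v w, f ((g : MM) *ᵥ v) ((g : MM) *ᵥ w) = f v w)
    (hgC : ∀ c ∈ C, (g : MM) *ᵥ c = c) {a : VV} (ha : a ∈ A) : (g : MM) *ᵥ a ∈ A := by
  apply h.mem_left hf
  intro c hc
  rw [← hgC c hc, hg]
  exact h.orth' hf ha hc

section Finite

variable [Fintype F]

/-- One step of the reduction: after multiplying by a product of transvections, an isometry fixing `C` also fixes a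
hyperbolic pair of `A`. -/
theorem chain_step {A C : Submodule F VV} (h : UPair f A C) (hA : 4 ≤ Module.finrank F A) {p p' : VV}
    (hp : p ∈ A) (hp' : p' ∈ A) (hpQ : f p p = 0) (hpQ' : f p' p' = 0) (hpp' : f p p' = 1) {g : GG}
    (hg : ∀ v w, f ((g : MM) *ᵥ v) ((g : MM) *ᵥ w) = f v w) (hgC : ∀ c ∈ C, (g : MM) *ᵥ c = c) :
    ∃ x ∈ inTv σ f A, (∀ c ∈ C, ((x⁻¹ * g : GG) : MM) *ᵥ c = c) ∧ ((x⁻¹ * g : GG) : MM) *ᵥ p = p ∧
      ((x⁻¹ * g : GG) : MM) *ᵥ p' = p' := by
  have hfixC : ∀ {x : GG}, x ∈ inTv σ f A → ∀ c ∈ C, (x : MM) *ᵥ c = c :=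
    fun hx c hc => inTv_fix hf hx (fun a ha => h.orth' hf ha hc)
  have hp0 : p ≠ 0 := by
    rintro rfl
    rw [zero_left hf] at hpp'
    exact zero_ne_one hpp'
  have hp'p : f p' p = 1 := by rw [hf.herm, hpp', map_one]
  have hgp : (g : MM) *ᵥ p ≠ 0 := by
    intro h0
    apply hp0
    have := congrArg (fun w => ((g⁻¹ : GG) : MM) *ᵥ w) h0
    simpa [Matrix.mulVec_mulVec] using this
  obtain ⟨x₁, hx₁, e₁⟩ := trans_iso hf h hA hp (iso_pres hf h hg hgC hp) hpQ (by rw [hg, hpQ]) hp0 hgp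
  set g₁ : GG := x₁⁻¹ * g with hg₁
  have hx₁iso := inTv_iso hf hx₁
  have hg₁iso : ∀ v w, f ((g₁ : MM) *ᵥ v) ((g₁ : MM) *ᵥ w) = f v w := iso_mul (iso_inv hx₁iso) hg
  have hg₁C : ∀ c ∈ C, (g₁ : MM) *ᵥ c = c := by
    intro c hc
    rw [hg₁, Units.val_mul, ← Matrix.mulVec_mulVec, hgC c hc]
    exact gl_inv_fix (hfixC hx₁ c hc)
  have hg₁p : (g₁ : MM) *ᵥ p = p := by
    rw [hg₁, Units.val_mul, ← Matrix.mulVec_mulVec, ← e₁, Matrix.mulVec_mulVec, ← Units.val_mul, inv_mul_cancel,
      Units.val_one, Matrix.one_mulVec]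
  set c' := (g₁ : MM) *ᵥ p' with hc'
  have hc'A : c' ∈ A := iso_pres hf h hg₁iso hg₁C hp'
  have hc'Q : f c' c' = 0 := by rw [hc', hg₁iso, hpQ']
  have hpc' : f p c' = 1 := by
    rw [hc']
    conv_lhs => rw [← hg₁p]
    rw [hg₁iso, hpp']
  have hc'p : f c' p = 1 := by rw [hf.herm, hpc', map_one]
  obtain ⟨h3, h4, e₂⟩ := eg_map hf hpQ hp'p hc'p (by rw [hpQ', hc'Q])
  obtain ⟨z', -, -, -, q, hq, q', hq', hqQ, hqQ', hqq', h5, h6, -, -⟩ := exists_hyp_perp hf h hA hp hp0 hpQ
  have hx₂ := eg_mem hf hp (A.sub_mem hc'A hp') hq hq' hpQ h3 h4 hqQ hqQ' hqq' h5 h6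
  set x₂ := eg f p (c' - p') (f p' (c' - p')) with hx₂def
  have e₃ : (x₂ : MM) *ᵥ p = p := eg_fix hf hpQ h3 h4 hpQ h3
  have e : (x₁ * x₂)⁻¹ * g = x₂⁻¹ * g₁ := by rw [hg₁]; group
  refine ⟨x₁ * x₂, mul_mem hx₁ hx₂, ?_, ?_, ?_⟩
  · intro c hc
    rw [e, Units.val_mul, ← Matrix.mulVec_mulVec, hg₁C c hc]
    exact gl_inv_fix (hfixC hx₂ c hc)
  · rw [e, Units.val_mul, ← Matrix.mulVec_mulVec, hg₁p]
    exact gl_inv_fix e₃
  · rw [e, Units.val_mul, ← Matrix.mulVec_mulVec, ← hc']
    exact gl_inv_apply e₂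

/-- The case of a hyperbolic plane. -/
theorem base_two {A C : Submodule F VV} (h : UPair f A C) (hA : Module.finrank F A = 2) {g : GG}
    (hg : ∀ v w, f ((g : MM) *ᵥ v) ((g : MM) *ᵥ w) = f v w) (hgd : g ∈ specialLinear ι F)
    (hgC : ∀ c ∈ C, (g : MM) *ᵥ c = c) : g ∈ inTv σ f A := by
  obtain ⟨p, hp, p', hp', hpQ, hpQ', hpp', -, -⟩ := exists_hyp_nd hf h (![] : Fin 0 → VV) (fun i => i.elim0)
    (by simp) (by simp; omega)
  have hp'p : f p' p = 1 := by rw [hf.herm, hpp', map_one]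
  -- coordinates in `A`
  have hcoord : ∀ v ∈ A, v = f v p' • p + f v p • p' := by
    intro v hv
    have h1 := finrank_hypPerp hf h hp hp' hpQ hpQ' hpp'
    have h2 : hypPerp hf A p p' = ⊥ := Submodule.finrank_eq_zero.mp (by omega)
    have h3 : v - f v p' • p - f v p • p' ∈ hypPerp hf A p p' := by
      refine (mem_hypPerp hf).mpr ⟨A.sub_mem (A.sub_mem hv (A.smul_mem _ hp)) (A.smul_mem _ hp'), ?_, ?_⟩
      · simp only [sub_right hf, smul_right hf, hpQ, hpp', sig_f hf]
        ring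
      · simp only [sub_right hf, smul_right hf, hp'p, hpQ', sig_f hf]
        ring
    rw [h2, Submodule.mem_bot] at h3
    rw [sub_sub, sub_eq_zero] at h3
    exact h3
  have hext : ∀ {a b : GG}, (a : MM) *ᵥ p = (b : MM) *ᵥ p → (a : MM) *ᵥ p' = (b : MM) *ᵥ p' →
      (∀ c ∈ C, (a : MM) *ᵥ c = (b : MM) *ᵥ c) → a = b := by
    intro a b h1 h2 h3
    apply gl_ext_mulVec
    intro v
    obtain ⟨x, hx, c, hc, rfl⟩ := h.decomp v
    rw [hcoord x hx]
    simp only [Matrix.mulVec_add, Matrix.mulVec_smul, h1, h2, h3 c hc]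
  -- the basic transvections
  have T1 : ∀ {a : F}, a + σ a = 0 → (eg f p 0 a : MM) *ᵥ p = p := fun ha =>
    eg_fix hf hpQ (zero_right hf p) (skew_ok hf ha) hpQ (zero_right hf p)
  have T2 : ∀ {a : F}, a + σ a = 0 → (eg f p 0 a : MM) *ᵥ p' = p' + a • p := fun {a} ha => by
    rw [eg_apply hf hpQ (zero_right hf p) (skew_ok hf ha)]
    unfold egFun
    rw [hp'p, zero_right hf]
    module
  have T3 : ∀ {a : F}, a + σ a = 0 → (eg f p' 0 a : MM) *ᵥ p' = p' := fun ha =>
    eg_fix hf hpQ' (zero_right hf p') (skew_ok hf ha) hpQ' (zero_right hf p')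
  have T4 : ∀ {a : F}, a + σ a = 0 → (eg f p' 0 a : MM) *ᵥ p = p + a • p' := fun {a} ha => by
    rw [eg_apply hf hpQ' (zero_right hf p') (skew_ok hf ha)]
    unfold egFun
    rw [hpp', zero_right hf]
    module
  have Tm : ∀ {a : F}, a + σ a = 0 → eg f p 0 a ∈ inTv σ f A := fun ha => tv_mem_inTv hp hpQ ha
  have Tm' : ∀ {a : F}, a + σ a = 0 → eg f p' 0 a ∈ inTv σ f A := fun ha => tv_mem_inTv hp' hpQ' ha
  have hfixC : ∀ {x : GG}, x ∈ inTv σ f A → ∀ c ∈ C, (x : MM) *ᵥ c = c :=
    fun hx c hc => inTv_fix hf hx (fun a ha => h.orth' hf ha hc)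
  -- the Weyl elements
  have W : ∀ {a : F}, a ≠ 0 → a + σ a = 0 → ∃ w ∈ inTv σ f A, (w : MM) *ᵥ p = (-a⁻¹) • p' ∧ (w : MM) *ᵥ p' = a • p := by
    intro a ha0 ha
    have hb : -a⁻¹ + σ (-a⁻¹) = 0 := by
      have hσ : σ a = -a := by linear_combination ha
      rw [map_neg, map_inv₀, hσ, inv_neg]
      ring
    refine ⟨eg f p 0 a * eg f p' 0 (-a⁻¹) * eg f p 0 a, mul_mem (mul_mem (Tm ha) (Tm' hb)) (Tm ha), ?_, ?_⟩
    · simp only [Units.val_mul, ← Matrix.mulVec_mulVec]
      rw [T1 ha, T4 hb, Matrix.mulVec_add, Matrix.mulVec_smul, T1 ha, T2 ha, smul_add, smul_smul]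
      have e : -a⁻¹ * a = -1 := by field_simp
      rw [e]
      module
    · simp only [Units.val_mul, ← Matrix.mulVec_mulVec]
      rw [T2 ha, Matrix.mulVec_add, Matrix.mulVec_smul, T3 hb, T4 hb, smul_add, smul_smul]
      have e : a * -a⁻¹ = -1 := by field_simp
      rw [e, Matrix.mulVec_add, Matrix.mulVec_add, Matrix.mulVec_smul, Matrix.mulVec_smul, T1 ha, T2 ha]
      module
  obtain ⟨a₀, ha₀0, ha₀⟩ := exists_skew hf
  -- first step: moving `p` to a multiple of itself
  have hgp0 : (g : MM) *ᵥ p ≠ 0 := by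
    intro h0
    have := hg p p'
    rw [h0, zero_left hf, hpp'] at this
    exact zero_ne_one this
  set v₁ := (g : MM) *ᵥ p with hv₁
  have hv₁A : v₁ ∈ A := iso_pres hf h hg hgC hp
  have hv₁Q : f v₁ v₁ = 0 := by rw [hv₁, hg, hpQ]
  obtain ⟨x₁, hx₁, l, hl0, hx₁l⟩ : ∃ x ∈ inTv σ f A, ∃ l : F, l ≠ 0 ∧ (x : MM) *ᵥ (l • p) = v₁ := by
    set α := f v₁ p' with hα
    set β := f v₁ p with hβ
    have hco : v₁ = α • p + β • p' := hcoord v₁ hv₁A
    have hiso : α * σ β + β * σ α = 0 := by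
      have h1 := hv₁Q
      rw [hco] at h1
      simp only [hf.add_left, add_right hf, hf.smul_left, smul_right hf, hpQ, hpQ', hpp', hp'p] at h1
      linear_combination h1
    by_cases hα0 : α = 0
    · have hβ0 : β ≠ 0 := by
        intro h0
        apply hgp0
        rw [hco, hα0, h0]
        simp
      obtain ⟨w, hw, e1, -⟩ := W ha₀0 ha₀
      refine ⟨w, hw, -a₀ * β, mul_ne_zero (neg_ne_zero.mpr ha₀0) hβ0, ?_⟩
      rw [Matrix.mulVec_smul, e1, hco, hα0, zero_smul, zero_add, smul_smul]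
      congr 1
      field_simp
    · have hσα : σ α ≠ 0 := fun h0 => hα0 (σ.injective (by rw [h0, map_zero]))
      have hb : β / α + σ (β / α) = 0 := by
        rw [map_div₀]
        field_simp
        linear_combination hiso
      refine ⟨eg f p' 0 (β / α), Tm' hb, α, hα0, ?_⟩
      rw [Matrix.mulVec_smul, T4 hb, hco, smul_add, smul_smul]
      congr 2
      field_simp
  set g₁ : GG := x₁⁻¹ * g with hg₁
  have hg₁iso : ∀ v w, f ((g₁ : MM) *ᵥ v) ((g₁ : MM) *ᵥ w) = f v w := iso_mul (iso_inv (inTv_iso hf hx₁)) hg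
  have hg₁C : ∀ c ∈ C, (g₁ : MM) *ᵥ c = c := by
    intro c hc
    rw [hg₁, Units.val_mul, ← Matrix.mulVec_mulVec, hgC c hc]
    exact gl_inv_fix (hfixC hx₁ c hc)
  have hg₁p : (g₁ : MM) *ᵥ p = l • p := by
    rw [hg₁, Units.val_mul, ← Matrix.mulVec_mulVec, ← hv₁]
    exact gl_inv_apply hx₁l
  -- second step
  set v₂ := (g₁ : MM) *ᵥ p' with hv₂
  have hv₂A : v₂ ∈ A := iso_pres hf h hg₁iso hg₁C hp'
  have hv₂Q : f v₂ v₂ = 0 := by rw [hv₂, hg₁iso, hpQ']
  set μ := f v₂ p' with hμ
  set ν := f v₂ p with hν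
  have hco₂ : v₂ = μ • p + ν • p' := hcoord v₂ hv₂A
  have hlν : l * σ ν = 1 := by
    have h1 := hg₁iso p p'
    rw [hg₁p, ← hv₂, hpp', hco₂] at h1
    simp only [hf.smul_left, add_right hf, smul_right hf, hpQ, hpp'] at h1
    linear_combination h1
  have hiso₂ : μ * σ ν + ν * σ μ = 0 := by
    have h1 := hv₂Q
    rw [hco₂] at h1
    simp only [hf.add_left, add_right hf, hf.smul_left, smul_right hf, hpQ, hpQ', hpp', hp'p] at h1
    linear_combination h1
  have hσν : σ ν ≠ 0 := fun h0 => by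
    rw [h0, mul_zero] at hlν
    exact zero_ne_one hlν
  have hν0 : ν ≠ 0 := fun h0 => hσν (by rw [h0, map_zero])
  have hb₂ : μ / ν + σ (μ / ν) = 0 := by
    rw [map_div₀]
    field_simp
    linear_combination hiso₂
  set x₂ := eg f p 0 (μ / ν) with hx₂
  have hx₂m : x₂ ∈ inTv σ f A := Tm hb₂
  set g₂ : GG := x₂⁻¹ * g₁ with hg₂
  have hg₂C : ∀ c ∈ C, (g₂ : MM) *ᵥ c = c := by
    intro c hc
    rw [hg₂, Units.val_mul, ← Matrix.mulVec_mulVec, hg₁C c hc]
    exact gl_inv_fix (hfixC hx₂m c hc)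
  have hg₂p : (g₂ : MM) *ᵥ p = l • p := by
    rw [hg₂, Units.val_mul, ← Matrix.mulVec_mulVec, hg₁p, Matrix.mulVec_smul, gl_inv_fix (T1 hb₂)]
  have hg₂p' : (g₂ : MM) *ᵥ p' = ν • p' := by
    rw [hg₂, Units.val_mul, ← Matrix.mulVec_mulVec, ← hv₂]
    apply gl_inv_apply
    rw [Matrix.mulVec_smul, T2 hb₂, hco₂, smul_add, smul_smul, add_comm]
    congr 2
    field_simp
  -- third step: the determinant
  have hg₂d : g₂ ∈ specialLinear ι F := by
    rw [hg₂, hg₁]
    exact mul_mem (inv_mem (inTv_SL hf hx₂m)) (mul_mem (inv_mem (inTv_SL hf hx₁)) hgd)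
  have hlν' : l * ν = 1 := by
    set D₁ : MM := 1 + vecMulVec p ((l - 1) • fdual f p') with hD₁
    set D₂ : MM := 1 + vecMulVec p' ((ν - 1) • fdual f p) with hD₂
    have hD₁v : ∀ v, D₁ *ᵥ v = v + ((l - 1) * f v p') • p := fun v => by
      rw [hD₁, Matrix.add_mulVec, Matrix.one_mulVec, vecMulVec_mulVec, op_smul_eq_smul, smul_dotProduct, dual_dot hf]
      rfl
    have hD₂v : ∀ v, D₂ *ᵥ v = v + ((ν - 1) * f v p) • p' := fun v => by
      rw [hD₂, Matrix.add_mulVec, Matrix.one_mulVec, vecMulVec_mulVec, op_smul_eq_smul, smul_dotProduct, dual_dot hf]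
      rfl
    have hmat : (g₂ : MM) = D₁ * D₂ := by
      apply Cfsg.Agent.Lib.Classical.mat_ext_mulVec
      intro v
      obtain ⟨x, hx, c, hc, rfl⟩ := h.decomp v
      have hcp : f c p = 0 := h.orth' hf hp hc
      have hcp' : f c p' = 0 := h.orth' hf hp' hc
      conv_lhs => rw [hcoord x hx]
      rw [← Matrix.mulVec_mulVec, hD₂v, hD₁v]
      simp only [Matrix.mulVec_add, Matrix.mulVec_smul, hg₂p, hg₂p', hg₂C c hc]
      simp only [hf.add_left, hf.smul_left, hcp, hcp', hpQ', hp'p, zero_mul, zero_smul, add_zero, mul_zero, mul_one]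
      conv_rhs => rw [hcoord x hx]
      simp only [hf.add_left, hf.smul_left, hpQ, hpQ', hpp', hp'p]
      module
    have hd : (g₂ : MM).det = 1 := by
      have h1 : Matrix.GeneralLinearGroup.det g₂ = 1 := hg₂d
      have h2 := congrArg Units.val h1
      simpa [Matrix.GeneralLinearGroup.val_det_apply] using h2
    rw [hmat, Matrix.det_mul, hD₁, hD₂, vecMulVec_eq Unit, vecMulVec_eq Unit, det_one_add_replicateCol_mul_replicateRow,
      det_one_add_replicateCol_mul_replicateRow, smul_dotProduct, smul_dotProduct, dual_dot hf, dual_dot hf, hpp', hp'p] at hd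
    simp only [smul_eq_mul] at hd
    linear_combination hd
  have hσνν : σ ν = ν := by
    have h1 : l ≠ 0 := hl0
    apply mul_left_cancel₀ h1
    rw [hlν, hlν']
  have hσl : σ l = l := by
    have h1 : l = ν⁻¹ := by
      field_simp
      linear_combination hlν'
    rw [h1, map_inv₀, hσνν]
  -- fourth step
  have hla : l * a₀ + σ (l * a₀) = 0 := by
    rw [map_mul, hσl]
    linear_combination l * ha₀
  obtain ⟨w₁, hw₁, e1, e2⟩ := W (mul_ne_zero hl0 ha₀0) hla
  obtain ⟨w₂, hw₂, e3, e4⟩ := W ha₀0 ha₀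
  have hfin : g₂ = w₁ * w₂⁻¹ := by
    apply hext
    · rw [hg₂p, Units.val_mul, ← Matrix.mulVec_mulVec]
      have e5 : ((w₂⁻¹ : GG) : MM) *ᵥ p = a₀⁻¹ • p' := by
        apply gl_inv_apply
        rw [Matrix.mulVec_smul, e4, smul_smul, inv_mul_cancel₀ ha₀0, one_smul]
      rw [e5, Matrix.mulVec_smul, e2, smul_smul]
      congr 1
      field_simp
    · have hν' : ν = l⁻¹ := by
        field_simp
        linear_combination hlν'
      rw [hg₂p', Units.val_mul, ← Matrix.mulVec_mulVec]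
      have e5 : ((w₂⁻¹ : GG) : MM) *ᵥ p' = (-a₀) • p := by
        apply gl_inv_apply
        rw [Matrix.mulVec_smul, e3, smul_smul]
        have : -a₀ * -a₀⁻¹ = 1 := by field_simp
        rw [this, one_smul]
      rw [e5, Matrix.mulVec_smul, e1, smul_smul, hν']
      congr 1
      field_simp
    · intro c hc
      rw [hg₂C c hc, Units.val_mul, ← Matrix.mulVec_mulVec, gl_inv_fix (hfixC hw₂ c hc), hfixC hw₁ c hc]
  have e : g = x₁ * (x₂ * (w₁ * w₂⁻¹)) := by
    rw [← hfin, hg₂, hg₁]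
    group
  rw [e]
  exact mul_mem hx₁ (mul_mem hx₂m (mul_mem hw₁ (inv_mem hw₂)))

/-- Reduction in even dimension. -/
theorem reduce_even (k : ℕ) : ∀ {A C : Submodule F VV}, UPair f A C → Module.finrank F A = 2 * k + 2 → ∀ {g : GG},
    (∀ v w, f ((g : MM) *ᵥ v) ((g : MM) *ᵥ w) = f v w) → g ∈ specialLinear ι F → (∀ c ∈ C, (g : MM) *ᵥ c = c) →
    g ∈ inTv σ f A := by
  induction k with
  | zero =>
    intro A C h hA g hg hgd hgC
    exact base_two hf h (by omega) hg hgd hgC
  | succ k ih =>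
    intro A C h hA g hg hgd hgC
    obtain ⟨p, hp, p', hp', hpQ, hpQ', hpp', -, -⟩ := exists_hyp_nd hf h (![] : Fin 0 → VV) (fun i => i.elim0)
      (by simp) (by simp; omega)
    obtain ⟨x, hx, h1, h2, h3⟩ := chain_step hf h (by omega) hp hp' hpQ hpQ' hpp' hg hgC
    have hstep := UPair.hyp_step hf h hp hp' hpQ hpQ' hpp'
    have hfin := finrank_hypPerp hf h hp hp' hpQ hpQ' hpp'
    have hmem : x⁻¹ * g ∈ inTv σ f (hypPerp hf A p p') := by
      apply ih hstep (by omega) (iso_mul (iso_inv (inTv_iso hf hx)) hg)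
        (mul_mem (inv_mem (inTv_SL hf hx)) hgd)
      intro c hc
      obtain ⟨c', hc', s, hs, rfl⟩ := Submodule.mem_sup.mp hc
      obtain ⟨α, β, rfl⟩ := Submodule.mem_span_pair.mp hs
      rw [Matrix.mulVec_add, Matrix.mulVec_add, Matrix.mulVec_smul, Matrix.mulVec_smul, h1 c' hc', h2, h3]
    have hle : hypPerp hf A p p' ≤ A := fun v hv => hv.1
    have e : g = x * (x⁻¹ * g) := by group
    rw [e]
    exact mul_mem hx (inTv_mono hle hmem)

/-- The perpendicular of a non-isotropic vector. -/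
def perpOf (hf : IsUnitaryForm σ f) (a : ι → F) : Submodule F (ι → F) where
  carrier := {v | f a v = 0}
  add_mem' := by
    intro x y hx hy
    show f a (x + y) = 0
    rw [add_right hf, hx, hy, add_zero]
  zero_mem' := zero_right hf a
  smul_mem' := by
    intro c x hx
    show f a (c • x) = 0
    rw [smul_right hf, hx, mul_zero]

theorem mem_perpOf {a v : VV} : v ∈ perpOf hf a ↔ f a v = 0 := Iff.rfl

omit [Fintype F] in
theorem uPair_perp {a : VV} (ha : f a a ≠ 0) : UPair f (perpOf hf a) (Submodule.span F {a}) := by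
  refine ⟨⟨?_, ?_⟩, ?_⟩
  · rw [Submodule.disjoint_def]
    intro x hx hx2
    obtain ⟨t, rfl⟩ := Submodule.mem_span_singleton.mp hx2
    have h1 : f a (t • a) = 0 := hx
    rw [smul_right hf] at h1
    have h2 : σ t = 0 := (mul_eq_zero.mp h1).resolve_right ha
    have h3 : t = 0 := σ.injective (by rw [h2, map_zero])
    rw [h3, zero_smul]
  · rw [codisjoint_iff, eq_top_iff]
    intro v _
    have e : v = (v - (f v a / f a a) • a) + (f v a / f a a) • a := by abel
    rw [e]
    apply Submodule.add_mem_sup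
    · show f a (v - (f v a / f a a) • a) = 0
      rw [sub_right hf, smul_right hf, map_div₀, sig_f hf, sig_f hf]
      field_simp
      ring
    · exact Submodule.smul_mem _ _ (Submodule.mem_span_singleton_self a)
  · intro x hx y hy
    obtain ⟨t, rfl⟩ := Submodule.mem_span_singleton.mp hy
    have h1 : f a x = 0 := hx
    rw [smul_right hf, hf.herm, h1, map_zero, mul_zero]

/-- The main generation theorem: the special unitary group is generated by transvections. -/
theorem su_mem_inTv (hn : 6 ≤ Fintype.card ι) {g : GG} (hg : ∀ v w, f ((g : MM) *ᵥ v) ((g : MM) *ᵥ w) = f v w)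
    (hgd : g ∈ specialLinear ι F) : g ∈ inTv σ f ⊤ := by
  rcases Nat.even_or_odd' (Fintype.card ι) with ⟨m, hm | hm⟩
  · refine reduce_even hf (m - 1) (UPair.top hf) ?_ hg hgd ?_
    · simp; omega
    · intro c hc
      rw [Submodule.mem_bot] at hc
      subst hc
      simp
  · obtain ⟨p, p', hp, hp', hpp', -, -⟩ := exists_hyp_pair hf (Fin.elim0 : Fin 0 → VV) (by omega)
    obtain ⟨t, ht⟩ := exists_trace hf 1 (by simp)
    have hp'p : f p' p = 1 := by rw [hf.herm, hpp', map_one]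
    set a := p + t • p' with ha
    have haa : f a a = 1 := by
      simp only [ha, hf.add_left, add_right hf, hf.smul_left, smul_right hf, hp, hp', hpp', hp'p]
      linear_combination ht
    have ha1 : f a a ≠ 0 := by rw [haa]; exact one_ne_zero
    have ha0 : a ≠ 0 := by
      rintro h0
      rw [h0, zero_left hf] at ha1
      exact ha1 rfl
    have hga0 : (g : MM) *ᵥ a ≠ 0 := by
      intro h0
      have := hg a a
      rw [h0, zero_left hf] at this
      exact ha1 this.symm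
    obtain ⟨s, hs, e⟩ := trans_norm hf hn (x := a) (y := (g : MM) *ᵥ a) (by rw [hg]) ha0 hga0 ha1
    have hfix : ((s⁻¹ * g : GG) : MM) *ᵥ a = a := by
      rw [Units.val_mul, ← Matrix.mulVec_mulVec]
      exact gl_inv_apply e
    have hpair := uPair_perp hf ha1
    have hadd := hpair.finrank_add
    have hspan : Module.finrank F (Submodule.span F ({a} : Set VV)) = 1 := finrank_span_singleton ha0
    have hmem : s⁻¹ * g ∈ inTv σ f (perpOf hf a) := by
      refine reduce_even hf (m - 1) hpair (by omega) (iso_mul (iso_inv (inTv_iso hf hs)) hg)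
        (mul_mem (inv_mem (inTv_SL hf hs)) hgd) ?_
      intro c hc
      obtain ⟨l, rfl⟩ := Submodule.mem_span_singleton.mp hc
      rw [Matrix.mulVec_smul, hfix]
    have e' : g = s * (s⁻¹ * g) := by group
    rw [e']
    exact mul_mem hs (inTv_mono le_top hmem)

end Finite

end Nondeg

end Cfsg.Agent.Lib.ClassMax.UnitCore
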