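import Mathlib
import Cfsg.Agent.Lib.ClassMax.UnitGen
import Cfsg.Agent.Lib.Classical.Herm

/-! A criterion for a subgroup to contain the special unitary group; stabilisers of totally singular subspaces are
maximal. -/

set_option autoImplicit false

namespace Cfsg.Agent.Lib.ClassMax.UnitCore

open Matrix Cfsg.Geo Cfsg.Agent.Lib.ClassMax Cfsg.Agent.Lib.ClassMax.QuadOver
open Cfsg.Agent.Lib.ClassMax.HermOver

variable {ι : Type} [Fintype ι] [DecidableEq ι] {F : Type*} [Field F] {σ : F ≃+* F} {f : (ι → F) → (ι → F) → F}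

local notation "VV" => (ι → F)
local notation "MM" => Matrix ι ι F
local notation "GG" => GL ι F

/-- The isometry group of a form. -/
def uiso (f : (ι → F) → (ι → F) → F) : Subgroup (GL ι F) where
  carrier := {g | ∀ v w, f ((g : Matrix ι ι F) *ᵥ v) ((g : Matrix ι ι F) *ᵥ w) = f v w}
  mul_mem' ha hb := iso_mul ha hb
  one_mem' := by intro v w; simp
  inv_mem' ha := iso_inv ha

theorem mem_uiso {g : GG} : g ∈ uiso f ↔ ∀ v w, f ((g : MM) *ᵥ v) ((g : MM) *ᵥ w) = f v w := Iff.rfl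

/-- The subgroups containing every Eichler transformation of an isotropic vector. -/
def UFull (σ : F ≃+* F) (f : (ι → F) → (ι → F) → F) (M : Subgroup (GL ι F)) (z : ι → F) : Prop :=
  ∀ u γ, f z u = 0 → γ + σ γ = - f u u → eg f z u γ ∈ M

section Nondeg

variable (hf : IsUnitaryForm σ f)
include hf

theorem UFull.map {M : Subgroup GG} {z : VV} (hz : f z z = 0) (h : UFull σ f M z) {g : GG}
    (hg : ∀ v w, f ((g : MM) *ᵥ v) ((g : MM) *ᵥ w) = f v w) (hgM : g ∈ M) : UFull σ f M ((g : MM) *ᵥ z) := by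
  intro u γ hu hγ
  have e1 : (g : MM) *ᵥ (((g⁻¹ : GG) : MM) *ᵥ u) = u := by
    rw [Matrix.mulVec_mulVec, ← Units.val_mul, mul_inv_cancel, Units.val_one, Matrix.one_mulVec]
  have h1 : f z (((g⁻¹ : GG) : MM) *ᵥ u) = 0 := by
    rw [← hg, e1]
    exact hu
  have h2 : γ + σ γ = - f (((g⁻¹ : GG) : MM) *ᵥ u) (((g⁻¹ : GG) : MM) *ᵥ u) := by
    rw [iso_inv hg]
    exact hγ
  have h3 := eg_conj hf hg hz h1 h2
  rw [e1] at h3
  rw [← h3]
  exact M.mul_mem (M.mul_mem hgM (h _ _ h1 h2)) (M.inv_mem hgM)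

theorem UFull.smul {M : Subgroup GG} {z : VV} (hz : f z z = 0) (h : UFull σ f M z) {c : F} (hc : c ≠ 0) :
    UFull σ f M (c • z) := by
  intro u γ hu hγ
  rw [hf.smul_left] at hu
  have hu' : f z u = 0 := (mul_eq_zero.mp hu).resolve_left hc
  rw [eg_smul_left hf c hz hu' hγ]
  apply h
  · rw [smul_right hf, hu', mul_zero]
  · simp only [map_mul, hf.involutive, hf.smul_left, smul_right hf]
    linear_combination (c * σ c) * hγ

theorem crit_step {M : Subgroup GG} {u₁ u₂ z : VV} (hu₁ : f u₁ u₁ = 0) (hu₂ : f u₂ u₂ = 0) (hz : f z z = 0)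
    (h₁ : UFull σ f M u₁) (h₂ : UFull σ f M u₂) (h12 : f u₁ u₂ ≠ 0) (hzu : f z u₁ ≠ 0) : UFull σ f M z := by
  have h21 : f u₂ u₁ ≠ 0 := fun h0 => h12 (by rw [hf.herm, h0, map_zero])
  set a := (f u₂ u₁)⁻¹ • u₂ with ha
  set c := (f z u₁)⁻¹ • z with hc
  have h3 : f a u₁ = 1 := by rw [ha, hf.smul_left, inv_mul_cancel₀ h21]
  have h4 : f c u₁ = 1 := by rw [hc, hf.smul_left, inv_mul_cancel₀ hzu]
  have haQ : f a a = 0 := by rw [ha, hf.smul_left, smul_right hf, hu₂]; ring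
  have hcQ : f c c = 0 := by rw [hc, hf.smul_left, smul_right hf, hz]; ring
  obtain ⟨h5, h6, h7⟩ := eg_map hf hu₁ h3 h4 (by rw [haQ, hcQ])
  have hm := h₁ _ _ h5 h6
  have hFa : UFull σ f M a := UFull.smul hf hu₂ h₂ (inv_ne_zero h21)
  have hFc : UFull σ f M c := by
    rw [← h7]
    exact UFull.map hf haQ hFa (eg_iso hf hu₁ h5 h6) hm
  have e : z = (f z u₁) • c := by rw [hc, smul_smul, mul_inv_cancel₀ hzu, one_smul]
  rw [e]
  exact UFull.smul hf hcQ hFc hzu

theorem eg_zero_left {u : VV} {γ : F} (hγ : γ + σ γ = - f u u) : eg f (0 : VV) u γ = 1 := by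
  apply gl_ext_mulVec
  intro v
  rw [eg_apply hf (zero_left hf 0) (zero_left hf u) hγ]
  unfold egFun
  rw [zero_right hf]
  simp

/-- Two non-orthogonal full centres give everything. -/
theorem crit_all [Fintype F] {M : Subgroup GG} {u₁ u₂ z : VV} (hu₁ : f u₁ u₁ = 0) (hu₂ : f u₂ u₂ = 0) (hz : f z z = 0)
    (h₁ : UFull σ f M u₁) (h₂ : UFull σ f M u₂) (h12 : f u₁ u₂ ≠ 0) : UFull σ f M z := by
  have h21 : f u₂ u₁ ≠ 0 := fun h0 => h12 (by rw [hf.herm, h0, map_zero])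
  by_cases hz0 : z = 0
  · subst hz0
    intro u γ _ hγ
    rw [eg_zero_left hf hγ]
    exact M.one_mem
  by_cases hzu₁ : f z u₁ = 0
  · by_cases hzu₂ : f z u₂ = 0
    · have hind : ∀ α β : F, α • z + β • u₁ = 0 → α = 0 ∧ β = 0 := by
        intro α β e
        have e1 : f (α • z + β • u₁) u₂ = 0 := by rw [e, zero_left hf]
        rw [hf.add_left, hf.smul_left, hf.smul_left, hzu₂, mul_zero, zero_add] at e1
        have hβ : β = 0 := (mul_eq_zero.mp e1).resolve_right h12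
        rw [hβ, zero_smul, add_zero] at e
        exact ⟨(smul_eq_zero.mp e).resolve_right hz0, hβ⟩
      obtain ⟨d, -, hdQ, h3, h4⟩ := common_partner_orth hf (UPair.top hf) (A := ⊤) (C := ⊥) (b := z) (c := u₁) trivial trivial hz hzu₁ hind
      have h5 : f d u₁ ≠ 0 := by rw [hf.herm, h4, map_one]; exact one_ne_zero
      have hFd := crit_step hf hu₁ hu₂ hdQ h₁ h₂ h12 h5
      exact crit_step hf hdQ hu₁ hz hFd h₁ h5 (by rw [h3]; exact one_ne_zero)
    · exact crit_step hf hu₂ hu₁ hz h₂ h₁ h21 hzu₂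
  · exact crit_step hf hu₁ hu₂ hz h₁ h₂ h12 hzu₁

/-- If `M` contains the transvections of every isotropic vector, it contains the special unitary group. -/
theorem su_le_of_tv [Fintype F] (hn : 6 ≤ Fintype.card ι) {M : Subgroup GG}
    (h : ∀ z a, f z z = 0 → a + σ a = 0 → eg f z 0 a ∈ M) : uiso f ⊓ specialLinear ι F ≤ M := by
  intro g hg
  have h1 := su_mem_inTv hf hn (g := g) hg.1 hg.2
  have h2 : inTv σ f ⊤ ≤ M := by
    rw [inTv, Subgroup.closure_le]
    rintro x ⟨z, -, a, h3, h4, rfl⟩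
    exact h z a h3 h4
  exact h2 h1

/-- If `M` contains the Eichler transformations of two non-orthogonal isotropic vectors then `M` contains `SU`. -/
theorem su_le_of_centres [Fintype F] (hn : 6 ≤ Fintype.card ι) {M : Subgroup GG} {u₁ u₂ : VV} (hu₁ : f u₁ u₁ = 0) (hu₂ : f u₂ u₂ = 0)
    (h₁ : UFull σ f M u₁) (h₂ : UFull σ f M u₂) (h12 : f u₁ u₂ ≠ 0) : uiso f ⊓ specialLinear ι F ≤ M :=
  su_le_of_tv hf hn fun z a hz ha => crit_all hf hu₁ hu₂ hz h₁ h₂ h12 _ _ (zero_right hf z) (skew_ok hf ha)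

theorem eg_mem_su [Fintype F] (hn : 6 ≤ Fintype.card ι) {z u : VV} {γ : F} (hz : f z z = 0) (hu : f z u = 0) (hγ : γ + σ γ = - f u u) :
    eg f z u γ ∈ uiso f ⊓ specialLinear ι F := by
  refine ⟨eg_iso hf hz hu hγ, ?_⟩
  by_cases hz0 : z = 0
  · subst hz0
    rw [eg_zero_left hf hγ]
    exact Subgroup.one_mem _
  obtain ⟨z', -, -, -, p, hp, p', hp', h1, h2, h3, h4, h5, -, -⟩ := exists_hyp_perp hf (UPair.top hf) (A := ⊤) (C := ⊥) (by simp; omega) trivial hz0 hz
  exact inTv_SL hf (A := ⊤) (eg_mem hf (A := ⊤) trivial trivial hp hp' hz hu hγ h1 h2 h3 h4 h5)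

/-- The stabiliser of a totally singular subspace is maximal in `SU`. -/
theorem isMaximal_ts [Fintype F] (hn : 6 ≤ Fintype.card ι) {W : Submodule F VV} (hW0 : W ≠ ⊥) (hW : IsTotallySingularFor f W) :
    IsMaximalIn (uiso f ⊓ specialLinear ι F) (subspaceStabilizer W ⊓ (uiso f ⊓ specialLinear ι F)) := by
  have hstrict : subspaceStabilizer W ⊓ (uiso f ⊓ specialLinear ι F) < uiso f ⊓ specialLinear ι F := by
    refine lt_of_le_of_ne inf_le_right ?_
    intro heq
    obtain ⟨u, hu, hu0⟩ := Submodule.exists_mem_ne_zero_of_ne_bot hW0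
    obtain ⟨z, -, hzQ, huz, -⟩ := exists_partner hf (UPair.top hf) (A := ⊤) (C := ⊥) (S := ⊥) (z := u) trivial (hW u hu u hu)
      (le_refl _) (by simpa using hu0)
    obtain ⟨a₀, ha₀, ha₀'⟩ := exists_skew' hf
    have hmem : eg f z 0 a₀ ∈ subspaceStabilizer W ⊓ (uiso f ⊓ specialLinear ι F) := by
      rw [heq]
      exact eg_mem_su hf hn hzQ (zero_right hf z) (skew_ok hf ha₀')
    have h1 := (mem_subspaceStabilizer_iff.mp hmem.1 u).mp hu
    rw [eg_apply hf hzQ (zero_right hf z) (skew_ok hf ha₀')] at h1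
    unfold egFun at h1
    rw [huz, zero_right hf] at h1
    have h2 : f u ((a₀ * 1) • z) = 0 := by
      apply hW u hu
      have e : (a₀ * 1) • z = (u + (1 : F) • (0 : VV) - (0 : F) • z + (a₀ * 1) • z) - u := by module
      rw [e]
      exact W.sub_mem h1 hu
    rw [smul_right hf, huz, mul_one, mul_one] at h2
    have h3 : a₀ = 0 := σ.injective (by rw [h2, map_zero])
    exact ha₀ h3
  refine ⟨hstrict, fun M hHM hMO => ?_⟩
  by_cases hle : M ≤ subspaceStabilizer W ⊓ (uiso f ⊓ specialLinear ι F)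
  · exact Or.inl (le_antisymm hle hHM)
  right
  apply le_antisymm hMO
  obtain ⟨g, hgM, hgH⟩ := SetLike.not_le_iff_exists.mp hle
  have hgS := hMO hgM
  have hgiso : ∀ v w, f ((g : MM) *ᵥ v) ((g : MM) *ᵥ w) = f v w := hgS.1
  have hHmem : ∀ h ∈ uiso f ⊓ specialLinear ι F, (∀ w ∈ W, (h : MM) *ᵥ w ∈ W) → h ∈ M :=
    fun h hh hw => hHM ⟨mem_subspaceStabilizer_of_forall W h hw, hh⟩
  have hFW : ∀ u ∈ W, UFull σ f M u := by
    intro u hu x γ hx hγ
    apply hHmem _ (eg_mem_su hf hn (hW u hu u hu) hx hγ)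
    intro w hw
    rw [eg_apply hf (hW u hu u hu) hx hγ]
    unfold egFun
    rw [hW w hw u hu]
    simp only [zero_smul, add_zero, mul_zero]
    exact W.sub_mem (by simpa using hw) (W.smul_mem _ hu)
  obtain ⟨w₀, hw₀, hgw₀⟩ : ∃ w₀ ∈ W, (g : MM) *ᵥ w₀ ∉ W := by
    by_contra hcon
    push Not at hcon
    exact hgH ⟨mem_subspaceStabilizer_of_forall W g hcon, hgS⟩
  set u' := (g : MM) *ᵥ w₀ with hu'
  have hu'Q : f u' u' = 0 := by rw [hu', hgiso, hW w₀ hw₀ w₀ hw₀]
  have hFu' : UFull σ f M u' := UFull.map hf (hW w₀ hw₀ w₀ hw₀) (hFW w₀ hw₀) hgiso hgM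
  by_cases hcase : ∃ w ∈ W, f u' w ≠ 0
  · obtain ⟨w, hw, hne⟩ := hcase
    exact su_le_of_centres hf hn hu'Q (hW w hw w hw) hFu' (hFW w hw) hne
  push Not at hcase
  obtain ⟨τ, hτ, hτ1⟩ := exists_sep hf hgw₀
  obtain ⟨t, ht⟩ := exists_trace hf (- f τ τ) (by rw [map_neg, sig_f hf])
  have hτu' : f τ u' = 1 := by rw [hf.herm, hτ1, map_one]
  set d := τ + t • u' with hd
  have hdQ : f d d = 0 := by
    simp only [hd, hf.add_left, add_right hf, hf.smul_left, smul_right hf, hu'Q, hτu', hτ1]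
    linear_combination ht
  have hdu' : f u' d = 1 := by
    rw [hd, add_right hf, smul_right hf, hu'Q, hτ1]; ring
  have hdW : ∀ w ∈ W, f w d = 0 := by
    intro w hw
    have h1 : f w u' = 0 := by rw [hf.herm, hcase w hw, map_zero]
    rw [hd, add_right hf, smul_right hf, h1, hτ w hw]; ring
  obtain ⟨a₀, ha₀, ha₀'⟩ := exists_skew' hf
  have hhM : eg f d 0 a₀ ∈ M := by
    apply hHmem _ (eg_mem_su hf hn hdQ (zero_right hf d) (skew_ok hf ha₀'))
    intro w hw
    rw [eg_fix hf hdQ (zero_right hf d) (skew_ok hf ha₀') (hdW w hw) (zero_right hf w)]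
    exact hw
  have hiso := eg_iso hf hdQ (zero_right hf d) (skew_ok hf ha₀')
  have hFu'' := UFull.map hf hu'Q hFu' hiso hhM
  have hne : f u' ((eg f d 0 a₀ : MM) *ᵥ u') ≠ 0 := by
    rw [eg_apply hf hdQ (zero_right hf d) (skew_ok hf ha₀')]
    unfold egFun
    rw [hdu', zero_right hf]
    have e : u' + (1 : F) • (0 : VV) - (0 : F) • d + (a₀ * 1) • d = u' + a₀ • d := by module
    rw [e, add_right hf, smul_right hf, hu'Q, hdu', zero_add, mul_one]
    intro h0
    exact ha₀ (σ.injective (by rw [h0, map_zero]))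
  exact su_le_of_centres hf hn hu'Q (by rw [hiso, hu'Q]) hFu' hFu'' hne

end Nondeg

section Std

variable [Fintype F] {n q : ℕ}

open Cfsg.Agent.Lib.Classical in
/-- The standard Hermitian form is a unitary form. -/
theorem hermForm_unitary (hF : Fintype.card F = q ^ 2) :
    ∃ σ : F ≃+* F, IsUnitaryForm σ (Cfsg.hermForm n F q) ∧ ∀ x, σ x = x ^ q := by
  let σ : F ≃+* F := RingEquiv.ofRingHom (frobQ hF) (frobQ hF)
    (by ext x; exact frobQ_frobQ hF x) (by ext x; exact frobQ_frobQ hF x)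
  have hσ : ∀ x, σ x = x ^ q := fun x => frobQ_apply hF x
  have h2 := two_le_q hF
  refine ⟨σ, ⟨?_, ?_, herm_add_left, herm_smul_left, ?_, ?_⟩, hσ⟩
  · intro h
    apply frobQ_ne_id hF
    ext x
    have := congrArg (fun τ : F ≃+* F => τ x) h
    simpa [σ] using this
  · intro a
    rw [hσ, hσ, pow_q_pow_q hF]
  · intro v w
    rw [hσ]
    exact herm_conj hF w v
  · intro v hv
    have h3 : ∃ x, Cfsg.hermForm n F q v x ≠ 0 := by
      by_contra hcon
      push Not at hcon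
      exact hv (herm_nondeg_right hF hcon)
    obtain ⟨x, hx⟩ := h3
    refine ⟨⟨x, fun h0 => hx ?_⟩, ⟨x, hx⟩⟩
    rw [herm_conj hF x v, h0]
    simp; omega

theorem GU_eq_uiso : Cfsg.GU n F q = uiso (Cfsg.hermForm n F q) := rfl

end Std

end Cfsg.Agent.Lib.ClassMax.UnitCore
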