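import Mathlib
import Cfsg.Agent.Lib.ClassMax.HermOver
import Cfsg.Agent.Lib.ClassMax.UnitCrit
import Cfsg.Agent.Lib.Classical.OrthStep
import Cfsg.Agent.Lib.Classical.HermFrames
import Cfsg.Agent.Lib.Classical.HermOrder
import Cfsg.Agent.Lib.ClassMax.EluFix

/-! Pairs of complementary totally singular subspaces for a unitary form: frames, transitivity, Levi factor. -/

set_option autoImplicit false
set_option linter.unusedSimpArgs false
set_option linter.unusedVariables false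
set_option linter.unusedSectionVars false

namespace Cfsg.Agent.Lib.ClassMax.HypPair

open Matrix Module Cfsg.Geo Cfsg.Agent.Lib.ClassMax Cfsg.Agent.Lib.ClassMax.HermOver

variable {ι : Type} [Fintype ι] [DecidableEq ι] {F : Type*} [Field F]
variable {σ : F ≃+* F} {f : (ι → F) → (ι → F) → F}

/-- A pair of totally singular subspaces spanning the space. -/
structure UP (f : (ι → F) → (ι → F) → F) (A B : Submodule F (ι → F)) : Prop where
  sup : A ⊔ B = ⊤
  tsA : ∀ u ∈ A, ∀ v ∈ A, f u v = 0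
  tsB : ∀ u ∈ B, ∀ v ∈ B, f u v = 0

theorem UP.symm {A B : Submodule F (ι → F)} (h : UP f A B) : UP f B A := ⟨by rw [sup_comm]; exact h.sup, h.tsB, h.tsA⟩

theorem sum_right (hf : IsUnitaryForm σ f) {κ : Type*} (s : Finset κ) (v : ι → F) (c : κ → F) (w : κ → ι → F) :
    f v (∑ a ∈ s, c a • w a) = ∑ a ∈ s, σ (c a) * f v (w a) := by
  classical
  induction s using Finset.induction_on with
  | empty => simpa using zero_right hf v
  | insert a s ha ih => rw [Finset.sum_insert ha, Finset.sum_insert ha, add_right hf, smul_right hf, ih]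

theorem sum_left (hf : IsUnitaryForm σ f) {κ : Type*} (s : Finset κ) (v : ι → F) (c : κ → F) (w : κ → ι → F) :
    f (∑ a ∈ s, c a • w a) v = ∑ a ∈ s, c a * f (w a) v := by
  classical
  induction s using Finset.induction_on with
  | empty => simpa using zero_left hf v
  | insert a s ha ih => rw [Finset.sum_insert ha, Finset.sum_insert ha, hf.add_left, hf.smul_left, ih]

theorem UP.eq_zero (hf : IsUnitaryForm σ f) {A B : Submodule F (ι → F)} (h : UP f A B) {v : ι → F} (hA : ∀ a ∈ A, f v a = 0)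
    (hB : ∀ b ∈ B, f v b = 0) : v = 0 := by
  by_contra h0
  obtain ⟨x, hx⟩ := (hf.nondegenerate v h0).2
  have hx' : x ∈ A ⊔ B := by rw [h.sup]; trivial
  obtain ⟨a, ha, b, hb, rfl⟩ := Submodule.mem_sup.mp hx'
  apply hx
  rw [add_right hf, hA a ha, hB b hb, add_zero]

theorem UP.disjoint (hf : IsUnitaryForm σ f) {A B : Submodule F (ι → F)} (h : UP f A B) : Disjoint A B := by
  rw [Submodule.disjoint_def]
  intro v hA hB
  exact h.eq_zero hf (fun a ha => h.tsA v hA a ha) (fun b hb => h.tsB v hB b hb)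

theorem UP.finrank_le (hf : IsUnitaryForm σ f) {A B : Submodule F (ι → F)} (h : UP f A B) : finrank F A ≤ finrank F B := by
  classical
  let b := Module.finBasis F B
  let L : A →ₗ[F] (Fin (finrank F B) → F) :=
    { toFun := fun v j => f (v : ι → F) (b j)
      map_add' := by
        intro x y
        funext j
        simp [hf.add_left]
      map_smul' := by
        intro c x
        funext j
        simp [hf.smul_left] }
  have hinj : Function.Injective L := by
    rw [← LinearMap.ker_eq_bot, LinearMap.ker_eq_bot']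
    intro v hv
    apply Subtype.ext
    refine h.eq_zero hf (fun a ha => h.tsA v v.2 a ha) (fun w hw => ?_)
    have h1 : ∀ j, f (v : ι → F) (b j) = 0 := fun j => congrFun hv j
    have h2 := b.sum_repr ⟨w, hw⟩
    have h3 := congrArg Subtype.val h2
    simp only [Submodule.coe_sum, Submodule.coe_smul] at h3
    rw [← h3, sum_right hf]
    simp [h1]
  have := LinearMap.finrank_le_finrank_of_injective hinj
  simpa using this

theorem UP.finrank_eq (hf : IsUnitaryForm σ f) {A B : Submodule F (ι → F)} (h : UP f A B) :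
    finrank F A = finrank F B ∧ finrank F A + finrank F B = Fintype.card ι := by
  have h1 := h.finrank_le hf
  have h2 := h.symm.finrank_le hf
  have h3 := Submodule.finrank_sup_add_finrank_inf_eq A B
  rw [h.sup, (h.disjoint hf).eq_bot, finrank_bot, add_zero, finrank_top, finrank_pi] at h3
  omega

/-- The hyperbolic form on the model space. -/
def hyp (σ : F ≃+* F) {m : ℕ} (u v : Fin m ⊕ Fin m → F) : F := ∑ a, u a * σ (v a.swap)

/-- A hyperbolic frame. -/
theorem UP.exists_frame (hf : IsUnitaryForm σ f) {A B : Submodule F (ι → F)} (h : UP f A B) {m : ℕ} (hm : finrank F A = m) :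
    ∃ c : Fin m ⊕ Fin m → (ι → F), (∀ i, c (Sum.inl i) ∈ A) ∧ (∀ j, c (Sum.inr j) ∈ B) ∧
      ∀ a b, f (c a) (c b) = if a.swap = b then 1 else 0 := by
  classical
  have hB : finrank F B = m := by rw [← (h.finrank_eq hf).1, hm]
  let e := Module.finBasisOfFinrankEq F A hm
  let L : B →ₗ[F] (Fin m → F) :=
    { toFun := fun v i => f (v : ι → F) (e i)
      map_add' := by
        intro x y
        funext j
        simp [hf.add_left]
      map_smul' := by
        intro c x
        funext j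
        simp [hf.smul_left] }
  have hinj : Function.Injective L := by
    rw [← LinearMap.ker_eq_bot, LinearMap.ker_eq_bot']
    intro v hv
    apply Subtype.ext
    refine h.eq_zero hf (fun w hw => ?_) (fun a ha => h.tsB v v.2 a ha)
    have h1 : ∀ j, f (v : ι → F) (e j) = 0 := fun j => congrFun hv j
    have h2 := e.sum_repr ⟨w, hw⟩
    have h3 := congrArg Subtype.val h2
    simp only [Submodule.coe_sum, Submodule.coe_smul] at h3
    rw [← h3, sum_right hf]
    simp [h1]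
  have hsurj : Function.Surjective L := by
    refine (LinearMap.injective_iff_surjective_of_finrank_eq_finrank ?_).mp hinj
    rw [hB]
    simp
  have hex : ∀ j : Fin m, ∃ w : B, ∀ i, f (w : ι → F) (e i) = if i = j then 1 else 0 := by
    intro j
    obtain ⟨w, hw⟩ := hsurj (fun i => if i = j then 1 else 0)
    exact ⟨w, fun i => congrFun hw i⟩
  choose g hg using hex
  refine ⟨Sum.elim (fun i => (e i : ι → F)) (fun j => (g j : ι → F)), fun i => (e i).2, fun j => (g j).2, ?_⟩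
  rintro (i | i) (j | j)
  · simp only [Sum.elim_inl, Sum.swap_inl, reduceCtorEq, if_false]
    exact h.tsA _ (e i).2 _ (e j).2
  · simp only [Sum.elim_inl, Sum.elim_inr, Sum.swap_inl, Sum.inr.injEq]
    rw [hf.herm, hg]
    by_cases hij : i = j
    · simp [hij]
    · simp [hij, Ne.symm hij]
  · simp only [Sum.elim_inl, Sum.elim_inr, Sum.swap_inr, Sum.inl.injEq]
    rw [hg]
    by_cases hij : i = j
    · simp [hij]
    · simp [hij, Ne.symm hij]
  · simp only [Sum.elim_inr, Sum.swap_inr, reduceCtorEq, if_false]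
    exact h.tsB _ (g i).2 _ (g j).2

theorem hyp_single (σ : F ≃+* F) {m : ℕ} (u : Fin m ⊕ Fin m → F) (a : Fin m ⊕ Fin m) :
    hyp σ u (Pi.single a.swap 1) = u a := by
  unfold hyp
  rw [Finset.sum_eq_single a]
  · simp
  · intro b _ hb
    have : b.swap ≠ a.swap := fun h => hb (Sum.swap_leftInverse.injective h)
    simp [Pi.single_apply, this]
  · simp

/-- The model of a pair. -/
theorem UP.exists_P (hf : IsUnitaryForm σ f) {A B : Submodule F (ι → F)} (h : UP f A B) {m : ℕ} (hm : finrank F A = m) :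
    ∃ P : (Fin m ⊕ Fin m → F) ≃ₗ[F] (ι → F), (∀ u v, f (P u) (P v) = hyp σ u v) ∧
      (∀ u, P u ∈ A ↔ ∀ i, u (Sum.inr i) = 0) ∧ (∀ u, P u ∈ B ↔ ∀ i, u (Sum.inl i) = 0) := by
  classical
  obtain ⟨c, hcA, hcB, hc⟩ := h.exists_frame hf hm
  let P₀ : (Fin m ⊕ Fin m → F) →ₗ[F] (ι → F) := ∑ a, (LinearMap.proj a : (Fin m ⊕ Fin m → F) →ₗ[F] F).smulRight (c a)
  have hP₀ : ∀ u, P₀ u = ∑ a, u a • c a := by
    intro u
    simp [P₀]
  have hiso : ∀ u v, f (P₀ u) (P₀ v) = hyp σ u v := by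
    intro u v
    rw [hP₀, hP₀, sum_left hf]
    unfold hyp
    refine Finset.sum_congr rfl fun a _ => ?_
    rw [sum_right hf, Finset.sum_eq_single a.swap]
    · rw [hc, if_pos rfl, mul_one]
    · intro b _ hb
      rw [hc, if_neg (Ne.symm hb), mul_zero]
    · simp
  have hinj : Function.Injective P₀ := by
    rw [← LinearMap.ker_eq_bot, LinearMap.ker_eq_bot']
    intro u hu
    funext a
    rw [Pi.zero_apply, ← hyp_single σ u a, ← hiso, hu]
    exact zero_left hf _
  have hdim : finrank F (Fin m ⊕ Fin m → F) = finrank F (ι → F) := by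
    have := (h.finrank_eq hf)
    have hB : finrank F B = m := by rw [← this.1, hm]
    rw [finrank_pi, finrank_pi, ← this.2, hm, hB]
    simp [two_mul]
  let P := LinearEquiv.ofInjectiveOfFinrankEq P₀ hinj hdim
  have hP : ∀ u, P u = P₀ u := fun u => rfl
  have hsplit : ∀ u, P₀ u = (∑ i, u (Sum.inl i) • c (Sum.inl i)) + ∑ i, u (Sum.inr i) • c (Sum.inr i) := by
    intro u
    rw [hP₀, Fintype.sum_sum_type]
  refine ⟨P, fun u v => hiso u v, fun u => ⟨fun hu i => ?_, fun hu => ?_⟩, fun u => ⟨fun hu i => ?_, fun hu => ?_⟩⟩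
  · have h1 := h.tsA _ hu _ (hcA i)
    rw [hP] at h1
    have h2 : c (Sum.inl i) = P₀ (Pi.single (Sum.inl i) 1) := by
      rw [hP₀, Finset.sum_eq_single (Sum.inl i)]
      · simp
      · intro b _ hb
        simp [Pi.single_apply, hb]
      · simp
    rw [h2, hiso] at h1
    have h3 := hyp_single σ u (Sum.inr i)
    simp only [Sum.swap_inr] at h3
    rw [← h3, h1]
  · rw [hP, hsplit]
    simp only [hu, zero_smul, Finset.sum_const_zero, add_zero]
    exact A.sum_mem fun i _ => A.smul_mem _ (hcA i)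
  · have h1 := h.tsB _ hu _ (hcB i)
    rw [hP] at h1
    have h2 : c (Sum.inr i) = P₀ (Pi.single (Sum.inr i) 1) := by
      rw [hP₀, Finset.sum_eq_single (Sum.inr i)]
      · simp
      · intro b _ hb
        simp [Pi.single_apply, hb]
      · simp
    rw [h2, hiso] at h1
    have h3 := hyp_single σ u (Sum.inl i)
    simp only [Sum.swap_inl] at h3
    rw [← h3, h1]
  · rw [hP, hsplit]
    simp only [hu, zero_smul, Finset.sum_const_zero, zero_add]
    exact B.sum_mem fun i _ => B.smul_mem _ (hcB i)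


/-- Transitivity on pairs. -/
theorem UP.exists_move (hf : IsUnitaryForm σ f) {A B A' B' : Submodule F (ι → F)} (h : UP f A B) (h' : UP f A' B') :
    ∃ g : GL ι F, (∀ u v, f ((g : Matrix ι ι F) *ᵥ u) ((g : Matrix ι ι F) *ᵥ v) = f u v) ∧
      A.map (Matrix.toLin' (g : Matrix ι ι F)) = A' ∧ B.map (Matrix.toLin' (g : Matrix ι ι F)) = B' := by
  classical
  have hA : finrank F A' = finrank F A := by
    have h1 := h.finrank_eq hf
    have h2 := h'.finrank_eq hf
    omega
  obtain ⟨P, hP, hPA, hPB⟩ := h.exists_P hf (m := finrank F A) rfl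
  obtain ⟨P', hP', hPA', hPB'⟩ := h'.exists_P hf hA
  let T : (ι → F) ≃ₗ[F] (ι → F) := P.symm ≪≫ₗ P'
  have hT : ∀ u, T (P u) = P' u := by
    intro u
    simp [T]
  refine ⟨Cfsg.Agent.Lib.Classical.glOfEquiv T, ?_, ?_, ?_⟩
  · intro u v
    rw [Cfsg.Agent.Lib.Classical.glOfEquiv_mulVec, Cfsg.Agent.Lib.Classical.glOfEquiv_mulVec]
    obtain ⟨u', rfl⟩ := P.surjective u
    obtain ⟨v', rfl⟩ := P.surjective v
    rw [hT, hT, hP, hP']
  · ext y
    simp only [Submodule.mem_map, Matrix.toLin'_apply, Cfsg.Agent.Lib.Classical.glOfEquiv_mulVec]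
    constructor
    · rintro ⟨a, ha, rfl⟩
      obtain ⟨u, rfl⟩ := P.surjective a
      rw [hT, hPA']
      exact (hPA u).mp ha
    · intro hy
      obtain ⟨u, rfl⟩ := P'.surjective y
      exact ⟨P u, (hPA u).mpr ((hPA' u).mp hy), hT u⟩
  · ext y
    simp only [Submodule.mem_map, Matrix.toLin'_apply, Cfsg.Agent.Lib.Classical.glOfEquiv_mulVec]
    constructor
    · rintro ⟨a, ha, rfl⟩
      obtain ⟨u, rfl⟩ := P.surjective a
      rw [hT, hPB']
      exact (hPB u).mp ha
    · intro hy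
      obtain ⟨u, rfl⟩ := P'.surjective y
      exact ⟨P u, (hPB u).mpr ((hPB' u).mp hy), hT u⟩

/-- The block matrix of the Levi factor. -/
def levM (σ : F ≃+* F) {m : ℕ} (M : GL (Fin m) F) : Matrix (Fin m ⊕ Fin m) (Fin m ⊕ Fin m) F :=
  fromBlocks (M : Matrix (Fin m) (Fin m) F) 0 0 (((M⁻¹ : GL (Fin m) F) : Matrix (Fin m) (Fin m) F)ᵀ.map σ)

theorem levM_mul {m : ℕ} (M N : GL (Fin m) F) : levM σ (M * N) = levM σ M * levM σ N := by
  unfold levM
  rw [fromBlocks_multiply]
  simp only [Matrix.mul_zero, Matrix.zero_mul, add_zero, zero_add, Units.val_mul, _root_.mul_inv_rev, Matrix.transpose_mul]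
  congr 1
  ext i j
  simp [Matrix.mul_apply, map_sum, map_mul]

theorem levM_one {m : ℕ} : levM σ (1 : GL (Fin m) F) = 1 := by
  unfold levM
  simp only [inv_one, Units.val_one, Matrix.transpose_one]
  rw [Matrix.map_one _ (map_zero σ) (map_one σ), fromBlocks_one]

theorem levM_det {m : ℕ} (M : GL (Fin m) F) :
    (levM σ M).det = (M : Matrix (Fin m) (Fin m) F).det * (σ (M : Matrix (Fin m) (Fin m) F).det)⁻¹ := by
  unfold levM
  rw [det_fromBlocks_zero₂₁]
  congr 1
  have h1 : (((M⁻¹ : GL (Fin m) F) : Matrix (Fin m) (Fin m) F)ᵀ.map σ).det = σ ((M⁻¹ : GL (Fin m) F) : Matrix (Fin m) (Fin m) F).det := by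
    have := RingHom.map_det (σ : F →+* F) (((M⁻¹ : GL (Fin m) F) : Matrix (Fin m) (Fin m) F)ᵀ)
    rw [det_transpose] at this
    exact this.symm
  rw [h1]
  have h2 : ((M⁻¹ : GL (Fin m) F) : Matrix (Fin m) (Fin m) F).det * (M : Matrix (Fin m) (Fin m) F).det = 1 := by
    rw [← det_mul, ← Units.val_mul, inv_mul_cancel, Units.val_one, det_one]
  apply eq_inv_of_mul_eq_one_left
  rw [← map_mul, h2, map_one]

theorem levM_mulVec_inl {m : ℕ} (M : GL (Fin m) F) (u : Fin m ⊕ Fin m → F) (i : Fin m) :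
    (levM σ M *ᵥ u) (Sum.inl i) = ((M : Matrix (Fin m) (Fin m) F) *ᵥ (fun j => u (Sum.inl j))) i := by
  unfold levM
  rw [← Sum.elim_comp_inl_inr u, fromBlocks_mulVec]
  simp
  rfl

theorem levM_mulVec_inr {m : ℕ} (M : GL (Fin m) F) (u : Fin m ⊕ Fin m → F) (i : Fin m) :
    (levM σ M *ᵥ u) (Sum.inr i) = ((((M⁻¹ : GL (Fin m) F) : Matrix (Fin m) (Fin m) F)ᵀ.map σ) *ᵥ (fun j => u (Sum.inr j))) i := by
  unfold levM
  rw [← Sum.elim_comp_inl_inr u, fromBlocks_mulVec]
  simp
  rfl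

theorem hyp_split {m : ℕ} (u v : Fin m ⊕ Fin m → F) :
    hyp σ u v = (fun i => u (Sum.inl i)) ⬝ᵥ (fun i => σ (v (Sum.inr i))) + (fun i => u (Sum.inr i)) ⬝ᵥ (fun i => σ (v (Sum.inl i))) := by
  unfold hyp
  rw [Fintype.sum_sum_type]
  rfl

theorem hyp_levM (hσ : ∀ a, σ (σ a) = a) {m : ℕ} (M : GL (Fin m) F) (u v : Fin m ⊕ Fin m → F) :
    hyp σ (levM σ M *ᵥ u) (levM σ M *ᵥ v) = hyp σ u v := by
  rw [hyp_split, hyp_split]
  set A : Matrix (Fin m) (Fin m) F := (M : Matrix (Fin m) (Fin m) F) with hA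
  set A' : Matrix (Fin m) (Fin m) F := ((M⁻¹ : GL (Fin m) F) : Matrix (Fin m) (Fin m) F) with hA'
  have h1 : A' * A = 1 := by
    rw [hA, hA', ← Units.val_mul, inv_mul_cancel, Units.val_one]
  have e1 : (fun i => (levM σ M *ᵥ u) (Sum.inl i)) = A *ᵥ (fun j => u (Sum.inl j)) := funext fun i => levM_mulVec_inl M u i
  have e2 : (fun i => (levM σ M *ᵥ u) (Sum.inr i)) = (A'ᵀ.map σ) *ᵥ (fun j => u (Sum.inr j)) := funext fun i => levM_mulVec_inr M u i
  have e3 : (fun i => σ ((levM σ M *ᵥ v) (Sum.inr i))) = A'ᵀ *ᵥ (fun j => σ (v (Sum.inr j))) := by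
    funext i
    rw [levM_mulVec_inr]
    have := RingHom.map_mulVec (σ : F →+* F) (A'ᵀ.map σ) (fun j => v (Sum.inr j)) i
    have h2 : (A'ᵀ.map σ).map (σ : F →+* F) = A'ᵀ := by
      ext a b
      simp [hσ]
    rw [h2] at this
    exact this
  have e4 : (fun i => σ ((levM σ M *ᵥ v) (Sum.inl i))) = (A.map σ) *ᵥ (fun j => σ (v (Sum.inl j))) := by
    funext i
    rw [levM_mulVec_inl]
    exact RingHom.map_mulVec (σ : F →+* F) A (fun j => v (Sum.inl j)) i
  rw [e1, e2, e3, e4]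
  congr 1
  · rw [Matrix.dotProduct_mulVec, vecMul_transpose, mulVec_mulVec, h1, one_mulVec]
  · have hZ : (A.map σ)ᵀ * (A'ᵀ.map σ) = 1 := by
      have h3 : (A.map σ)ᵀ * (A'ᵀ.map σ) = ((A' * A)ᵀ).map (σ : F →+* F) := by
        rw [Matrix.transpose_mul]
        ext a b
        simp [Matrix.mul_apply, map_sum, map_mul]
      rw [h3, h1, Matrix.transpose_one]
      ext a b
      simp [Matrix.one_apply]
    rw [Matrix.dotProduct_mulVec, ← mulVec_transpose, mulVec_mulVec, hZ, one_mulVec]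

/-- The Levi factor attached to a model. -/
noncomputable def lev (σ : F ≃+* F) {m : ℕ} (P : (Fin m ⊕ Fin m → F) ≃ₗ[F] (ι → F)) (M : GL (Fin m) F) : GL ι F :=
  Cfsg.Agent.Lib.Classical.glOfEquiv (P.symm ≪≫ₗ (LinearEquiv.ofLinear (Matrix.toLin' (levM σ M)) (Matrix.toLin' (levM σ M⁻¹))
    (by rw [← Matrix.toLin'_mul, ← levM_mul, mul_inv_cancel, levM_one, Matrix.toLin'_one])
    (by rw [← Matrix.toLin'_mul, ← levM_mul, inv_mul_cancel, levM_one, Matrix.toLin'_one])) ≪≫ₗ P)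

theorem lev_apply {m : ℕ} (P : (Fin m ⊕ Fin m → F) ≃ₗ[F] (ι → F)) (M : GL (Fin m) F) (u : Fin m ⊕ Fin m → F) :
    ((lev σ P M : GL ι F) : Matrix ι ι F) *ᵥ (P u) = P (levM σ M *ᵥ u) := by
  unfold lev
  rw [Cfsg.Agent.Lib.Classical.glOfEquiv_mulVec]
  simp

theorem lev_mul {m : ℕ} (P : (Fin m ⊕ Fin m → F) ≃ₗ[F] (ι → F)) (M N : GL (Fin m) F) :
    lev σ P (M * N) = lev σ P M * lev σ P N := by
  apply Units.ext
  apply Cfsg.Agent.Lib.Classical.mat_ext_mulVec
  intro x
  obtain ⟨u, rfl⟩ := P.surjective x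
  rw [Units.val_mul, ← mulVec_mulVec, lev_apply, lev_apply, lev_apply, levM_mul, mulVec_mulVec]

theorem lev_injective {m : ℕ} (P : (Fin m ⊕ Fin m → F) ≃ₗ[F] (ι → F)) : Function.Injective (lev (ι := ι) σ P (m := m)) := by
  intro M N h
  have h1 : levM σ M = levM σ N := by
    apply Cfsg.Agent.Lib.Classical.mat_ext_mulVec
    intro u
    apply P.injective
    rw [← lev_apply, ← lev_apply, h]
  apply Units.ext
  unfold levM at h1
  exact (Matrix.fromBlocks_inj.mp h1).1

theorem lev_det {m : ℕ} (P : (Fin m ⊕ Fin m → F) ≃ₗ[F] (ι → F)) (M : GL (Fin m) F) :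
    ((lev σ P M : GL ι F) : Matrix ι ι F).det = (M : Matrix (Fin m) (Fin m) F).det * (σ (M : Matrix (Fin m) (Fin m) F).det)⁻¹ := by
  rw [← levM_det, ← LinearMap.det_toLin', ← LinearMap.det_toLin' (levM σ M), ← LinearMap.det_conj (Matrix.toLin' (levM σ M)) P]
  congr 1
  apply LinearMap.ext
  intro x
  obtain ⟨u, rfl⟩ := P.surjective x
  rw [Matrix.toLin'_apply, lev_apply]
  simp

theorem lev_iso (hf : IsUnitaryForm σ f) {m : ℕ} {P : (Fin m ⊕ Fin m → F) ≃ₗ[F] (ι → F)} (hP : ∀ u v, f (P u) (P v) = hyp σ u v) (M : GL (Fin m) F)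
    (x y : ι → F) : f (((lev σ P M : GL ι F) : Matrix ι ι F) *ᵥ x) (((lev σ P M : GL ι F) : Matrix ι ι F) *ᵥ y) = f x y := by
  obtain ⟨u, rfl⟩ := P.surjective x
  obtain ⟨v, rfl⟩ := P.surjective y
  rw [lev_apply, lev_apply, hP, hP, hyp_levM hf.involutive]

theorem lev_memA {m : ℕ} {P : (Fin m ⊕ Fin m → F) ≃ₗ[F] (ι → F)} {A : Submodule F (ι → F)} (hPA : ∀ u, P u ∈ A ↔ ∀ i, u (Sum.inr i) = 0) (M : GL (Fin m) F) :
    A.map (Matrix.toLin' ((lev σ P M : GL ι F) : Matrix ι ι F)) = A := by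
  have key : ∀ M : GL (Fin m) F, A.map (Matrix.toLin' ((lev σ P M : GL ι F) : Matrix ι ι F)) ≤ A := by
    rintro M _ ⟨x, hx, rfl⟩
    obtain ⟨u, rfl⟩ := P.surjective x
    rw [Matrix.toLin'_apply, lev_apply, hPA]
    intro i
    rw [levM_mulVec_inr]
    have : (fun j => u (Sum.inr j)) = 0 := funext ((hPA u).mp hx)
    rw [this, mulVec_zero]
    rfl
  apply le_antisymm (key M)
  intro x hx
  refine ⟨_, key M⁻¹ ⟨x, hx, rfl⟩, ?_⟩
  rw [Matrix.toLin'_apply, Matrix.toLin'_apply, mulVec_mulVec, ← Units.val_mul, ← lev_mul, mul_inv_cancel]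
  obtain ⟨u, rfl⟩ := P.surjective x
  rw [lev_apply, levM_one, one_mulVec]

theorem lev_memB {m : ℕ} {P : (Fin m ⊕ Fin m → F) ≃ₗ[F] (ι → F)} {B : Submodule F (ι → F)} (hPB : ∀ u, P u ∈ B ↔ ∀ i, u (Sum.inl i) = 0) (M : GL (Fin m) F) :
    B.map (Matrix.toLin' ((lev σ P M : GL ι F) : Matrix ι ι F)) = B := by
  have key : ∀ M : GL (Fin m) F, B.map (Matrix.toLin' ((lev σ P M : GL ι F) : Matrix ι ι F)) ≤ B := by
    rintro M _ ⟨x, hx, rfl⟩
    obtain ⟨u, rfl⟩ := P.surjective x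
    rw [Matrix.toLin'_apply, lev_apply, hPB]
    intro i
    rw [levM_mulVec_inl]
    have : (fun j => u (Sum.inl j)) = 0 := funext ((hPB u).mp hx)
    rw [this, mulVec_zero]
    rfl
  apply le_antisymm (key M)
  intro x hx
  refine ⟨_, key M⁻¹ ⟨x, hx, rfl⟩, ?_⟩
  rw [Matrix.toLin'_apply, Matrix.toLin'_apply, mulVec_mulVec, ← Units.val_mul, ← lev_mul, mul_inv_cancel]
  obtain ⟨u, rfl⟩ := P.surjective x
  rw [lev_apply, levM_one, one_mulVec]


section Std

variable {n q : ℕ} [Fintype F]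

open Cfsg.Agent.Lib.ClassMax.UnitCore

/-- Moving a pair by an element of `SU`. -/
theorem exists_su_move (hF : Fintype.card F = q ^ 2) {A B A' B' : Submodule F (Fin n → F)} (h : UP (Cfsg.hermForm n F q) A B) (h' : UP (Cfsg.hermForm n F q) A' B')
    (hA0 : 0 < finrank F A') :
    ∃ g ∈ Cfsg.GU n F q ⊓ specialLinear (Fin n) F, A.map (Matrix.toLin' (g : Matrix (Fin n) (Fin n) F)) = A' ∧ B.map (Matrix.toLin' (g : Matrix (Fin n) (Fin n) F)) = B' := by
  classical
  obtain ⟨σ, hf, hσ⟩ := hermForm_unitary (n := n) hF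
  obtain ⟨g₀, hg₀, hgA, hgB⟩ := h.exists_move hf h'
  obtain ⟨m, hm⟩ : ∃ m, finrank F A' = m := ⟨_, rfl⟩
  rw [hm] at hA0
  obtain ⟨P, hP, hPA, hPB⟩ := h'.exists_P hf hm
  have hδ := Cfsg.Agent.Lib.Classical.gu_det_norm hF (g₀ : Matrix (Fin n) (Fin n) F) hg₀
  have hδ0 : (g₀ : Matrix (Fin n) (Fin n) F).det ≠ 0 := by
    have := g₀.isUnit
    exact ((Matrix.isUnit_iff_isUnit_det _).mp this).ne_zero
  obtain ⟨l, hl⟩ := Cfsg.Agent.Lib.Classical.exists_hilbert90 hF (Units.mk0 _ hδ0) hδ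
  have hq := Cfsg.Agent.Lib.Classical.two_le_q hF
  have hl' : (l : F) ^ (q - 1) = (g₀ : Matrix (Fin n) (Fin n) F).det := by
    have := congrArg Units.val hl
    simpa using this
  let i₀ : Fin m := ⟨0, hA0⟩
  let M₀ : Matrix (Fin m) (Fin m) F := Matrix.diagonal (Function.update 1 i₀ (l : F))
  have hM₀ : M₀.det = l := by
    rw [Matrix.det_diagonal, Finset.prod_update_of_mem (Finset.mem_univ _)]
    simp
  let M : GL (Fin m) F := Matrix.GeneralLinearGroup.mkOfDetNeZero M₀ (by rw [hM₀]; exact l.ne_zero)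
  have hMdet : (M : Matrix (Fin m) (Fin m) F).det = l := hM₀
  have hl0 : (l : F) ≠ 0 := l.ne_zero
  refine ⟨lev σ P M * g₀, ⟨mul_mem (show lev σ P M ∈ Cfsg.GU n F q from lev_iso hf hP M) hg₀, ?_⟩, ?_, ?_⟩
  · show Matrix.GeneralLinearGroup.det (lev σ P M * g₀) = 1
    apply Units.ext
    show ((lev σ P M * g₀ : GL (Fin n) F) : Matrix (Fin n) (Fin n) F).det = 1
    rw [Units.val_mul, Matrix.det_mul, lev_det, hMdet, hσ, ← hl']
    have e : (l : F) ^ q = l ^ (q - 1) * l := by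
      rw [← pow_succ]
      congr 1
      omega
    rw [e]
    field_simp
  · rw [Units.val_mul, Matrix.toLin'_mul, Submodule.map_comp, hgA, lev_memA hPA]
  · rw [Units.val_mul, Matrix.toLin'_mul, Submodule.map_comp, hgB, lev_memB hPB]

theorem gl_split (q m : ℕ) : ∃ b, ∏ i : Fin m, ((q ^ 2) ^ m - (q ^ 2) ^ (i : ℕ)) = q ^ b * ∏ j ∈ Finset.range m, (q ^ (2 * j + 2) - 1) := by
  have h1 : ∀ i : Fin m, (q ^ 2) ^ m - (q ^ 2) ^ (i : ℕ) = (q ^ 2) ^ (i : ℕ) * ((q ^ 2) ^ (m - (i : ℕ)) - 1) := fun i =>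
    Cfsg.Agent.Lib.ClassMax.EluFix.pow_sub_factor i.2.le
  simp_rw [h1]
  rw [Finset.prod_mul_distrib, Finset.prod_pow_eq_pow_sum, ← pow_mul]
  refine ⟨2 * ∑ i : Fin m, (i : ℕ), ?_⟩
  congr 1
  rw [Fin.prod_univ_eq_prod_range (fun i => (q ^ 2) ^ (m - i) - 1) m, ← Finset.prod_range_reflect]
  refine Finset.prod_congr rfl fun j hj => ?_
  rw [Finset.mem_range] at hj
  congr 1
  rw [← pow_mul]
  congr 1
  omega

theorem gu_split (q m : ℕ) : ∏ i ∈ Finset.range (2 * m), (if Even i then q ^ (i + 1) + 1 else q ^ (i + 1) - 1) =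
    (∏ j ∈ Finset.range m, (q ^ (2 * j + 1) + 1)) * ∏ j ∈ Finset.range m, (q ^ (2 * j + 2) - 1) := by
  induction m with
  | zero => simp
  | succ m ih =>
    have e : 2 * (m + 1) = 2 * m + 1 + 1 := by ring
    rw [e, Finset.prod_range_succ, Finset.prod_range_succ, ih, Finset.prod_range_succ, Finset.prod_range_succ]
    have h1 : Even (2 * m) := even_two_mul m
    have h2 : ¬ Even (2 * m + 1) := by simp
    rw [if_pos h1, if_neg h2]
    have e2 : 2 * m + 1 + 1 = 2 * m + 2 := rfl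
    rw [e2]
    ring

/-- A prime dividing the index of the stabiliser of a pair. -/
theorem prime_dvd_of_index (hF : Fintype.card F = q ^ 2) {m : ℕ} (hn : n = 2 * m) {D : Fin 2 → Submodule F (Fin n → F)} (hD : UP (Cfsg.hermForm n F q) (D 0) (D 1))
    {r : ℕ} (hr : r.Prime) (hrq : ¬ r ∣ q) (hdvd : r ∣ (decompositionStabilizer D).relIndex (Cfsg.GU n F q ⊓ specialLinear (Fin n) F)) :
    ∃ j < m, r ∣ q ^ (2 * j + 1) + 1 := by
  classical
  obtain ⟨σ, hf, hσ⟩ := hermForm_unitary (n := n) hF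
  have hq := Cfsg.Agent.Lib.Classical.two_le_q hF
  have hfin : finrank F (D 0) = m := by
    have := hD.finrank_eq hf
    simp only [Fintype.card_fin] at this
    omega
  obtain ⟨P, hP, hPA, hPB⟩ := hD.exists_P hf hfin
  let φ : GL (Fin m) F →* GL (Fin n) F := MonoidHom.mk' (lev σ P) (lev_mul P)
  have hφ : Function.Injective φ := lev_injective P
  let L := φ.range
  set U := Cfsg.GU n F q with hU
  let SL := specialLinear (Fin n) F
  let H := decompositionStabilizer D
  have hLU : L ≤ U := by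
    rintro _ ⟨M, rfl⟩
    exact lev_iso hf hP M
  have hLH : L ≤ H := by
    rintro _ ⟨M, rfl⟩
    refine ⟨1, fun i => ?_⟩
    fin_cases i
    · exact lev_memA hPA M
    · exact lev_memB hPB M
  have h1 : H.relIndex (U ⊓ SL) ∣ L.relIndex (U ⊓ SL) := Subgroup.relIndex_dvd_of_le_left _ hLH
  have h2 := Subgroup.relIndex_inf_mul_relIndex L SL U
  have h3 := Subgroup.relIndex_mul_relIndex (L ⊓ SL) L U inf_le_left hLU
  rw [Subgroup.inf_relIndex_left] at h3
  have hb : SL.relIndex U = Nat.card (U.map Matrix.GeneralLinearGroup.det) := Subgroup.relIndex_ker U _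
  have hc : SL.relIndex L = Nat.card (L.map Matrix.GeneralLinearGroup.det) := Subgroup.relIndex_ker L _
  have hcb : SL.relIndex L ∣ SL.relIndex U := by
    rw [hb, hc]
    exact Subgroup.card_dvd_of_le (Subgroup.map_mono hLU)
  have hb0 : SL.relIndex U ≠ 0 := by
    rw [hb]
    exact Nat.card_pos.ne'
  have hae : L.relIndex (U ⊓ SL) ∣ L.relIndex U := by
    obtain ⟨t, ht⟩ := hcb
    have hc0 : SL.relIndex L ≠ 0 := fun h0 => hb0 (by rw [ht, h0, zero_mul])
    have h4 : L.relIndex (SL ⊓ U) * SL.relIndex U = SL.relIndex L * L.relIndex U := by rw [h2, ← h3, mul_comm]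
    rw [ht, inf_comm SL U, mul_comm (SL.relIndex L) t, ← mul_assoc] at h4
    have h5 : (L.relIndex (U ⊓ SL) * t) * SL.relIndex L = L.relIndex U * SL.relIndex L := by rw [h4, mul_comm]
    exact ⟨t, (Nat.eq_of_mul_eq_mul_right (Nat.pos_of_ne_zero hc0) h5).symm⟩
  have hcardL : Nat.card L = Nat.card (GL (Fin m) F) := Nat.card_congr (MonoidHom.ofInjective hφ).toEquiv.symm
  have he : Nat.card L * L.relIndex U = Nat.card U := by
    have h6 := Subgroup.card_mul_index (L.subgroupOf U)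
    rw [Nat.card_congr (Subgroup.subgroupOfEquivOfLe hLU).toEquiv] at h6
    exact h6
  have hUc : Nat.card U = q ^ (n * (n - 1) / 2) * ((∏ j ∈ Finset.range m, (q ^ (2 * j + 1) + 1)) * ∏ j ∈ Finset.range m, (q ^ (2 * j + 2) - 1)) := by
    rw [hU, Cfsg.Agent.Lib.Classical.card_gu hF n]
    congr 1
    rw [hn, gu_split]
  obtain ⟨b, hbb⟩ := gl_split q m
  have hGL : Nat.card (GL (Fin m) F) = q ^ b * ∏ j ∈ Finset.range m, (q ^ (2 * j + 2) - 1) := by
    rw [Matrix.card_GL_field, hF, hbb]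
  have hPi : 0 < ∏ j ∈ Finset.range m, (q ^ (2 * j + 2) - 1) := by
    apply Finset.prod_pos
    intro j _
    have : 1 < q ^ (2 * j + 2) := Nat.one_lt_pow (by omega : 2 * j + 2 ≠ 0) (by omega : 1 < q)
    omega
  rw [hcardL, hGL, hUc] at he
  have h7 : q ^ b * L.relIndex U = q ^ (n * (n - 1) / 2) * ∏ j ∈ Finset.range m, (q ^ (2 * j + 1) + 1) := by
    apply Nat.eq_of_mul_eq_mul_right hPi
    calc q ^ b * L.relIndex U * (∏ j ∈ Finset.range m, (q ^ (2 * j + 2) - 1))
        = (q ^ b * ∏ j ∈ Finset.range m, (q ^ (2 * j + 2) - 1)) * L.relIndex U := by ring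
      _ = _ := he
      _ = _ := by ring
  have h8 : r ∣ q ^ (n * (n - 1) / 2) * ∏ j ∈ Finset.range m, (q ^ (2 * j + 1) + 1) := by
    rw [← h7]
    exact Dvd.dvd.mul_left (hdvd.trans (h1.trans hae)) _
  rcases (Nat.Prime.dvd_mul hr).mp h8 with h9 | h9
  · exact absurd (hr.dvd_of_dvd_pow h9) hrq
  · obtain ⟨j, hj, hj2⟩ := (hr.prime.dvd_finset_prod_iff _).mp h9
    exact ⟨j, Finset.mem_range.mp hj, hj2⟩

end Std

end Cfsg.Agent.Lib.ClassMax.HypPair
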