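import Mathlib
import Cfsg.Agent.Lib.ClassMax.HypPair
import Cfsg.Agent.Lib.ClassMax.EluInv

/-! Elements preserving pairs of complementary totally singular subspaces. -/

set_option autoImplicit false
set_option linter.unusedSimpArgs false
set_option linter.unusedVariables false
set_option linter.unusedSectionVars false

namespace Cfsg.Agent.Lib.ClassMax.HypPair

open Matrix Module Cfsg.Geo Cfsg.Agent.Lib.ClassMax Cfsg.Agent.Lib.ClassMax.HermOver

variable {ι : Type} [Fintype ι] [DecidableEq ι] {F : Type*} [Field F]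
variable {σ : F ≃+* F} {f : (ι → F) → (ι → F) → F}

/-- A rank-one perturbation of a scalar fixes no pair. -/
theorem rank_one_stable (hf : IsUnitaryForm σ f) {A B : Submodule F (ι → F)} (h : UP f A B) {x : Matrix ι ι F} {ω a : F} {c : ι → F}
    (hω : ω ≠ 0) (ha : a ≠ 0) (hc : c ≠ 0) (hx : ∀ v, x *ᵥ v = ω • (v + (a * f v c) • c))
    (hA : ∀ u ∈ A, x *ᵥ u ∈ A) (hB : ∀ u ∈ B, x *ᵥ u ∈ B) : False := by
  have key : ∀ (S : Submodule F (ι → F)), (∀ u ∈ S, x *ᵥ u ∈ S) → ∀ v ∈ S, f v c ≠ 0 → c ∈ S := by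
    intro S hS v hv hne
    have h1 := hS v hv
    rw [hx] at h1
    have h2 := (S.smul_mem_iff hω).mp h1
    have h3 : (a * f v c) • c ∈ S := by
      have := S.sub_mem h2 hv
      simpa using this
    exact (S.smul_mem_iff (mul_ne_zero ha hne)).mp h3
  obtain ⟨t, ht⟩ := (hf.nondegenerate c hc).1
  have ht' : t ∈ A ⊔ B := by rw [h.sup]; trivial
  obtain ⟨s, hs, w, hw, rfl⟩ := Submodule.mem_sup.mp ht'
  rw [hf.add_left] at ht
  have hdis := h.disjoint hf
  have hcz : c ∈ A → c ∈ B → False := fun h1 h2 => hc (Submodule.disjoint_def.mp hdis c h1 h2)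
  by_cases h1 : f s c = 0
  · have h2 : f w c ≠ 0 := by
      intro h3
      apply ht
      rw [h1, h3, add_zero]
    have hcB := key B hB w hw h2
    exact h2 (h.tsB w hw c hcB)
  · have hcA := key A hA s hs h1
    exact h1 (h.tsA s hs c hcA)

theorem rank_one_swap (hf : IsUnitaryForm σ f) {A B : Submodule F (ι → F)} (h : UP f A B) (hdim : 2 ≤ finrank F A) {x : Matrix ι ι F} {ω a : F} {c : ι → F}
    (hω : ω ≠ 0) (hx : ∀ v, x *ᵥ v = ω • (v + (a * f v c) • c))
    (hAB : ∀ u ∈ A, x *ᵥ u ∈ B) : False := by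
  classical
  let φ : A →ₗ[F] F :=
    { toFun := fun v => f (v : ι → F) c
      map_add' := by
        intro s t
        simp [hf.add_left]
      map_smul' := by
        intro s t
        simp [hf.smul_left] }
  have hker : LinearMap.ker φ ≠ ⊥ := by
    apply LinearMap.ker_ne_bot_of_finrank_lt
    rw [finrank_self]
    omega
  obtain ⟨v, hv, hv0⟩ := Submodule.exists_mem_ne_zero_of_ne_bot hker
  have hfv : f (v : ι → F) c = 0 := hv
  have h1 := hAB v v.2
  rw [hx, hfv, mul_zero, zero_smul, add_zero] at h1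
  have h2 := (B.smul_mem_iff hω).mp h1
  apply hv0
  apply Subtype.ext
  exact Submodule.disjoint_def.mp (h.disjoint hf) _ v.2 h2

/-- A criterion excluding stable pairs. -/
theorem no_stable_pair {A B W : Submodule F (ι → F)} (h : UP f A B) (T π : Module.End F (ι → F))
    (hπ : ∀ S : Submodule F (ι → F), (∀ s ∈ S, T s ∈ S) → ∀ s ∈ S, π s ∈ S) (hπW : ∀ v, π v ∈ W) (hπid : ∀ w ∈ W, π w = w)
    (hTW : ∀ w ∈ W, T w ∈ W)
    (hirr : ∀ U : Submodule F (ι → F), U ≤ W → (∀ u ∈ U, T u ∈ U) → U = ⊥ ∨ U = W)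
    {w₀ : ι → F} (hw₀ : w₀ ∈ W) (hw₀0 : f w₀ w₀ ≠ 0) (hw₀n : w₀ ≠ 0) (hA : ∀ u ∈ A, T u ∈ A) (hB : ∀ u ∈ B, T u ∈ B) : False := by
  have hUA : W ⊓ A = ⊥ := by
    rcases hirr (W ⊓ A) inf_le_left (fun u hu => ⟨hTW u hu.1, hA u hu.2⟩) with h1 | h1
    · exact h1
    · exfalso
      have h2 : w₀ ∈ W ⊓ A := by rw [h1]; exact hw₀
      exact hw₀0 (h.tsA _ h2.2 _ h2.2)
  have hUB : W ⊓ B = ⊥ := by
    rcases hirr (W ⊓ B) inf_le_left (fun u hu => ⟨hTW u hu.1, hB u hu.2⟩) with h1 | h1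
    · exact h1
    · exfalso
      have h2 : w₀ ∈ W ⊓ B := by rw [h1]; exact hw₀
      exact hw₀0 (h.tsB _ h2.2 _ h2.2)
  have ht : w₀ ∈ A ⊔ B := by rw [h.sup]; trivial
  obtain ⟨a, ha, b, hb, hab⟩ := Submodule.mem_sup.mp ht
  have h1 : π a = 0 := by
    have : π a ∈ W ⊓ A := ⟨hπW a, hπ A hA a ha⟩
    rwa [hUA, Submodule.mem_bot] at this
  have h2 : π b = 0 := by
    have : π b ∈ W ⊓ B := ⟨hπW b, hπ B hB b hb⟩
    rwa [hUB, Submodule.mem_bot] at this
  apply hw₀n
  rw [← hπid w₀ hw₀, ← hab, map_add, h1, h2, add_zero]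

theorem gl_cancel (g : GL ι F) (v : ι → F) : (g : Matrix ι ι F) *ᵥ (((g⁻¹ : GL ι F) : Matrix ι ι F) *ᵥ v) = v := by
  rw [mulVec_mulVec, ← Units.val_mul, mul_inv_cancel, Units.val_one, one_mulVec]

theorem gl_cancel' (g : GL ι F) (v : ι → F) : ((g⁻¹ : GL ι F) : Matrix ι ι F) *ᵥ ((g : Matrix ι ι F) *ᵥ v) = v := by
  rw [mulVec_mulVec, ← Units.val_mul, inv_mul_cancel, Units.val_one, one_mulVec]

theorem gl_injective (g : GL ι F) : Function.Injective (Matrix.toLin' (g : Matrix ι ι F)) := by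
  intro u v h
  rw [Matrix.toLin'_apply, Matrix.toLin'_apply] at h
  rw [← gl_cancel' g u, h, gl_cancel']

theorem UP.map {A B : Submodule F (ι → F)} (h : UP f A B) (g : GL ι F)
    (hg : ∀ u v, f ((g : Matrix ι ι F) *ᵥ u) ((g : Matrix ι ι F) *ᵥ v) = f u v) :
    UP f (A.map (Matrix.toLin' (g : Matrix ι ι F))) (B.map (Matrix.toLin' (g : Matrix ι ι F))) := by
  refine ⟨?_, ?_, ?_⟩
  · rw [← Submodule.map_sup, h.sup, Submodule.map_top, LinearMap.range_eq_top]
    intro v
    exact ⟨_, by rw [Matrix.toLin'_apply, gl_cancel]⟩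
  · rintro _ ⟨u, hu, rfl⟩ _ ⟨v, hv, rfl⟩
    rw [Matrix.toLin'_apply, Matrix.toLin'_apply, hg]
    exact h.tsA u hu v hv
  · rintro _ ⟨u, hu, rfl⟩ _ ⟨v, hv, rfl⟩
    rw [Matrix.toLin'_apply, Matrix.toLin'_apply, hg]
    exact h.tsB u hu v hv

/-- Conjugates in the stabiliser of a pair. -/
theorem stab_cases {D : Fin 2 → Submodule F (ι → F)} (hD : UP f (D 0) (D 1)) {x g : GL ι F}
    (hg : ∀ u v, f ((g : Matrix ι ι F) *ᵥ u) ((g : Matrix ι ι F) *ᵥ v) = f u v) (h : g⁻¹ * x * g ∈ decompositionStabilizer D) :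
    ∃ A B, UP f A B ∧ finrank F A = finrank F (D 0) ∧ (((∀ u ∈ A, (x : Matrix ι ι F) *ᵥ u ∈ A) ∧ (∀ u ∈ B, (x : Matrix ι ι F) *ᵥ u ∈ B)) ∨
      ((∀ u ∈ A, (x : Matrix ι ι F) *ᵥ u ∈ B) ∧ (∀ u ∈ B, (x : Matrix ι ι F) *ᵥ u ∈ A))) := by
  obtain ⟨τ, hτ⟩ := h
  have key : ∀ i, ∀ u ∈ (D i).map (Matrix.toLin' (g : Matrix ι ι F)), (x : Matrix ι ι F) *ᵥ u ∈ (D (τ i)).map (Matrix.toLin' (g : Matrix ι ι F)) := by
    rintro i _ ⟨u, hu, rfl⟩
    have h1 : ((g⁻¹ * x * g : GL ι F) : Matrix ι ι F) *ᵥ u ∈ D (τ i) := by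
      rw [← hτ i]
      exact ⟨u, hu, rfl⟩
    refine ⟨_, h1, ?_⟩
    rw [Matrix.toLin'_apply, Matrix.toLin'_apply, Units.val_mul, Units.val_mul, ← mulVec_mulVec, ← mulVec_mulVec, gl_cancel]
  refine ⟨_, _, hD.map g hg, LinearEquiv.finrank_eq (Submodule.equivMapOfInjective _ (gl_injective g) _).symm, ?_⟩
  have hfin : ∀ a b : Fin 2, a ≠ b → (a = 0 ∧ b = 1) ∨ (a = 1 ∧ b = 0) := by decide
  rcases hfin (τ 0) (τ 1) (fun e => by simpa using τ.injective e) with ⟨h0, h1⟩ | ⟨h0, h1⟩
  · left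
    have k0 := key 0
    have k1 := key 1
    rw [h0] at k0
    rw [h1] at k1
    exact ⟨k0, k1⟩
  · right
    have k0 := key 0
    have k1 := key 1
    rw [h0] at k0
    rw [h1] at k1
    exact ⟨k0, k1⟩

theorem ts_span (hf : IsUnitaryForm σ f) {κ : Type*} (a : κ → ι → F) (h : ∀ i j, f (a i) (a j) = 0) :
    ∀ u ∈ Submodule.span F (Set.range a), ∀ v ∈ Submodule.span F (Set.range a), f u v = 0 := by
  intro u hu v hv
  induction hu using Submodule.span_induction with
  | mem x hx =>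
    obtain ⟨i, rfl⟩ := hx
    induction hv using Submodule.span_induction with
    | mem y hy =>
      obtain ⟨j, rfl⟩ := hy
      exact h i j
    | zero => exact zero_right hf _
    | add p q _ _ hp hq => rw [add_right hf, hp, hq, add_zero]
    | smul c p _ hp => rw [smul_right hf, hp, mul_zero]
  | zero => exact zero_left hf _
  | add p q _ _ hp hq => rw [hf.add_left, hp, hq, add_zero]
  | smul c p _ hp => rw [hf.smul_left, hp, mul_zero]

/-- A non-degenerate subspace of even dimension is the sum of two totally singular subspaces (odd characteristic). -/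
theorem exists_half [Fintype F] (hf : IsUnitaryForm σ f) (h2 : (2 : F) ≠ 0) {ξ : F} (hξ : ξ * σ ξ = -1) {W : Submodule F (ι → F)}
    (hW : ∀ w ∈ W, w ≠ 0 → ∃ x ∈ W, f w x ≠ 0) {k : ℕ} (hk : finrank F W = 2 * k) :
    ∃ A B : Submodule F (ι → F), A ≤ W ∧ B ≤ W ∧ A ⊔ B = W ∧ (∀ u ∈ A, ∀ v ∈ A, f u v = 0) ∧ (∀ u ∈ B, ∀ v ∈ B, f u v = 0) := by
  classical
  have hξ0 : ξ ≠ 0 := by
    rintro rfl
    rw [zero_mul] at hξ
    have : (1 : F) = 0 := by linear_combination hξ
    exact one_ne_zero this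
  let S := Cfsg.Agent.Lib.Classical.sesqRestrict (sesqOf hf) W
  have hsymm : (sesqOf hf).IsSymm := ⟨fun x y => by
    simp only [sesqOf_apply]
    show σ (f y x) = f x y
    exact sig_f hf y x⟩
  have hS : S.IsSymm := Cfsg.Agent.Lib.Classical.sesqRestrict_isSymm _ hsymm W
  have hnd : S.Nondegenerate := by
    refine ⟨fun x hx => ?_, fun y hy => ?_⟩
    · by_contra h0
      obtain ⟨t, ht, hne⟩ := hW x x.2 (fun e => h0 (Subtype.ext e))
      apply hne
      have h3 : f t x = 0 := hx ⟨t, ht⟩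
      rw [hf.herm, h3, map_zero]
    · by_contra h0
      obtain ⟨t, ht, hne⟩ := hW y y.2 (fun e => h0 (Subtype.ext e))
      exact hne (hy ⟨t, ht⟩)
  obtain ⟨b, hb⟩ := Cfsg.Agent.Lib.Classical.exists_orthonormal_basis (σ : F →+* F) (sig_ne hf) hf.involutive (2 * k) W S hS hnd hk
  have hb' : ∀ i j, f (b i : ι → F) (b j : ι → F) = if j = i then 1 else 0 := fun i j => hb j i
  let e : Fin k ⊕ Fin k ≃ Fin (2 * k) := finSumFinEquiv.trans (finCongr (two_mul k).symm)
  let p : Fin k → (ι → F) := fun i => (b (e (Sum.inl i)) : ι → F)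
  let s : Fin k → (ι → F) := fun i => (b (e (Sum.inr i)) : ι → F)
  have hpp : ∀ i j, f (p i) (p j) = if i = j then 1 else 0 := by
    intro i j
    show f (b _ : ι → F) (b _ : ι → F) = _
    rw [hb']
    by_cases hij : i = j
    · simp [hij]
    · have : e (Sum.inl j) ≠ e (Sum.inl i) := fun h => hij (by simpa using (e.injective h).symm)
      simp [hij, this]
  have hss : ∀ i j, f (s i) (s j) = if i = j then 1 else 0 := by
    intro i j
    show f (b _ : ι → F) (b _ : ι → F) = _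
    rw [hb']
    by_cases hij : i = j
    · simp [hij]
    · have : e (Sum.inr j) ≠ e (Sum.inr i) := fun h => hij (by simpa using (e.injective h).symm)
      simp [hij, this]
  have hps : ∀ i j, f (p i) (s j) = 0 := by
    intro i j
    show f (b _ : ι → F) (b _ : ι → F) = _
    rw [hb', if_neg]
    intro h
    simpa using e.injective h
  have hsp : ∀ i j, f (s i) (p j) = 0 := by
    intro i j
    show f (b _ : ι → F) (b _ : ι → F) = _
    rw [hb', if_neg]
    intro h
    simpa using e.injective h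
  have hpW : ∀ i, p i ∈ W := fun i => (b _).2
  have hsW : ∀ i, s i ∈ W := fun i => (b _).2
  let a : Fin k → (ι → F) := fun i => p i + ξ • s i
  let c : Fin k → (ι → F) := fun i => p i + (-ξ) • s i
  have haa : ∀ i j, f (a i) (a j) = 0 := by
    intro i j
    simp only [a, hf.add_left, add_right hf, hf.smul_left, smul_right hf, hpp, hps, hsp, hss]
    by_cases hij : i = j
    · simp only [hij, if_true]
      linear_combination hξ
    · simp [hij]
  have hcc : ∀ i j, f (c i) (c j) = 0 := by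
    intro i j
    simp only [c, hf.add_left, add_right hf, hf.smul_left, smul_right hf, hpp, hps, hsp, hss, map_neg]
    by_cases hij : i = j
    · simp only [hij, if_true]
      linear_combination hξ
    · simp [hij]
  refine ⟨Submodule.span F (Set.range a), Submodule.span F (Set.range c), ?_, ?_, ?_, ts_span hf a haa, ts_span hf c hcc⟩
  · rw [Submodule.span_le]
    rintro _ ⟨i, rfl⟩
    exact W.add_mem (hpW i) (W.smul_mem _ (hsW i))
  · rw [Submodule.span_le]
    rintro _ ⟨i, rfl⟩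
    exact W.add_mem (hpW i) (W.smul_mem _ (hsW i))
  · apply le_antisymm
    · apply sup_le
      · rw [Submodule.span_le]
        rintro _ ⟨i, rfl⟩
        exact W.add_mem (hpW i) (W.smul_mem _ (hsW i))
      · rw [Submodule.span_le]
        rintro _ ⟨i, rfl⟩
        exact W.add_mem (hpW i) (W.smul_mem _ (hsW i))
    · intro w hw
      set T := Submodule.span F (Set.range a) ⊔ Submodule.span F (Set.range c) with hT
      have ha : ∀ i, a i ∈ T := fun i => Submodule.mem_sup_left (Submodule.subset_span ⟨i, rfl⟩)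
      have hc : ∀ i, c i ∈ T := fun i => Submodule.mem_sup_right (Submodule.subset_span ⟨i, rfl⟩)
      have hp : ∀ i, p i ∈ T := by
        intro i
        have h3 : p i = (2 : F)⁻¹ • (a i + c i) := by
          simp only [a, c]
          rw [show p i + ξ • s i + (p i + (-ξ) • s i) = (2 : F) • p i by module, smul_smul, inv_mul_cancel₀ h2, one_smul]
        rw [h3]
        exact T.smul_mem _ (T.add_mem (ha i) (hc i))
      have hs : ∀ i, s i ∈ T := by
        intro i
        have h3 : s i = ((2 : F) * ξ)⁻¹ • (a i + (-1 : F) • c i) := by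
          simp only [a, c]
          rw [show p i + ξ • s i + (-1 : F) • (p i + (-ξ) • s i) = ((2 : F) * ξ) • s i by module, smul_smul, inv_mul_cancel₀ (mul_ne_zero h2 hξ0), one_smul]
        rw [h3]
        exact T.smul_mem _ (T.add_mem (ha i) (T.smul_mem _ (hc i)))
      have hall : ∀ t, (b t : ι → F) ∈ T := by
        intro t
        obtain ⟨τ, rfl⟩ := e.surjective t
        rcases τ with i | i
        · exact hp i
        · exact hs i
      have h3 := b.sum_repr ⟨w, hw⟩
      have h4 := congrArg Subtype.val h3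
      simp only [Submodule.coe_sum, Submodule.coe_smul] at h4
      rw [← h4]
      exact T.sum_mem fun t _ => T.smul_mem _ (hall t)

end Cfsg.Agent.Lib.ClassMax.HypPair
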