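import Mathlib
import Cfsg.Agent.Lib.ClassMax.HypPair2

/-! Elements with scalar square preserve a pair of complementary totally singular subspaces. -/

set_option autoImplicit false
set_option linter.unusedSimpArgs false
set_option linter.unusedVariables false
set_option linter.unusedSectionVars false

namespace Cfsg.Agent.Lib.ClassMax.HypPair

open Matrix Module Cfsg.Geo Cfsg.Agent.Lib.ClassMax Cfsg.Agent.Lib.ClassMax.HermOver Cfsg.Agent.Lib.ClassMax.UnitCore

variable {F : Type*} [Field F] [Fintype F] {n q : ℕ}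

theorem val_arith {a n : ℕ} (ha : a ≠ 0) (hn : n ≠ 0) (hval : padicValNat 2 a ≤ padicValNat 2 n) : ∃ u s, Odd u ∧ a * s = n * u := by
  obtain ⟨k, t, ht, rfl⟩ := Nat.exists_eq_two_pow_mul_odd ha
  obtain ⟨l, t', ht', rfl⟩ := Nat.exists_eq_two_pow_mul_odd hn
  haveI : Fact (Nat.Prime 2) := ⟨Nat.prime_two⟩
  have hv : ∀ (k t : ℕ), Odd t → padicValNat 2 (2 ^ k * t) = k := by
    intro k t ht
    have h0 : t ≠ 0 := ht.pos.ne'
    rw [padicValNat.mul (by positivity) h0, padicValNat.prime_pow, padicValNat.eq_zero_of_not_dvd (by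
      rw [← even_iff_two_dvd, Nat.not_even_iff_odd]
      exact ht), add_zero]
  rw [hv k t ht, hv l t' ht'] at hval
  refine ⟨t, 2 ^ (l - k) * t', ht, ?_⟩
  have e : 2 ^ l = 2 ^ k * 2 ^ (l - k) := by
    rw [← pow_add]
    congr 1
    omega
  rw [e]
  ring

/-- The key statement. -/
theorem exists_stable_pair (hF : Fintype.card F = q ^ 2) (h2 : (2 : F) ≠ 0) (hn : Even n) (hn0 : 0 < n) (x : GL (Fin n) F) (hx : x ∈ Cfsg.GU n F q)
    (hdet : (x : Matrix (Fin n) (Fin n) F).det = 1) {z : F} (hz : (x : Matrix (Fin n) (Fin n) F) * x = z • 1)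
    (hval : padicValNat 2 (q + 1) ≤ padicValNat 2 n) :
    ∃ A B, UP (Cfsg.hermForm n F q) A B ∧ (∀ u ∈ A, (x : Matrix (Fin n) (Fin n) F) *ᵥ u ∈ A) ∧ (∀ u ∈ B, (x : Matrix (Fin n) (Fin n) F) *ᵥ u ∈ B) := by
  classical
  obtain ⟨σ, hf, hσ⟩ := hermForm_unitary (n := n) hF
  set f := Cfsg.hermForm n F q with hfdef
  set X : Matrix (Fin n) (Fin n) F := (x : Matrix (Fin n) (Fin n) F) with hX
  have hiso : ∀ u v, f (X *ᵥ u) (X *ᵥ v) = f u v := hx
  have hz0 : z ≠ 0 := by
    rintro rfl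
    haveI : Nonempty (Fin n) := ⟨⟨0, hn0⟩⟩
    have := congrArg Matrix.det hz
    rw [Matrix.det_mul, hdet, zero_smul, Matrix.det_zero] at this
    simp at this
  have hXX : ∀ v, X *ᵥ (X *ᵥ v) = z • v := by
    intro v
    rw [mulVec_mulVec, hz, smul_mulVec, one_mulVec]
  obtain ⟨u₀, v₀, huv⟩ : ∃ u₀ v₀ : Fin n → F, f u₀ v₀ ≠ 0 := by
    have h0 : (Pi.single ⟨0, hn0⟩ 1 : Fin n → F) ≠ 0 := by
      intro h
      have := congrFun h ⟨0, hn0⟩
      simp at this
    obtain ⟨t, ht⟩ := (hf.nondegenerate _ h0).2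
    exact ⟨_, t, ht⟩
  have hzz : z * σ z = 1 := by
    have h3 := hiso (X *ᵥ u₀) (X *ᵥ v₀)
    rw [hXX, hXX, hiso, hf.smul_left, smul_right hf] at h3
    have h4 : (z * σ z - 1) * f u₀ v₀ = 0 := by linear_combination h3
    rcases mul_eq_zero.mp h4 with h5 | h5
    · exact sub_eq_zero.mp h5
    · exact absurd h5 huv
  have hrc : ringChar F ≠ 2 := by
    intro hc
    apply h2
    haveI : CharP F 2 := by
      rw [← hc]
      exact ringChar.charP F
    exact CharTwo.two_eq_zero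
  have hodd : Odd q := by
    have h3 := FiniteField.odd_card_of_char_ne_two hrc
    rw [hF] at h3
    exact (Nat.odd_pow_iff (by norm_num)).mp (Nat.odd_iff.mpr h3)
  obtain ⟨t, ht⟩ := hodd
  have hzq : z ^ (q + 1) = 1 := by
    rw [pow_succ', ← hσ]
    exact hzz
  have hsq : IsSquare z := (FiniteField.isSquare_iff hrc hz0).mpr (by
    have e : Fintype.card F / 2 = t * (q + 1) := by
      rw [hF, ht]
      have e1 : (2 * t + 1) ^ 2 = 2 * (t * (2 * t + 1 + 1)) + 1 := by ring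
      rw [e1]
      generalize t * (2 * t + 1 + 1) = A
      omega
    rw [e, mul_comm, pow_mul, hzq, one_pow])
  obtain ⟨w, hw⟩ := hsq
  have hw0 : w ≠ 0 := by
    rintro rfl
    apply hz0
    rw [hw, zero_mul]
  have hXw : X * X = (w * w) • 1 := by rw [hz, hw]
  have hc := Cfsg.Agent.Lib.ClassMax.EluInv.isCompl_split h2 hw0 X hXw
  set P := LinearMap.ker (Matrix.toLin' (X - w • 1)) with hPdef
  set M := LinearMap.ker (Matrix.toLin' (X + w • 1)) with hMdef
  have hP : ∀ u ∈ P, X *ᵥ u = w • u := by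
    intro u hu
    have h3 : (X - w • 1) *ᵥ u = 0 := hu
    rw [sub_mulVec, smul_mulVec, one_mulVec, sub_eq_zero] at h3
    exact h3
  have hM : ∀ u ∈ M, X *ᵥ u = (-w) • u := by
    intro u hu
    have h3 : (X + w • 1) *ᵥ u = 0 := hu
    rw [add_mulVec, smul_mulVec, one_mulVec, add_eq_zero_iff_eq_neg] at h3
    rw [h3, neg_smul]
  have hη : (w * σ w) * (w * σ w) = 1 := by
    have : (w * σ w) * (w * σ w) = z * σ z := by
      rw [hw, map_mul]
      ring
    rw [this, hzz]
  have h2' : ∀ a : F, a + a = 0 → a = 0 := by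
    intro a ha
    have : (2 : F) * a = 0 := by rw [two_mul, ha]
    exact (mul_eq_zero.mp this).resolve_left h2
  have hsup : P ⊔ M = ⊤ := hc.sup_eq_top
  rcases mul_self_eq_one_iff.mp hη with h1 | h1
  · -- the involution case
    have horth : ∀ u ∈ P, ∀ v ∈ M, f u v = 0 := by
      intro u hu v hv
      have h3 := hiso u v
      rw [hP u hu, hM v hv, hf.smul_left, smul_right hf, map_neg] at h3
      apply h2'
      have h4 : w * (-σ w * f u v) = - ((w * σ w) * f u v) := by ring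
      rw [h4, h1, one_mul] at h3
      linear_combination -h3
    have horth' : ∀ u ∈ P, ∀ v ∈ M, f v u = 0 := by
      intro u hu v hv
      rw [hf.herm, horth u hu v hv, map_zero]
    have hndP : ∀ u ∈ P, u ≠ 0 → ∃ y ∈ P, f u y ≠ 0 := by
      intro u hu hu0
      obtain ⟨y, hy⟩ := (hf.nondegenerate u hu0).2
      have hy' : y ∈ P ⊔ M := by rw [hsup]; trivial
      obtain ⟨a, ha, b, hb, rfl⟩ := Submodule.mem_sup.mp hy'
      rw [add_right hf, horth u hu b hb, add_zero] at hy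
      exact ⟨a, ha, hy⟩
    have hndM : ∀ u ∈ M, u ≠ 0 → ∃ y ∈ M, f u y ≠ 0 := by
      intro u hu hu0
      obtain ⟨y, hy⟩ := (hf.nondegenerate u hu0).2
      have hy' : y ∈ P ⊔ M := by rw [hsup]; trivial
      obtain ⟨a, ha, b, hb, rfl⟩ := Submodule.mem_sup.mp hy'
      rw [add_right hf, horth' a ha u hu, zero_add] at hy
      exact ⟨b, hb, hy⟩
    have hdim := Cfsg.Agent.Lib.ClassMax.EluInv.finrank_split h2 hw0 X hXw
    have hdetX := Cfsg.Agent.Lib.ClassMax.EluInv.det_split hn0 h2 hw0 X hXw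
    have hwq : w ^ (q + 1) = 1 := by
      rw [pow_succ', ← hσ]
      exact h1
    have hevenM : Even (finrank F M) := by
      by_contra hodd
      rw [Nat.not_even_iff_odd] at hodd
      rw [hdet, hodd.neg_one_pow] at hdetX
      have hwn : w ^ n = -1 := by linear_combination hdetX
      obtain ⟨u, s, hu, hus⟩ := val_arith (by omega) (by omega) hval
      have h3 : (1 : F) = -1 := by
        calc (1 : F) = (w ^ (q + 1)) ^ s := by rw [hwq, one_pow]
          _ = (w ^ n) ^ u := by rw [← pow_mul, ← pow_mul, hus]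
          _ = -1 := by rw [hwn, hu.neg_one_pow]
      apply h2
      linear_combination h3
    have hevenP : Even (finrank F P) := by
      have h3 : Even (finrank F P + finrank F M) := by rw [hdim]; exact hn
      exact (Nat.even_add.mp h3).mpr hevenM
    obtain ⟨k₁, hk₁⟩ := hevenP
    obtain ⟨k₂, hk₂⟩ := hevenM
    obtain ⟨ξ, hξ⟩ := exists_norm hf (-1) (by simp) (by simp)
    obtain ⟨A₁, B₁, hA₁, hB₁, hAB₁, tA₁, tB₁⟩ := exists_half hf h2 hξ hndP (k := k₁) (by omega)
    obtain ⟨A₂, B₂, hA₂, hB₂, hAB₂, tA₂, tB₂⟩ := exists_half hf h2 hξ hndM (k := k₂) (by omega)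
    have tsup : ∀ S T : Submodule F (Fin n → F), S ≤ P → T ≤ M → (∀ u ∈ S, ∀ v ∈ S, f u v = 0) → (∀ u ∈ T, ∀ v ∈ T, f u v = 0) →
        ∀ u ∈ S ⊔ T, ∀ v ∈ S ⊔ T, f u v = 0 := by
      intro S T hS hT tS tT u hu v hv
      obtain ⟨a, ha, b, hb, rfl⟩ := Submodule.mem_sup.mp hu
      obtain ⟨c, hc', d, hd, rfl⟩ := Submodule.mem_sup.mp hv
      rw [hf.add_left, add_right hf, add_right hf, tS a ha c hc', tT b hb d hd, horth a (hS ha) d (hT hd), horth' c (hS hc') b (hT hb)]
      simp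
    have tstab : ∀ S T : Submodule F (Fin n → F), S ≤ P → T ≤ M → ∀ u ∈ S ⊔ T, X *ᵥ u ∈ S ⊔ T := by
      intro S T hS hT u hu
      obtain ⟨a, ha, b, hb, rfl⟩ := Submodule.mem_sup.mp hu
      rw [mulVec_add, hP a (hS ha), hM b (hT hb)]
      exact Submodule.add_mem_sup (S.smul_mem _ ha) (T.smul_mem _ hb)
    refine ⟨A₁ ⊔ A₂, B₁ ⊔ B₂, ⟨?_, tsup _ _ hA₁ hA₂ tA₁ tA₂, tsup _ _ hB₁ hB₂ tB₁ tB₂⟩, tstab _ _ hA₁ hA₂, tstab _ _ hB₁ hB₂⟩
    rw [sup_sup_sup_comm, hAB₁, hAB₂, hsup]
  · -- the eigenspaces are totally singular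
    refine ⟨P, M, ⟨hsup, ?_, ?_⟩, ?_, ?_⟩
    · intro u hu v hv
      have h3 := hiso u v
      rw [hP u hu, hP v hv, hf.smul_left, smul_right hf, ← mul_assoc, h1] at h3
      apply h2'
      linear_combination -h3
    · intro u hu v hv
      have h3 := hiso u v
      rw [hM u hu, hM v hv, hf.smul_left, smul_right hf, ← mul_assoc, map_neg] at h3
      have h4 : -w * -σ w = w * σ w := by ring
      rw [h4, h1] at h3
      apply h2'
      linear_combination -h3
    · intro u hu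
      rw [hP u hu]
      exact P.smul_mem _ hu
    · intro u hu
      rw [hM u hu]
      exact M.smul_mem _ hu

end Cfsg.Agent.Lib.ClassMax.HypPair
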