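import Mathlib
import Cfsg.Agent.Lib.ClassMax.HypPair3
import Cfsg.Agent.Lib.ClassMax.EluSpBlock
import Cfsg.Agent.Lib.ClassMax.EluOne

/-! Elements of odd prime order fixing no pair of complementary totally singular subspaces. -/

set_option autoImplicit false
set_option linter.unusedSimpArgs false
set_option linter.unusedVariables false
set_option linter.unusedSectionVars false

namespace Cfsg.Agent.Lib.ClassMax.HypPair

open Module Polynomial Matrix Cfsg.Geo Cfsg.Agent.Lib.ClassMax Cfsg.Agent.Lib.ClassMax.HermOver Cfsg.Agent.Lib.ClassMax.UnitCore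
  Cfsg.Agent.Lib.ClassMax.EluConj Cfsg.Agent.Lib.ClassMax.EluOrder Cfsg.Agent.Lib.ClassMax.EluFix Cfsg.Agent.Lib.ClassMax.EluSpBlock

section order

variable {F V : Type*} [Field F] [Fintype F] [AddCommGroup V] [Module F V] [FiniteDimensional F V] {r : ℕ} [Fact r.Prime]

theorem order_dvd_of_le_ker (hrq : ¬ r ∣ Fintype.card F) {T : Module.End F V} {U : Submodule F V} (hinv : Inv T U)
    (hle : U ≤ LinearMap.ker (aeval T (Phi F r))) : orderOf ((Fintype.card F : ℕ) : ZMod r) ∣ finrank F U := by
  have hi0 := order_pos (r := r) hrq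
  have hT' : aeval (T.restrict hinv) (Phi F r) = 0 := by
    apply LinearMap.ext
    intro u
    apply Subtype.ext
    rw [aeval_restrict T hinv]
    exact hle u.2
  have h1 := dvd_finrank_ker (T := T.restrict hinv) (phi_squarefree hrq) (phi_degree hrq) hi0
  rwa [hT', LinearMap.ker_zero, finrank_top] at h1

end order

theorem order_eq {q r i : ℕ} [Fact r.Prime] (hr2 : r ≠ 2) (hi : Odd i) (hri : r ∣ q ^ i + 1) (hmin : ∀ j < i, Odd j → ¬ r ∣ q ^ j + 1) :
    orderOf (((q ^ 2 : ℕ) : ℕ) : ZMod r) = i := by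
  have hr : r.Prime := Fact.out
  have hQi : (q : ZMod r) ^ i = -1 := by
    have := (ZMod.natCast_eq_zero_iff (q ^ i + 1) r).mpr hri
    push_cast at this
    exact eq_neg_of_add_eq_zero_left this
  have h21 : (2 : ZMod r) ≠ 0 := by
    intro h
    have h3 : ((2 : ℕ) : ZMod r) = 0 := by exact_mod_cast h
    rw [ZMod.natCast_eq_zero_iff] at h3
    exact hr2 ((Nat.prime_dvd_prime_iff_eq hr Nat.prime_two).mp h3)
  have hone : (((q ^ 2 : ℕ) : ℕ) : ZMod r) ^ i = 1 := by
    push_cast
    rw [← pow_mul, mul_comm, pow_mul, hQi]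
    ring
  have hs := orderOf_dvd_of_pow_eq_one hone
  have hpow := pow_orderOf_eq_one (((q ^ 2 : ℕ) : ℕ) : ZMod r)
  set s := orderOf (((q ^ 2 : ℕ) : ℕ) : ZMod r) with hsdef
  have hsq : ((q : ZMod r) ^ s - 1) * ((q : ZMod r) ^ s + 1) = 0 := by
    push_cast at hpow
    have : ((q : ZMod r) ^ s - 1) * ((q : ZMod r) ^ s + 1) = ((q : ZMod r) ^ 2) ^ s - 1 := by
      rw [← pow_mul, mul_comm 2 s, pow_mul]
      ring
    rw [this, hpow, sub_self]
  rcases mul_eq_zero.mp hsq with h1 | h1
  · exfalso
    have h2 : (q : ZMod r) ^ s = 1 := sub_eq_zero.mp h1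
    obtain ⟨l, hl⟩ := hs
    rw [hl, pow_mul, h2, one_pow] at hQi
    apply h21
    linear_combination hQi
  · have h2 : r ∣ q ^ s + 1 := by
      rw [← ZMod.natCast_eq_zero_iff]
      push_cast
      exact h1
    have hso : Odd s := Odd.of_dvd_nat hi hs
    have hle := Nat.le_of_dvd hi.pos hs
    by_contra hne
    exact hmin s (by omega) hso h2

variable {F : Type*} [Field F] [Fintype F] {n q r i : ℕ} [Fact r.Prime]

open Cfsg.Agent.Lib.Classical in
/-- The witness from a block. -/
theorem exists_block_witness (hF : Fintype.card F = q ^ 2) (hr2 : r ≠ 2) (hrq : ¬ r ∣ q) (hi : Odd i) (hi1 : 1 < i) (hri : r ∣ q ^ i + 1)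
    (hmin : ∀ j < i, Odd j → ¬ r ∣ q ^ j + 1) (hin : i < n) :
    ∃ x : GL (Fin n) F, x ∈ Cfsg.GU n F q ⊓ specialLinear (Fin n) F ∧ x ^ r = 1 ∧ (∀ t : F, (x : Matrix (Fin n) (Fin n) F) ≠ t • 1) ∧
      ∀ A B, UP (Cfsg.hermForm n F q) A B → (∀ u ∈ A, (x : Matrix (Fin n) (Fin n) F) *ᵥ u ∈ A) → (∀ u ∈ B, (x : Matrix (Fin n) (Fin n) F) *ᵥ u ∈ B) → False := by
  classical
  have hr : r.Prime := Fact.out
  have hq2 := two_le_q hF
  have hq0 : q ≠ 0 := by omega
  have hrq' : ¬ r ∣ Fintype.card F := by
    rw [hF]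
    exact fun h => hrq (hr.dvd_of_dvd_pow h)
  have hcast : (r : F) ≠ 0 := ratFree_cast_ne hr hrq'
  have hord : orderOf ((Fintype.card F : ℕ) : ZMod r) = i := by
    rw [hF]
    exact order_eq hr2 hi hri hmin
  have hdvd : r ∣ Nat.card (Cfsg.GU i F q) := by
    rw [card_gu hF i]
    apply Dvd.dvd.mul_left
    have hmem : i - 1 ∈ Finset.range i := Finset.mem_range.mpr (by omega)
    have h1 := Finset.dvd_prod_of_mem (fun a => if Even a then q ^ (a + 1) + 1 else q ^ (a + 1) - 1) hmem
    have h2 : Even (i - 1) := Nat.Odd.sub_odd hi odd_one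
    have h3 : i - 1 + 1 = i := by omega
    simp only [h2, if_true, h3] at h1
    exact hri.trans h1
  obtain ⟨y, hy⟩ := exists_prime_orderOf_dvd_card' r hdvd
  set Y : Matrix (Fin i) (Fin i) F := ((y : GL (Fin i) F) : Matrix (Fin i) (Fin i) F) with hYdef
  have hYr : Y ^ r = 1 := by
    have h1 : y ^ r = 1 := by rw [← hy]; exact pow_orderOf_eq_one y
    have h2 := congrArg (fun g : Cfsg.GU i F q => ((g : GL (Fin i) F) : Matrix (Fin i) (Fin i) F)) h1
    simpa using h2
  have hYiso : ∀ u v, Cfsg.hermForm i F q (Y *ᵥ u) (Y *ᵥ v) = Cfsg.hermForm i F q u v := y.2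
  have hYne : Y ≠ 1 := by
    intro h
    have h1 : y = 1 := by
      apply Subtype.ext
      apply Units.ext
      exact h
    rw [h1, orderOf_one] at hy
    exact hr.one_lt.ne hy
  -- no fixed vectors
  let T₀ : Module.End F (Fin i → F) := Matrix.toLinAlgEquiv' Y
  have hT₀v : ∀ v, T₀ v = Y *ᵥ v := fun v => rfl
  have hT₀r : T₀ ^ r = 1 := by
    show (Matrix.toLinAlgEquiv' Y) ^ r = 1
    rw [← map_pow, hYr, map_one]
  have hcp := ker_isCompl T₀ (phi_coprime (F := F) (r := r) hrq') (aeval_zero_of_pow hT₀r)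
  have hdv : i ∣ finrank F (LinearMap.ker (aeval T₀ (Phi F r))) := by
    have h := dvd_finrank_ker (T := T₀) (phi_squarefree hrq') (phi_degree hrq') (order_pos hrq')
    rwa [hord] at h
  have hsum := Submodule.finrank_add_eq_of_isCompl hcp
  rw [finrank_fin_fun] at hsum
  have hfix : ∀ v, Y *ᵥ v = v → v = 0 := by
    have hC : LinearMap.ker (aeval T₀ (X - C (1 : F))) = ⊥ := by
      have h0 : finrank F (LinearMap.ker (aeval T₀ (Phi F r))) ≠ 0 := by
        intro h0
        have h1 : finrank F (LinearMap.ker (aeval T₀ (X - C (1 : F)))) = i := by omega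
        have h2 : LinearMap.ker (aeval T₀ (X - C (1 : F))) = ⊤ := by
          apply Submodule.eq_top_of_finrank_eq
          rw [h1, finrank_fin_fun]
        apply hYne
        apply Cfsg.Agent.Lib.Classical.mat_ext_mulVec
        intro v
        have h3 : v ∈ LinearMap.ker (aeval T₀ (X - C (1 : F))) := by rw [h2]; trivial
        rw [LinearMap.mem_ker, aeval_X_sub_one, LinearMap.sub_apply, Module.End.one_apply, sub_eq_zero, hT₀v] at h3
        rw [h3, one_mulVec]
      have h1 := Nat.le_of_dvd (Nat.pos_of_ne_zero h0) hdv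
      have h2 : finrank F (LinearMap.ker (aeval T₀ (X - C (1 : F)))) = 0 := by omega
      exact Submodule.finrank_eq_zero.mp h2
    intro v hv
    have h3 : v ∈ LinearMap.ker (aeval T₀ (X - C (1 : F))) := by
      rw [LinearMap.mem_ker, aeval_X_sub_one, LinearMap.sub_apply, Module.End.one_apply, sub_eq_zero, hT₀v]
      exact hv
    rwa [hC, Submodule.mem_bot] at h3
  -- the block
  obtain ⟨k, hk⟩ : ∃ k, n = i + k := ⟨n - i, by omega⟩
  have hk0 : 0 < k := by omega
  let e : Fin n ≃ Fin i ⊕ Fin k := (finCongr hk).trans finSumFinEquiv.symm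
  let K : Matrix (Fin i ⊕ Fin k) (Fin i ⊕ Fin k) F := fromBlocks Y 0 0 1
  let Xm : Matrix (Fin n) (Fin n) F := K.submatrix e e
  have hK : ∀ w, K *ᵥ w = Sum.elim (Y *ᵥ (w ∘ Sum.inl)) (w ∘ Sum.inr) := by
    intro w
    simp [K, fromBlocks_mulVec]
  have hXv : ∀ v, Xm *ᵥ v = (K *ᵥ (v ∘ e.symm)) ∘ e := fun v => submatrix_mulVec_equiv K v e e
  have hX₁ : ∀ v l, (Xm *ᵥ v) (e.symm (Sum.inl l)) = (Y *ᵥ fun c => v (e.symm (Sum.inl c))) l := by
    intro v l
    rw [hXv, Function.comp_apply, Equiv.apply_symm_apply, hK]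
    rfl
  have hX₂ : ∀ v l, (Xm *ᵥ v) (e.symm (Sum.inr l)) = v (e.symm (Sum.inr l)) := by
    intro v l
    rw [hXv, Function.comp_apply, Equiv.apply_symm_apply, hK]
    rfl
  have hext : ∀ u v : Fin n → F, (∀ l, u (e.symm (Sum.inl l)) = v (e.symm (Sum.inl l))) → (∀ l, u (e.symm (Sum.inr l)) = v (e.symm (Sum.inr l))) → u = v := by
    intro u v h1 h2
    funext a
    obtain ⟨c, rfl⟩ := e.symm.surjective a
    rcases c with l | l
    · exact h1 l
    · exact h2 l
  have hform : ∀ u v : Fin n → F, Cfsg.hermForm n F q u v = Cfsg.hermForm i F q (fun c => u (e.symm (Sum.inl c))) (fun c => v (e.symm (Sum.inl c))) +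
      Cfsg.hermForm k F q (fun c => u (e.symm (Sum.inr c))) (fun c => v (e.symm (Sum.inr c))) := by
    intro u v
    unfold Cfsg.hermForm
    rw [← Equiv.sum_comp e.symm, Fintype.sum_sum_type]
  have hp₁ : ∀ (j : ℕ) v l, ((Xm ^ j) *ᵥ v) (e.symm (Sum.inl l)) = ((Y ^ j) *ᵥ fun c => v (e.symm (Sum.inl c))) l := by
    intro j
    induction j with
    | zero =>
      intro v l
      simp
    | succ j ih =>
      intro v l
      rw [pow_succ, ← mulVec_mulVec, ih, pow_succ, ← mulVec_mulVec]
      congr 2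
      funext c
      exact hX₁ v c
  have hp₂ : ∀ (j : ℕ) v l, ((Xm ^ j) *ᵥ v) (e.symm (Sum.inr l)) = v (e.symm (Sum.inr l)) := by
    intro j
    induction j with
    | zero =>
      intro v l
      simp
    | succ j ih =>
      intro v l
      rw [pow_succ, ← mulVec_mulVec, ih, hX₂]
  have hXr : Xm ^ r = 1 := by
    apply Cfsg.Agent.Lib.Classical.mat_ext_mulVec
    intro v
    rw [one_mulVec]
    apply hext
    · intro l
      rw [hp₁, hYr, one_mulVec]
    · intro l
      rw [hp₂]
  obtain ⟨x, hxX, hxr⟩ := EluOne.gl_of_pow hr.pos Xm hXr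
  have hxv : ∀ v, (x : Matrix (Fin n) (Fin n) F) *ᵥ v = Xm *ᵥ v := fun v => by rw [hxX]
  have hxU : x ∈ Cfsg.GU n F q := by
    intro u v
    show Cfsg.hermForm n F q ((x : Matrix (Fin n) (Fin n) F) *ᵥ u) ((x : Matrix (Fin n) (Fin n) F) *ᵥ v) = _
    rw [hxv, hxv, hform, hform u v]
    simp only [hX₁, hX₂]
    rw [show (fun c => (Y *ᵥ fun c => u (e.symm (Sum.inl c))) c) = Y *ᵥ (fun c => u (e.symm (Sum.inl c))) from rfl,
      show (fun c => (Y *ᵥ fun c => v (e.symm (Sum.inl c))) c) = Y *ᵥ (fun c => v (e.symm (Sum.inl c))) from rfl, hYiso]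
  have hxdet : (x : Matrix (Fin n) (Fin n) F).det = 1 := by
    have h1 : (x : Matrix (Fin n) (Fin n) F).det ^ r = 1 := by
      rw [hxX, ← Matrix.det_pow, hXr, Matrix.det_one]
    have h2 := gu_det_norm hF (x : Matrix (Fin n) (Fin n) F) hxU
    have h3 : Nat.Coprime r (q + 1) := by
      rw [hr.coprime_iff_not_dvd]
      have := hmin 1 hi1 odd_one
      simpa using this
    have h4 := pow_gcd_eq_one.mpr ⟨h1, h2⟩
    rw [h3, pow_one] at h4
    exact h4
  have hi0 : 0 < i := by omega
  refine ⟨x, ⟨hxU, ?_⟩, hxr, ?_, ?_⟩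
  · show Matrix.GeneralLinearGroup.det x = 1
    apply Units.ext
    exact hxdet
  · intro t ht
    have ht' : ∀ v, Xm *ᵥ v = t • v := by
      intro v
      rw [← hxv, ht, smul_mulVec, one_mulVec]
    let l₀ : Fin k := ⟨0, hk0⟩
    have h1 := hX₂ (Pi.single (e.symm (Sum.inr l₀)) 1) l₀
    rw [ht'] at h1
    simp only [Pi.smul_apply, Pi.single_eq_same, smul_eq_mul, mul_one] at h1
    rw [h1] at ht'
    let u : Fin i → F := Pi.single ⟨0, hi0⟩ 1
    have h2 : Y *ᵥ u = u := by
      funext c
      have h3 := hX₁ (fun a => Sum.elim u 0 (e a)) c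
      rw [ht', one_smul] at h3
      simpa using h3.symm
    have h3 := hfix u h2
    have h4 := congrFun h3 ⟨0, hi0⟩
    simp [u] at h4
  · intro A B hAB hA hB
    let T : Module.End F (Fin n → F) := Matrix.toLinAlgEquiv' Xm
    have hTv : ∀ v, T v = Xm *ᵥ v := fun v => rfl
    have hTr : T ^ r = 1 := by
      show (Matrix.toLinAlgEquiv' Xm) ^ r = 1
      rw [← map_pow, hXr, map_one]
    let S : Module.End F (Fin n → F) := aeval T (Phi F r)
    have hTS : ∀ v, T (S v) = S v := by
      intro v
      have h1 : aeval T ((X - C (1 : F)) * Phi F r) v = 0 := by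
        rw [aeval_zero_of_pow hTr]
        rfl
      rw [map_mul, aeval_X_sub_one, Module.End.mul_apply, LinearMap.sub_apply, Module.End.one_apply, sub_eq_zero] at h1
      exact h1
    have hS₁ : ∀ v l, (S v) (e.symm (Sum.inl l)) = 0 := by
      intro v l
      have h1 : Y *ᵥ (fun c => (S v) (e.symm (Sum.inl c))) = fun c => (S v) (e.symm (Sum.inl c)) := by
        funext c
        rw [← hX₁, ← hTv, hTS]
      exact congrFun (hfix _ h1) l
    have hSsum : ∀ v, S v = ∑ j ∈ Finset.range r, (Xm ^ j) *ᵥ v := by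
      intro v
      show (aeval T (Phi F r)) v = _
      unfold Phi
      rw [map_sum, LinearMap.sum_apply]
      refine Finset.sum_congr rfl fun j _ => ?_
      rw [map_pow, aeval_X]
      show (Matrix.toLinAlgEquiv' Xm ^ j) v = _
      rw [← map_pow]
      rfl
    have hS₂ : ∀ v l, (S v) (e.symm (Sum.inr l)) = (r : F) * v (e.symm (Sum.inr l)) := by
      intro v l
      rw [hSsum, Finset.sum_apply]
      simp only [hp₂, Finset.sum_const, Finset.card_range, nsmul_eq_mul]
    let W : Submodule F (Fin n → F) :=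
      { carrier := {v | ∀ l, v (e.symm (Sum.inr l)) = 0}
        add_mem' := by
          intro a b ha hb l
          simp [ha l, hb l]
        zero_mem' := fun l => rfl
        smul_mem' := by
          intro c a ha l
          simp [ha l] }
    have hSW : ∀ w ∈ W, S w = 0 := by
      intro w hw
      apply hext
      · intro l
        rw [hS₁]
        rfl
      · intro l
        rw [hS₂, hw l]
        simp
    let π : Module.End F (Fin n → F) := 1 - (r : F)⁻¹ • S
    have hπv : ∀ v, π v = v - (r : F)⁻¹ • S v := fun v => rfl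
    have hTW : ∀ w ∈ W, T w ∈ W := by
      intro w hw l
      rw [hTv, hX₂]
      exact hw l
    have hfinW : finrank F W ≤ i := by
      let L : W →ₗ[F] (Fin i → F) :=
        { toFun := fun v c => (v : Fin n → F) (e.symm (Sum.inl c))
          map_add' := by
            intro a b
            funext c
            simp
          map_smul' := by
            intro a b
            funext c
            simp }
      have hL : Function.Injective L := by
        rw [← LinearMap.ker_eq_bot, LinearMap.ker_eq_bot']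
        intro v hv
        apply Subtype.ext
        apply hext
        · intro l
          exact congrFun hv l
        · intro l
          exact v.2 l
      have := LinearMap.finrank_le_finrank_of_injective hL
      simpa using this
    have hirr : ∀ U : Submodule F (Fin n → F), U ≤ W → (∀ u ∈ U, T u ∈ U) → U = ⊥ ∨ U = W := by
      intro U hUW hU
      have h1 := order_dvd_of_le_ker hrq' (T := T) (U := U) hU (fun u hu => by
        rw [LinearMap.mem_ker]
        exact hSW u (hUW hu))
      rw [hord] at h1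
      have h2 := Submodule.finrank_mono hUW
      by_cases h0 : finrank F U = 0
      · exact Or.inl (Submodule.finrank_eq_zero.mp h0)
      · right
        have h3 := Nat.le_of_dvd (Nat.pos_of_ne_zero h0) h1
        exact Submodule.eq_of_le_of_finrank_le hUW (by omega)
    let l₀ : Fin i := ⟨0, hi0⟩
    let w₀ : Fin n → F := Pi.single (e.symm (Sum.inl l₀)) 1
    have hw₀ : w₀ ∈ W := by
      intro l
      simp [w₀]
    have hw₀0 : Cfsg.hermForm n F q w₀ w₀ ≠ 0 := by
      rw [herm_right_single _ _ hq0]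
      simp [w₀]
    have hw₀n : w₀ ≠ 0 := by
      intro h
      have := congrFun h (e.symm (Sum.inl l₀))
      simp [w₀] at this
    refine no_stable_pair hAB T π ?_ ?_ ?_ hTW hirr hw₀ hw₀0 hw₀n (fun u hu => ?_) (fun u hu => ?_)
    · intro Z hZ s hs
      rw [hπv]
      exact Z.sub_mem hs (Z.smul_mem _ (aeval_mem hZ _ hs))
    · intro v l
      rw [hπv, Pi.sub_apply, Pi.smul_apply, hS₂, smul_eq_mul, ← mul_assoc, inv_mul_cancel₀ hcast, one_mul, sub_self]
    · intro w hw
      rw [hπv, hSW w hw, smul_zero, sub_zero]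
    · rw [hTv, ← hxv]
      exact hA u hu
    · rw [hTv, ← hxv]
      exact hB u hu


open Cfsg.Agent.Lib.Classical in
/-- The diagonal witness. -/
theorem exists_diag_witness (hF : Fintype.card F = q ^ 2) (hr2 : r ≠ 2) (hrq1 : r ∣ q + 1) (hn : 2 ≤ n) :
    ∃ x : GL (Fin n) F, x ∈ Cfsg.GU n F q ⊓ specialLinear (Fin n) F ∧ x ^ r = 1 ∧ (∀ t : F, (x : Matrix (Fin n) (Fin n) F) ≠ t • 1) ∧
      ∀ A B, UP (Cfsg.hermForm n F q) A B → (∀ u ∈ A, (x : Matrix (Fin n) (Fin n) F) *ᵥ u ∈ A) → (∀ u ∈ B, (x : Matrix (Fin n) (Fin n) F) *ᵥ u ∈ B) → False := by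
  classical
  have hr : r.Prime := Fact.out
  have hq2 := two_le_q hF
  have hq0 : q ≠ 0 := by omega
  have hcard : Nat.card Fˣ = (q - 1) * (q + 1) := by
    rw [Nat.card_eq_fintype_card, Fintype.card_units, hF]
    zify [show 1 ≤ q by omega, show 1 ≤ q ^ 2 from Nat.one_le_pow _ _ (by omega)]
    ring
  obtain ⟨l, hl⟩ := exists_prime_orderOf_dvd_card' (G := Fˣ) r (by rw [hcard]; exact hrq1.mul_left _)
  set a : F := (l : F) with ha
  have ha0 : a ≠ 0 := l.ne_zero
  have hUr : ∀ m : ℕ, a ^ m = 1 ↔ r ∣ m := by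
    intro m
    rw [← hl, orderOf_dvd_iff_pow_eq_one]
    constructor
    · intro h
      apply Units.ext
      simpa using h
    · intro h
      have := congrArg Units.val h
      simpa using this
  have har : a ^ r = 1 := (hUr r).mpr dvd_rfl
  have haq : a ^ (q + 1) = 1 := (hUr _).mpr hrq1
  have ha1 : a ≠ 1 := by
    intro h
    have := (hUr 1).mp (by rw [h, one_pow])
    exact hr.one_lt.ne' (Nat.dvd_one.mp this)
  have ha2 : a * a ≠ 1 := by
    intro h
    have h1 : r ∣ 2 := (hUr 2).mp (by rw [sq, h])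
    exact hr2 ((Nat.prime_dvd_prime_iff_eq hr Nat.prime_two).mp h1)
  let i₀ : Fin n := ⟨0, by omega⟩
  let i₁ : Fin n := ⟨1, by omega⟩
  have h01 : i₀ ≠ i₁ := by
    intro h
    have := congrArg Fin.val h
    simp [i₀, i₁] at this
  let d : Fin n → F := fun c => if c = i₀ then a else if c = i₁ then a⁻¹ else 1
  have hd0 : ∀ c, d c ≠ 0 := by
    intro c
    simp only [d]
    split_ifs
    · exact ha0
    · exact inv_ne_zero ha0
    · exact one_ne_zero
  have hdq : ∀ c, d c ^ (q + 1) = 1 := by
    intro c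
    simp only [d]
    split_ifs
    · exact haq
    · rw [inv_pow, haq, inv_one]
    · exact one_pow _
  have hdr : ∀ c, d c ^ r = 1 := by
    intro c
    simp only [d]
    split_ifs
    · exact har
    · rw [inv_pow, har, inv_one]
    · exact one_pow _
  have hdet : (diagonal d).det = 1 := by
    rw [det_diagonal, Finset.prod_eq_mul i₀ i₁ h01]
    · simp [d, Ne.symm h01, ha0]
    · intro c _ hc
      simp [d, hc.1, hc.2]
    · simp
    · simp
  let x : GL (Fin n) F := Matrix.GeneralLinearGroup.mkOfDetNeZero (diagonal d) (by rw [hdet]; exact one_ne_zero)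
  have hxm : (x : Matrix (Fin n) (Fin n) F) = diagonal d := rfl
  have hxv : ∀ v c, ((x : Matrix (Fin n) (Fin n) F) *ᵥ v) c = d c * v c := by
    intro v c
    rw [hxm, mulVec_diagonal]
  have hxU : x ∈ Cfsg.GU n F q := by
    intro u v
    show Cfsg.hermForm n F q ((x : Matrix (Fin n) (Fin n) F) *ᵥ u) ((x : Matrix (Fin n) (Fin n) F) *ᵥ v) = _
    unfold Cfsg.hermForm
    refine Finset.sum_congr rfl fun c _ => ?_
    rw [hxv, hxv, mul_pow]
    have := hdq c
    rw [pow_succ'] at this
    linear_combination (u c * v c ^ q) * this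
  refine ⟨x, ⟨hxU, ?_⟩, ?_, ?_, ?_⟩
  · show Matrix.GeneralLinearGroup.det x = 1
    apply Units.ext
    exact hdet
  · apply Units.ext
    rw [Units.val_pow_eq_pow_val, hxm, diagonal_pow, Units.val_one]
    have : d ^ r = 1 := funext hdr
    rw [this]
    exact diagonal_one
  · intro t ht
    have h1 := congrFun (congrFun ht i₀) i₀
    have h2 := congrFun (congrFun ht i₁) i₁
    rw [hxm] at h1 h2
    simp [d, Ne.symm h01, Matrix.one_apply] at h1 h2
    rw [← h1] at h2
    apply ha2
    field_simp at h2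
    linear_combination -h2
  · intro A B hAB hA hB
    let T : Module.End F (Fin n → F) := Matrix.toLinAlgEquiv' (diagonal d)
    have hTv : ∀ v c, T v c = d c * v c := fun v c => by
      show (diagonal d *ᵥ v) c = _
      rw [mulVec_diagonal]
    have hne1 : a - a⁻¹ ≠ 0 := by
      intro h
      apply ha2
      field_simp at h
      linear_combination h
    have hne2 : a - 1 ≠ 0 := sub_ne_zero.mpr ha1
    set κ : F := ((a - a⁻¹) * (a - 1))⁻¹ with hκ
    let π : Module.End F (Fin n → F) := κ • ((T - a⁻¹ • 1) * (T - 1))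
    have hπc : ∀ v c, π v c = κ * ((d c - a⁻¹) * ((d c - 1) * v c)) := by
      intro v c
      show κ • ((T - a⁻¹ • 1) ((T - 1) v)) c = _
      simp only [LinearMap.sub_apply, LinearMap.smul_apply, Module.End.one_apply, Pi.smul_apply, Pi.sub_apply, hTv, smul_eq_mul]
      ring
    let W : Submodule F (Fin n → F) :=
      { carrier := {v | ∀ c, c ≠ i₀ → v c = 0}
        add_mem' := by
          intro s t hs ht c hc
          simp [hs c hc, ht c hc]
        zero_mem' := fun c _ => rfl
        smul_mem' := by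
          intro s t ht c hc
          simp [ht c hc] }
    have hmemW : ∀ v ∈ W, v = v i₀ • Pi.single i₀ 1 := by
      intro v hv
      funext c
      by_cases hc : c = i₀
      · subst hc
        simp
      · simp [hc, hv c hc]
    refine no_stable_pair (W := W) (w₀ := Pi.single i₀ 1) hAB T π ?_ ?_ ?_ ?_ ?_ ?_ ?_ ?_ (fun u hu => hA u hu) (fun u hu => hB u hu)
    · intro S hS s hs
      have h1 : (T - 1) s ∈ S := by
        rw [LinearMap.sub_apply, Module.End.one_apply]
        exact S.sub_mem (hS s hs) hs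
      have h2 : (T - a⁻¹ • 1) ((T - 1) s) ∈ S := by
        rw [LinearMap.sub_apply, LinearMap.smul_apply, Module.End.one_apply]
        exact S.sub_mem (hS _ h1) (S.smul_mem _ h1)
      exact S.smul_mem _ h2
    · intro v c hc
      rw [hπc]
      simp only [d, hc, if_false]
      by_cases hc1 : c = i₁
      · simp [hc1]
      · simp [hc1]
    · intro w hw
      funext c
      rw [hπc]
      by_cases hc : c = i₀
      · subst hc
        simp only [d, if_true]
        have h3 : κ * ((a - a⁻¹) * (a - 1)) = 1 := inv_mul_cancel₀ (mul_ne_zero hne1 hne2)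
        linear_combination (w i₀) * h3
      · rw [hw c hc]
        simp
    · intro w hw c hc
      rw [hTv, hw c hc, mul_zero]
    · intro U hUW hU
      by_cases hbot : U = ⊥
      · exact Or.inl hbot
      · right
        obtain ⟨u, hu, hu0⟩ := Submodule.exists_mem_ne_zero_of_ne_bot hbot
        have hui : u i₀ ≠ 0 := by
          intro h
          apply hu0
          rw [hmemW u (hUW hu), h, zero_smul]
        apply le_antisymm hUW
        intro w hw
        rw [hmemW w hw]
        have h1 : (Pi.single i₀ 1 : Fin n → F) = (u i₀)⁻¹ • u := by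
          funext c
          by_cases hc : c = i₀
          · subst hc
            simp [hui]
          · simp [hc, hUW hu c hc]
        rw [h1]
        exact U.smul_mem _ (U.smul_mem _ hu)
    · intro c hc
      simp [hc]
    · rw [herm_right_single _ _ hq0]
      simp
    · intro h
      have := congrFun h i₀
      simp at this

end Cfsg.Agent.Lib.ClassMax.HypPair
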