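import Mathlib
import Cfsg.Agent.Lib.ClassMax.JordanType
import Cfsg.Agent.Lib.ClassMax.EluSimForm

/-!
Unipotent isometries: a Jordan type with its multiplicities; odd powers of a skew map have even rank;
the Cayley transform of a nilpotent skew map.
-/

set_option autoImplicit false
set_option linter.unusedSectionVars false
set_option linter.unusedVariables false

namespace Cfsg.Agent.Lib.ClassMax.JPar

open Module Cfsg.Agent.Lib.ClassMax.JordanType Cfsg.Agent.Lib.ClassMax.ElusiveSp

section count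

variable {F V : Type*} [Field F] [AddCommGroup V] [Module F V] [FiniteDimensional F V]

/-- A direct summand has a Jordan type contained in the whole Jordan type, with the multiplicities given by ranks. -/
theorem exists_sub_multiset' (N : V →ₗ[F] V) (μ : Multiset ℕ)
    (hμ : ∀ k, finrank F (LinearMap.range (N ^ k)) = (μ.map (fun e => e - k)).sum) {p : ℕ}
    (hp : N ^ p = 0) (hμp : ∀ e ∈ μ, 0 < e ∧ e ≤ p) {W W' : Submodule F V} (hc : IsCompl W W') (hW : W.map N ≤ W)
    (hW' : W'.map N ≤ W') : ∃ ν : Multiset ℕ, ν ≤ μ ∧ ν.sum = finrank F W ∧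
      ∀ a, 1 ≤ a → a ≤ p → ν.count a + 2 * rk N W a = rk N W (a - 1) + rk N W (a + 1) := by
  classical
  set r := rk N W with hr
  set r' := rk N W' with hr'
  have hconv : ∀ k, 2 * r (k + 1) ≤ r k + r (k + 2) := rk_convex N hW
  have hconv' : ∀ k, 2 * r' (k + 1) ≤ r' k + r' (k + 2) := rk_convex N hW'
  have hadd : ∀ k, (μ.map (fun e => e - k)).sum = r k + r' k := by
    intro k
    rw [← hμ k, hr, hr', ← rk_add N hc hW hW' k]
    unfold rk
    rw [Submodule.map_top]
  set m : ℕ → ℕ := fun k => r (k - 1) + r (k + 1) - 2 * r k with hm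
  have hcount : ∀ a ∈ Finset.Icc 1 p, (∑ k ∈ Finset.Icc 1 p, m k • ({k} : Multiset ℕ)).count a = m a := by
    intro a ha
    rw [Multiset.count_sum']
    simp only [Multiset.count_nsmul, Multiset.count_singleton]
    rw [Finset.sum_eq_single a]
    · rw [if_pos rfl, mul_one]
    · intro b _ hb
      rw [if_neg (Ne.symm hb), mul_zero]
    · intro h
      exact absurd ha h
  refine ⟨∑ k ∈ Finset.Icc 1 p, m k • ({k} : Multiset ℕ), ?_, ?_, ?_⟩
  · rw [Multiset.le_iff_count]
    intro a
    by_cases ha : a ∈ Finset.Icc 1 p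
    · rw [hcount a ha]
      have h1 := map_sub_identity μ (Finset.mem_Icc.mp ha).1
      rw [hadd, hadd, hadd] at h1
      obtain ⟨l, rfl⟩ : ∃ l, a = l + 1 := ⟨a - 1, by have := (Finset.mem_Icc.mp ha).1; omega⟩
      have h2 : 2 * r (l + 1) ≤ r l + r (l + 1 + 1) := hconv l
      have h3 : 2 * r' (l + 1) ≤ r' l + r' (l + 1 + 1) := hconv' l
      simp only [hm, Nat.add_sub_cancel] at h1 ⊢
      omega
    · rw [Multiset.count_sum']
      simp only [Multiset.count_nsmul, Multiset.count_singleton]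
      rw [Finset.sum_eq_zero]
      · exact Nat.zero_le _
      · intro b hb
        rw [if_neg, mul_zero]
        rintro rfl
        exact ha hb
  · have h0 : r p = 0 := by
      rw [hr]
      unfold rk
      rw [hp]
      simp
    have h1 : r (p + 1) = 0 := by
      rw [hr]
      unfold rk
      rw [pow_succ, hp]
      simp
    have h2 := sum_mult r hconv p
    rw [h0, h1] at h2
    simp only [Nat.cast_zero, sub_zero, mul_zero] at h2
    have h3 : (∑ k ∈ Finset.Icc 1 p, (r (k - 1) + r (k + 1) - 2 * r k) * k) = r 0 := by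
      exact_mod_cast h2
    rw [hr, rk_zero] at h3
    rw [← h3, Multiset.sum_sum]
    apply Finset.sum_congr rfl
    intro k _
    simp only [Multiset.sum_nsmul, Multiset.sum_singleton, smul_eq_mul]
    rfl
  · intro a ha1 hap
    rw [hcount a (Finset.mem_Icc.mpr ⟨ha1, hap⟩)]
    obtain ⟨l, rfl⟩ : ∃ l, a = l + 1 := ⟨a - 1, by omega⟩
    have h2 : 2 * r (l + 1) ≤ r l + r (l + 1 + 1) := hconv l
    simp only [hm, Nat.add_sub_cancel]
    omega

/-- Odd powers of a skew map have even rank on a non-degenerate invariant subspace. -/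
theorem even_rk (B : LinearMap.BilinForm F V) (h2 : (2 : F) ≠ 0) (S : V →ₗ[F] V) (hS : ∀ u v, B (S u) v = - B u (S v))
    (hsym : ∀ u v, B u v = B v u) {W : Submodule F V} (hW : W.map S ≤ W) (hnd : Nd B W) {k : ℕ} (hk : Odd k) :
    Even (finrank F (W.map (S ^ k))) := by
  classical
  have hpow : ∀ j : ℕ, ∀ u v, B ((S ^ j) u) v = (-1) ^ j * B u ((S ^ j) v) := by
    intro j
    induction j with
    | zero => intro u v; simp
    | succ j ih =>
      intro u v
      have e1 : (S ^ (j + 1)) u = (S ^ j) (S u) := by rw [pow_succ, Module.End.mul_apply]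
      have e2 : (S ^ (j + 1)) v = S ((S ^ j) v) := by rw [pow_succ', Module.End.mul_apply]
      rw [e1, e2, ih, hS, pow_succ]
      ring
  set T := S ^ k with hT
  have hTs : ∀ u v, B (T u) v = - B u (T v) := by
    intro u v
    rw [hT, hpow, hk.neg_one_pow]
    ring
  have hTW : ∀ w ∈ W, T w ∈ W := fun w hw => map_pow_le S hW k ⟨w, hw, rfl⟩
  obtain ⟨C, hC⟩ := Submodule.exists_isCompl (W ⊓ LinearMap.ker T)
  set W₀ := W ⊓ C with hW₀
  have hdec : ∀ v ∈ W, ∃ v₁ ∈ W ⊓ LinearMap.ker T, ∃ c ∈ W₀, v = v₁ + c := by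
    intro v hv
    have h3 : v ∈ (W ⊓ LinearMap.ker T) ⊔ C := by
      rw [hC.sup_eq_top]
      trivial
    obtain ⟨v₁, hv₁, c, hc, rfl⟩ := Submodule.mem_sup.mp h3
    refine ⟨v₁, hv₁, c, ⟨?_, hc⟩, rfl⟩
    have := W.sub_mem hv hv₁.1
    simpa using this
  let β : LinearMap.BilinForm F V := B.compl₂ T
  have hβ : ∀ u v, β u v = B u (T v) := fun u v => rfl
  have halt : ∀ v, β v v = 0 := by
    intro v
    rw [hβ]
    have h3 := hTs v v
    rw [hsym (T v) v] at h3
    have h4 : 2 * B v (T v) = 0 := by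
      rw [two_mul]
      nth_rewrite 1 [h3]
      ring
    exact (mul_eq_zero.mp h4).resolve_left h2
  have hinj : ∀ u ∈ W₀, T u = 0 → u = 0 := by
    intro u hu h0
    have h3 : u ∈ (W ⊓ LinearMap.ker T) ⊓ C := ⟨⟨hu.1, h0⟩, hu.2⟩
    rw [hC.inf_eq_bot] at h3
    simpa using h3
  have hnd' : Nd β W₀ := by
    intro u hu hu0
    have h3 : T u ≠ 0 := fun h => hu0 (hinj u hu h)
    obtain ⟨v, hv, hv0⟩ := hnd (T u) (hTW u hu.1) h3
    obtain ⟨v₁, hv₁, c, hc, rfl⟩ := hdec v hv
    refine ⟨c, hc, ?_⟩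
    rw [hβ]
    intro h4
    apply hv0
    have h5 : B (T u) v₁ = 0 := by
      rw [hTs]
      have : T v₁ = 0 := hv₁.2
      rw [this, map_zero, neg_zero]
    have h6 : B (T u) c = 0 := by
      rw [hTs, h4, neg_zero]
    rw [map_add, h5, h6, add_zero]
  have hev := Cfsg.Agent.Lib.ClassMax.EluSimForm.even_of_nd halt hnd'
  have hfr : finrank F (W.map T) = finrank F W₀ := by
    have h3 : W.map T = W₀.map T := by
      apply le_antisymm
      · rintro _ ⟨v, hv, rfl⟩
        obtain ⟨v₁, hv₁, c, hc, rfl⟩ := hdec v hv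
        refine ⟨c, hc, ?_⟩
        have : T v₁ = 0 := hv₁.2
        simp [this]
      · exact Submodule.map_mono inf_le_left
    have h4 : ∀ u : W₀, T u = 0 → u = 0 := fun u h => Subtype.ext (hinj u u.2 h)
    have hi : Function.Injective (T.comp W₀.subtype) := by
      rw [← LinearMap.ker_eq_bot, LinearMap.ker_eq_bot']
      exact h4
    have h5 : W₀.map T = LinearMap.range (T.comp W₀.subtype) := by
      rw [LinearMap.range_comp, Submodule.range_subtype]
    rw [h3, h5, LinearMap.finrank_range_of_inj hi]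
  rw [hfr]
  exact hev

end count

section cayley

variable {F V : Type*} [Field F] [AddCommGroup V] [Module F V] [FiniteDimensional F V]

/-- The Cayley data of a nilpotent map. -/
structure Cay (A C X : Module.End F V) : Prop where
  h1 : (1 - A) * C = 1
  h2 : C * (1 - A) = 1
  hX : X = (2 : F) • C - 1

theorem exists_cay {A : Module.End F V} {p : ℕ} (hp : A ^ p = 0) : ∃ C X, Cay A C X := by
  refine ⟨∑ i ∈ Finset.range p, A ^ i, _, ?_, ?_, rfl⟩
  · rw [mul_neg_geom_sum, hp, sub_zero]
  · rw [geom_sum_mul_neg, hp, sub_zero]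

variable {A C X : Module.End F V}

theorem Cay.comm (h : Cay A C X) : A * C = C * A := by
  have h1 := h.h1
  have h2 := h.h2
  have e1 : C - A * C = 1 := by rw [← h1]; noncomm_ring
  have e2 : C - C * A = 1 := by rw [← h2]; noncomm_ring
  have : C - A * C = C - C * A := by rw [e1, e2]
  exact sub_right_injective this

theorem Cay.inj (h : Cay A C X) : Function.Injective C := by
  intro u v huv
  have h1 : ((1 - A) * C) u = ((1 - A) * C) v := by
    simp only [Module.End.mul_apply, huv]
  rwa [h.h1, Module.End.one_apply, Module.End.one_apply] at h1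

theorem Cay.left (h : Cay A C X) (v : V) : C v - A (C v) = v := by
  have h1 : ((1 - A) * C) v = v := by rw [h.h1, Module.End.one_apply]
  simpa [Module.End.mul_apply, sub_apply] using h1

theorem Cay.X_apply (h : Cay A C X) (v : V) : X v = (2 : F) • C v - v := by
  rw [h.hX]
  simp

theorem Cay.X_eq (h : Cay A C X) (h2 : (2 : F) ≠ 0) (v : V) : C v = (2 : F)⁻¹ • (X v + v) := by
  rw [h.X_apply, sub_add_cancel, smul_smul, inv_mul_cancel₀ h2, one_smul]

theorem Cay.inv_of (h : Cay A C X) (h2 : (2 : F) ≠ 0) {W : Submodule F V} (hW : W.map X ≤ W) : W.map A ≤ W := by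
  have hC : W.map C ≤ W := by
    rintro _ ⟨w, hw, rfl⟩
    rw [h.X_eq h2]
    exact W.smul_mem _ (W.add_mem (hW ⟨w, hw, rfl⟩) hw)
  have hE : W.map C = W := by
    apply Submodule.eq_of_le_of_finrank_le hC
    rw [← (Submodule.equivMapOfInjective C h.inj W).finrank_eq]
  rintro _ ⟨w, hw, rfl⟩
  rw [SetLike.mem_coe] at hw
  rw [← hE] at hw
  obtain ⟨w', hw', rfl⟩ := hw
  have h3 := h.left w'
  have h4 : A (C w') = C w' - w' := by
    calc A (C w') = C w' - (C w' - A (C w')) := (sub_sub_cancel _ _).symm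
      _ = C w' - w' := by rw [h3]
  show A (C w') ∈ W
  rw [h4]
  exact W.sub_mem (hC ⟨w', hw', rfl⟩) hw'

theorem Cay.iso (h : Cay A C X) (B : LinearMap.BilinForm F V) (hs : ∀ u v, B (A u) v + B u (A v) = 0) (v : V) :
    B (X v) (X v) = B v v := by
  set a := C v with ha
  have h1 : v = a - A a := (h.left v).symm
  have h2 : X v = a + A a := by
    rw [h.X_apply, ← ha, two_smul]
    calc a + a - v = a + a - (a - A a) := by rw [← h1]
      _ = a + A a := by abel
  have h5 : B v v = B (a - A a) (a - A a) := by rw [← h1]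
  rw [h2, h5]
  simp only [map_add, map_sub, LinearMap.add_apply, LinearMap.sub_apply]
  have h3 := hs a a
  linear_combination 2 * h3

theorem Cay.C_sub (h : Cay A C X) : C - 1 = A * C := by
  have e1 : C - A * C = 1 := by rw [← h.h1]; noncomm_ring
  rw [← e1]
  abel

theorem Cay.X_sub (h : Cay A C X) : X - 1 = (2 : F) • (A * C) := by
  rw [← h.C_sub, h.hX, smul_sub, two_smul F (1 : Module.End F V)]
  abel

theorem Cay.N_pow (h : Cay A C X) {p : ℕ} (hp : A ^ p = 0) : (X - 1) ^ p = 0 := by
  rw [h.X_sub, smul_pow, (show Commute A C from h.comm).mul_pow, hp, zero_mul, smul_zero]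

theorem Cay.pow_eq (h : Cay A C X) {p : ℕ} [hpp : Fact p.Prime] [CharP F p] [Nontrivial V] (hp : A ^ p = 0) : X ^ p = 1 := by
  haveI : CharP (Module.End F V) p := charP_of_injective_algebraMap (algebraMap F (Module.End F V)).injective p
  have h1 := add_pow_char_of_commute p (Commute.one_right (X - 1))
  rw [sub_add_cancel, h.N_pow hp, zero_add, one_pow] at h1
  exact h1

theorem Cay.eq_zero_of_one (h : Cay A C X) (h2 : (2 : F) ≠ 0) (hX : X = 1) : A = 0 := by
  have h1 : (2 : F) • (A * C) = 0 := by rw [← h.X_sub, hX, sub_self]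
  have h3 : A * C = 0 := (smul_eq_zero.mp h1).resolve_left h2
  calc A = A * (C * (1 - A)) := by rw [h.h2, mul_one]
    _ = (A * C) * (1 - A) := by rw [mul_assoc]
    _ = 0 := by rw [h3, zero_mul]

theorem Cay.eq_zero_of_scalar (h : Cay A C X) (h2 : (2 : F) ≠ 0) {p : ℕ} [hpp : Fact p.Prime] [Nontrivial V] (hp : A ^ p = 0) {z : F}
    (hz : X = z • 1) : A = 0 := by
  apply h.eq_zero_of_one h2
  have h1 := h.N_pow hp
  have h3 : X - 1 = (z - 1) • (1 : Module.End F V) := by rw [hz, sub_smul, one_smul]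
  rw [h3, smul_pow, one_pow] at h1
  have h4 : (z - 1) ^ p = 0 := by
    by_contra hne
    have h5 := (smul_eq_zero.mp h1).resolve_left hne
    exact one_ne_zero h5
  have h5 : z - 1 = 0 := pow_eq_zero_iff (hpp.out.ne_zero) |>.mp h4
  rw [hz, sub_eq_zero.mp h5, one_smul]

end cayley

end Cfsg.Agent.Lib.ClassMax.JPar
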