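import Mathlib
import Cfsg.Agent.Lib.ClassMax.JordanType

/-!
Nilpotent skew maps of a hyperbolic space with a prescribed Jordan type.
-/

set_option autoImplicit false
set_option linter.unusedSectionVars false
set_option linter.unusedVariables false

namespace Cfsg.Agent.Lib.ClassMax.JPar

open Module Cfsg.Agent.Lib.ClassMax.JordanType

universe u

variable {F : Type u} [Field F]

/-- The polar form of the standard hyperbolic quadratic form. -/
def Bh (ι : Type) [Fintype ι] : LinearMap.BilinForm F (ι ⊕ ι → F) :=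
  LinearMap.mk₂ F (fun u v => ∑ i, (u (.inl i) * v (.inr i) + u (.inr i) * v (.inl i)))
    (by
      intro a b c
      rw [← Finset.sum_add_distrib]
      apply Finset.sum_congr rfl
      intro i _
      simp only [Pi.add_apply]
      ring)
    (by
      intro a b c
      rw [smul_eq_mul, Finset.mul_sum]
      apply Finset.sum_congr rfl
      intro i _
      simp only [Pi.smul_apply, smul_eq_mul]
      ring)
    (by
      intro a b c
      rw [← Finset.sum_add_distrib]
      apply Finset.sum_congr rfl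
      intro i _
      simp only [Pi.add_apply]
      ring)
    (by
      intro a b c
      rw [smul_eq_mul, Finset.mul_sum]
      apply Finset.sum_congr rfl
      intro i _
      simp only [Pi.smul_apply, smul_eq_mul]
      ring)

theorem Bh_apply {ι : Type} [Fintype ι] (u v : ι ⊕ ι → F) :
    Bh ι u v = ∑ i, (u (.inl i) * v (.inr i) + u (.inr i) * v (.inl i)) := rfl

theorem Bh_inr {ι : Type} [Fintype ι] [DecidableEq ι] (u : ι ⊕ ι → F) (i : ι) : Bh ι u (Pi.single (.inr i) 1) = u (.inl i) := by
  rw [Bh_apply, Finset.sum_eq_single i]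
  · simp
  · intro b _ hb
    simp [Pi.single_apply, hb]
  · simp

theorem Bh_inl {ι : Type} [Fintype ι] [DecidableEq ι] (u : ι ⊕ ι → F) (i : ι) : Bh ι u (Pi.single (.inl i) 1) = u (.inr i) := by
  rw [Bh_apply, Finset.sum_eq_single i]
  · simp
  · intro b _ hb
    simp [Pi.single_apply, hb]
  · simp

theorem Bh_sep {ι : Type} [Fintype ι] [DecidableEq ι] (u : ι ⊕ ι → F) (h : ∀ v, Bh ι u v = 0) : u = 0 := by
  funext j
  rcases j with i | i
  · rw [← Bh_inr u i]
    exact h _
  · rw [← Bh_inl u i]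
    exact h _

theorem Bh_symm {ι : Type} [Fintype ι] (u v : ι ⊕ ι → F) : Bh ι u v = Bh ι v u := by
  rw [Bh_apply, Bh_apply]
  apply Finset.sum_congr rfl
  intro i _
  ring

/-- Conjugate ranks. -/
theorem finrank_conj {V V' : Type*} [AddCommGroup V] [Module F V] [AddCommGroup V'] [Module F V'] [FiniteDimensional F V]
    (φ : V' ≃ₗ[F] V) (N : V →ₗ[F] V) (k : ℕ) :
    finrank F (LinearMap.range ((φ.symm.toLinearMap ∘ₗ N ∘ₗ φ.toLinearMap) ^ k)) = finrank F (LinearMap.range (N ^ k)) := by
  have hpow : ∀ k, (φ.symm.toLinearMap ∘ₗ N ∘ₗ φ.toLinearMap) ^ k = φ.symm.toLinearMap ∘ₗ (N ^ k) ∘ₗ φ.toLinearMap := by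
    intro k
    induction k with
    | zero =>
      ext v
      simp
    | succ k ih =>
      rw [pow_succ, ih, pow_succ]
      ext v
      simp
  rw [hpow]
  have hr : LinearMap.range (φ.symm.toLinearMap ∘ₗ (N ^ k) ∘ₗ φ.toLinearMap) = (LinearMap.range (N ^ k)).map φ.symm.toLinearMap := by
    apply le_antisymm
    · rintro _ ⟨v, rfl⟩
      exact ⟨(N ^ k) (φ v), ⟨_, rfl⟩, rfl⟩
    · rintro _ ⟨_, ⟨v, rfl⟩, rfl⟩
      exact ⟨φ.symm v, by simp⟩
  rw [hr]
  exact LinearEquiv.finrank_map_eq φ.symm _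

/-- A general recognition lemma for a target form on a coordinate space. -/
theorem transfer {V : Type u} [AddCommGroup V] [Module F V] [FiniteDimensional F V] (B : LinearMap.BilinForm F V)
    (N : V →ₗ[F] V) (hN : ∀ u v, B (N u) v + B u (N v) = 0) {κ : Type} [Fintype κ] [DecidableEq κ]
    (T : LinearMap.BilinForm F (κ → F)) (hT : ∀ u, (∀ v, T u v = 0) → u = 0) (b : κ → V)
    (hb : ∀ j j', B (b j) (b j') = T (Pi.single j 1) (Pi.single j' 1)) (hd : finrank F V = Fintype.card κ) :
    ∃ A : (κ → F) →ₗ[F] (κ → F), (∀ u v, T (A u) v + T u (A v) = 0) ∧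
      ∀ k, finrank F (LinearMap.range (A ^ k)) = finrank F (LinearMap.range (N ^ k)) := by
  classical
  let Φ : (κ → F) →ₗ[F] V := (Pi.basisFun F κ).constr F b
  have hΦs : ∀ j, Φ (Pi.single j 1) = b j := by
    intro j
    have := (Pi.basisFun F κ).constr_basis F b j
    rw [Pi.basisFun_apply] at this
    exact this
  have hΦ : ∀ u v, B (Φ u) (Φ v) = T u v := by
    have h1 : B.compl₁₂ Φ Φ = T := by
      apply (Pi.basisFun F κ).ext
      intro j
      apply (Pi.basisFun F κ).ext
      intro j'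
      simp only [LinearMap.compl₁₂_apply, Pi.basisFun_apply, hΦs]
      exact hb j j'
    intro u v
    rw [← h1]
    rfl
  have hinj : Function.Injective Φ := by
    rw [← LinearMap.ker_eq_bot, LinearMap.ker_eq_bot']
    intro u hu
    apply hT
    intro v
    rw [← hΦ, hu, map_zero, LinearMap.zero_apply]
  have hdim : finrank F (κ → F) = finrank F V := by
    rw [hd, Module.finrank_fintype_fun_eq_card]
  let φ : (κ → F) ≃ₗ[F] V := LinearEquiv.ofInjectiveOfFinrankEq Φ hinj hdim
  have hφ : ∀ u, φ u = Φ u := fun u => rfl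
  refine ⟨φ.symm.toLinearMap ∘ₗ N ∘ₗ φ.toLinearMap, ?_, fun k => finrank_conj φ N k⟩
  intro u v
  rw [← hΦ, ← hΦ, ← hφ, ← hφ, ← hφ, ← hφ]
  simp only [LinearMap.comp_apply, LinearEquiv.coe_coe, LinearEquiv.apply_symm_apply]
  exact hN _ _

/-- The recognition lemma for a hyperbolic target. -/
theorem mdl_of {V : Type u} [AddCommGroup V] [Module F V] [FiniteDimensional F V] (B : LinearMap.BilinForm F V)
    (N : V →ₗ[F] V) (hN : ∀ u v, B (N u) v + B u (N v) = 0) {ι : Type} [Fintype ι] [DecidableEq ι]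
    (a a' : ι → V) (h11 : ∀ i j, B (a i) (a j) = 0) (h12 : ∀ i j, B (a i) (a' j) = if i = j then 1 else 0)
    (h21 : ∀ i j, B (a' i) (a j) = if i = j then 1 else 0) (h22 : ∀ i j, B (a' i) (a' j) = 0)
    (hd : finrank F V = 2 * Fintype.card ι) :
    ∃ A : (ι ⊕ ι → F) →ₗ[F] (ι ⊕ ι → F), (∀ u v, Bh ι (A u) v + Bh ι u (A v) = 0) ∧
      ∀ k, finrank F (LinearMap.range (A ^ k)) = finrank F (LinearMap.range (N ^ k)) := by
  refine transfer B N hN (Bh ι) (fun u hu => Bh_sep u hu) (Sum.elim a a') ?_ ?_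
  · intro j j'
    rcases j with i | i <;> rcases j' with j | j
    · simp [Bh_inl, h11, Pi.single_apply]
    · by_cases h : i = j
      · subst h
        simp [Bh_inr, h12, Pi.single_apply]
      · simp [Bh_inr, h12, Pi.single_apply, h, Ne.symm h]
    · by_cases h : i = j
      · subst h
        simp [Bh_inl, h21, Pi.single_apply]
      · simp [Bh_inl, h21, Pi.single_apply, h, Ne.symm h]
    · simp [Bh_inr, h22, Pi.single_apply]
  · rw [hd, Fintype.card_sum, two_mul]

/-- A prescribed Jordan type on a hyperbolic space. -/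
def Mdl (F : Type u) [Field F] (ι : Type) [Fintype ι] (μ : Multiset ℕ) : Prop :=
  ∃ A : (ι ⊕ ι → F) →ₗ[F] (ι ⊕ ι → F), (∀ u v, Bh ι (A u) v + Bh ι u (A v) = 0) ∧
    ∀ k, finrank F (LinearMap.range (A ^ k)) = (μ.map (fun e => e - k)).sum

/-- Reindexing. -/
theorem Mdl.reindex {ι ι' : Type} [Fintype ι] [Fintype ι'] [DecidableEq ι] [DecidableEq ι'] {μ : Multiset ℕ} (h : Mdl F ι μ) (e : ι ≃ ι') :
    Mdl F ι' μ := by
  obtain ⟨A, h1, h2⟩ := h
  obtain ⟨A', h3, h4⟩ := mdl_of (Bh ι) A h1 (ι := ι') (fun i => Pi.single (.inl (e.symm i)) 1) (fun i => Pi.single (.inr (e.symm i)) 1)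
    (by intro i j; simp [Bh_inl, Pi.single_apply])
    (by
      intro i j
      by_cases h : i = j
      · subst h
        simp [Bh_inr, Pi.single_apply]
      · have : e.symm j ≠ e.symm i := fun h' => h (e.symm.injective h').symm
        simp [Bh_inr, Pi.single_apply, h, this])
    (by
      intro i j
      by_cases h : i = j
      · subst h
        simp [Bh_inl, Pi.single_apply]
      · have : e.symm j ≠ e.symm i := fun h' => h (e.symm.injective h').symm
        simp [Bh_inl, Pi.single_apply, h, this])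
    (by intro i j; simp [Bh_inr, Pi.single_apply])
    (by
      rw [Module.finrank_fintype_fun_eq_card, Fintype.card_sum, Fintype.card_congr e, two_mul])
  exact ⟨A', h3, fun k => by rw [h4, h2]⟩

/-- Orthogonal sums. -/
theorem Mdl.sum {ι₁ ι₂ : Type} [Fintype ι₁] [Fintype ι₂] [DecidableEq ι₁] [DecidableEq ι₂] {μ₁ μ₂ : Multiset ℕ} (h₁ : Mdl F ι₁ μ₁) (h₂ : Mdl F ι₂ μ₂) :
    Mdl F (ι₁ ⊕ ι₂) (μ₁ + μ₂) := by
  obtain ⟨A₁, h1, h2⟩ := h₁
  obtain ⟨A₂, h3, h4⟩ := h₂
  let B : LinearMap.BilinForm F ((ι₁ ⊕ ι₁ → F) × (ι₂ ⊕ ι₂ → F)) :=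
    LinearMap.mk₂ F (fun x y => Bh ι₁ x.1 y.1 + Bh ι₂ x.2 y.2)
      (by intro a b c; simp only [Prod.fst_add, Prod.snd_add, map_add, LinearMap.add_apply]; ring)
      (by intro a b c; simp only [Prod.smul_fst, Prod.smul_snd, map_smul, LinearMap.smul_apply, smul_eq_mul]; ring)
      (by intro a b c; simp only [Prod.fst_add, Prod.snd_add, map_add]; ring)
      (by intro a b c; simp only [Prod.smul_fst, Prod.smul_snd, map_smul, smul_eq_mul]; ring)
  have hB : ∀ x y, B x y = Bh ι₁ x.1 y.1 + Bh ι₂ x.2 y.2 := fun x y => rfl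
  obtain ⟨A, h5, h6⟩ := mdl_of B (A₁.prodMap A₂)
    (by
      intro u v
      rw [hB, hB]
      simp only [LinearMap.prodMap_apply]
      have e1 := h1 u.1 v.1
      have e2 := h3 u.2 v.2
      linear_combination e1 + e2)
    (ι := ι₁ ⊕ ι₂)
    (Sum.elim (fun i => (Pi.single (.inl i) 1, 0)) (fun i => (0, Pi.single (.inl i) 1)))
    (Sum.elim (fun i => (Pi.single (.inr i) 1, 0)) (fun i => (0, Pi.single (.inr i) 1)))
    (by
      intro i j
      rcases i with i | i <;> rcases j with j | j <;> simp [hB, Bh_inl, Pi.single_apply])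
    (by
      intro i j
      rcases i with i | i <;> rcases j with j | j
      · by_cases h : i = j
        · subst h
          simp [hB, Bh_inr, Pi.single_apply]
        · simp [hB, Bh_inr, Pi.single_apply, h, Ne.symm h]
      · simp [hB]
      · simp [hB]
      · by_cases h : i = j
        · subst h
          simp [hB, Bh_inr, Pi.single_apply]
        · simp [hB, Bh_inr, Pi.single_apply, h, Ne.symm h])
    (by
      intro i j
      rcases i with i | i <;> rcases j with j | j
      · by_cases h : i = j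
        · subst h
          simp [hB, Bh_inl, Pi.single_apply]
        · simp [hB, Bh_inl, Pi.single_apply, h, Ne.symm h]
      · simp [hB]
      · simp [hB]
      · by_cases h : i = j
        · subst h
          simp [hB, Bh_inl, Pi.single_apply]
        · simp [hB, Bh_inl, Pi.single_apply, h, Ne.symm h])
    (by
      intro i j
      rcases i with i | i <;> rcases j with j | j <;> simp [hB, Bh_inr, Pi.single_apply])
    (by
      rw [Module.finrank_prod, Module.finrank_fintype_fun_eq_card, Module.finrank_fintype_fun_eq_card]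
      simp only [Fintype.card_sum]
      ring)
  refine ⟨A, h5, fun k => ?_⟩
  rw [h6, prodMap_pow', finrank_range_prodMap, h2, h4, Multiset.map_add, Multiset.sum_add]

theorem mdl_zero : Mdl F (Fin 0) 0 := by
  refine ⟨0, ?_, ?_⟩
  · intro u v
    simp
  · intro k
    rw [finrank_zero_of_subsingleton]
    simp

end Cfsg.Agent.Lib.ClassMax.JPar
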