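import Mathlib
import Cfsg.Agent.Lib.ClassMax.JPar2

/-!
Jordan blocks in hyperbolic spaces: pairs of equal blocks, pairs of odd blocks, and all types.
-/

set_option autoImplicit false
set_option linter.unusedSectionVars false
set_option linter.unusedVariables false

namespace Cfsg.Agent.Lib.ClassMax.JPar

open Module Cfsg.Agent.Lib.ClassMax.JordanType

universe u

variable {F : Type u} [Field F]

/-- The pairing making the shift skew. -/
def PP (e : ℕ) : LinearMap.BilinForm F (Fin e → F) :=
  LinearMap.mk₂ F (fun v w => ∑ i : Fin e, (-1) ^ (i : ℕ) * v i * w (Fin.rev i))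
    (by
      intro a b c
      rw [← Finset.sum_add_distrib]
      apply Finset.sum_congr rfl
      intro i _
      simp only [Pi.add_apply]
      ring)
    (by
      intro a b c
      rw [smul_eq_mul, Finset.mul_sum]
      apply Finset.sum_congr rfl
      intro i _
      simp only [Pi.smul_apply, smul_eq_mul]
      ring)
    (by
      intro a b c
      rw [← Finset.sum_add_distrib]
      apply Finset.sum_congr rfl
      intro i _
      simp only [Pi.add_apply]
      ring)
    (by
      intro a b c
      rw [smul_eq_mul, Finset.mul_sum]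
      apply Finset.sum_congr rfl
      intro i _
      simp only [Pi.smul_apply, smul_eq_mul]
      ring)

theorem PP_apply {e : ℕ} (v w : Fin e → F) : PP e v w = ∑ i : Fin e, (-1) ^ (i : ℕ) * v i * w (Fin.rev i) := rfl

theorem PP_skew (e : ℕ) (v w : Fin e → F) : PP e (shift F e v) w + PP e v (shift F e w) = 0 := by
  cases e with
  | zero => simp [PP_apply]
  | succ n =>
    have h1 : ∀ i : Fin n, shift F (n + 1) v i.castSucc = v i.succ := by
      intro i
      show (if h : ((i.castSucc : Fin (n + 1)) : ℕ) + 1 < n + 1 then v ⟨_, h⟩ else 0) = _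
      rw [dif_pos (by simp)]
      congr 1
    have h2 : ∀ i : Fin n, shift F (n + 1) w (Fin.rev i.succ) = w (Fin.rev i.castSucc) := by
      intro i
      show (if h : ((Fin.rev i.succ : Fin (n + 1)) : ℕ) + 1 < n + 1 then w ⟨_, h⟩ else 0) = _
      have hi := i.2
      rw [dif_pos (by simp [Fin.val_rev]; omega)]
      congr 1
      apply Fin.ext
      simp [Fin.val_rev]
      omega
    have h3 : shift F (n + 1) v (Fin.last n) = 0 := by
      show (if h : ((Fin.last n : Fin (n + 1)) : ℕ) + 1 < n + 1 then v ⟨_, h⟩ else 0) = _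
      rw [dif_neg (by simp)]
    have h4 : shift F (n + 1) w (Fin.rev 0) = 0 := by
      show (if h : ((Fin.rev 0 : Fin (n + 1)) : ℕ) + 1 < n + 1 then w ⟨_, h⟩ else 0) = _
      rw [dif_neg (by simp [Fin.val_rev])]
    rw [PP_apply, PP_apply, Fin.sum_univ_castSucc, Fin.sum_univ_succ (fun i : Fin (n + 1) => (-1) ^ (i : ℕ) * v i * (shift F (n + 1) w) (Fin.rev i))]
    rw [h3, h4]
    simp only [mul_zero, zero_mul, add_zero, zero_add, h1, h2]
    rw [← Finset.sum_add_distrib]
    apply Finset.sum_eq_zero
    intro i _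
    simp only [Fin.val_castSucc, Fin.val_succ, pow_succ]
    ring

theorem PP_single_left {e : ℕ} (a : Fin e) (w : Fin e → F) : PP e (Pi.single a 1) w = (-1) ^ (a : ℕ) * w (Fin.rev a) := by
  rw [PP_apply, Finset.sum_eq_single a]
  · simp
  · intro b _ hb
    simp [Pi.single_apply, hb]
  · simp

theorem PP_single_single {e : ℕ} (a b : Fin e) : PP e (Pi.single a 1 : Fin e → F) (Pi.single b 1) = if b = Fin.rev a then (-1) ^ (a : ℕ) else 0 := by
  rw [PP_single_left, Pi.single_apply]
  by_cases h : b = Fin.rev a
  · subst h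
    simp
  · rw [if_neg h, if_neg (fun h' => h h'.symm), mul_zero]

/-- Two equal blocks. -/
theorem mdl_pair (e : ℕ) : Mdl F (Fin e) (e ::ₘ e ::ₘ 0) := by
  let B : LinearMap.BilinForm F ((Fin e → F) × (Fin e → F)) :=
    LinearMap.mk₂ F (fun x y => PP e x.1 y.2 + PP e y.1 x.2)
      (by intro a b c; simp only [Prod.fst_add, Prod.snd_add, map_add, LinearMap.add_apply]; ring)
      (by intro a b c; simp only [Prod.smul_fst, Prod.smul_snd, map_smul, LinearMap.smul_apply, smul_eq_mul]; ring)
      (by intro a b c; simp only [Prod.fst_add, Prod.snd_add, map_add, LinearMap.add_apply]; ring)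
      (by intro a b c; simp only [Prod.smul_fst, Prod.smul_snd, map_smul, LinearMap.smul_apply, smul_eq_mul]; ring)
  have hB : ∀ x y, B x y = PP e x.1 y.2 + PP e y.1 x.2 := fun x y => rfl
  have hsq : ∀ i : ℕ, ((-1 : F) ^ i) * (-1) ^ i = 1 := by
    intro i
    rw [← mul_pow]
    simp
  obtain ⟨A, h5, h6⟩ := mdl_of B ((shift F e).prodMap (shift F e))
    (by
      intro u v
      rw [hB, hB]
      simp only [LinearMap.prodMap_apply]
      have e1 := PP_skew e u.1 v.2
      have e2 := PP_skew e v.1 u.2
      linear_combination e1 + e2)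
    (ι := Fin e) (fun i => (Pi.single i 1, 0)) (fun i => (0, ((-1 : F) ^ (i : ℕ)) • Pi.single (Fin.rev i) 1))
    (by intro i j; simp [hB])
    (by
      intro i j
      simp only [hB, map_smul, map_zero, add_zero, LinearMap.zero_apply, smul_eq_mul, PP_single_single]
      by_cases h : i = j
      · subst h
        simp [hsq]
      · have : Fin.rev j ≠ Fin.rev i := fun h' => h (Fin.rev_injective h').symm
        simp [h, this])
    (by
      intro i j
      simp only [hB, map_smul, map_zero, add_zero, zero_add, LinearMap.zero_apply, smul_eq_mul, PP_single_single]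
      by_cases h : i = j
      · subst h
        simp [hsq]
      · have : Fin.rev i ≠ Fin.rev j := fun h' => h (Fin.rev_injective h')
        simp [h, this])
    (by intro i j; simp [hB])
    (by
      rw [Module.finrank_prod, Module.finrank_fin_fun, Fintype.card_fin, two_mul])
  refine ⟨A, h5, fun k => ?_⟩
  rw [h6, prodMap_pow', finrank_range_prodMap, finrank_range_shift_pow]
  simp

/-! Chains of odd length. -/

section chain

variable {s : ℕ}

/-- The first half of a chain. -/
def ca (s : ℕ) (i : Fin s) : Fin (2 * s + 1) := ⟨i, by have := i.2; omega⟩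

/-- The middle of a chain. -/
def cm (s : ℕ) : Fin (2 * s + 1) := ⟨s, by omega⟩

theorem rev_cm : Fin.rev (cm s) = cm s := by
  apply Fin.ext
  simp [Fin.val_rev, cm]
  omega

theorem rev_ca_ne_ca (i j : Fin s) : Fin.rev (ca s i) ≠ ca s j := by
  intro h
  have := congrArg Fin.val h
  simp [Fin.val_rev, ca] at this
  have := i.2
  have := j.2
  omega

theorem rev_ca_ne_cm (i : Fin s) : Fin.rev (ca s i) ≠ cm s := by
  intro h
  have := congrArg Fin.val h
  simp [Fin.val_rev, ca, cm] at this
  have := i.2
  omega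

theorem ca_ne_cm (i : Fin s) : ca s i ≠ cm s := by
  intro h
  have := congrArg Fin.val h
  simp [ca, cm] at this
  have := i.2
  omega

theorem ca_inj {i j : Fin s} (h : ca s i = ca s j) : i = j := by
  have := congrArg Fin.val h
  simp [ca] at this
  exact Fin.ext this

theorem pow_rev_ca (i : Fin s) : (-1 : F) ^ ((Fin.rev (ca s i) : Fin (2 * s + 1)) : ℕ) = (-1) ^ (i : ℕ) := by
  have h1 : ((Fin.rev (ca s i) : Fin (2 * s + 1)) : ℕ) = 2 * s - i := by
    simp [Fin.val_rev, ca]
  have hi := i.2
  have h2 : 2 * s - (i : ℕ) = 2 * (s - i) + i := by omega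
  rw [h1, h2, pow_add, pow_mul]
  simp

/-- Half vectors and their duals, for the form `c * PP`. -/
noncomputable def vA (s : ℕ) (i : Fin s) : Fin (2 * s + 1) → F := Pi.single (ca s i) 1

noncomputable def vB (c : F) (s : ℕ) (i : Fin s) : Fin (2 * s + 1) → F := (c⁻¹ * (-1) ^ (i : ℕ)) • Pi.single (Fin.rev (ca s i)) 1

noncomputable def vZ (s : ℕ) : Fin (2 * s + 1) → F := Pi.single (cm s) 1

theorem rel_aa (i j : Fin s) : PP (2 * s + 1) (vA (F := F) s i) (vA s j) = 0 := by
  rw [vA, vA, PP_single_single, if_neg (Ne.symm (rev_ca_ne_ca i j))]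

theorem rel_ab {c : F} (hc : c ≠ 0) (i j : Fin s) : c * PP (2 * s + 1) (vA (F := F) s i) (vB c s j) = if i = j then 1 else 0 := by
  rw [vA, vB, map_smul, PP_single_single, smul_eq_mul]
  by_cases h : i = j
  · subst h
    rw [if_pos rfl, if_pos rfl]
    have : (-1 : F) ^ (ca s i : ℕ) = (-1) ^ (i : ℕ) := rfl
    rw [this]
    have h2 : ((-1 : F) ^ (i : ℕ)) * (-1) ^ (i : ℕ) = 1 := by
      rw [← mul_pow]
      simp
    field_simp
    linear_combination h2
  · have : Fin.rev (ca s j) ≠ Fin.rev (ca s i) := fun h' => h (ca_inj (Fin.rev_injective h')).symm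
    rw [if_neg this, if_neg h]
    ring

theorem rel_ba {c : F} (hc : c ≠ 0) (i j : Fin s) : c * PP (2 * s + 1) (vB c s i) (vA (F := F) s j) = if i = j then 1 else 0 := by
  rw [vA, vB, map_smul, LinearMap.smul_apply, PP_single_single, smul_eq_mul]
  by_cases h : i = j
  · subst h
    rw [if_pos (by simp), if_pos rfl, pow_rev_ca]
    have h2 : ((-1 : F) ^ (i : ℕ)) * (-1) ^ (i : ℕ) = 1 := by
      rw [← mul_pow]
      simp
    field_simp
    linear_combination h2
  · have : ca s j ≠ Fin.rev (Fin.rev (ca s i)) := by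
      rw [Fin.rev_rev]
      exact fun h' => h (ca_inj h').symm
    rw [if_neg this, if_neg h]
    ring

theorem rel_bb (c : F) (i j : Fin s) : PP (2 * s + 1) (vB c s i) (vB (F := F) c s j) = 0 := by
  rw [vB, vB, map_smul, map_smul, LinearMap.smul_apply, PP_single_single, if_neg]
  · simp
  · rw [Fin.rev_rev]
    exact rev_ca_ne_ca j i

theorem rel_az (i : Fin s) : PP (2 * s + 1) (vA (F := F) s i) (vZ s) = 0 := by
  rw [vA, vZ, PP_single_single, if_neg]
  exact fun h => rev_ca_ne_cm i h.symm

theorem rel_za (i : Fin s) : PP (2 * s + 1) (vZ (F := F) s) (vA s i) = 0 := by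
  rw [vA, vZ, PP_single_single, if_neg]
  rw [rev_cm]
  exact ca_ne_cm i

theorem rel_bz (c : F) (i : Fin s) : PP (2 * s + 1) (vB (F := F) c s i) (vZ s) = 0 := by
  rw [vB, vZ, map_smul, LinearMap.smul_apply, PP_single_single, if_neg]
  · simp
  · rw [Fin.rev_rev]
    exact fun h => ca_ne_cm i h.symm

theorem rel_zb (c : F) (i : Fin s) : PP (2 * s + 1) (vZ (F := F) s) (vB c s i) = 0 := by
  rw [vB, vZ, map_smul, PP_single_single, if_neg]
  · simp
  · rw [rev_cm]
    exact rev_ca_ne_cm i

theorem rel_zz : PP (2 * s + 1) (vZ (F := F) s) (vZ s) = (-1) ^ s := by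
  rw [vZ, PP_single_single, if_pos rev_cm.symm]
  rfl

end chain

/-- Two odd blocks. -/
theorem mdl_odd (h2 : (2 : F) ≠ 0) (s k : ℕ) : Mdl F ((Fin s ⊕ Fin k) ⊕ Unit) ((2 * s + 1) ::ₘ (2 * k + 1) ::ₘ 0) := by
  have hsq : ∀ i : ℕ, ((-1 : F) ^ i) * (-1) ^ i = 1 := by
    intro i
    rw [← mul_pow]
    simp
  have hne : ∀ i : ℕ, ((-1 : F) ^ i) ≠ 0 := fun i => pow_ne_zero _ (by simp)
  obtain ⟨c, hcd⟩ : ∃ c : F, c = 2 * (-1) ^ s := ⟨_, rfl⟩
  obtain ⟨c', hcd'⟩ : ∃ c' : F, c' = (-2) * (-1) ^ k := ⟨_, rfl⟩
  have hc : c ≠ 0 := by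
    rw [hcd]
    exact mul_ne_zero h2 (hne s)
  have hc' : c' ≠ 0 := by
    rw [hcd']
    exact mul_ne_zero (by simpa using h2) (hne k)
  have hzz : c * (-1) ^ s = 2 := by
    rw [hcd, mul_assoc, hsq, mul_one]
  have hzz' : c' * (-1) ^ k = -2 := by
    rw [hcd', mul_assoc, hsq, mul_one]
  obtain ⟨t, ht⟩ : ∃ t : F, t * 2 = 1 := ⟨2⁻¹, inv_mul_cancel₀ h2⟩
  let B : LinearMap.BilinForm F ((Fin (2 * s + 1) → F) × (Fin (2 * k + 1) → F)) :=
    LinearMap.mk₂ F (fun x y => c * PP _ x.1 y.1 + c' * PP _ x.2 y.2)
      (by intro a b d; simp only [Prod.fst_add, Prod.snd_add, map_add, LinearMap.add_apply]; ring)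
      (by intro a b d; simp only [Prod.smul_fst, Prod.smul_snd, map_smul, LinearMap.smul_apply, smul_eq_mul]; ring)
      (by intro a b d; simp only [Prod.fst_add, Prod.snd_add, map_add, LinearMap.add_apply]; ring)
      (by intro a b d; simp only [Prod.smul_fst, Prod.smul_snd, map_smul, LinearMap.smul_apply, smul_eq_mul]; ring)
  have hB : ∀ x y, B x y = c * PP _ x.1 y.1 + c' * PP _ x.2 y.2 := fun x y => rfl
  obtain ⟨A, h5, h6⟩ := mdl_of B ((shift F (2 * s + 1)).prodMap (shift F (2 * k + 1)))
    (by
      intro u v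
      rw [hB, hB]
      simp only [LinearMap.prodMap_apply]
      have e1 := PP_skew (F := F) (2 * s + 1) u.1 v.1
      have e2 := PP_skew (F := F) (2 * k + 1) u.2 v.2
      linear_combination c * e1 + c' * e2)
    (ι := (Fin s ⊕ Fin k) ⊕ Unit)
    (Sum.elim (Sum.elim (fun i => (vA s i, 0)) (fun j => (0, vA k j))) (fun _ => (t • vZ s, t • vZ k)))
    (Sum.elim (Sum.elim (fun i => (vB c s i, 0)) (fun j => (0, vB c' k j))) (fun _ => (t • vZ s, (-t) • vZ k)))
    (by
      intro i j
      rcases i with (i | i) | i <;> rcases j with (j | j) | j <;>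
        simp only [hB, Sum.elim_inl, Sum.elim_inr, map_smul, map_zero, LinearMap.smul_apply, LinearMap.zero_apply, smul_eq_mul,
          rel_aa, rel_az, rel_za, rel_zz, mul_zero, zero_mul, add_zero, zero_add]
      linear_combination t ^ 2 * hzz + t ^ 2 * hzz')
    (by
      intro i j
      rcases i with (i | i) | i <;> rcases j with (j | j) | j <;>
        simp only [hB, Sum.elim_inl, Sum.elim_inr, map_smul, map_zero, LinearMap.smul_apply, LinearMap.zero_apply, smul_eq_mul,
          rel_az, rel_zb, rel_zz, rel_ab hc, rel_ab hc', mul_zero, zero_mul, add_zero, zero_add, Sum.inl.injEq, Sum.inr.injEq, reduceCtorEq, if_false]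
      rw [if_pos trivial]
      linear_combination t ^ 2 * hzz - t ^ 2 * hzz' + (t * 2 + 1) * ht)
    (by
      intro i j
      rcases i with (i | i) | i <;> rcases j with (j | j) | j <;>
        simp only [hB, Sum.elim_inl, Sum.elim_inr, map_smul, map_zero, LinearMap.smul_apply, LinearMap.zero_apply, smul_eq_mul,
          rel_za, rel_bz, rel_zz, rel_ba hc, rel_ba hc', mul_zero, zero_mul, add_zero, zero_add, Sum.inl.injEq, Sum.inr.injEq, reduceCtorEq, if_false]
      rw [if_pos trivial]
      linear_combination t ^ 2 * hzz - t ^ 2 * hzz' + (t * 2 + 1) * ht)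
    (by
      intro i j
      rcases i with (i | i) | i <;> rcases j with (j | j) | j <;>
        simp only [hB, Sum.elim_inl, Sum.elim_inr, map_smul, map_zero, LinearMap.smul_apply, LinearMap.zero_apply, smul_eq_mul,
          rel_bb, rel_bz, rel_zb, rel_zz, mul_zero, zero_mul, add_zero, zero_add]
      linear_combination t ^ 2 * hzz + t ^ 2 * hzz')
    (by
      rw [Module.finrank_prod, Module.finrank_fin_fun, Module.finrank_fin_fun]
      simp only [Fintype.card_sum, Fintype.card_fin, Fintype.card_unit]
      ring)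
  refine ⟨A, h5, fun k' => ?_⟩
  rw [h6, prodMap_pow', finrank_range_prodMap, finrank_range_shift_pow, finrank_range_shift_pow]
  simp

/-- All Jordan types with even parts of even multiplicity, in a hyperbolic space. -/
theorem mdl_all (h2 : (2 : F) ≠ 0) : ∀ n : ℕ, ∀ μ : Multiset ℕ, μ.card = n → (∀ e ∈ μ, 0 < e) →
    (∀ e : ℕ, Even e → Even (μ.count e)) → ∀ d, μ.sum = 2 * d → Mdl F (Fin d) μ := by
  intro n
  induction n using Nat.strong_induction_on with
  | _ n ih =>
    intro μ hn hpos hev d hsum
    by_cases hex : ∃ e ∈ μ, Even e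
    · obtain ⟨e, he, hee⟩ := hex
      obtain ⟨μ₁, rfl⟩ := Multiset.exists_cons_of_mem he
      have h1 := hev e hee
      rw [Multiset.count_cons_self] at h1
      have h3 : e ∈ μ₁ := by
        rw [← Multiset.count_pos]
        rcases Nat.eq_zero_or_pos (Multiset.count e μ₁) with h0 | h0
        · rw [h0] at h1
          simp at h1
        · exact h0
      obtain ⟨μ', rfl⟩ := Multiset.exists_cons_of_mem h3
      simp only [Multiset.sum_cons] at hsum
      obtain ⟨d', rfl⟩ : ∃ d', d = e + d' := ⟨d - e, by omega⟩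
      have hcard : μ'.card < n := by
        rw [← hn]
        simp
      have hm := ih _ hcard μ' rfl (fun x hx => hpos x (by simp [hx])) (by
        intro x hx
        have h4 := hev x hx
        by_cases hxe : x = e
        · subst hxe
          rw [Multiset.count_cons_self, Multiset.count_cons_self] at h4
          have : Multiset.count x μ' + 1 + 1 = Multiset.count x μ' + 2 := rfl
          rw [this] at h4
          exact (Nat.even_add.mp h4).mpr (by simp)
        · rw [Multiset.count_cons_of_ne hxe, Multiset.count_cons_of_ne hxe] at h4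
          exact h4) d' (by omega)
      have := (mdl_pair (F := F) e).sum hm
      have h5 := this.reindex finSumFinEquiv
      have h6 : (e ::ₘ e ::ₘ (0 : Multiset ℕ)) + μ' = e ::ₘ e ::ₘ μ' := by simp
      rwa [h6] at h5
    · push Not at hex
      have hnone : ∀ x, Even x → Multiset.count x μ = 0 := by
        intro x hx
        apply Multiset.count_eq_zero_of_notMem
        intro hm
        exact hex x hm hx
      induction μ using Multiset.induction_on with
      | empty =>
        have : d = 0 := by simpa using hsum.symm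
        subst this
        exact mdl_zero
      | cons a μ₁ _ =>
        have ha : ¬ Even a := hex a (by simp)
        have hb : ∃ b, b ∈ μ₁ := by
          by_contra hcon
          push Not at hcon
          have h0 : μ₁ = 0 := Multiset.eq_zero_of_forall_notMem hcon
          subst h0
          apply ha
          simp only [Multiset.sum_cons, Multiset.sum_zero, add_zero] at hsum
          rw [hsum]
          simp
        obtain ⟨b, hbm⟩ := hb
        obtain ⟨μ', rfl⟩ := Multiset.exists_cons_of_mem hbm
        have hb' : ¬ Even b := hex b (by simp)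
        obtain ⟨s, hs⟩ : ∃ s, a = 2 * s + 1 := by
          obtain ⟨s, hs⟩ := Nat.not_even_iff_odd.mp ha
          exact ⟨s, hs⟩
        obtain ⟨k, hk⟩ : ∃ k, b = 2 * k + 1 := by
          obtain ⟨s, hs⟩ := Nat.not_even_iff_odd.mp hb'
          exact ⟨s, hs⟩
        subst hs hk
        simp only [Multiset.sum_cons] at hsum
        obtain ⟨d', rfl⟩ : ∃ d', d = (s + k + 1) + d' := ⟨d - (s + k + 1), by omega⟩
        have hcard : μ'.card < n := by
          rw [← hn]
          simp
        have hm := ih _ hcard μ' rfl (fun x hx => hpos x (by simp [hx])) (by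
          intro x hx
          have h4 := hnone x hx
          have h5 : Multiset.count x μ' = 0 := by
            apply Multiset.count_eq_zero_of_notMem
            intro hmem
            exact hex x (by simp [hmem]) hx
          rw [h5]
          simp) d' (by omega)
        have := (mdl_odd (F := F) h2 s k).sum hm
        have h5 := this.reindex (Fintype.equivFinOfCardEq (n := s + k + 1 + d') (by simp))
        have h6 : ((2 * s + 1) ::ₘ (2 * k + 1) ::ₘ (0 : Multiset ℕ)) + μ' = (2 * s + 1) ::ₘ (2 * k + 1) ::ₘ μ' := by simp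
        rwa [h6] at h5

end Cfsg.Agent.Lib.ClassMax.JPar
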