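import Mathlib
import Cfsg.Agent.Lib.ClassMax.JPar
import Cfsg.Agent.Lib.ClassMax.EluOne
import Cfsg.Agent.Lib.Classical.OrthIso

/-!
Unipotent elements of `Ω` with a prescribed Jordan type, and their invariant non-degenerate subspaces.
-/

set_option autoImplicit false
set_option linter.unusedSectionVars false
set_option linter.unusedVariables false

namespace Cfsg.Agent.Lib.ClassMax.JPar

open Module Matrix Cfsg.Geo Cfsg.Agent.Lib.ClassMax.JordanType Cfsg.Agent.Lib.ClassMax.ElusiveSp

variable {F : Type*} [Field F] [Fintype F] {κ : Type} [Fintype κ] [DecidableEq κ]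

/-- Elements of odd order lie in `Ω`, in odd characteristic. -/
theorem mem_omega_odd (h2 : (2 : F) ≠ 0) (Q : QuadraticForm F (κ → F)) (hnd : (QuadraticMap.polarBilin Q).Nondegenerate)
    (hcard : 2 ≤ Fintype.card κ) (g : GL κ F) (hg : ∀ v, Q ((g : Matrix κ κ F) *ᵥ v) = Q v) {k : ℕ} (hk : Odd k) (hgk : g ^ k = 1) :
    g ∈ omegaGL (⇑Q) := by
  let x : Cfsg.Agent.Lib.Classical.OG Q := ⟨g, (Cfsg.Agent.Lib.ClassMax.OmegaCore.mem_iso_iff g).mpr hg⟩
  have hxk : x ^ k = 1 := Subtype.ext (by
    show g ^ k = 1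
    exact hgk)
  have hsq : x * x ∈ commutator (Cfsg.Agent.Lib.Classical.OG Q) := Cfsg.Agent.Lib.Classical.sq_mem_commutator h2 hnd hcard x
  obtain ⟨m, rfl⟩ := hk
  have hx : x ∈ commutator (Cfsg.Agent.Lib.Classical.OG Q) := by
    have h1 : x = (x ^ (2 * m + 1)) * ((x * x) ^ m)⁻¹ := by
      rw [← pow_two, pow_succ', ← pow_mul, mul_inv_cancel_right]
    rw [h1, hxk, one_mul]
    exact inv_mem (pow_mem hsq m)
  exact Subgroup.mem_map.mpr ⟨x, hx, rfl⟩

/-- The main construction. -/
theorem core {p : ℕ} [hpp : Fact p.Prime] [CharP F p] (h2 : (2 : F) ≠ 0) (Q : QuadraticForm F (κ → F))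
    (hnd : (QuadraticMap.polarBilin Q).Nondegenerate) (hcard : 2 ≤ Fintype.card κ) (A : (κ → F) →ₗ[F] (κ → F))
    (hA : ∀ u v, QuadraticMap.polar Q (A u) v + QuadraticMap.polar Q u (A v) = 0) (μ : Multiset ℕ)
    (hμ : ∀ e ∈ μ, 0 < e ∧ e ≤ p)
    (hr : ∀ k, finrank F (LinearMap.range (A ^ k)) = (μ.map (fun e => e - k)).sum) (hne : ∃ e ∈ μ, 2 ≤ e) :
    ∃ x : GL κ F, x ∈ omegaGL (⇑Q) ∧ x ^ p = 1 ∧ (∀ z : F, (x : Matrix κ κ F) ≠ z • (1 : Matrix κ κ F)) ∧
      ∀ W : Submodule F (κ → F), IsNondegenerateOn (QuadraticMap.polar Q) W → W.map (Matrix.toLin' (x : Matrix κ κ F)) ≤ W →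
        ∃ ν : Multiset ℕ, ν ≤ μ ∧ ν.sum = finrank F W ∧ (∀ e : ℕ, Even e → Even (ν.count e)) ∧
          ((∀ e ∈ μ, e ≤ 2) → Multiset.count 1 ν = 0 → IsPlusTypeOn (⇑Q) W) := by
  classical
  haveI : Nonempty κ := Fintype.card_pos_iff.mp (by omega)
  haveI : Nontrivial (κ → F) := inferInstance
  have hodd : Odd p := by
    rcases hpp.out.eq_two_or_odd' with h | h
    · exfalso
      apply h2
      subst h
      have := CharP.cast_eq_zero F 2
      exact_mod_cast this
    · exact h
  have hAp : A ^ p = 0 := by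
    have h1 := hr p
    have h3 : (μ.map (fun e => e - p)).sum = 0 := by
      apply Multiset.sum_eq_zero
      intro x hx
      obtain ⟨e, he, rfl⟩ := Multiset.mem_map.mp hx
      have := (hμ e he).2
      omega
    rw [h3] at h1
    exact LinearMap.range_eq_bot.mp (Submodule.finrank_eq_zero.mp h1)
  have hA0 : A ≠ 0 := by
    intro h0
    obtain ⟨e, he, he2⟩ := hne
    have h1 := hr 1
    rw [h0] at h1
    have h3 : (0 : (κ → F) →ₗ[F] (κ → F)) ^ 1 = 0 := pow_one _
    rw [h3] at h1
    have h4 : finrank F (LinearMap.range (0 : (κ → F) →ₗ[F] (κ → F))) = 0 := by simp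
    rw [h4] at h1
    have h5 : e - 1 ∈ μ.map (fun e => e - 1) := Multiset.mem_map.mpr ⟨e, he, rfl⟩
    have h6 := Multiset.single_le_sum (fun x _ => Nat.zero_le x) _ h5
    omega
  obtain ⟨C, X, hc⟩ := exists_cay (A := A) hAp
  have hXp : X ^ p = 1 := hc.pow_eq hAp
  let M : Matrix κ κ F := LinearMap.toMatrix' X
  have hMX : Matrix.toLin' M = X := Matrix.toLin'_toMatrix' X
  have hMp : M ^ p = 1 := by
    apply Matrix.toLin'.injective
    rw [Matrix.toLin'_pow, hMX, hXp, Matrix.toLin'_one]
    rfl
  obtain ⟨g, hgM, hgp⟩ := Cfsg.Agent.Lib.ClassMax.EluOne.gl_of_pow hpp.out.pos M hMp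
  have hlin : Matrix.toLin' (g : Matrix κ κ F) = X := by rw [hgM, hMX]
  have happ : ∀ v, (g : Matrix κ κ F) *ᵥ v = X v := by
    intro v
    rw [← hlin, Matrix.toLin'_apply]
  let B : LinearMap.BilinForm F (κ → F) := QuadraticMap.polarBilin Q
  have hB : ∀ u v, B u v = QuadraticMap.polar Q u v := fun u v => rfl
  have hBsym : ∀ u v, B u v = B v u := fun u v => by
    rw [hB, hB, QuadraticMap.polar_comm]
  have hskew : ∀ u v, B (A u) v + B u (A v) = 0 := fun u v => hA u v
  have hS : ∀ u v, B (A u) v = - B u (A v) := fun u v => eq_neg_of_add_eq_zero_left (hskew u v)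
  have hiso : ∀ v, Q ((g : Matrix κ κ F) *ᵥ v) = Q v := by
    intro v
    rw [happ]
    have h1 := hc.iso B hskew v
    rw [hB, hB, QuadraticMap.polar_self, QuadraticMap.polar_self] at h1
    simp only [nsmul_eq_mul, Nat.cast_ofNat] at h1
    exact mul_left_cancel₀ h2 h1
  refine ⟨g, mem_omega_odd h2 Q hnd hcard g hiso hodd hgp, hgp, ?_, ?_⟩
  · intro z hz
    apply hA0
    apply hc.eq_zero_of_scalar h2 hAp (z := z)
    rw [← hlin, hz, map_smul, Matrix.toLin'_one]
    rfl
  · intro W hWnd hWinv
    rw [hlin] at hWinv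
    have hWA : W.map A ≤ W := hc.inv_of h2 hWinv
    have hNd : Nd B W := by
      intro u hu hu0
      obtain ⟨-, v, hv, hv0⟩ := hWnd u hu hu0
      exact ⟨v, hv, hv0⟩
    have hcompl : IsCompl W (B.orthogonal W) := by
      apply LinearMap.BilinForm.isCompl_orthogonal_of_restrict_nondegenerate
      · intro u v h
        rw [hBsym]
        exact h
      · have hleft : ∀ u : W, (∀ v : W, B u v = 0) → u = 0 := by
          intro u hu
          by_contra h
          have h0 : (u : κ → F) ≠ 0 := fun h' => h (Subtype.ext h')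
          obtain ⟨v, hv, hv0⟩ := hNd u u.2 h0
          exact hv0 (hu ⟨v, hv⟩)
        first
          | exact hleft
          | (constructor
             · exact hleft
             · intro u hu
               apply hleft
               intro v
               rw [hBsym]
               exact hu v)
    have hW'A : (B.orthogonal W).map A ≤ B.orthogonal W := by
      rintro _ ⟨u, hu, rfl⟩
      rw [SetLike.mem_coe, LinearMap.BilinForm.mem_orthogonal_iff] at hu
      rw [LinearMap.BilinForm.mem_orthogonal_iff]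
      intro w hw
      have h1 : B (A w) u = 0 := hu _ (hWA ⟨w, hw, rfl⟩)
      show B w (A u) = 0
      have h3 := hS w u
      rw [h1] at h3
      exact neg_eq_zero.mp h3.symm
    obtain ⟨ν, hν1, hν2, hν3⟩ := exists_sub_multiset' A μ hr hAp hμ hcompl hWA hW'A
    refine ⟨ν, hν1, hν2, ?_, ?_⟩
    · intro e he
      have hev : ∀ k, Odd k → Even (rk A W k) := fun k hk => even_rk B h2 A hS hBsym hWA hNd hk
      by_cases h0 : 1 ≤ e ∧ e ≤ p
      · have h3 := hν3 e h0.1 h0.2
        have h4 : Odd (e - 1) := by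
          obtain ⟨l, rfl⟩ := he
          have := h0.1
          exact ⟨l - 1, by omega⟩
        have h5 : Odd (e + 1) := he.add_one
        have h6 := hev _ h4
        have h7 := hev _ h5
        have h8 : Even (Multiset.count e ν + 2 * rk A W e) := by
          rw [h3]
          exact h6.add h7
        rw [Nat.even_add] at h8
        exact h8.mpr (even_two_mul _)
      · have : Multiset.count e ν = 0 := by
          apply Multiset.count_eq_zero_of_notMem
          intro hm
          have := hμ e (Multiset.mem_of_le hν1 hm)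
          omega
        rw [this]
        simp
    · intro hle h1
      have hA2 : A ^ 2 = 0 := by
        have h3 := hr 2
        have h4 : (μ.map (fun e => e - 2)).sum = 0 := by
          apply Multiset.sum_eq_zero
          intro x hx
          obtain ⟨e, he, rfl⟩ := Multiset.mem_map.mp hx
          have := hle e he
          omega
        rw [h4] at h3
        exact LinearMap.range_eq_bot.mp (Submodule.finrank_eq_zero.mp h3)
      have hp2 : 1 ≤ p := hpp.out.pos
      have h3 := hν3 1 le_rfl hp2
      rw [h1] at h3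
      have h4 : rk A W 0 = finrank F W := rk_zero A W
      have h5 : rk A W 2 = 0 := by
        unfold rk
        rw [hA2]
        simp
      simp only [Nat.sub_self, Nat.reduceAdd] at h3
      rw [h4, h5] at h3
      refine ⟨W.map A, hWA, ?_, ?_⟩
      · rintro _ ⟨u, hu, rfl⟩
        have h6 : B (A u) (A u) = 0 := by
          rw [hS]
          have : A (A u) = (A ^ 2) u := by
            rw [pow_two, Module.End.mul_apply]
          rw [this, hA2]
          simp
        rw [hB, QuadraticMap.polar_self] at h6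
        simp only [nsmul_eq_mul, Nat.cast_ofNat] at h6
        exact (mul_eq_zero.mp h6).resolve_left h2
      · have : rk A W 1 = finrank F (W.map A) := by
          unfold rk
          rw [pow_one]
        omega

end Cfsg.Agent.Lib.ClassMax.JPar
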