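import Mathlib
import Cfsg.Agent.Lib.ClassMax.JPar3
import Cfsg.Agent.Lib.ClassMax.JPar4

/-!
Nilpotent skew maps on a hyperbolic space plus a small anisotropic-like part.
-/

set_option autoImplicit false
set_option linter.unusedSectionVars false
set_option linter.unusedVariables false

namespace Cfsg.Agent.Lib.ClassMax.JPar

open Module Cfsg.Agent.Lib.ClassMax.JordanType

universe u

variable {F : Type u} [Field F] {E : Type} [Fintype E] [DecidableEq E] {ι : Type} [Fintype ι] [DecidableEq ι]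

/-- Left component. -/
def prL (F : Type u) [Field F] (E ι : Type) : (E ⊕ (ι ⊕ ι) → F) →ₗ[F] (E → F) := LinearMap.funLeft F F Sum.inl

/-- Right component. -/
def prR (F : Type u) [Field F] (E ι : Type) : (E ⊕ (ι ⊕ ι) → F) →ₗ[F] (ι ⊕ ι → F) := LinearMap.funLeft F F Sum.inr

/-- The orthogonal sum of a form with a hyperbolic form. -/
def Tg (G : LinearMap.BilinForm F (E → F)) (ι : Type) [Fintype ι] : LinearMap.BilinForm F (E ⊕ (ι ⊕ ι) → F) :=
  G.compl₁₂ (prL F E ι) (prL F E ι) + (Bh ι).compl₁₂ (prR F E ι) (prR F E ι)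

theorem Tg_apply (G : LinearMap.BilinForm F (E → F)) (u v : E ⊕ (ι ⊕ ι) → F) :
    Tg G ι u v = G (prL F E ι u) (prL F E ι v) + Bh ι (prR F E ι u) (prR F E ι v) := rfl

theorem prL_l (x : E) : prL F E ι (Pi.single (.inl x) 1) = Pi.single x 1 := by
  ext i
  simp [prL, LinearMap.funLeft_apply, Pi.single_apply]

theorem prL_r (j : ι ⊕ ι) : prL F E ι (Pi.single (.inr j) 1) = 0 := by
  ext i
  simp [prL, LinearMap.funLeft_apply, Pi.single_apply]

theorem prR_l (x : E) : prR F E ι (Pi.single (.inl x) 1) = 0 := by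
  ext i
  simp [prR, LinearMap.funLeft_apply, Pi.single_apply]

theorem prR_r (j : ι ⊕ ι) : prR F E ι (Pi.single (.inr j) 1) = Pi.single j 1 := by
  ext i
  simp [prR, LinearMap.funLeft_apply, Pi.single_apply]

theorem Tg_ll (G : LinearMap.BilinForm F (E → F)) (x y : E) :
    Tg G ι (Pi.single (.inl x) 1) (Pi.single (.inl y) 1) = G (Pi.single x 1) (Pi.single y 1) := by
  rw [Tg_apply, prL_l, prL_l, prR_l, map_zero, LinearMap.zero_apply, add_zero]

theorem Tg_lr (G : LinearMap.BilinForm F (E → F)) (x : E) (j : ι ⊕ ι) :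
    Tg G ι (Pi.single (.inl x) 1) (Pi.single (.inr j) 1) = 0 := by
  rw [Tg_apply, prL_l, prL_r, prR_l, map_zero, map_zero, LinearMap.zero_apply, add_zero]

theorem Tg_rl (G : LinearMap.BilinForm F (E → F)) (x : E) (j : ι ⊕ ι) :
    Tg G ι (Pi.single (.inr j) 1) (Pi.single (.inl x) 1) = 0 := by
  rw [Tg_apply, prL_l, prL_r, prR_l, map_zero, map_zero, LinearMap.zero_apply, add_zero]

theorem Tg_rr (G : LinearMap.BilinForm F (E → F)) (j j' : ι ⊕ ι) :
    Tg G ι (Pi.single (.inr j) 1) (Pi.single (.inr j') 1) = Bh ι (Pi.single j 1) (Pi.single j' 1) := by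
  rw [Tg_apply, prL_r, prL_r, prR_r, prR_r, map_zero, zero_add]

theorem Bh_ll (i j : ι) : Bh ι (Pi.single (.inl i) 1 : ι ⊕ ι → F) (Pi.single (.inl j) 1) = 0 := by
  simp [Bh_inl, Pi.single_apply]

theorem Bh_rr (i j : ι) : Bh ι (Pi.single (.inr i) 1 : ι ⊕ ι → F) (Pi.single (.inr j) 1) = 0 := by
  simp [Bh_inr, Pi.single_apply]

theorem Bh_lr (i j : ι) : Bh ι (Pi.single (.inl i) 1 : ι ⊕ ι → F) (Pi.single (.inr j) 1) = if i = j then 1 else 0 := by
  by_cases h : i = j
  · subst h
    simp [Bh_inr, Pi.single_apply]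
  · simp [Bh_inr, Pi.single_apply, h, Ne.symm h]

theorem Bh_rl (i j : ι) : Bh ι (Pi.single (.inr i) 1 : ι ⊕ ι → F) (Pi.single (.inl j) 1) = if i = j then 1 else 0 := by
  by_cases h : i = j
  · subst h
    simp [Bh_inl, Pi.single_apply]
  · simp [Bh_inl, Pi.single_apply, h, Ne.symm h]

/-- The recognition lemma. -/
theorem mdlg_of {V : Type u} [AddCommGroup V] [Module F V] [FiniteDimensional F V] (B : LinearMap.BilinForm F V)
    (N : V →ₗ[F] V) (hN : ∀ u v, B (N u) v + B u (N v) = 0) (G : LinearMap.BilinForm F (E → F))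
    (hG : ∀ c, (∀ e, G c e = 0) → c = 0) (w : E → V) (a a' : ι → V)
    (hww : ∀ x y, B (w x) (w y) = G (Pi.single x 1) (Pi.single y 1))
    (hwa : ∀ x i, B (w x) (a i) = 0) (hwb : ∀ x i, B (w x) (a' i) = 0)
    (haw : ∀ x i, B (a i) (w x) = 0) (hbw : ∀ x i, B (a' i) (w x) = 0)
    (h11 : ∀ i j, B (a i) (a j) = 0) (h12 : ∀ i j, B (a i) (a' j) = if i = j then 1 else 0)
    (h21 : ∀ i j, B (a' i) (a j) = if i = j then 1 else 0) (h22 : ∀ i j, B (a' i) (a' j) = 0)
    (hd : finrank F V = Fintype.card E + 2 * Fintype.card ι) :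
    ∃ A : (E ⊕ (ι ⊕ ι) → F) →ₗ[F] (E ⊕ (ι ⊕ ι) → F), (∀ u v, Tg G ι (A u) v + Tg G ι u (A v) = 0) ∧
      ∀ k, finrank F (LinearMap.range (A ^ k)) = finrank F (LinearMap.range (N ^ k)) := by
  refine transfer B N hN (Tg G ι) ?_ (Sum.elim w (Sum.elim a a')) ?_ ?_
  · intro u hu
    have h1 : prL F E ι u = 0 := by
      apply hG
      intro e
      have h3 := hu (Sum.elim e 0)
      rw [Tg_apply] at h3
      have h4 : prL F E ι (Sum.elim e 0) = e := by
        ext i
        simp [prL, LinearMap.funLeft_apply]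
      have h5 : prR F E ι (Sum.elim e 0) = 0 := by
        ext i
        simp [prR, LinearMap.funLeft_apply]
      rwa [h4, h5, map_zero, add_zero] at h3
    have h2 : prR F E ι u = 0 := by
      apply Bh_sep
      intro e
      have h3 := hu (Sum.elim 0 e)
      rw [Tg_apply] at h3
      have h4 : prL F E ι (Sum.elim 0 e) = 0 := by
        ext i
        simp [prL, LinearMap.funLeft_apply]
      have h5 : prR F E ι (Sum.elim 0 e) = e := by
        ext i
        simp [prR, LinearMap.funLeft_apply]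
      rwa [h4, h5, map_zero, zero_add] at h3
    funext j
    rcases j with x | j
    · exact congrFun h1 x
    · exact congrFun h2 j
  · intro j j'
    rcases j with x | i | i <;> rcases j' with y | j | j <;>
      simp only [Sum.elim_inl, Sum.elim_inr, Tg_ll, Tg_lr, Tg_rl, Tg_rr, Bh_ll, Bh_lr, Bh_rl, Bh_rr, hww, hwa, hwb, haw, hbw, h11, h12, h21, h22]
  · rw [hd, Fintype.card_sum, Fintype.card_sum, two_mul]

/-- A prescribed Jordan type on a hyperbolic space with an extra part. -/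
def Mdlg (G : LinearMap.BilinForm F (E → F)) (ι : Type) [Fintype ι] (μ : Multiset ℕ) : Prop :=
  ∃ A : (E ⊕ (ι ⊕ ι) → F) →ₗ[F] (E ⊕ (ι ⊕ ι) → F), (∀ u v, Tg G ι (A u) v + Tg G ι u (A v) = 0) ∧
    ∀ k, finrank F (LinearMap.range (A ^ k)) = (μ.map (fun e => e - k)).sum

theorem Mdlg.reindex {ι' : Type} [Fintype ι'] [DecidableEq ι'] {G : LinearMap.BilinForm F (E → F)} (hG : ∀ c, (∀ e, G c e = 0) → c = 0)
    {μ : Multiset ℕ} (h : Mdlg G ι μ) (e : ι ≃ ι') : Mdlg G ι' μ := by
  obtain ⟨A, h1, h2⟩ := h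
  obtain ⟨A', h3, h4⟩ := mdlg_of (ι := ι') (Tg G ι) A h1 G hG (fun x => Pi.single (.inl x) 1)
    (fun i => Pi.single (.inr (.inl (e.symm i))) 1) (fun i => Pi.single (.inr (.inr (e.symm i))) 1)
    (fun x y => Tg_ll G x y) (fun x i => Tg_lr G x _) (fun x i => Tg_lr G x _) (fun x i => Tg_rl G x _) (fun x i => Tg_rl G x _)
    (fun i j => by rw [Tg_rr, Bh_ll])
    (fun i j => by
      rw [Tg_rr, Bh_lr]
      simp only [e.symm.injective.eq_iff])
    (fun i j => by
      rw [Tg_rr, Bh_rl]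
      simp only [e.symm.injective.eq_iff])
    (fun i j => by rw [Tg_rr, Bh_rr])
    (by
      rw [Module.finrank_fintype_fun_eq_card, Fintype.card_sum, Fintype.card_sum, Fintype.card_congr e, two_mul])
  exact ⟨A', h3, fun k => by rw [h4, h2]⟩

theorem Mdlg.sum {ι' : Type} [Fintype ι'] [DecidableEq ι'] {G : LinearMap.BilinForm F (E → F)} (hG : ∀ c, (∀ e, G c e = 0) → c = 0)
    {μ μ' : Multiset ℕ} (h : Mdlg G ι μ) (h' : Mdl F ι' μ') : Mdlg G (ι ⊕ ι') (μ + μ') := by
  obtain ⟨A, h1, h2⟩ := h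
  obtain ⟨A', h3, h4⟩ := h'
  let B : LinearMap.BilinForm F ((E ⊕ (ι ⊕ ι) → F) × (ι' ⊕ ι' → F)) :=
    LinearMap.mk₂ F (fun x y => Tg G ι x.1 y.1 + Bh ι' x.2 y.2)
      (by intro a b c; simp only [Prod.fst_add, Prod.snd_add, map_add, LinearMap.add_apply]; ring)
      (by intro a b c; simp only [Prod.smul_fst, Prod.smul_snd, map_smul, LinearMap.smul_apply, smul_eq_mul]; ring)
      (by intro a b c; simp only [Prod.fst_add, Prod.snd_add, map_add]; ring)
      (by intro a b c; simp only [Prod.smul_fst, Prod.smul_snd, map_smul, smul_eq_mul]; ring)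
  have hB : ∀ x y, B x y = Tg G ι x.1 y.1 + Bh ι' x.2 y.2 := fun x y => rfl
  obtain ⟨A₀, h5, h6⟩ := mdlg_of (ι := ι ⊕ ι') B (A.prodMap A')
    (by
      intro u v
      rw [hB, hB]
      simp only [LinearMap.prodMap_apply]
      have e1 := h1 u.1 v.1
      have e2 := h3 u.2 v.2
      linear_combination e1 + e2)
    G hG (fun x => (Pi.single (.inl x) 1, 0))
    (Sum.elim (fun i => (Pi.single (.inr (.inl i)) 1, 0)) (fun i => (0, Pi.single (.inl i) 1)))
    (Sum.elim (fun i => (Pi.single (.inr (.inr i)) 1, 0)) (fun i => (0, Pi.single (.inr i) 1)))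
    (by intro x y; simp [hB, Tg_ll])
    (by intro x i; rcases i with i | i <;> simp [hB, Tg_lr])
    (by intro x i; rcases i with i | i <;> simp [hB, Tg_lr])
    (by intro x i; rcases i with i | i <;> simp [hB, Tg_rl])
    (by intro x i; rcases i with i | i <;> simp [hB, Tg_rl])
    (by
      intro i j
      rcases i with i | i <;> rcases j with j | j <;> simp [hB, Tg_rr, Bh_ll])
    (by
      intro i j
      rcases i with i | i <;> rcases j with j | j <;> simp [hB, Tg_rr, Bh_lr])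
    (by
      intro i j
      rcases i with i | i <;> rcases j with j | j <;> simp [hB, Tg_rr, Bh_rl])
    (by
      intro i j
      rcases i with i | i <;> rcases j with j | j <;> simp [hB, Tg_rr, Bh_rr])
    (by
      rw [Module.finrank_prod, Module.finrank_fintype_fun_eq_card, Module.finrank_fintype_fun_eq_card]
      simp only [Fintype.card_sum]
      ring)
  refine ⟨A₀, h5, fun k => ?_⟩
  rw [h6, prodMap_pow', finrank_range_prodMap, h2, h4, Multiset.map_add, Multiset.sum_add]

/-- The form `2 x y` on a line. -/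
def G2 (F : Type u) [Field F] : LinearMap.BilinForm F (Unit → F) :=
  LinearMap.mk₂ F (fun u v => 2 * (u () * v ()))
    (by intro a b c; simp only [Pi.add_apply]; ring)
    (by intro a b c; simp only [Pi.smul_apply, smul_eq_mul]; ring)
    (by intro a b c; simp only [Pi.add_apply]; ring)
    (by intro a b c; simp only [Pi.smul_apply, smul_eq_mul]; ring)

theorem G2_apply (u v : Unit → F) : G2 F u v = 2 * (u () * v ()) := rfl

theorem G2_sep (h2 : (2 : F) ≠ 0) (c : Unit → F) (h : ∀ e, G2 F c e = 0) : c = 0 := by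
  funext x
  have h1 := h (fun _ => 1)
  rw [G2_apply, mul_one] at h1
  exact (mul_eq_zero.mp h1).resolve_left h2

/-- A single odd chain. -/
theorem mdlg_chain (h2 : (2 : F) ≠ 0) (s : ℕ) : Mdlg (G2 F) (Fin s) ((2 * s + 1) ::ₘ 0) := by
  have hsq : ((-1 : F) ^ s) * (-1) ^ s = 1 := by
    rw [← mul_pow]
    simp
  have hne : ((-1 : F) ^ s) ≠ 0 := pow_ne_zero _ (by simp)
  obtain ⟨c, hcd⟩ : ∃ c : F, c = 2 * (-1) ^ s := ⟨_, rfl⟩
  have hc : c ≠ 0 := by
    rw [hcd]
    exact mul_ne_zero h2 hne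
  have hzz : c * (-1) ^ s = 2 := by
    rw [hcd, mul_assoc, hsq, mul_one]
  obtain ⟨A, h5, h6⟩ := mdlg_of (ι := Fin s) (c • PP (F := F) (2 * s + 1)) (shift F (2 * s + 1))
    (by
      intro u v
      have e1 := PP_skew (F := F) (2 * s + 1) u v
      simp only [LinearMap.smul_apply, smul_eq_mul]
      linear_combination c * e1)
    (G2 F) (G2_sep h2) (fun _ => vZ s) (vA s) (vB c s)
    (by
      intro x y
      simp only [LinearMap.smul_apply, smul_eq_mul, rel_zz, G2_apply, hzz]
      simp)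
    (by intro x i; simp only [LinearMap.smul_apply, smul_eq_mul, rel_za, mul_zero])
    (by intro x i; simp only [LinearMap.smul_apply, smul_eq_mul, rel_zb, mul_zero])
    (by intro x i; simp only [LinearMap.smul_apply, smul_eq_mul, rel_az, mul_zero])
    (by intro x i; simp only [LinearMap.smul_apply, smul_eq_mul, rel_bz, mul_zero])
    (by intro i j; simp only [LinearMap.smul_apply, smul_eq_mul, rel_aa, mul_zero])
    (by intro i j; simp only [LinearMap.smul_apply, smul_eq_mul]; exact rel_ab hc i j)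
    (by intro i j; simp only [LinearMap.smul_apply, smul_eq_mul]; exact rel_ba hc i j)
    (by intro i j; simp only [LinearMap.smul_apply, smul_eq_mul, rel_bb, mul_zero])
    (by
      rw [Module.finrank_fin_fun]
      simp only [Fintype.card_unit, Fintype.card_fin]
      ring)
  refine ⟨A, h5, fun k' => ?_⟩
  rw [h6, finrank_range_shift_pow]
  simp

/-- All admissible Jordan types on the odd-dimensional space. -/
theorem mdlo_all (h2 : (2 : F) ≠ 0) (μ : Multiset ℕ) (hpos : ∀ e ∈ μ, 0 < e) (hev : ∀ e : ℕ, Even e → Even (μ.count e)) (d : ℕ)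
    (hsum : μ.sum = 2 * d + 1) : Mdlg (G2 F) (Fin d) μ := by
  have hex : ∃ a ∈ μ, ¬ Even a := by
    by_contra hcon
    push Not at hcon
    have h1 : 2 ∣ μ.sum := Multiset.dvd_sum (fun x hx => (hcon x hx).two_dvd)
    omega
  obtain ⟨a, ha, hao⟩ := hex
  obtain ⟨μ', rfl⟩ := Multiset.exists_cons_of_mem ha
  obtain ⟨s, rfl⟩ : ∃ s, a = 2 * s + 1 := by
    obtain ⟨s, hs⟩ := Nat.not_even_iff_odd.mp hao
    exact ⟨s, hs⟩
  simp only [Multiset.sum_cons] at hsum
  obtain ⟨d', rfl⟩ : ∃ d', d = s + d' := ⟨d - s, by omega⟩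
  have hm : Mdl F (Fin d') μ' := mdl_all h2 _ μ' rfl (fun x hx => hpos x (by simp [hx])) (by
    intro x hx
    have h4 := hev x hx
    have hne : x ≠ 2 * s + 1 := by
      rintro rfl
      exact hao hx
    rwa [Multiset.count_cons_of_ne hne] at h4) d' (by omega)
  have h5 := ((mdlg_chain (F := F) h2 s).sum (G2_sep h2) hm).reindex (G2_sep h2) finSumFinEquiv
  have h6 : ((2 * s + 1) ::ₘ (0 : Multiset ℕ)) + μ' = (2 * s + 1) ::ₘ μ' := by simp
  rwa [h6] at h5

/-- The polar form of the standard form in odd dimension. -/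
theorem polar_odd (d : ℕ) (u v : Unit ⊕ (Fin d ⊕ Fin d) → F) :
    QuadraticMap.polar (Cfsg.quadFormOdd d F) u v = Tg (G2 F) (Fin d) u v := by
  rw [Tg_apply, G2_apply, Bh_apply]
  simp only [QuadraticMap.polar, Cfsg.quadFormOdd, prL, prR, LinearMap.funLeft_apply, Pi.add_apply]
  have : ∀ f g h k : Fin d → F, (∑ i, (f i + g i) * (h i + k i)) = (∑ i, f i * h i) + (∑ i, g i * k i) + ∑ i, (f i * k i + h i * g i) := by
    intro f g h k
    rw [← Finset.sum_add_distrib, ← Finset.sum_add_distrib]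
    apply Finset.sum_congr rfl
    intro i _
    ring
  rw [this]
  ring

/-- The polar form of the standard form of plus type. -/
theorem polar_plus (d : ℕ) (u v : Fin d ⊕ Fin d → F) :
    QuadraticMap.polar (Cfsg.quadFormPlus d F) u v = Bh (Fin d) u v := by
  rw [Bh_apply]
  simp only [QuadraticMap.polar, Cfsg.quadFormPlus, Pi.add_apply]
  have : ∀ f g h k : Fin d → F, (∑ i, (f i + g i) * (h i + k i)) = (∑ i, f i * h i) + (∑ i, g i * k i) + ∑ i, (f i * k i + h i * g i) := by
    intro f g h k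
    rw [← Finset.sum_add_distrib, ← Finset.sum_add_distrib]
    apply Finset.sum_congr rfl
    intro i _
    ring
  rw [this]
  ring

/-- Partitions into ones. -/
theorem all_one (μ : Multiset ℕ) (hpos : ∀ e ∈ μ, 0 < e) (hne : ¬ ∃ e ∈ μ, 2 ≤ e) {m : ℕ} (hm : m ≤ μ.sum) :
    ∃ ν : Multiset ℕ, ν ≤ μ ∧ ν.sum = m ∧ ∀ e : ℕ, Even e → Even (ν.count e) := by
  have h1 : μ = Multiset.replicate (Multiset.card μ) 1 := by
    apply Multiset.eq_replicate_card.mpr
    intro b hb
    have h3 := hpos b hb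
    have h4 : ¬ 2 ≤ b := fun h => hne ⟨b, hb, h⟩
    omega
  have h3 : μ.sum = Multiset.card μ := by
    rw [h1]
    simp
  refine ⟨Multiset.replicate m 1, ?_, by simp, ?_⟩
  · have h5 : m ≤ Multiset.card μ := h3 ▸ hm
    calc Multiset.replicate m 1 ≤ Multiset.replicate (Multiset.card μ) 1 := (Multiset.replicate_le_replicate 1).mpr h5
      _ = μ := h1.symm
  · intro e he
    rw [Multiset.count_replicate]
    have : 1 ≠ e := by
      rintro rfl
      simp at he
    rw [if_neg this]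
    simp

/-- Multisets of twos and one odd part. -/
theorem mod_four {e t : ℕ} (he : ¬ Even e) {ν : Multiset ℕ} (hν : ν ≤ e ::ₘ Multiset.replicate t 2)
    (hev : ∀ x : ℕ, Even x → Even (ν.count x)) (hs : Even ν.sum) : ν.sum % 4 = 0 := by
  by_cases hm : e ∈ ν
  · exfalso
    obtain ⟨ν', rfl⟩ := Multiset.exists_cons_of_mem hm
    have h1 : ν' ≤ Multiset.replicate t 2 := (Multiset.cons_le_cons_iff e).mp hν
    obtain ⟨k, hk, rfl⟩ := Multiset.le_replicate_iff.mp h1
    rw [Multiset.sum_cons, Multiset.sum_replicate, smul_eq_mul, Nat.even_add] at hs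
    exact he (hs.mpr (by simp))
  · have h1 := (Multiset.le_cons_of_notMem hm).mp hν
    obtain ⟨k, hk, rfl⟩ := Multiset.le_replicate_iff.mp h1
    have h4 := hev 2 even_two
    rw [Multiset.count_replicate_self] at h4
    rw [Multiset.sum_replicate, smul_eq_mul]
    obtain ⟨l, rfl⟩ := h4
    omega

end Cfsg.Agent.Lib.ClassMax.JPar
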