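import Mathlib
import Cfsg.Agent.Lib.ClassMax.JPar5

/-!
Jordan types on the space of minus type.
-/

set_option autoImplicit false
set_option linter.unusedSectionVars false
set_option linter.unusedVariables false

namespace Cfsg.Agent.Lib.ClassMax.JPar

open Module Cfsg.Agent.Lib.ClassMax.JordanType

universe u

variable {F : Type u} [Field F]

/-- The polar form of the binary form `x² + a x y + b y²`. -/
def Gm (a b : F) : LinearMap.BilinForm F (Fin 2 → F) :=
  LinearMap.mk₂ F (fun u v => 2 * (u 0 * v 0) + a * (u 0 * v 1 + u 1 * v 0) + 2 * b * (u 1 * v 1))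
    (by intro x y z; simp only [Pi.add_apply]; ring)
    (by intro c x y; simp only [Pi.smul_apply, smul_eq_mul]; ring)
    (by intro x y z; simp only [Pi.add_apply]; ring)
    (by intro c x y; simp only [Pi.smul_apply, smul_eq_mul]; ring)

theorem Gm_apply (a b : F) (u v : Fin 2 → F) :
    Gm a b u v = 2 * (u 0 * v 0) + a * (u 0 * v 1 + u 1 * v 0) + 2 * b * (u 1 * v 1) := rfl

theorem Gm_sep (h2 : (2 : F) ≠ 0) {a b : F} (hab : ∀ x y : F, x ^ 2 + a * x * y + b * y ^ 2 = 0 → x = 0 ∧ y = 0) (c : Fin 2 → F)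
    (h : ∀ e, Gm a b c e = 0) : c = 0 := by
  obtain ⟨t, ht⟩ : ∃ t : F, t * 2 = 1 := ⟨2⁻¹, inv_mul_cancel₀ h2⟩
  have h0 := h (Pi.single 0 1)
  have h1 := h (Pi.single 1 1)
  simp [Gm_apply] at h0 h1
  have hq : (c 0) ^ 2 + a * (c 0) * (c 1) + b * (c 1) ^ 2 = 0 := by
    linear_combination t * c 0 * h0 + t * c 1 * h1 - ((c 0) ^ 2 + a * c 0 * c 1 + b * c 1 ^ 2) * ht
  obtain ⟨h3, h4⟩ := hab _ _ hq
  funext i
  fin_cases i
  · exact h3
  · exact h4

set_option maxHeartbeats 2000000 in
/-- Two odd chains carrying the binary form. -/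
theorem mdlg_two (h2 : (2 : F) ≠ 0) {a b : F} (hab : ∀ x y : F, x ^ 2 + a * x * y + b * y ^ 2 = 0 → x = 0 ∧ y = 0) (s k : ℕ) :
    Mdlg (Gm a b) (Fin s ⊕ Fin k) ((2 * s + 1) ::ₘ (2 * k + 1) ::ₘ 0) := by
  have hsq : ∀ i : ℕ, ((-1 : F) ^ i) * (-1) ^ i = 1 := by
    intro i
    rw [← mul_pow]
    simp
  have hne : ∀ i : ℕ, ((-1 : F) ^ i) ≠ 0 := fun i => pow_ne_zero _ (by simp)
  obtain ⟨t, ht⟩ : ∃ t : F, t * 2 = 1 := ⟨2⁻¹, inv_mul_cancel₀ h2⟩
  obtain ⟨β, hβd⟩ : ∃ β : F, β = 2 * (b - t ^ 2 * a ^ 2) := ⟨_, rfl⟩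
  have hβ : β ≠ 0 := by
    rw [hβd]
    refine mul_ne_zero h2 ?_
    intro h0
    have h3 := hab (- (t * a)) 1 (by
      linear_combination h0 + (t * a ^ 2) * ht)
    exact one_ne_zero h3.2
  obtain ⟨c, hcd⟩ : ∃ c : F, c = 2 * (-1) ^ s := ⟨_, rfl⟩
  obtain ⟨c', hcd'⟩ : ∃ c' : F, c' = β * (-1) ^ k := ⟨_, rfl⟩
  have hc : c ≠ 0 := by
    rw [hcd]
    exact mul_ne_zero h2 (hne s)
  have hc' : c' ≠ 0 := by
    rw [hcd']
    exact mul_ne_zero hβ (hne k)
  have hzz : c * (-1) ^ s = 2 := by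
    rw [hcd, mul_assoc, hsq, mul_one]
  have hzz' : c' * (-1) ^ k = β := by
    rw [hcd', mul_assoc, hsq, mul_one]
  let B : LinearMap.BilinForm F ((Fin (2 * s + 1) → F) × (Fin (2 * k + 1) → F)) :=
    LinearMap.mk₂ F (fun x y => c * PP _ x.1 y.1 + c' * PP _ x.2 y.2)
      (by intro x y d; simp only [Prod.fst_add, Prod.snd_add, map_add, LinearMap.add_apply]; ring)
      (by intro x y d; simp only [Prod.smul_fst, Prod.smul_snd, map_smul, LinearMap.smul_apply, smul_eq_mul]; ring)
      (by intro x y d; simp only [Prod.fst_add, Prod.snd_add, map_add, LinearMap.add_apply]; ring)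
      (by intro x y d; simp only [Prod.smul_fst, Prod.smul_snd, map_smul, LinearMap.smul_apply, smul_eq_mul]; ring)
  have hB : ∀ x y, B x y = c * PP _ x.1 y.1 + c' * PP _ x.2 y.2 := fun x y => rfl
  let w₀ : (Fin (2 * s + 1) → F) × (Fin (2 * k + 1) → F) := (vZ s, 0)
  let w₁ : (Fin (2 * s + 1) → F) × (Fin (2 * k + 1) → F) := ((t * a) • vZ s, vZ k)
  have h00 : B w₀ w₀ = 2 := by
    simp only [hB, w₀, map_zero, LinearMap.zero_apply, rel_zz, mul_zero, add_zero, hzz]
  have h01 : B w₀ w₁ = a := by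
    simp only [hB, w₀, w₁, map_smul, map_zero, LinearMap.zero_apply, rel_zz, mul_zero, add_zero, smul_eq_mul]
    linear_combination (t * a) * hzz + a * ht
  have h10 : B w₁ w₀ = a := by
    simp only [hB, w₀, w₁, map_smul, map_zero, LinearMap.zero_apply, LinearMap.smul_apply, rel_zz, mul_zero, add_zero, smul_eq_mul]
    linear_combination (t * a) * hzz + a * ht
  have h11 : B w₁ w₁ = 2 * b := by
    simp only [hB, w₁, map_smul, LinearMap.smul_apply, rel_zz, smul_eq_mul]
    rw [hzz', hβd]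
    linear_combination (t * a) ^ 2 * hzz
  obtain ⟨A, h5, h6⟩ := mdlg_of (ι := Fin s ⊕ Fin k) B ((shift F (2 * s + 1)).prodMap (shift F (2 * k + 1)))
    (by
      intro u v
      rw [hB, hB]
      simp only [LinearMap.prodMap_apply]
      have e1 := PP_skew (F := F) (2 * s + 1) u.1 v.1
      have e2 := PP_skew (F := F) (2 * k + 1) u.2 v.2
      linear_combination c * e1 + c' * e2)
    (Gm a b) (Gm_sep h2 hab) ![w₀, w₁]
    (Sum.elim (fun i => (vA s i, 0)) (fun j => (0, vA k j)))
    (Sum.elim (fun i => (vB c s i, 0)) (fun j => (0, vB c' k j)))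
    (by
      intro x y
      fin_cases x <;> fin_cases y
      · show B w₀ w₀ = _
        rw [h00]
        simp [Gm_apply]
      · show B w₀ w₁ = _
        rw [h01]
        simp [Gm_apply]
      · show B w₁ w₀ = _
        rw [h10]
        simp [Gm_apply]
      · show B w₁ w₁ = _
        rw [h11]
        simp [Gm_apply])
    (by
      intro x i
      fin_cases x <;> rcases i with i | i
      all_goals
        first
          | show B w₀ _ = 0
          | show B w₁ _ = 0
      all_goals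
        simp only [hB, w₀, w₁, Sum.elim_inl, Sum.elim_inr, map_smul, map_zero, LinearMap.smul_apply, LinearMap.zero_apply, smul_eq_mul,
          rel_za, mul_zero, zero_mul, add_zero, zero_add])
    (by
      intro x i
      fin_cases x <;> rcases i with i | i
      all_goals
        first
          | show B w₀ _ = 0
          | show B w₁ _ = 0
      all_goals
        simp only [hB, w₀, w₁, Sum.elim_inl, Sum.elim_inr, map_smul, map_zero, LinearMap.smul_apply, LinearMap.zero_apply, smul_eq_mul,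
          rel_zb, mul_zero, zero_mul, add_zero, zero_add])
    (by
      intro x i
      fin_cases x <;> rcases i with i | i
      all_goals
        first
          | show B _ w₀ = 0
          | show B _ w₁ = 0
      all_goals
        simp only [hB, w₀, w₁, Sum.elim_inl, Sum.elim_inr, map_smul, map_zero, LinearMap.smul_apply, LinearMap.zero_apply, smul_eq_mul,
          rel_az, mul_zero, zero_mul, add_zero, zero_add])
    (by
      intro x i
      fin_cases x <;> rcases i with i | i
      all_goals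
        first
          | show B _ w₀ = 0
          | show B _ w₁ = 0
      all_goals
        simp only [hB, w₀, w₁, Sum.elim_inl, Sum.elim_inr, map_smul, map_zero, LinearMap.smul_apply, LinearMap.zero_apply, smul_eq_mul,
          rel_bz, mul_zero, zero_mul, add_zero, zero_add])
    (by
      intro i j
      rcases i with i | i <;> rcases j with j | j <;>
        simp only [hB, Sum.elim_inl, Sum.elim_inr, map_zero, LinearMap.zero_apply, rel_aa, mul_zero, add_zero, zero_add])
    (by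
      intro i j
      rcases i with i | i <;> rcases j with j | j <;>
        simp only [hB, Sum.elim_inl, Sum.elim_inr, map_zero, LinearMap.zero_apply, rel_ab hc, rel_ab hc', mul_zero, add_zero, zero_add,
          Sum.inl.injEq, Sum.inr.injEq, reduceCtorEq, if_false])
    (by
      intro i j
      rcases i with i | i <;> rcases j with j | j <;>
        simp only [hB, Sum.elim_inl, Sum.elim_inr, map_zero, LinearMap.zero_apply, rel_ba hc, rel_ba hc', mul_zero, add_zero, zero_add,
          Sum.inl.injEq, Sum.inr.injEq, reduceCtorEq, if_false])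
    (by
      intro i j
      rcases i with i | i <;> rcases j with j | j <;>
        simp only [hB, Sum.elim_inl, Sum.elim_inr, map_zero, LinearMap.zero_apply, rel_bb, mul_zero, add_zero, zero_add])
    (by
      rw [Module.finrank_prod, Module.finrank_fin_fun, Module.finrank_fin_fun]
      simp only [Fintype.card_sum, Fintype.card_fin]
      ring)
  refine ⟨A, h5, fun k' => ?_⟩
  rw [h6, prodMap_pow', finrank_range_prodMap, finrank_range_shift_pow, finrank_range_shift_pow]
  simp

/-- Admissible Jordan types with two odd parts, on the space of minus type. -/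
theorem mdlm_all (h2 : (2 : F) ≠ 0) {a b : F} (hab : ∀ x y : F, x ^ 2 + a * x * y + b * y ^ 2 = 0 → x = 0 ∧ y = 0) (μ : Multiset ℕ)
    (hpos : ∀ e ∈ μ, 0 < e) (hev : ∀ e : ℕ, Even e → Even (μ.count e)) (hodd : ∃ e ∈ μ, ¬ Even e) (d : ℕ)
    (hsum : μ.sum = 2 * d + 2) : Mdlg (Gm a b) (Fin d) μ := by
  obtain ⟨x, hx, hxo⟩ := hodd
  obtain ⟨μ₁, rfl⟩ := Multiset.exists_cons_of_mem hx
  have hex : ∃ y ∈ μ₁, ¬ Even y := by
    by_contra hcon
    push Not at hcon
    have h1 : 2 ∣ μ₁.sum := Multiset.dvd_sum (fun x hx => (hcon x hx).two_dvd)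
    rw [Multiset.sum_cons] at hsum
    rcases Nat.not_even_iff_odd.mp hxo with ⟨l, hl⟩
    omega
  obtain ⟨y, hy, hyo⟩ := hex
  obtain ⟨μ', rfl⟩ := Multiset.exists_cons_of_mem hy
  obtain ⟨s, rfl⟩ : ∃ s, x = 2 * s + 1 := by
    obtain ⟨s, hs⟩ := Nat.not_even_iff_odd.mp hxo
    exact ⟨s, hs⟩
  obtain ⟨k, rfl⟩ : ∃ k, y = 2 * k + 1 := by
    obtain ⟨s, hs⟩ := Nat.not_even_iff_odd.mp hyo
    exact ⟨s, hs⟩
  simp only [Multiset.sum_cons] at hsum
  obtain ⟨d', rfl⟩ : ∃ d', d = s + k + d' := ⟨d - (s + k), by omega⟩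
  have hm : Mdl F (Fin d') μ' := mdl_all h2 _ μ' rfl (fun x hx => hpos x (by simp [hx])) (by
    intro z hz
    have h4 := hev z hz
    have hne : z ≠ 2 * s + 1 := by
      rintro rfl
      exact hxo hz
    have hne' : z ≠ 2 * k + 1 := by
      rintro rfl
      exact hyo hz
    rwa [Multiset.count_cons_of_ne hne, Multiset.count_cons_of_ne hne'] at h4) d' (by omega)
  have h5 := ((mdlg_two (F := F) h2 hab s k).sum (Gm_sep h2 hab) hm).reindex (Gm_sep h2 hab)
    (Fintype.equivFinOfCardEq (n := s + k + d') (by simp))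
  have h6 : ((2 * s + 1) ::ₘ (2 * k + 1) ::ₘ (0 : Multiset ℕ)) + μ' = (2 * s + 1) ::ₘ (2 * k + 1) ::ₘ μ' := by simp
  rwa [h6] at h5

/-- The rearrangement of coordinates. -/
noncomputable def swp (F : Type u) [Field F] (d : ℕ) : ((Fin d ⊕ Fin d) ⊕ Fin 2 → F) ≃ₗ[F] (Fin 2 ⊕ (Fin d ⊕ Fin d) → F) :=
  LinearEquiv.funCongrLeft F F (Equiv.sumComm (Fin 2) (Fin d ⊕ Fin d))

theorem polar_minus (a b : F) (d : ℕ) (u v : (Fin d ⊕ Fin d) ⊕ Fin 2 → F) :
    QuadraticMap.polar (Cfsg.quadFormMinus d F a b) u v = Tg (Gm a b) (Fin d) (swp F d u) (swp F d v) := by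
  rw [Tg_apply, Gm_apply, Bh_apply]
  simp only [QuadraticMap.polar, Cfsg.quadFormMinus, prL, prR, LinearMap.funLeft_apply, Pi.add_apply, swp, LinearEquiv.funCongrLeft_apply,
    Function.comp, Equiv.sumComm_apply, Sum.swap_inl, Sum.swap_inr, LinearMap.funLeft_apply]
  have : ∀ f g h k : Fin d → F, (∑ i, (f i + g i) * (h i + k i)) = (∑ i, f i * h i) + (∑ i, g i * k i) + ∑ i, (f i * k i + h i * g i) := by
    intro f g h k
    rw [← Finset.sum_add_distrib, ← Finset.sum_add_distrib]
    apply Finset.sum_congr rfl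
    intro i _
    ring
  rw [this]
  ring

/-- The transported nilpotent map. -/
theorem exists_minus (a b : F) {d : ℕ} {μ : Multiset ℕ} (h : Mdlg (Gm a b) (Fin d) μ) :
    ∃ A : ((Fin d ⊕ Fin d) ⊕ Fin 2 → F) →ₗ[F] ((Fin d ⊕ Fin d) ⊕ Fin 2 → F),
      (∀ u v, QuadraticMap.polar (Cfsg.quadFormMinus d F a b) (A u) v + QuadraticMap.polar (Cfsg.quadFormMinus d F a b) u (A v) = 0) ∧
      ∀ k, finrank F (LinearMap.range (A ^ k)) = (μ.map (fun e => e - k)).sum := by
  obtain ⟨A, h1, h3⟩ := h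
  refine ⟨(swp F d).symm.toLinearMap ∘ₗ A ∘ₗ (swp F d).toLinearMap, ?_, fun k => ?_⟩
  · intro u v
    rw [polar_minus, polar_minus]
    simp only [LinearMap.comp_apply, LinearEquiv.coe_coe, LinearEquiv.apply_symm_apply]
    exact h1 _ _
  · rw [finrank_conj, h3]

end Cfsg.Agent.Lib.ClassMax.JPar
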