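import Mathlib
import Cfsg.Agent.Lib.ClassMax.OmegaRefl
import Cfsg.Agent.Lib.ClassMax.OmegaCrit
import Cfsg.Agent.Lib.ClassMax.PhiCount

/-! Non-maximality of small imprimitive orthogonal stabilisers: the stabiliser of a set of vectors attached to the
decomposition gives an intermediate subgroup. -/

set_option autoImplicit false

namespace Cfsg.Agent.Lib.ClassMax.OmegaFrame

open Matrix Cfsg.Geo Cfsg.Agent.Lib.ClassMax Cfsg.Agent.Lib.ClassMax.QuadOver Cfsg.Agent.Lib.ClassMax.OmegaCore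

variable {ι : Type} [Fintype ι] [DecidableEq ι] {F : Type*} [Field F] {Q : (ι → F) → F}

local notation "BB" => QuadraticMap.polar Q
local notation "VV" => (ι → F)
local notation "MM" => Matrix ι ι F
local notation "GG" => GL ι F

/-- Stabiliser of a set of vectors inside a subgroup. -/
def setStab (G : Subgroup (GL ι F)) (S : Set (ι → F)) : Subgroup (GL ι F) where
  carrier := {g | g ∈ G ∧ ∀ v, (g.val *ᵥ v) ∈ S ↔ v ∈ S}
  mul_mem' {a b} ha hb := by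
    refine ⟨G.mul_mem ha.1 hb.1, fun v => ?_⟩
    rw [Units.val_mul, ← Matrix.mulVec_mulVec, ha.2, hb.2]
  one_mem' := ⟨G.one_mem, fun v => by simp⟩
  inv_mem' {a} ha := by
    refine ⟨G.inv_mem ha.1, fun v => ?_⟩
    rw [← ha.2, Matrix.mulVec_mulVec, ← Units.val_mul, mul_inv_cancel]
    simp

theorem mem_setStab_of_forward [Fintype F] {G : Subgroup (GL ι F)} {S : Set (ι → F)} {g : GL ι F} (hg : g ∈ G)
    (h : ∀ v ∈ S, g.val *ᵥ v ∈ S) : g ∈ setStab G S := by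
  refine ⟨hg, fun v => ⟨fun hv => ?_, h v⟩⟩
  have hk : ∀ k : ℕ, ∀ w ∈ S, (g ^ k).val *ᵥ w ∈ S := by
    intro k
    induction k with
    | zero => intro w hw; simpa using hw
    | succ k ih =>
      intro w hw
      rw [pow_succ, Units.val_mul, ← Matrix.mulVec_mulVec]
      exact ih _ (h w hw)
  have hpos : 0 < orderOf g := orderOf_pos g
  have h1 := hk (orderOf g - 1) _ hv
  rw [Matrix.mulVec_mulVec, ← Units.val_mul, ← pow_succ, Nat.sub_add_cancel hpos, pow_orderOf_eq_one] at h1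
  simpa using h1

/-- The abstract criterion: a set of vectors invariant under `H`, and under `g ∈ G \ H`, but not under `s ∈ G`, gives an
intermediate subgroup. -/
theorem exists_between [Fintype F] {G H : Subgroup (GL ι F)} (T : Set (ι → F)) (hHG : H ≤ G)
    (hH : ∀ g ∈ H, ∀ v ∈ T, g.val *ᵥ v ∈ T) {g s : GL ι F} (hgG : g ∈ G) (hgH : g ∉ H) (hgT : ∀ v ∈ T, g.val *ᵥ v ∈ T)
    (hsG : s ∈ G) {v₀ : ι → F} (hv₀ : v₀ ∈ T) (hs : s.val *ᵥ v₀ ∉ T) : ∃ K : Subgroup (GL ι F), H < K ∧ K < G := by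
  refine ⟨setStab G T, ?_, ?_⟩
  · rw [SetLike.lt_iff_le_and_exists]
    exact ⟨fun x hx => mem_setStab_of_forward (hHG hx) (hH x hx), g, mem_setStab_of_forward hgG hgT, hgH⟩
  · rw [SetLike.lt_iff_le_and_exists]
    exact ⟨fun x hx => hx.1, s, hsG, fun h => hs ((h.2 v₀).mpr hv₀)⟩

section Refl

variable (hQ : IsNondegenerateQuadraticForm Q)
include hQ

theorem Q_sub (u v : VV) : Q (u - v) = Q u + Q v - BB u v := by
  rw [sub_eq_add_neg, Q_add' (Q := Q), Q_neg hQ, pol_neg_right hQ]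
  ring

theorem rf_swap {a : F} {u v : VV} (hu : Q u = a) (hv : Q v = a) (huv : BB u v = 0) (h2a : 2 * a ≠ 0) :
    (rf Q (u - v) : MM) *ᵥ u = v ∧ (rf Q (u - v) : MM) *ᵥ v = u := by
  have hx : Q (u - v) = 2 * a := by rw [Q_sub hQ, hu, hv, huv]; ring
  have hx0 : Q (u - v) ≠ 0 := by rw [hx]; exact h2a
  have h1 : BB u (u - v) = 2 * a := by
    rw [pol_sub_right hQ, pol_self hQ, huv, hu]; ring
  have h2 : BB v (u - v) = - (2 * a) := by
    rw [pol_sub_right hQ, pol_self hQ, pol_comm v u, huv, hv]; ring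
  constructor
  · rw [rf_apply hQ hx0]
    unfold rfFun
    rw [h1, hx, div_self h2a, one_smul]
    abel
  · rw [rf_apply hQ hx0]
    unfold rfFun
    rw [h2, hx, neg_div, div_self h2a, neg_smul, one_smul]
    abel

theorem rf_sub_fix {u v w : VV} (hx0 : Q (u - v) ≠ 0) (h1 : BB w u = 0) (h2 : BB w v = 0) : (rf Q (u - v) : MM) *ᵥ w = w :=
  rf_fix hQ hx0 (by rw [pol_sub_right hQ, h1, h2, sub_zero])

/-- Criterion for elements outside the stabiliser of a decomposition. -/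
theorem not_mem_stab {t : ℕ} {D : Fin t → Submodule F (ι → F)} (hnd : ∀ i, IsNondegenerateOn BB (D i))
    (horth : ∀ i j, i ≠ j → AreOrthogonalFor BB (D i) (D j)) {g : GG} {i₀ i₁ : Fin t} (h01 : i₀ ≠ i₁) {w x : VV} (hw : w ∈ D i₀)
    (hw0 : w ≠ 0) (hgw : g.val *ᵥ w = w) (hx : x ∈ D i₀) (hgx : g.val *ᵥ x ∈ D i₁) (hgx0 : g.val *ᵥ x ≠ 0) :
    g ∉ decompositionStabilizer D := by
  rintro ⟨τ, hτ⟩
  have h3 : w ∈ D (τ i₀) := by
    rw [← hτ i₀]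
    exact ⟨w, hw, by rw [Matrix.toLin'_apply, hgw]⟩
  have h4 : g.val *ᵥ x ∈ D (τ i₀) := by
    rw [← hτ i₀]
    exact ⟨x, hx, by rw [Matrix.toLin'_apply]⟩
  have h5 : τ i₀ = i₀ := by
    by_contra hc
    obtain ⟨y, hy, hyw⟩ := (hnd i₀ w hw hw0).1
    apply hyw
    exact horth i₀ _ (Ne.symm hc) y hy w h3
  have h6 : τ i₀ = i₁ := by
    by_contra hc
    obtain ⟨y, hy, hyw⟩ := (hnd i₁ _ hgx hgx0).1
    apply hyw
    exact horth i₁ _ (Ne.symm hc) y hy _ h4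
  exact h01 (h5.symm.trans h6)

end Refl

variable [Fintype F]

/-- The frame criterion in odd characteristic. -/
theorem frame_odd (hQ : IsNondegenerateQuadraticForm Q) (h2 : (2 : F) ≠ 0) {t : ℕ} {D : Fin t → Submodule F (ι → F)}
    (hnd : ∀ i, IsNondegenerateOn BB (D i)) (horth : ∀ i j, i ≠ j → AreOrthogonalFor BB (D i) (D j)) {a : F} (ha : a ≠ 0)
    {e : Fin t → ι → F} (he : ∀ i, e i ∈ D i) (hQe : ∀ i, Q (e i) = a)
    (hframe : ∀ i, ∀ v ∈ D i, Q v = a → v = e i ∨ v = - e i ∨ BB v (e i) = 0)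
    (hw : ∀ i, ∃ w ∈ D i, w ≠ 0 ∧ BB w (e i) = 0) {i₀ i₁ i₂ i₃ : Fin t} (h01 : i₀ ≠ i₁) (h02 : i₀ ≠ i₂) (h03 : i₀ ≠ i₃)
    (h12 : i₁ ≠ i₂) (h13 : i₁ ≠ i₃) (h23 : i₂ ≠ i₃) {f : ι → F} (hf : Q f = a) (hf0 : BB (e i₀) f = 0) {j₁ j₂ : Fin t}
    (hj : j₁ ≠ j₂) (hf1 : BB f (e j₁) ≠ 0) (hf2 : BB f (e j₂) ≠ 0) :
    ∃ K : Subgroup GG, decompositionStabilizer D ⊓ omegaGL Q < K ∧ K < omegaGL Q := by
  have h2a : 2 * a ≠ 0 := mul_ne_zero h2 ha
  have hee : ∀ i j, i ≠ j → BB (e i) (e j) = 0 := fun i j hij => horth i j hij _ (he i) _ (he j)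
  have hiso : ∀ g ∈ omegaGL Q, ∀ v, Q (g.val *ᵥ v) = Q v := fun g hg v => (mem_iso_iff g).mp (omegaGL_le_iso hg) v
  have hQs : ∀ u v : VV, Q u = a → Q v = a → BB u v = 0 → Q (u - v) = 2 * a := by
    intro u v hu hv huv
    rw [Q_sub hQ, hu, hv, huv]; ring
  let T : Set VV := {v | ∃ i, v ∈ D i ∧ Q v = a}
  have hTe : ∀ i, e i ∈ T := fun i => ⟨i, he i, hQe i⟩
  have hTn : ∀ i, - e i ∈ T := fun i => ⟨i, (D i).neg_mem (he i), by rw [Q_neg hQ, hQe]⟩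
  have hx01 : Q (e i₀ - e i₁) = 2 * a := hQs _ _ (hQe _) (hQe _) (hee _ _ h01)
  have hx23 : Q (e i₂ - e i₃) = 2 * a := hQs _ _ (hQe _) (hQe _) (hee _ _ h23)
  have hn01 : Q (e i₀ - e i₁) ≠ 0 := by rw [hx01]; exact h2a
  have hn23 : Q (e i₂ - e i₃) ≠ 0 := by rw [hx23]; exact h2a
  have hg : rf Q (e i₀ - e i₁) * rf Q (e i₂ - e i₃) ∈ omegaGL Q := rf_mul_mem_omega hQ hn01 (by rw [hx01, hx23])
  have hsw01 := rf_swap hQ (hQe i₀) (hQe i₁) (hee _ _ h01) h2a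
  have hsw23 := rf_swap hQ (hQe i₂) (hQe i₃) (hee _ _ h23) h2a
  have hfix01 : ∀ w, BB w (e i₀) = 0 → BB w (e i₁) = 0 → (rf Q (e i₀ - e i₁)).val *ᵥ w = w := fun w h1 h2 => rf_sub_fix hQ hn01 h1 h2
  have hfix23 : ∀ w, BB w (e i₂) = 0 → BB w (e i₃) = 0 → (rf Q (e i₂ - e i₃)).val *ᵥ w = w := fun w h1 h2 => rf_sub_fix hQ hn23 h1 h2
  have hgap : ∀ v, (rf Q (e i₀ - e i₁) * rf Q (e i₂ - e i₃)).val *ᵥ v = (rf Q (e i₀ - e i₁)).val *ᵥ ((rf Q (e i₂ - e i₃)).val *ᵥ v) := by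
    intro v
    rw [Units.val_mul, Matrix.mulVec_mulVec]
  have he0 : ∀ i, e i ≠ 0 := by
    intro i h0
    apply ha
    rw [← hQe i, h0, Q_zero hQ]
  have hp1 : rf Q (e i₀ - e i₁) * rf Q (e i₂ - e i₃) ∉ decompositionStabilizer D ⊓ omegaGL Q := by
    rintro ⟨hs, -⟩
    obtain ⟨w, hw1, hw2, hw3⟩ := hw i₀
    refine not_mem_stab hQ hnd horth h01 hw1 hw2 ?_ (he i₀) ?_ ?_ hs
    · rw [hgap, hfix23 _ (horth _ _ h02 _ hw1 _ (he i₂)) (horth _ _ h03 _ hw1 _ (he i₃)), hfix01 _ hw3 (horth _ _ h01 _ hw1 _ (he i₁))]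
    · rw [hgap, hfix23 _ (hee _ _ h02) (hee _ _ h03), hsw01.1]
      exact he i₁
    · rw [hgap, hfix23 _ (hee _ _ h02) (hee _ _ h03), hsw01.1]
      exact he0 i₁
  have hgT : ∀ v ∈ T, (rf Q (e i₀ - e i₁) * rf Q (e i₂ - e i₃)).val *ᵥ v ∈ T := by
    rintro v ⟨i, hi, hv⟩
    have hgen : ∀ w, BB w (e i₀) = 0 → BB w (e i₁) = 0 → BB w (e i₂) = 0 → BB w (e i₃) = 0 →
        (rf Q (e i₀ - e i₁) * rf Q (e i₂ - e i₃)).val *ᵥ w = w := by
      intro w h1 h2 h3 h4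
      rw [hgap, hfix23 _ h3 h4, hfix01 _ h1 h2]
    have hperp : ∀ w ∈ D i, BB w (e i) = 0 → (rf Q (e i₀ - e i₁) * rf Q (e i₂ - e i₃)).val *ᵥ w = w := by
      intro w hw hwe
      have hany : ∀ j, BB w (e j) = 0 := by
        intro j
        by_cases hij : i = j
        · rw [← hij]; exact hwe
        · exact horth i j hij _ hw _ (he j)
      exact hgen w (hany _) (hany _) (hany _) (hany _)
    have hE : ((rf Q (e i₀ - e i₁) * rf Q (e i₂ - e i₃)).val *ᵥ e i ∈ T) ∧ ((rf Q (e i₀ - e i₁) * rf Q (e i₂ - e i₃)).val *ᵥ (- e i) ∈ T) := by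
      have hneg : ∀ i', (rf Q (e i₀ - e i₁) * rf Q (e i₂ - e i₃)).val *ᵥ e i = e i' → (rf Q (e i₀ - e i₁) * rf Q (e i₂ - e i₃)).val *ᵥ e i ∈ T ∧ (rf Q (e i₀ - e i₁) * rf Q (e i₂ - e i₃)).val *ᵥ (- e i) ∈ T := by
        intro i' h
        rw [Matrix.mulVec_neg, h]
        exact ⟨hTe i', hTn i'⟩
      by_cases c0 : i = i₀
      · subst c0
        apply hneg i₁
        rw [hgap, hfix23 _ (hee _ _ h02) (hee _ _ h03), hsw01.1]
      by_cases c1 : i = i₁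
      · subst c1
        apply hneg i₀
        rw [hgap, hfix23 _ (hee _ _ h12) (hee _ _ h13), hsw01.2]
      by_cases c2 : i = i₂
      · subst c2
        apply hneg i₃
        rw [hgap, hsw23.1, hfix01 _ (hee _ _ h03.symm) (hee _ _ h13.symm)]
      by_cases c3 : i = i₃
      · subst c3
        apply hneg i₂
        rw [hgap, hsw23.2, hfix01 _ (hee _ _ h02.symm) (hee _ _ h12.symm)]
      apply hneg i
      exact hgen _ (hee _ _ c0) (hee _ _ c1) (hee _ _ c2) (hee _ _ c3)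
    rcases hframe i v hi hv with rfl | rfl | h3
    · exact hE.1
    · exact hE.2
    · rw [hperp v hi h3]
      exact ⟨i, hi, hv⟩
  -- the element outside `K`
  have hxf : Q (e i₀ - f) = 2 * a := hQs _ _ (hQe _) hf hf0
  have hx12 : Q (e i₁ - e i₂) = 2 * a := hQs _ _ (hQe _) (hQe _) (hee _ _ h12)
  have hnf : Q (e i₀ - f) ≠ 0 := by rw [hxf]; exact h2a
  have hn12 : Q (e i₁ - e i₂) ≠ 0 := by rw [hx12]; exact h2a
  have hs : rf Q (e i₀ - f) * rf Q (e i₁ - e i₂) ∈ omegaGL Q := rf_mul_mem_omega hQ hnf (by rw [hxf, hx12])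
  have hse : (rf Q (e i₀ - f) * rf Q (e i₁ - e i₂)).val *ᵥ e i₀ = f := by
    rw [Units.val_mul, ← Matrix.mulVec_mulVec, rf_sub_fix hQ hn12 (hee _ _ h01) (hee _ _ h02)]
    exact (rf_swap hQ (hQe i₀) hf hf0 h2a).1
  refine exists_between T inf_le_right ?_ hg hp1 hgT hs (hTe i₀) ?_
  · rintro g ⟨⟨τ, hτ⟩, hgΩ⟩ v ⟨i, hi, hv⟩
    refine ⟨τ i, ?_, by rw [hiso g hgΩ, hv]⟩
    rw [← hτ i]
    exact ⟨v, hi, by rw [Matrix.toLin'_apply]⟩
  · rw [hse]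
    rintro ⟨j, hjD, -⟩
    have h5 : j = j₁ := by
      by_contra hc
      exact hf1 (horth _ _ hc _ hjD _ (he j₁))
    have h6 : j = j₂ := by
      by_contra hc
      exact hf2 (horth _ _ hc _ hjD _ (he j₂))
    exact hj (h5.symm.trans h6)

end Cfsg.Agent.Lib.ClassMax.OmegaFrame
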