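import Mathlib
import Cfsg.Agent.Lib.ClassMax.OmegaFrame

/-! Frames in orthogonal decompositions over small fields. -/

set_option autoImplicit false

namespace Cfsg.Agent.Lib.ClassMax.OmegaFrame

open Matrix Cfsg.Geo Cfsg.Agent.Lib.ClassMax Cfsg.Agent.Lib.ClassMax.QuadOver Cfsg.Agent.Lib.ClassMax.OmegaCore

variable {ι : Type} [Fintype ι] [DecidableEq ι] {F : Type*} [Field F] {Q : (ι → F) → F}

local notation "BB" => QuadraticMap.polar Q
local notation "VV" => (ι → F)
local notation "MM" => Matrix ι ι F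
local notation "GG" => GL ι F

theorem rep_of_pair {W : Submodule F VV} (hd : Module.finrank F W = 2) {x y : VV} (hx : x ∈ W) (hy : y ∈ W)
    (hli : ∀ a b : F, a • x + b • y = 0 → a = 0 ∧ b = 0) : ∀ v ∈ W, ∃ a b : F, v = a • x + b • y := by
  have hli' : LinearIndependent F ![x, y] := by
    rw [LinearIndependent.pair_iff]
    exact hli
  have hle : Submodule.span F (Set.range ![x, y]) ≤ W := by
    rw [Submodule.span_le]
    rintro _ ⟨i, rfl⟩
    fin_cases i
    · exact hx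
    · exact hy
  have heq : Submodule.span F (Set.range ![x, y]) = W := by
    apply Submodule.eq_of_le_of_finrank_eq hle
    rw [hd, finrank_span_eq_card hli']
    simp
  intro v hv
  rw [← heq, Matrix.range_cons, Matrix.range_cons, Matrix.range_empty] at hv
  simp only [Set.union_empty, Set.singleton_union] at hv
  obtain ⟨a, b, h⟩ := Submodule.mem_span_pair.mp hv
  exact ⟨a, b, h.symm⟩

section Main

variable (hQ : IsNondegenerateQuadraticForm Q)
include hQ

theorem orth_basis (h2 : (2 : F) ≠ 0) {W : Submodule F VV} {k : ℕ} (hk : Module.finrank F W = k) (hW : IsNondegenerateOn BB W) :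
    ∃ b : Fin k → VV, (∀ j, b j ∈ W) ∧ (∀ i j, i ≠ j → BB (b i) (b j) = 0) ∧ (∀ j, Q (b j) ≠ 0) ∧
      ∀ v ∈ W, ∃ c : Fin k → F, v = ∑ j, c j • b j := by
  haveI : Invertible (2 : F) := invertibleOfNonzero h2
  let BW : LinearMap.BilinForm F W := (bilinOf BB hQ.polar_bilinear).restrict W
  have hBW : ∀ x y : W, BW x y = BB x.1 y.1 := fun x y => rfl
  have hsymm : LinearMap.IsSymm BW := ⟨fun x y => by
    show BB x.1 y.1 = BB y.1 x.1
    rw [pol_comm]⟩
  obtain ⟨v, hv⟩ := LinearMap.BilinForm.exists_orthogonal_basis hsymm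
  let v' := v.reindex (finCongr hk)
  have hv' : ∀ i j, i ≠ j → BB (v' i).1 (v' j).1 = 0 := by
    intro i j hij
    have h := hv (i := (finCongr hk).symm i) (j := (finCongr hk).symm j) (fun h => hij ((finCongr hk).symm.injective h))
    rw [show v' i = v ((finCongr hk).symm i) from Module.Basis.reindex_apply _ _ _, show v' j = v ((finCongr hk).symm j) from Module.Basis.reindex_apply _ _ _]
    exact h
  have hrep : ∀ x ∈ W, ∃ c : Fin k → F, x = ∑ j, c j • (v' j).1 := by
    intro x hx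
    refine ⟨fun j => v'.repr ⟨x, hx⟩ j, ?_⟩
    have h := v'.sum_repr ⟨x, hx⟩
    have h3 := congrArg Subtype.val h
    simp only [AddSubmonoidClass.coe_finset_sum, Submodule.coe_smul] at h3
    exact h3.symm
  refine ⟨fun j => (v' j).1, fun j => (v' j).2, hv', ?_, hrep⟩
  intro j h0
  have hne : (v' j).1 ≠ 0 := by
    intro h
    exact v'.ne_zero j (Subtype.ext h)
  obtain ⟨x, hx, hxv⟩ := (hW _ (v' j).2 hne).1
  apply hxv
  obtain ⟨c, rfl⟩ := hrep x hx
  have hb := hQ.polar_bilinear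
  have h5 : ∀ s : Finset (Fin k), BB (∑ i ∈ s, c i • (v' i).1) (v' j).1 = ∑ i ∈ s, c i * BB (v' i).1 (v' j).1 := by
    intro s
    induction s using Finset.induction_on with
    | empty => simp [pol_zero_left hQ]
    | insert a s ha ih => rw [Finset.sum_insert ha, Finset.sum_insert ha, hb.add_left, hb.smul_left, ih]
  rw [h5]
  apply Finset.sum_eq_zero
  intro i _
  by_cases hij : i = j
  · subst hij
    rw [pol_self hQ, h0]
    ring
  · rw [hv' i j hij, mul_zero]

/-- Transport of a frame vector along isometries. -/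
theorem frame_transport {t k : ℕ} {D : Fin t → Submodule F VV} (hD : IsOrthogonalMDecomposition Q k D) {i₀ : Fin t} {e₀ : VV}
    (he₀ : e₀ ∈ D i₀) (hframe : ∀ v ∈ D i₀, Q v = Q e₀ → v = e₀ ∨ v = - e₀ ∨ BB v e₀ = 0) (hw : ∃ w ∈ D i₀, w ≠ 0 ∧ BB w e₀ = 0) :
    ∃ e : Fin t → VV, (∀ i, e i ∈ D i) ∧ (∀ i, Q (e i) = Q e₀) ∧ (∀ i, ∀ v ∈ D i, Q v = Q e₀ → v = e i ∨ v = - e i ∨ BB v (e i) = 0) ∧
      ∀ i, ∃ w ∈ D i, w ≠ 0 ∧ BB w (e i) = 0 := by
  have hiso := fun i => hD.isometric i₀ i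
  choose φ hφ using hiso
  have hpol : ∀ i (x y : D i₀), BB (φ i x : VV) (φ i y : VV) = BB (x : VV) (y : VV) := by
    intro i x y
    unfold QuadraticMap.polar
    have := hφ i (x + y)
    rw [map_add] at this
    simp only [Submodule.coe_add] at this
    rw [this, hφ, hφ]
  refine ⟨fun i => (φ i ⟨e₀, he₀⟩ : VV), fun i => (φ i ⟨e₀, he₀⟩).2, fun i => hφ i ⟨e₀, he₀⟩, ?_, ?_⟩
  · intro i v hv hQv
    have h1 : ((φ i).symm ⟨v, hv⟩ : D i₀).1 ∈ D i₀ := ((φ i).symm ⟨v, hv⟩).2
    have h2 : φ i ((φ i).symm ⟨v, hv⟩) = ⟨v, hv⟩ := (φ i).apply_symm_apply _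
    have h3 : Q ((φ i).symm ⟨v, hv⟩ : D i₀).1 = Q e₀ := by
      rw [← hφ i, h2]
      exact hQv
    rcases hframe _ h1 h3 with h4 | h4 | h4
    · left
      have : (φ i).symm ⟨v, hv⟩ = ⟨e₀, he₀⟩ := Subtype.ext h4
      show v = ((φ i ⟨e₀, he₀⟩ : D i) : VV)
      rw [← this, h2]
    · right; left
      have : (φ i).symm ⟨v, hv⟩ = - ⟨e₀, he₀⟩ := Subtype.ext h4
      show v = - ((φ i ⟨e₀, he₀⟩ : D i) : VV)
      have h5 := congrArg Subtype.val h2
      rw [this, map_neg] at h5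
      exact h5.symm.trans rfl
    · right; right
      have := hpol i ((φ i).symm ⟨v, hv⟩) ⟨e₀, he₀⟩
      rw [h2] at this
      exact this.trans h4
  · intro i
    obtain ⟨w, hw1, hw2, hw3⟩ := hw
    refine ⟨(φ i ⟨w, hw1⟩ : VV), (φ i ⟨w, hw1⟩).2, ?_, ?_⟩
    · intro h
      have : φ i ⟨w, hw1⟩ = 0 := Subtype.ext h
      rw [map_eq_zero_iff _ (φ i).injective] at this
      exact hw2 (congrArg Subtype.val this)
    · rw [hpol]
      exact hw3

end Main

section Three

variable [Fintype F]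

theorem three_zero (hq : Fintype.card F = 3) : (3 : F) = 0 := by
  have := FiniteField.cast_card_eq_zero F
  rw [hq] at this
  exact_mod_cast this

theorem two_ne_three (hq : Fintype.card F = 3) : (2 : F) ≠ 0 := by
  intro h
  have h3 := three_zero hq
  have : (1 : F) = 0 := by linear_combination h3 - h
  exact one_ne_zero this

theorem sq_three (hq : Fintype.card F = 3) (x : F) : x = 0 ∨ x ^ 2 = 1 := by
  have h := FiniteField.pow_card x
  rw [hq] at h
  by_cases h0 : x = 0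
  · exact Or.inl h0
  · right
    have : x * (x ^ 2 - 1) = 0 := by linear_combination h
    rcases mul_eq_zero.mp this with h1 | h1
    · exact absurd h1 h0
    · linear_combination h1

theorem pm_three (hq : Fintype.card F = 3) {x : F} (h0 : x ≠ 0) : x = 1 ∨ x = -1 := by
  have h1 := (sq_three hq x).resolve_left h0
  have : (x - 1) * (x + 1) = 0 := by linear_combination h1
  rcases mul_eq_zero.mp this with h2 | h2
  · left; linear_combination h2
  · right; linear_combination h2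

theorem pm_of_sq {x : F} (h1 : x ^ 2 = 1) : x = 1 ∨ x = -1 := by
  have : (x - 1) * (x + 1) = 0 := by linear_combination h1
  rcases mul_eq_zero.mp this with h2 | h2
  · left; linear_combination h2
  · right; linear_combination h2

variable (hQ : IsNondegenerateQuadraticForm Q)
include hQ

theorem frame_two_of (hq : Fintype.card F = 3) {W : Submodule F VV} {u v : VV} (hu : u ∈ W) (hv : v ∈ W) (huv : BB u v = 0) (hQu : Q u ≠ 0) (hQv : Q v ≠ 0)
    (hrep : ∀ x ∈ W, ∃ a b : F, x = a • u + b • v) :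
    ∃ e ∈ W, Q e ≠ 0 ∧ (∀ x ∈ W, Q x = Q e → x = e ∨ x = - e ∨ BB x e = 0) ∧ ∃ w ∈ W, w ≠ 0 ∧ BB w e = 0 := by
  have hb := hQ.polar_bilinear
  refine ⟨u, hu, hQu, ?_, v, hv, ?_, by rw [pol_comm, huv]⟩
  · intro x hx hQx
    obtain ⟨a, b, rfl⟩ := hrep x hx
    rw [Q_add' (Q := Q), hQ.smul, hQ.smul, hb.smul_left, hb.smul_right, huv] at hQx
    rcases sq_three hq a with rfl | ha
    · right; right
      rw [hb.add_left, hb.smul_left, hb.smul_left, pol_self hQ, pol_comm, huv]
      ring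
    · rw [ha] at hQx
      have hb0 : b = 0 := by
        have h1 : b ^ 2 * Q v = 0 := by linear_combination hQx
        rcases mul_eq_zero.mp h1 with h2 | h2
        · exact pow_eq_zero_iff (by norm_num) |>.mp h2
        · exact absurd h2 hQv
      subst hb0
      rcases pm_of_sq ha with rfl | rfl
      · left; simp
      · right; left; simp
  · rintro rfl
    exact hQv (Q_zero hQ)

theorem frame_three_of (hq : Fintype.card F = 3) {W : Submodule F VV} {u v w : VV} (hu : u ∈ W) (hv : v ∈ W) (hw : w ∈ W) (huv : BB u v = 0) (huw : BB u w = 0) (hvw : BB v w = 0)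
    (hQu : Q u ≠ 0) (hQv : Q v ≠ 0) (hvw' : Q v = Q w)
    (hrep : ∀ x ∈ W, ∃ a b c : F, x = a • u + b • v + c • w) :
    ∃ e ∈ W, Q e ≠ 0 ∧ (∀ x ∈ W, Q x = Q e → x = e ∨ x = - e ∨ BB x e = 0) ∧ ∃ w ∈ W, w ≠ 0 ∧ BB w e = 0 := by
  have hb := hQ.polar_bilinear
  refine ⟨u, hu, hQu, ?_, v, hv, ?_, by rw [pol_comm, huv]⟩
  · intro x hx hQx
    obtain ⟨a, b, c, rfl⟩ := hrep x hx
    have hQexp : Q (a • u + b • v + c • w) = a ^ 2 * Q u + (b ^ 2 + c ^ 2) * Q v := by
      rw [Q_add' (Q := Q), Q_add' (Q := Q), hQ.smul, hQ.smul, hQ.smul]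
      simp only [hb.add_left, hb.smul_left, hb.smul_right, huv, huw, hvw]
      rw [← hvw']
      ring
    rw [hQexp] at hQx
    rcases sq_three hq a with rfl | ha
    · right; right
      rw [hb.add_left, hb.add_left, hb.smul_left, hb.smul_left, hb.smul_left, pol_self hQ, pol_comm v u, pol_comm w u, huv, huw]
      ring
    · rw [ha] at hQx
      have hsum : b ^ 2 + c ^ 2 = 0 := by
        have h1 : (b ^ 2 + c ^ 2) * Q v = 0 := by linear_combination hQx
        rcases mul_eq_zero.mp h1 with h2 | h2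
        · exact h2
        · exact absurd h2 hQv
      have hbc : b = 0 ∧ c = 0 := by
        rcases sq_three hq b with rfl | hb2 <;> rcases sq_three hq c with rfl | hc2
        · exact ⟨rfl, rfl⟩
        · rw [hc2] at hsum
          simp at hsum
        · rw [hb2] at hsum
          simp at hsum
        · rw [hb2, hc2] at hsum
          exact absurd hsum (by
            have := two_ne_three hq
            intro h
            apply this
            linear_combination h)
      obtain ⟨rfl, rfl⟩ := hbc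
      rcases pm_of_sq ha with rfl | rfl
      · left; simp
      · right; left; simp
  · rintro rfl
    exact hQv (Q_zero hQ)

theorem sum_fin_two {k : Fin 2 → VV} {c : Fin 2 → F} : ∑ j, c j • k j = c 0 • k 0 + c 1 • k 1 := Fin.sum_univ_two _

/-- The frame vector in a non-degenerate space of dimension two or three over the field with three elements. -/
theorem frameW3 (hq : Fintype.card F = 3) {W : Submodule F VV} (hW : IsNondegenerateOn BB W) {k : ℕ} (hk : k = 2 ∨ k = 3) (hd : Module.finrank F W = k) :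
    ∃ e ∈ W, Q e ≠ 0 ∧ (∀ x ∈ W, Q x = Q e → x = e ∨ x = - e ∨ BB x e = 0) ∧ ∃ w ∈ W, w ≠ 0 ∧ BB w e = 0 := by
  obtain ⟨b, hbW, hbo, hbQ, hrep⟩ := orth_basis hQ (two_ne_three hq) hd hW
  rcases hk with rfl | rfl
  · refine frame_two_of hQ hq (hbW 0) (hbW 1) (hbo _ _ (by decide)) (hbQ 0) (hbQ 1) ?_
    intro x hx
    obtain ⟨c, rfl⟩ := hrep x hx
    exact ⟨c 0, c 1, Fin.sum_univ_two _⟩
  · have h01 := hbo 0 1 (by decide)
    have h02 := hbo 0 2 (by decide)
    have h12 := hbo 1 2 (by decide)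
    have hpig : Q (b 0) = Q (b 1) ∨ Q (b 0) = Q (b 2) ∨ Q (b 1) = Q (b 2) := by
      rcases pm_three hq (hbQ 0) with h0 | h0 <;> rcases pm_three hq (hbQ 1) with h1 | h1 <;> rcases pm_three hq (hbQ 2) with h2 | h2 <;> simp [h0, h1, h2]
    rcases hpig with h | h | h
    · refine frame_three_of hQ hq (hbW 2) (hbW 0) (hbW 1) (by rw [pol_comm]; exact h02) (by rw [pol_comm]; exact h12) h01 (hbQ 2) (hbQ 0) h ?_
      intro x hx
      obtain ⟨c, rfl⟩ := hrep x hx
      refine ⟨c 2, c 0, c 1, ?_⟩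
      rw [Fin.sum_univ_three]
      abel
    · refine frame_three_of hQ hq (hbW 1) (hbW 0) (hbW 2) (by rw [pol_comm]; exact h01) h12 h02 (hbQ 1) (hbQ 0) h ?_
      intro x hx
      obtain ⟨c, rfl⟩ := hrep x hx
      refine ⟨c 1, c 0, c 2, ?_⟩
      rw [Fin.sum_univ_three]
      abel
    · refine frame_three_of hQ hq (hbW 0) (hbW 1) (hbW 2) h01 h02 h12 (hbQ 0) (hbQ 1) h ?_
      intro x hx
      obtain ⟨c, rfl⟩ := hrep x hx
      exact ⟨c 0, c 1, c 2, Fin.sum_univ_three _⟩

/-- Frames over the field with three elements. -/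
theorem frame3_main (hq : Fintype.card F = 3) {t k : ℕ} {D : Fin t → Submodule F VV} (hk : k = 2 ∨ k = 3) (hD : IsOrthogonalMDecomposition Q k D) (ht : 5 ≤ t) :
    ∃ K : Subgroup GG, decompositionStabilizer D ⊓ omegaGL Q < K ∧ K < omegaGL Q := by
  have h2 := two_ne_three hq
  have h3 := three_zero hq
  let i₀ : Fin t := ⟨0, by omega⟩
  let i₁ : Fin t := ⟨1, by omega⟩
  let i₂ : Fin t := ⟨2, by omega⟩
  let i₃ : Fin t := ⟨3, by omega⟩
  let i₄ : Fin t := ⟨4, by omega⟩
  have h01 : i₀ ≠ i₁ := by simp [i₀, i₁, Fin.ext_iff]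
  have h02 : i₀ ≠ i₂ := by simp [i₀, i₂, Fin.ext_iff]
  have h03 : i₀ ≠ i₃ := by simp [i₀, i₃, Fin.ext_iff]
  have h04 : i₀ ≠ i₄ := by simp [i₀, i₄, Fin.ext_iff]
  have h12 : i₁ ≠ i₂ := by simp [i₁, i₂, Fin.ext_iff]
  have h13 : i₁ ≠ i₃ := by simp [i₁, i₃, Fin.ext_iff]
  have h14 : i₁ ≠ i₄ := by simp [i₁, i₄, Fin.ext_iff]
  have h23 : i₂ ≠ i₃ := by simp [i₂, i₃, Fin.ext_iff]
  have h24 : i₂ ≠ i₄ := by simp [i₂, i₄, Fin.ext_iff]
  have h34 : i₃ ≠ i₄ := by simp [i₃, i₄, Fin.ext_iff]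
  obtain ⟨e₀, he₀, hae, hfr, hw⟩ := frameW3 hQ hq (hD.decomp.nondegenerate i₀) hk (hD.decomp.decomp.finrank_eq i₀)
  obtain ⟨e, he, hQe, hframe, hw'⟩ := frame_transport hQ hD he₀ hfr hw
  have hb := hQ.polar_bilinear
  have horth := hD.decomp.orthogonal
  have hee : ∀ i j, i ≠ j → BB (e i) (e j) = 0 := fun i j hij => horth i j hij _ (he i) _ (he j)
  have hQ2 : ∀ i, BB (e i) (e i) = 2 * Q e₀ := by
    intro i
    rw [pol_self hQ, hQe]
  refine frame_odd hQ h2 hD.decomp.nondegenerate horth hae he hQe hframe hw' (i₀ := i₀) (i₁ := i₁) (i₂ := i₂) (i₃ := i₃) h01 h02 h03 h12 h13 h23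
    (f := e i₁ + e i₂ + e i₃ + e i₄) ?_ ?_ (j₁ := i₁) (j₂ := i₂) h12 ?_ ?_
  · rw [Q_add' (Q := Q), Q_add' (Q := Q), Q_add' (Q := Q), hQe, hQe, hQe, hQe]
    simp only [hb.add_left, hee _ _ h12, hee _ _ h13, hee _ _ h14, hee _ _ h23, hee _ _ h24, hee _ _ h34]
    linear_combination (Q e₀) * h3
  · simp only [hb.add_right, hee _ _ h01, hee _ _ h02, hee _ _ h03, hee _ _ h04]
    ring
  · simp only [hb.add_left, hQ2, hee _ _ h12.symm, hee _ _ h13.symm, hee _ _ h14.symm]
    simpa using mul_ne_zero h2 hae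
  · simp only [hb.add_left, hQ2, hee _ _ h12, hee _ _ h23.symm, hee _ _ h24.symm]
    simpa using mul_ne_zero h2 hae

end Three

end Cfsg.Agent.Lib.ClassMax.OmegaFrame
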