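import Mathlib
import Cfsg.Agent.Lib.ClassMax.OmegaFrame2

/-! Intermediate subgroups for decompositions into plus-type planes over small fields and plus-type four-spaces over
the field with two elements. -/

set_option autoImplicit false

namespace Cfsg.Agent.Lib.ClassMax.OmegaFrame

open Matrix Cfsg.Geo Cfsg.Agent.Lib.ClassMax Cfsg.Agent.Lib.ClassMax.QuadOver Cfsg.Agent.Lib.ClassMax.OmegaCore

variable {ι : Type} [Fintype ι] [DecidableEq ι] {F : Type*} [Field F] {Q : (ι → F) → F}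

local notation "BB" => QuadraticMap.polar Q
local notation "VV" => (ι → F)
local notation "MM" => Matrix ι ι F
local notation "GG" => GL ι F

section Hyp

variable (hQ : IsNondegenerateQuadraticForm Q)
include hQ

/-- A singular vector of a non-degenerate subspace lies in a hyperbolic pair. -/
theorem hyp_of_singular {W : Submodule F VV} (hW : IsNondegenerateOn BB W) {u₀ : VV} (hu₀ : u₀ ∈ W) (hu₀0 : u₀ ≠ 0) (hQ0 : Q u₀ = 0) :
    ∃ u' ∈ W, Q u' = 0 ∧ BB u₀ u' = 1 := by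
  have hb := hQ.polar_bilinear
  obtain ⟨x, hx, hxu⟩ := (hW u₀ hu₀ hu₀0).1
  set c := BB x u₀ with hc
  refine ⟨c⁻¹ • x - (Q x * (c⁻¹) ^ 2) • u₀, W.sub_mem (W.smul_mem _ hx) (W.smul_mem _ hu₀), ?_, ?_⟩
  · rw [Q_sub hQ, hQ.smul, hQ.smul, hQ0, hb.smul_left, hb.smul_right, ← hc]
    field_simp
    ring
  · rw [pol_sub_right hQ, hb.smul_right, hb.smul_right, pol_self hQ, hQ0, pol_comm u₀ x, ← hc]
    field_simp
    ring

theorem hyp_pair {W : Submodule F VV} (hW : IsNondegenerateOn BB W) (hd : Module.finrank F W = 2) (hP : IsPlusTypeOn Q W) :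
    ∃ u ∈ W, ∃ u' ∈ W, Q u = 0 ∧ Q u' = 0 ∧ BB u u' = 1 ∧ ∀ v ∈ W, ∃ a b : F, v = a • u + b • u' := by
  obtain ⟨U, hUW, hU, hdU⟩ := hP
  rw [hd] at hdU
  have hU1 : U ≠ ⊥ := by
    rintro rfl
    simp at hdU
  obtain ⟨u, hu, hu0⟩ := Submodule.exists_mem_ne_zero_of_ne_bot hU1
  have huW := hUW hu
  have hQu := hU u hu
  obtain ⟨u', hu', hQu', huu'⟩ := hyp_of_singular hQ hW huW hu0 hQu
  refine ⟨u, huW, u', hu', hQu, hQu', huu', rep_of_pair hd huW hu' ?_⟩
  have hb := hQ.polar_bilinear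
  intro a b hab
  have h1 : BB (a • u + b • u') u' = 0 := by rw [hab, pol_zero_left hQ]
  have h2 : BB (a • u + b • u') u = 0 := by rw [hab, pol_zero_left hQ]
  rw [hb.add_left, hb.smul_left, hb.smul_left, pol_self hQ, hQu', huu'] at h1
  rw [hb.add_left, hb.smul_left, hb.smul_left, pol_self hQ, hQu, pol_comm u' u, huu'] at h2
  constructor
  · linear_combination h1
  · linear_combination h2

end Hyp

section Five

variable [Fintype F] (hQ : IsNondegenerateQuadraticForm Q)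
include hQ

theorem frame5_main (hq : Fintype.card F = 5) {t : ℕ} {D : Fin t → Submodule F VV} (hD : IsOrthogonalMDecomposition Q 2 D) (hP : ∀ i, IsPlusTypeOn Q (D i)) (ht : 4 ≤ t) :
    ∃ K : Subgroup GG, decompositionStabilizer D ⊓ omegaGL Q < K ∧ K < omegaGL Q := by
  have h5 : (5 : F) = 0 := by
    have := FiniteField.cast_card_eq_zero F
    rw [hq] at this
    exact_mod_cast this
  have h2 : (2 : F) ≠ 0 := by
    intro h
    have : (1 : F) = 0 := by linear_combination h5 - 2 * h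
    exact one_ne_zero this
  let i₀ : Fin t := ⟨0, by omega⟩
  let i₁ : Fin t := ⟨1, by omega⟩
  let i₂ : Fin t := ⟨2, by omega⟩
  let i₃ : Fin t := ⟨3, by omega⟩
  have h01 : i₀ ≠ i₁ := by simp [i₀, i₁, Fin.ext_iff]
  have h02 : i₀ ≠ i₂ := by simp [i₀, i₂, Fin.ext_iff]
  have h03 : i₀ ≠ i₃ := by simp [i₀, i₃, Fin.ext_iff]
  have h12 : i₁ ≠ i₂ := by simp [i₁, i₂, Fin.ext_iff]
  have h13 : i₁ ≠ i₃ := by simp [i₁, i₃, Fin.ext_iff]
  have h23 : i₂ ≠ i₃ := by simp [i₂, i₃, Fin.ext_iff]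
  have hb := hQ.polar_bilinear
  obtain ⟨u, hu, u', hu', hQu, hQu', huu', hrep⟩ := hyp_pair hQ (hD.decomp.nondegenerate i₀) (hD.decomp.decomp.finrank_eq i₀) (hP i₀)
  have hQe0 : Q (u + u') = 1 := by
    rw [Q_add' (Q := Q), hQu, hQu', huu']; ring
  have hfr : ∀ v ∈ D i₀, Q v = Q (u + u') → v = u + u' ∨ v = - (u + u') ∨ BB v (u + u') = 0 := by
    intro v hv hQv
    obtain ⟨x, y, rfl⟩ := hrep v hv
    rw [hQe0, Q_add' (Q := Q), hQ.smul, hQ.smul, hQu, hQu', hb.smul_left, hb.smul_right, huu'] at hQv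
    have hxy : x * y = 1 := by linear_combination hQv
    have hx0 : x ≠ 0 := by
      rintro rfl
      simp at hxy
    have hx4 : x ^ 4 = 1 := by
      have := FiniteField.pow_card x
      rw [hq] at this
      have h3 : x * (x ^ 4 - 1) = 0 := by linear_combination this
      rcases mul_eq_zero.mp h3 with h4 | h4
      · exact absurd h4 hx0
      · linear_combination h4
    have h6 : (x ^ 2 - 1) * (x ^ 2 + 1) = 0 := by linear_combination hx4
    rcases mul_eq_zero.mp h6 with h7 | h7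
    · have hy : y = x := by
        have : x * (y - x) = 0 := by linear_combination hxy - h7
        rcases mul_eq_zero.mp this with h8 | h8
        · exact absurd h8 hx0
        · linear_combination h8
      subst hy
      have hsq : y ^ 2 = 1 := by linear_combination h7
      rcases pm_of_sq hsq with rfl | rfl
      · left; simp
      · right; left
        simp
        abel
    · have hy : y = - x := by
        have : x * (y + x) = 0 := by linear_combination hxy + h7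
        rcases mul_eq_zero.mp this with h8 | h8
        · exact absurd h8 hx0
        · linear_combination h8
      subst hy
      right; right
      simp only [hb.add_left, hb.add_right, hb.smul_left, pol_self hQ, hQu, hQu', pol_comm u' u, huu']
      ring
  have hww : ∃ w ∈ D i₀, w ≠ 0 ∧ BB w (u + u') = 0 := by
    refine ⟨u - u', (D i₀).sub_mem hu hu', ?_, ?_⟩
    · intro h0
      have h3 : u = u' := sub_eq_zero.mp h0
      rw [← h3, pol_self hQ, hQu] at huu'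
      simp at huu'
    · simp only [pol_sub_left hQ, hb.add_right, pol_self hQ, hQu, hQu', pol_comm u' u, huu']
      ring
  obtain ⟨e, he, hQe, hframe, hw'⟩ := frame_transport hQ hD ((D i₀).add_mem hu hu') hfr hww
  rw [hQe0] at hQe hframe
  have horth := hD.decomp.orthogonal
  have hee : ∀ i j, i ≠ j → BB (e i) (e j) = 0 := fun i j hij => horth i j hij _ (he i) _ (he j)
  have hQ2 : ∀ i, BB (e i) (e i) = 2 := by
    intro i
    rw [pol_self hQ, hQe, mul_one]
  refine frame_odd hQ h2 hD.decomp.nondegenerate horth one_ne_zero he hQe hframe hw' (i₀ := i₀) (i₁ := i₁) (i₂ := i₂) (i₃ := i₃) h01 h02 h03 h12 h13 h23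
    (f := e i₁ + e i₂ + (2 : F) • e i₃) ?_ ?_ (j₁ := i₁) (j₂ := i₂) h12 ?_ ?_
  · rw [Q_add' (Q := Q), Q_add' (Q := Q), hQ.smul, hQe, hQe, hQe]
    simp only [hb.add_left, hb.smul_right, hee _ _ h12, hee _ _ h13, hee _ _ h23]
    linear_combination h5
  · simp only [hb.add_right, hb.smul_right, hee _ _ h01, hee _ _ h02, hee _ _ h03]
    ring
  · simp only [hb.add_left, hb.smul_left, hQ2, hee _ _ h12.symm, hee _ _ h13.symm]
    simpa using h2
  · simp only [hb.add_left, hb.smul_left, hQ2, hee _ _ h12, hee _ _ h23.symm]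
    simpa using h2

end Five

section CharTwo

variable [Fintype F] (hQ : IsNondegenerateQuadraticForm Q)
include hQ

theorem not_stab_of_two {t : ℕ} {D : Fin t → Submodule F VV}
    (horth : ∀ i j, i ≠ j → AreOrthogonalFor BB (D i) (D j)) {g : GG} {i : Fin t} {v : VV} (hv : v ∈ D i) {j₁ j₂ : Fin t} (hj : j₁ ≠ j₂)
    {a₁ a₂ : VV} (ha₁ : a₁ ∈ D j₁) (ha₂ : a₂ ∈ D j₂) (h1 : BB (g.val *ᵥ v) a₁ ≠ 0) (h2 : BB (g.val *ᵥ v) a₂ ≠ 0) :
    g ∉ decompositionStabilizer D := by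
  rintro ⟨τ, hτ⟩
  have h4 : g.val *ᵥ v ∈ D (τ i) := by
    rw [← hτ i]
    exact ⟨v, hv, by rw [Matrix.toLin'_apply]⟩
  have h5 : τ i = j₁ := by
    by_contra hc
    exact h1 (horth _ _ hc _ h4 _ ha₁)
  have h6 : τ i = j₂ := by
    by_contra hc
    exact h2 (horth _ _ hc _ h4 _ ha₂)
  exact hj (h5.symm.trans h6)

/-- Decompositions into hyperbolic planes in characteristic two. -/
theorem char2_plane (h2 : (2 : F) = 0) {t : ℕ} {D : Fin t → Submodule F VV} (hnd : ∀ i, IsNondegenerateOn BB (D i))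
    (horth : ∀ i j, i ≠ j → AreOrthogonalFor BB (D i) (D j)) {u u' : Fin t → VV} (hu : ∀ i, u i ∈ D i) (hu' : ∀ i, u' i ∈ D i)
    (hQu : ∀ i, Q (u i) = 0) (hQu' : ∀ i, Q (u' i) = 0) (huu' : ∀ i, BB (u i) (u' i) = 1)
    (A : F → Prop) (hA0 : A 0) (hAadd : ∀ a b, A a → A b → A (a + b)) (hAmul : ∀ a b, A a → A b → A (a * b))
    (hS : ∀ i, ∀ w ∈ D i, Q w = 1 → ∀ w' ∈ D i, Q w' = 1 → A (BB w w'))
    {i₀ i₁ i₂ i₃ : Fin t} (h01 : i₀ ≠ i₁) (h02 : i₀ ≠ i₂) (h03 : i₀ ≠ i₃)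
    (h12 : i₁ ≠ i₂) (h13 : i₁ ≠ i₃) (h23 : i₂ ≠ i₃) {w₀ : VV} (hw₀ : w₀ ∈ D i₁) (hQw₀ : Q w₀ = 1) (hnA : ¬ A (BB (u' i₁) w₀)) :
    ∃ K : Subgroup GG, decompositionStabilizer D ⊓ omegaGL Q < K ∧ K < omegaGL Q := by
  have hb := hQ.polar_bilinear
  have hneg : ∀ x : F, - x = x := fun x => by linear_combination (-x) * h2
  have hiso : ∀ g ∈ omegaGL Q, ∀ v, Q (g.val *ᵥ v) = Q v := fun g hg v => (mem_iso_iff g).mp (omegaGL_le_iso hg) v
  have hpolG : ∀ g ∈ omegaGL Q, ∀ v w, BB (g.val *ᵥ v) (g.val *ᵥ w) = BB v w := fun g hg v w => pol_iso' g (hiso g hg) v w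
  obtain ⟨e, hedef⟩ : ∃ e : Fin t → VV, ∀ i, e i = u i + u' i := ⟨_, fun _ => rfl⟩
  have he : ∀ i, e i ∈ D i := fun i => by rw [hedef]; exact (D i).add_mem (hu i) (hu' i)
  have hQe : ∀ i, Q (e i) = 1 := by
    intro i
    rw [hedef, Q_add' (Q := Q), hQu, hQu', huu']; ring
  have hee : ∀ i j, i ≠ j → BB (e i) (e j) = 0 := fun i j hij => horth i j hij _ (he i) _ (he j)
  have hueq : ∀ i, BB (u i) (e i) = 1 := by
    intro i
    rw [hedef, hb.add_right, pol_self hQ, hQu, huu']; ring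
  have hu'e : ∀ i, BB (u' i) (u i) = 1 := fun i => by rw [pol_comm, huu']
  have heu : ∀ i, BB (e i) (u i) = 1 := by
    intro i
    rw [pol_comm, hueq]
  let S : Set VV := {v | ∃ i, v ∈ D i ∧ Q v = 1}
  let T : Set VV := {v | ∀ w ∈ S, A (BB v w)}
  have hST : ∀ v ∈ S, v ∈ T := by
    rintro v ⟨i, hi, hv⟩ w ⟨j, hj, hw⟩
    by_cases hij : i = j
    · subst hij
      exact hS i v hi hv w hj hw
    · rw [horth i j hij v hi w hj]
      exact hA0
  have heS : ∀ i, e i ∈ S := fun i => ⟨i, he i, hQe i⟩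
  -- the form of reflections
  have hrf : ∀ x v : VV, Q x = 1 → (rf Q x).val *ᵥ v = v + BB v x • x := by
    intro x v hx
    rw [rf_apply hQ (by rw [hx]; exact one_ne_zero)]
    unfold rfFun
    rw [hx, div_one, sub_eq_add_neg, ← neg_smul, hneg]
  -- reflections in sums of members of `S` preserve `T`
  have hrfT : ∀ x : VV, Q x = 1 → (∀ v ∈ T, A (BB v x)) → x ∈ T → ∀ v ∈ T, (rf Q x).val *ᵥ v ∈ T := by
    intro x hx hvx hxT v hv w hw
    rw [hrf x v hx, hb.add_left, hb.smul_left]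
    exact hAadd _ _ (hv w hw) (hAmul _ _ (hvx v hv) (hxT w hw))
  set x := e i₀ + e i₁ + e i₂ with hxdef
  have hQx : Q x = 1 := by
    rw [hxdef, Q_add' (Q := Q), Q_add' (Q := Q), hQe, hQe, hQe, hb.add_left, hee _ _ h01, hee _ _ h02, hee _ _ h12]
    linear_combination h2
  have hxT : x ∈ T := by
    intro w hw
    rw [hxdef, hb.add_left, hb.add_left]
    exact hAadd _ _ (hAadd _ _ (hST _ (heS _) w hw) (hST _ (heS _) w hw)) (hST _ (heS _) w hw)
  have hvxT : ∀ v ∈ T, A (BB v x) := by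
    intro v hv
    rw [hxdef, hb.add_right, hb.add_right]
    exact hAadd _ _ (hAadd _ _ (hv _ (heS _)) (hv _ (heS _))) (hv _ (heS _))
  have hg : rf Q x * rf Q (e i₃) ∈ omegaGL Q := rf_mul_mem_omega hQ (by rw [hQx]; exact one_ne_zero) (by rw [hQx, hQe])
  have hgT : ∀ v ∈ T, (rf Q x * rf Q (e i₃)).val *ᵥ v ∈ T := by
    intro v hv
    rw [Units.val_mul, ← Matrix.mulVec_mulVec]
    exact hrfT x hQx hvxT hxT _ (hrfT _ (hQe _) (fun v hv => hv _ (heS _)) (hST _ (heS _)) v hv)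
  have hgH : rf Q x * rf Q (e i₃) ∉ decompositionStabilizer D ⊓ omegaGL Q := by
    rintro ⟨hs, -⟩
    have hval : (rf Q x * rf Q (e i₃)).val *ᵥ u i₀ = u i₀ + x := by
      rw [Units.val_mul, ← Matrix.mulVec_mulVec, hrf _ _ (hQe i₃), horth _ _ h03 _ (hu i₀) _ (he i₃), zero_smul, add_zero, hrf _ _ hQx, hxdef, hb.add_right, hb.add_right,
        hueq, horth _ _ h01 _ (hu i₀) _ (he i₁), horth _ _ h02 _ (hu i₀) _ (he i₂)]
      simp
    refine not_stab_of_two hQ horth (hu i₀) h12 (hu i₁) (hu i₂) ?_ ?_ hs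
    · rw [hval, hb.add_left, horth _ _ h01 _ (hu i₀) _ (hu i₁), hxdef, hb.add_left, hb.add_left, heu, horth _ _ h01 _ (he i₀) _ (hu i₁), horth _ _ h12.symm _ (he i₂) _ (hu i₁)]
      simp
    · rw [hval, hb.add_left, horth _ _ h02 _ (hu i₀) _ (hu i₂), hxdef, hb.add_left, hb.add_left, heu, horth _ _ h02 _ (he i₀) _ (hu i₂), horth _ _ h12 _ (he i₁) _ (hu i₂)]
      simp
  -- the element outside `K`
  have hQx' : Q (e i₀ + u i₁) = 1 := by
    rw [Q_add' (Q := Q), hQe, hQu, horth _ _ h01 _ (he i₀) _ (hu i₁)]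
    ring
  have hs : rf Q (e i₀ + u i₁) * rf Q (e i₂) ∈ omegaGL Q := rf_mul_mem_omega hQ (by rw [hQx']; exact one_ne_zero) (by rw [hQx', hQe])
  have hse : (rf Q (e i₀ + u i₁) * rf Q (e i₂)).val *ᵥ e i₁ = e i₀ + u' i₁ := by
    rw [Units.val_mul, ← Matrix.mulVec_mulVec, hrf _ _ (hQe i₂), hee _ _ h12, zero_smul, add_zero, hrf _ _ hQx', hb.add_right, hee _ _ h01.symm, heu, zero_add, one_smul]
    rw [hedef i₁]
    have h3 : u i₁ + u i₁ = 0 := by
      rw [← two_smul F, h2, zero_smul]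
    calc u i₁ + u' i₁ + (e i₀ + u i₁) = (u i₁ + u i₁) + (e i₀ + u' i₁) := by abel
      _ = e i₀ + u' i₁ := by rw [h3, zero_add]
  refine exists_between T inf_le_right ?_ hg hgH hgT hs (hST _ (heS i₁)) ?_
  · rintro g ⟨hgs, hgΩ⟩ v hv w ⟨j, hj, hw⟩
    have h3 : g⁻¹ ∈ decompositionStabilizer D ⊓ omegaGL Q := inv_mem ⟨hgs, hgΩ⟩
    obtain ⟨τ, hτ⟩ := h3.1
    have h4 : (g⁻¹).val *ᵥ w ∈ S := by
      refine ⟨τ j, ?_, by rw [hiso _ h3.2, hw]⟩
      rw [← hτ j]
      exact ⟨w, hj, by rw [Matrix.toLin'_apply]⟩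
    have h5 := hv _ h4
    rw [← hpolG g hgΩ, Matrix.mulVec_mulVec, ← Units.val_mul, mul_inv_cancel] at h5
    simpa using h5
  · rw [hse]
    intro h
    have h3 := h w₀ ⟨i₁, hw₀, hQw₀⟩
    rw [hb.add_left, horth _ _ h01 _ (he i₀) _ hw₀, zero_add] at h3
    exact hnA h3

end CharTwo

end Cfsg.Agent.Lib.ClassMax.OmegaFrame
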