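import Mathlib
import Cfsg.Agent.Lib.ClassMax.OmegaFrame3

/-! Plus-type planes over the fields with two and four elements, and plus-type four-spaces over the field with two
elements. -/

set_option autoImplicit false

namespace Cfsg.Agent.Lib.ClassMax.OmegaFrame

open Matrix Cfsg.Geo Cfsg.Agent.Lib.ClassMax Cfsg.Agent.Lib.ClassMax.QuadOver Cfsg.Agent.Lib.ClassMax.OmegaCore

variable {ι : Type} [Fintype ι] [DecidableEq ι] {F : Type*} [Field F] {Q : (ι → F) → F}

local notation "BB" => QuadraticMap.polar Q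
local notation "VV" => (ι → F)
local notation "MM" => Matrix ι ι F
local notation "GG" => GL ι F

variable [Fintype F]

theorem two_zero_of_card2 (hq : Fintype.card F = 2) : (2 : F) = 0 := by
  have := FiniteField.cast_card_eq_zero F
  rw [hq] at this
  exact_mod_cast this

theorem two_zero_of_card4 (hq : Fintype.card F = 4) : (2 : F) = 0 := by
  have := FiniteField.cast_card_eq_zero F
  rw [hq] at this
  have h : (2 : F) ^ 2 = 0 := by
    push_cast at this
    linear_combination this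
  exact pow_eq_zero_iff (by norm_num) |>.mp h

theorem eq_one_of_card2 (hq : Fintype.card F = 2) {x : F} (h0 : x ≠ 0) : x = 1 := by
  have h := FiniteField.pow_card x
  rw [hq] at h
  have h3 : x * (x - 1) = 0 := by linear_combination h
  rcases mul_eq_zero.mp h3 with h4 | h4
  · exact absurd h4 h0
  · linear_combination h4

theorem cube_of_card4 (hq : Fintype.card F = 4) {x : F} (h0 : x ≠ 0) : x ^ 3 = 1 := by
  have h := FiniteField.pow_card x
  rw [hq] at h
  have h3 : x * (x ^ 3 - 1) = 0 := by linear_combination h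
  rcases mul_eq_zero.mp h3 with h4 | h4
  · exact absurd h4 h0
  · linear_combination h4

theorem exists_omega (hq : Fintype.card F = 4) : ∃ ω : F, ω ^ 2 + ω + 1 = 0 := by
  classical
  have h : ∃ ω : F, ω ≠ 0 ∧ ω ≠ 1 := by
    by_contra hc
    push Not at hc
    have hsub : (Finset.univ : Finset F) ⊆ {0, 1} := by
      intro x _
      by_cases hx : x = 0
      · simp [hx]
      · simp [hc x hx]
    have := Finset.card_le_card hsub
    rw [Finset.card_univ, hq] at this
    have h2 : ({0, 1} : Finset F).card ≤ 2 := Finset.card_le_two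
    omega
  obtain ⟨ω, h0, h1⟩ := h
  refine ⟨ω, ?_⟩
  have h3 := cube_of_card4 hq h0
  have h4 : (ω - 1) * (ω ^ 2 + ω + 1) = 0 := by linear_combination h3
  rcases mul_eq_zero.mp h4 with h5 | h5
  · exact absurd (sub_eq_zero.mp h5) h1
  · exact h5

section Main

variable (hQ : IsNondegenerateQuadraticForm Q)
include hQ

/-- Plus-type planes over the field with two elements. -/
theorem plane2_main (hq : Fintype.card F = 2) {t : ℕ} {D : Fin t → Submodule F VV} (hD : IsNondegenerateMDecomposition BB 2 D) (hP : ∀ i, IsPlusTypeOn Q (D i)) (ht : 4 ≤ t) :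
    ∃ K : Subgroup GG, decompositionStabilizer D ⊓ omegaGL Q < K ∧ K < omegaGL Q := by
  have h2 := two_zero_of_card2 hq
  have hb := hQ.polar_bilinear
  have hp := fun i => hyp_pair hQ (hD.nondegenerate i) (hD.decomp.finrank_eq i) (hP i)
  choose u hu u' hu' hQu hQu' huu' hrep using hp
  let i₀ : Fin t := ⟨0, by omega⟩
  let i₁ : Fin t := ⟨1, by omega⟩
  let i₂ : Fin t := ⟨2, by omega⟩
  let i₃ : Fin t := ⟨3, by omega⟩
  have h01 : i₀ ≠ i₁ := by simp [i₀, i₁, Fin.ext_iff]
  have h02 : i₀ ≠ i₂ := by simp [i₀, i₂, Fin.ext_iff]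
  have h03 : i₀ ≠ i₃ := by simp [i₀, i₃, Fin.ext_iff]
  have h12 : i₁ ≠ i₂ := by simp [i₁, i₂, Fin.ext_iff]
  have h13 : i₁ ≠ i₃ := by simp [i₁, i₃, Fin.ext_iff]
  have h23 : i₂ ≠ i₃ := by simp [i₂, i₃, Fin.ext_iff]
  have hform : ∀ i, ∀ w ∈ D i, Q w = 1 → w = u i + u' i := by
    intro i w hw hQw
    obtain ⟨x, y, rfl⟩ := hrep i w hw
    rw [Q_add' (Q := Q), hQ.smul, hQ.smul, hQu, hQu', hb.smul_left, hb.smul_right, huu'] at hQw
    have hxy : x * y = 1 := by linear_combination hQw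
    have hx : x ≠ 0 := by
      rintro rfl
      simp at hxy
    have hy : y ≠ 0 := by
      rintro rfl
      simp at hxy
    rw [eq_one_of_card2 hq hx, eq_one_of_card2 hq hy, one_smul, one_smul]
  refine char2_plane hQ h2 hD.nondegenerate hD.orthogonal hu hu' hQu hQu' huu' (fun c => c = 0) rfl ?_ ?_ ?_ (i₀ := i₀) (i₁ := i₁) (i₂ := i₂) (i₃ := i₃) h01 h02 h03 h12 h13 h23
    (w₀ := u i₁ + u' i₁) ((D i₁).add_mem (hu i₁) (hu' i₁)) ?_ ?_
  · intro a b ha hb'
    rw [ha, hb', add_zero]
  · intro a b ha _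
    rw [ha, zero_mul]
  · intro i w hw hQw w' hw' hQw'
    rw [hform i w hw hQw, hform i w' hw' hQw', pol_self hQ, h2, zero_mul]
  · rw [Q_add' (Q := Q), hQu, hQu', huu']; ring
  · show ¬ BB (u' i₁) (u i₁ + u' i₁) = 0
    rw [hb.add_right, pol_self hQ, hQu', pol_comm, huu']
    simp

/-- Plus-type planes over the field with four elements. -/
theorem plane4_main (hq : Fintype.card F = 4) {t : ℕ} {D : Fin t → Submodule F VV} (hD : IsNondegenerateMDecomposition BB 2 D) (hP : ∀ i, IsPlusTypeOn Q (D i)) (ht : 4 ≤ t) :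
    ∃ K : Subgroup GG, decompositionStabilizer D ⊓ omegaGL Q < K ∧ K < omegaGL Q := by
  have h2 := two_zero_of_card4 hq
  have hb := hQ.polar_bilinear
  have hp := fun i => hyp_pair hQ (hD.nondegenerate i) (hD.decomp.finrank_eq i) (hP i)
  choose u hu u' hu' hQu hQu' huu' hrep using hp
  let i₀ : Fin t := ⟨0, by omega⟩
  let i₁ : Fin t := ⟨1, by omega⟩
  let i₂ : Fin t := ⟨2, by omega⟩
  let i₃ : Fin t := ⟨3, by omega⟩
  have h01 : i₀ ≠ i₁ := by simp [i₀, i₁, Fin.ext_iff]
  have h02 : i₀ ≠ i₂ := by simp [i₀, i₂, Fin.ext_iff]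
  have h03 : i₀ ≠ i₃ := by simp [i₀, i₃, Fin.ext_iff]
  have h12 : i₁ ≠ i₂ := by simp [i₁, i₂, Fin.ext_iff]
  have h13 : i₁ ≠ i₃ := by simp [i₁, i₃, Fin.ext_iff]
  have h23 : i₂ ≠ i₃ := by simp [i₂, i₃, Fin.ext_iff]
  obtain ⟨ω, hω⟩ := exists_omega hq
  have hω3 : ω ^ 3 = 1 := by linear_combination (ω - 1) * hω
  refine char2_plane hQ h2 hD.nondegenerate hD.orthogonal hu hu' hQu hQu' huu' (fun c => c ^ 2 = c) (by simp) ?_ ?_ ?_ (i₀ := i₀) (i₁ := i₁) (i₂ := i₂) (i₃ := i₃) h01 h02 h03 h12 h13 h23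
    (w₀ := ω • u i₁ + ω ^ 2 • u' i₁) ((D i₁).add_mem ((D i₁).smul_mem _ (hu i₁)) ((D i₁).smul_mem _ (hu' i₁))) ?_ ?_
  · intro a b ha hb'
    show (a + b) ^ 2 = a + b
    have ha' : a ^ 2 = a := ha
    have hb'' : b ^ 2 = b := hb'
    linear_combination ha' + hb'' + (a * b) * h2
  · intro a b ha hb'
    show (a * b) ^ 2 = a * b
    have ha' : a ^ 2 = a := ha
    have hb'' : b ^ 2 = b := hb'
    rw [mul_pow, ha', hb'']
  · intro i w hw hQw w' hw' hQw'
    show (BB w w') ^ 2 = BB w w'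
    obtain ⟨a, b, rfl⟩ := hrep i w hw
    obtain ⟨c, d, rfl⟩ := hrep i w' hw'
    rw [Q_add' (Q := Q), hQ.smul, hQ.smul, hQu, hQu', hb.smul_left, hb.smul_right, huu'] at hQw hQw'
    have hab : a * b = 1 := by linear_combination hQw
    have hcd : c * d = 1 := by linear_combination hQw'
    simp only [hb.add_left, hb.add_right, hb.smul_left, hb.smul_right, pol_self hQ, hQu, hQu', pol_comm (u' i) (u i), huu']
    have hpq : (a * d) * (b * c) = 1 := by linear_combination (c * d) * hab + hcd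
    have hp0 : a * d ≠ 0 := by
      intro h
      rw [h] at hpq
      simp at hpq
    have hp3 := cube_of_card4 hq hp0
    set p := a * d
    set q' := b * c
    have hq' : q' = p ^ 2 := by linear_combination (p ^ 2) * hpq - q' * hp3
    have e : a * (c * (2 * 0)) + a * (d * 1) + (b * (c * 1) + b * (d * (2 * 0))) = p + q' := by
      show _ = a * d + b * c
      ring
    rw [e, hq']
    linear_combination p * hp3 + p ^ 3 * h2
  · rw [Q_add' (Q := Q), hQ.smul, hQ.smul, hQu, hQu', hb.smul_left, hb.smul_right, huu']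
    linear_combination hω3
  · show ¬ (BB (u' i₁) (ω • u i₁ + ω ^ 2 • u' i₁)) ^ 2 = BB (u' i₁) (ω • u i₁ + ω ^ 2 • u' i₁)
    rw [hb.add_right, hb.smul_right, hb.smul_right, pol_self hQ, hQu', pol_comm, huu']
    intro h
    have h3 : ω ^ 2 = ω := by linear_combination h
    have h4 : (1 : F) = 0 := by linear_combination hω - h3 - ω * h2
    exact one_ne_zero h4

end Main

end Cfsg.Agent.Lib.ClassMax.OmegaFrame
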