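import Mathlib
import Cfsg.Agent.Lib.ClassMax.OmegaFrame4

/-! Plus-type four-spaces over the field with two elements: the decomposition refines to anisotropic planes. -/

set_option autoImplicit false

namespace Cfsg.Agent.Lib.ClassMax.OmegaFrame

open Matrix Cfsg.Geo Cfsg.Agent.Lib.ClassMax Cfsg.Agent.Lib.ClassMax.QuadOver Cfsg.Agent.Lib.ClassMax.OmegaCore

variable {ι : Type} [Fintype ι] [DecidableEq ι] {F : Type*} [Field F] {Q : (ι → F) → F}

local notation "BB" => QuadraticMap.polar Q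
local notation "VV" => (ι → F)
local notation "MM" => Matrix ι ι F
local notation "GG" => GL ι F

section Quad

variable (hQ : IsNondegenerateQuadraticForm Q)
include hQ

/-- A hyperbolic quadruple in a four-dimensional plus-type space. -/
theorem hyp_quad {W : Submodule F VV} (hW : IsNondegenerateOn BB W) (hd : Module.finrank F W = 4) (hP : IsPlusTypeOn Q W) :
    ∃ u₁ ∈ W, ∃ u₁' ∈ W, ∃ u₂ ∈ W, ∃ u₂' ∈ W, Q u₁ = 0 ∧ Q u₁' = 0 ∧ Q u₂ = 0 ∧ Q u₂' = 0 ∧ BB u₁ u₁' = 1 ∧ BB u₂ u₂' = 1 ∧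
      BB u₁ u₂ = 0 ∧ BB u₁ u₂' = 0 ∧ BB u₁' u₂ = 0 ∧ BB u₁' u₂' = 0 := by
  have hb := hQ.polar_bilinear
  obtain ⟨U, hUW, hU, hdU⟩ := hP
  rw [hd] at hdU
  have hU1 : U ≠ ⊥ := by
    rintro rfl
    simp at hdU
  obtain ⟨u₁, hu₁, hu₁0⟩ := Submodule.exists_mem_ne_zero_of_ne_bot hU1
  have hlt : Submodule.span F {u₁} < U := by
    apply lt_of_le_of_ne
    · rw [Submodule.span_singleton_le_iff_mem]; exact hu₁
    · intro h
      have : Module.finrank F (Submodule.span F {u₁}) = 1 := finrank_span_singleton hu₁0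
      rw [h] at this
      omega
  obtain ⟨y, hy, hyn⟩ := SetLike.exists_of_lt hlt
  obtain ⟨u₁', hu₁', hQu₁', h11⟩ := hyp_of_singular hQ hW (hUW hu₁) hu₁0 (hU u₁ hu₁)
  set u₂ := y - BB y u₁' • u₁ with hu₂def
  have hu₂ : u₂ ∈ U := U.sub_mem hy (U.smul_mem _ hu₁)
  have hu₂0 : u₂ ≠ 0 := by
    intro h0
    apply hyn
    rw [Submodule.mem_span_singleton]
    exact ⟨BB y u₁', (sub_eq_zero.mp h0).symm⟩
  have hQu₁ := hU u₁ hu₁
  have hQu₂ := hU u₂ hu₂
  have h12 : BB u₁ u₂ = 0 := by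
    have h3 := hU _ (U.add_mem hu₁ hu₂)
    rw [Q_add' (Q := Q), hQu₁, hQu₂] at h3
    linear_combination h3
  have h1'2 : BB u₁' u₂ = 0 := by
    rw [pol_comm, hu₂def, pol_sub_left hQ, hb.smul_left, h11]
    ring
  obtain ⟨x, hx, hxu⟩ := (hW u₂ (hUW hu₂) hu₂0).1
  have h1'1 : BB u₁' u₁ = 1 := by rw [pol_comm, h11]
  have h1'1' : BB u₁' u₁' = 2 * 0 := by rw [pol_self hQ, hQu₁']
  have h1u : BB u₁ u₁ = 2 * 0 := by rw [pol_self hQ, hQu₁]
  set x' := x - BB x u₁' • u₁ - BB x u₁ • u₁' with hx'def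
  have hx'W : x' ∈ W := W.sub_mem (W.sub_mem hx (W.smul_mem _ (hUW hu₁))) (W.smul_mem _ hu₁')
  have hx'1 : BB x' u₁ = 0 := by
    rw [hx'def, pol_sub_left hQ, pol_sub_left hQ, hb.smul_left, hb.smul_left, h1u, h1'1]
    ring
  have hx'1' : BB x' u₁' = 0 := by
    rw [hx'def, pol_sub_left hQ, pol_sub_left hQ, hb.smul_left, hb.smul_left, h11, h1'1']
    ring
  have hx'2 : BB x' u₂ = BB x u₂ := by
    rw [hx'def, pol_sub_left hQ, pol_sub_left hQ, hb.smul_left, hb.smul_left, h12, h1'2]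
    ring
  obtain ⟨u₂', hu₂'W, hQu₂', h22', h2'1, h2'1'⟩ : ∃ u₂' ∈ W, Q u₂' = 0 ∧ BB u₂ u₂' = 1 ∧ BB u₁ u₂' = 0 ∧ BB u₁' u₂' = 0 := by
    set c := BB x' u₂ with hc
    have hc0 : c ≠ 0 := by
      rw [hx'2]; exact hxu
    refine ⟨c⁻¹ • x' - (Q x' * (c⁻¹) ^ 2) • u₂, W.sub_mem (W.smul_mem _ hx'W) (W.smul_mem _ (hUW hu₂)), ?_, ?_, ?_, ?_⟩
    · rw [Q_sub hQ, hQ.smul, hQ.smul, hQu₂, hb.smul_left, hb.smul_right, ← hc]
      field_simp
      ring
    · rw [pol_sub_right hQ, hb.smul_right, hb.smul_right, pol_self hQ, hQu₂, pol_comm u₂ x', ← hc]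
      field_simp
      ring
    · rw [pol_sub_right hQ, hb.smul_right, hb.smul_right, pol_comm u₁ x', hx'1, h12]
      ring
    · rw [pol_sub_right hQ, hb.smul_right, hb.smul_right, pol_comm u₁' x', hx'1', h1'2]
      ring
  exact ⟨u₁, hUW hu₁, u₁', hu₁', u₂, hUW hu₂, u₂', hu₂'W, hQu₁, hQu₁', hQu₂, hQu₂', h11, h22', h12, h2'1, h1'2, h2'1'⟩

variable [Fintype F]

/-- The two anisotropic planes in a four-dimensional plus-type space over the field with two elements. -/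
theorem four_frame (hq : Fintype.card F = 2) {W : Submodule F VV} (hW : IsNondegenerateOn BB W) (hd : Module.finrank F W = 4) (hP : IsPlusTypeOn Q W) :
    ∃ a ∈ W, ∃ b ∈ W, ∃ c ∈ W, ∃ d ∈ W, Q a = 1 ∧ Q b = 1 ∧ Q c = 1 ∧ Q d = 1 ∧ BB a b = 1 ∧ BB c d = 1 ∧ BB a c = 0 ∧ BB a d = 0 ∧ BB b c = 0 ∧ BB b d = 0 ∧
      ∀ v ∈ W, Q v = 1 → (∃ α β : F, v = α • a + β • b) ∨ (∃ γ δ : F, v = γ • c + δ • d) := by
  have h2 := two_zero_of_card2 hq
  have hb := hQ.polar_bilinear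
  obtain ⟨u₁, hu₁, u₁', hu₁', u₂, hu₂, u₂', hu₂', q1, q1', q2, q2', h11, h22, h12, h12', h1'2, h1'2'⟩ := hyp_quad hQ hW hd hP
  have s1 : BB u₁ u₁ = 0 := by rw [pol_self hQ, q1]; ring
  have s1' : BB u₁' u₁' = 0 := by rw [pol_self hQ, q1']; ring
  have s2 : BB u₂ u₂ = 0 := by rw [pol_self hQ, q2]; ring
  have s2' : BB u₂' u₂' = 0 := by rw [pol_self hQ, q2']; ring
  have r1 : BB u₁' u₁ = 1 := by rw [pol_comm, h11]
  have r2 : BB u₂' u₂ = 1 := by rw [pol_comm, h22]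
  have r3 : BB u₂ u₁ = 0 := by rw [pol_comm, h12]
  have r4 : BB u₂' u₁ = 0 := by rw [pol_comm, h12']
  have r5 : BB u₂ u₁' = 0 := by rw [pol_comm, h1'2]
  have r6 : BB u₂' u₁' = 0 := by rw [pol_comm, h1'2']
  have hQexp1 : ∀ x y z : VV, Q (x + y + z) = Q x + Q y + Q z + BB x y + BB x z + BB y z := by
    intro x y z
    rw [Q_add' (Q := Q), Q_add' (Q := Q), hb.add_left]
    ring
  set a := u₁ + u₁' with ha
  set b := u₁ + u₂ + u₂' with hb'
  set c := u₂ + u₂' with hc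
  set d := u₂ + u₁ + u₁' with hd'
  have haW : a ∈ W := W.add_mem hu₁ hu₁'
  have hbW : b ∈ W := W.add_mem (W.add_mem hu₁ hu₂) hu₂'
  have hcW : c ∈ W := W.add_mem hu₂ hu₂'
  have hdW : d ∈ W := W.add_mem (W.add_mem hu₂ hu₁) hu₁'
  have Qa : Q a = 1 := by rw [ha, Q_add' (Q := Q), q1, q1', h11]; ring
  have Qb : Q b = 1 := by
    rw [hb', hQexp1, q1, q2, q2', h12, h12', h22]; ring
  have Qc : Q c = 1 := by rw [hc, Q_add' (Q := Q), q2, q2', h22]; ring
  have Qd : Q d = 1 := by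
    rw [hd', hQexp1, q1, q2, q1', r3, r5, h11]; ring
  have Bab : BB a b = 1 := by
    simp only [ha, hb', hb.add_left, hb.add_right, s1, h12, h12', r1, h1'2, h1'2']
    ring
  have Bcd : BB c d = 1 := by
    simp only [hc, hd', hb.add_left, hb.add_right, s2, r3, r5, r2, r4, r6]
    ring
  have Bac : BB a c = 0 := by
    simp only [ha, hc, hb.add_left, hb.add_right, h12, h12', h1'2, h1'2']
    ring
  have Bad : BB a d = 0 := by
    simp only [ha, hd', hb.add_left, hb.add_right, h12, s1, h11, h1'2, r1, s1']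
    linear_combination h2
  have Bbc : BB b c = 0 := by
    simp only [hb', hc, hb.add_left, hb.add_right, h12, h12', s2, h22, r2, s2']
    linear_combination h2
  have Bbd : BB b d = 0 := by
    simp only [hb', hd', hb.add_left, hb.add_right, h12, s1, h11, s2, r3, r5, r2, r4, r6]
    linear_combination h2
  have Bba : BB b a = 1 := by rw [pol_comm, Bab]
  have Bdc : BB d c = 1 := by rw [pol_comm, Bcd]
  have Bca : BB c a = 0 := by rw [pol_comm, Bac]
  have Bda : BB d a = 0 := by rw [pol_comm, Bad]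
  have Bcb : BB c b = 0 := by rw [pol_comm, Bbc]
  have Bdb : BB d b = 0 := by rw [pol_comm, Bbd]
  have Saa : BB a a = 0 := by rw [pol_self hQ, h2]; ring
  have Sbb : BB b b = 0 := by rw [pol_self hQ, h2]; ring
  have Scc : BB c c = 0 := by rw [pol_self hQ, h2]; ring
  have Sdd : BB d d = 0 := by rw [pol_self hQ, h2]; ring
  refine ⟨a, haW, b, hbW, c, hcW, d, hdW, Qa, Qb, Qc, Qd, Bab, Bcd, Bac, Bad, Bbc, Bbd, ?_⟩
  intro v hv hQv
  have hli : LinearIndependent F ![a, b, c, d] := by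
    rw [Fintype.linearIndependent_iff]
    intro g hg
    rw [Fin.sum_univ_four] at hg
    simp only [Matrix.cons_val_zero, Matrix.cons_val_one, Matrix.cons_val] at hg
    have t1 : BB (g 0 • a + g 1 • b + g 2 • c + g 3 • d) a = 0 := by rw [hg, pol_zero_left hQ]
    have t2 : BB (g 0 • a + g 1 • b + g 2 • c + g 3 • d) b = 0 := by rw [hg, pol_zero_left hQ]
    have t3 : BB (g 0 • a + g 1 • b + g 2 • c + g 3 • d) c = 0 := by rw [hg, pol_zero_left hQ]
    have t4 : BB (g 0 • a + g 1 • b + g 2 • c + g 3 • d) d = 0 := by rw [hg, pol_zero_left hQ]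
    simp only [hb.add_left, hb.smul_left, Saa, Sbb, Scc, Sdd, Bab, Bcd, Bac, Bad, Bbc, Bbd, Bba, Bdc, Bca, Bda, Bcb, Bdb] at t1 t2 t3 t4
    intro i
    fin_cases i
    · simpa using t2
    · simpa using t1
    · simpa using t4
    · simpa using t3
  have hle : Submodule.span F (Set.range ![a, b, c, d]) ≤ W := by
    rw [Submodule.span_le]
    rintro _ ⟨i, rfl⟩
    fin_cases i
    · exact haW
    · exact hbW
    · exact hcW
    · exact hdW
  have heq : Submodule.span F (Set.range ![a, b, c, d]) = W := by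
    apply Submodule.eq_of_le_of_finrank_eq hle
    rw [hd, finrank_span_eq_card hli]
    simp
  rw [← heq, Submodule.mem_span_range_iff_exists_fun] at hv
  obtain ⟨g, hg⟩ := hv
  rw [Fin.sum_univ_four] at hg
  simp only [Matrix.cons_val_zero, Matrix.cons_val_one, Matrix.cons_val] at hg
  subst hg
  set α := g 0
  set β := g 1
  set γ := g 2
  set δ := g 3
  have hQv' : (α ^ 2 + α * β + β ^ 2) + (γ ^ 2 + γ * δ + δ ^ 2) = 1 := by
    rw [← hQv, Q_add' (Q := Q), Q_add' (Q := Q), Q_add' (Q := Q), hQ.smul, hQ.smul, hQ.smul, hQ.smul, Qa, Qb, Qc, Qd]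
    simp only [hb.add_left, hb.smul_left, hb.smul_right, Bab, Bcd, Bac, Bad, Bbc, Bbd]
    ring
  have hn : ∀ x y : F, (x ≠ 0 ∨ y ≠ 0) → x ^ 2 + x * y + y ^ 2 = 1 := by
    intro x y hxy
    by_cases hx : x = 0
    · have hy : y ≠ 0 := hxy.resolve_left (by simpa using hx)
      rw [hx, eq_one_of_card2 hq hy]
      ring
    · by_cases hy : y = 0
      · rw [hy, eq_one_of_card2 hq hx]
        ring
      · rw [eq_one_of_card2 hq hx, eq_one_of_card2 hq hy]
        linear_combination h2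
  by_cases h1 : α ≠ 0 ∨ β ≠ 0
  · by_cases h3 : γ ≠ 0 ∨ δ ≠ 0
    · exfalso
      rw [hn _ _ h1, hn _ _ h3] at hQv'
      have : (1 : F) = 0 := by linear_combination hQv'
      exact one_ne_zero this
    · push Not at h3
      left
      refine ⟨α, β, ?_⟩
      rw [h3.1, h3.2]
      simp
  · push Not at h1
    right
    refine ⟨γ, δ, ?_⟩
    rw [h1.1, h1.2]
    simp

/-- Plus-type four-spaces over the field with two elements. -/
theorem four2_main (hq : Fintype.card F = 2) (hn : 7 ≤ Fintype.card ι) {t : ℕ} {D : Fin t → Submodule F VV} (hD : IsNondegenerateMDecomposition BB 4 D) (hP : ∀ i, IsPlusTypeOn Q (D i)) (ht : 4 ≤ t) :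
    ∃ K : Subgroup GG, decompositionStabilizer D ⊓ omegaGL Q < K ∧ K < omegaGL Q := by
  have h2 := two_zero_of_card2 hq
  have hb := hQ.polar_bilinear
  have hnd := hD.nondegenerate
  have horth := hD.orthogonal
  have hp := fun i => four_frame hQ hq (hD.nondegenerate i) (hD.decomp.finrank_eq i) (hP i)
  choose a ha b hb' c hc d hd Qa Qb Qc Qd Bab Bcd Bac Bad Bbc Bbd hrep using hp
  let i₀ : Fin t := ⟨0, by omega⟩
  let i₁ : Fin t := ⟨1, by omega⟩
  let i₂ : Fin t := ⟨2, by omega⟩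
  let i₃ : Fin t := ⟨3, by omega⟩
  have h01 : i₀ ≠ i₁ := by simp [i₀, i₁, Fin.ext_iff]
  have h02 : i₀ ≠ i₂ := by simp [i₀, i₂, Fin.ext_iff]
  have h03 : i₀ ≠ i₃ := by simp [i₀, i₃, Fin.ext_iff]
  have h12 : i₁ ≠ i₂ := by simp [i₁, i₂, Fin.ext_iff]
  have h13 : i₁ ≠ i₃ := by simp [i₁, i₃, Fin.ext_iff]
  have h23 : i₂ ≠ i₃ := by simp [i₂, i₃, Fin.ext_iff]
  have hneg : ∀ x : F, - x = x := fun x => by linear_combination (-x) * h2
  have hnegv : ∀ x : VV, - x = x := fun x => by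
    funext j
    exact hneg (x j)
  have hiso : ∀ g ∈ omegaGL Q, ∀ v, Q (g.val *ᵥ v) = Q v := fun g hg v => (mem_iso_iff g).mp (omegaGL_le_iso hg) v
  have hrf : ∀ x v : VV, Q x = 1 → (rf Q x).val *ᵥ v = v + BB v x • x := by
    intro x v hx
    rw [rf_apply hQ (by rw [hx]; exact one_ne_zero)]
    unfold rfFun
    rw [hx, div_one, sub_eq_add_neg, ← neg_smul, hneg]
  have Saa : ∀ i, BB (a i) (a i) = 0 := fun i => by rw [pol_self hQ, h2]; ring
  have Sbb : ∀ i, BB (b i) (b i) = 0 := fun i => by rw [pol_self hQ, h2]; ring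
  have Scc : ∀ i, BB (c i) (c i) = 0 := fun i => by rw [pol_self hQ, h2]; ring
  have Bba : ∀ i, BB (b i) (a i) = 1 := fun i => by rw [pol_comm, Bab]
  have Bca : ∀ i, BB (c i) (a i) = 0 := fun i => by rw [pol_comm, Bac]
  have Bcb : ∀ i, BB (c i) (b i) = 0 := fun i => by rw [pol_comm, Bbc]
  have Bda : ∀ i, BB (d i) (a i) = 0 := fun i => by rw [pol_comm, Bad]
  have Bdb : ∀ i, BB (d i) (b i) = 0 := fun i => by rw [pol_comm, Bbd]
  have oaa : ∀ i j, i ≠ j → BB (a i) (a j) = 0 := fun i j hij => horth i j hij _ (ha i) _ (ha j)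
  have oab : ∀ i j, i ≠ j → BB (a i) (b j) = 0 := fun i j hij => horth i j hij _ (ha i) _ (hb' j)
  have oba : ∀ i j, i ≠ j → BB (b i) (a j) = 0 := fun i j hij => horth i j hij _ (hb' i) _ (ha j)
  have obb : ∀ i j, i ≠ j → BB (b i) (b j) = 0 := fun i j hij => horth i j hij _ (hb' i) _ (hb' j)
  let S : Set VV := {v | ∃ i, v ∈ D i ∧ Q v = 1}
  -- the Siegel element exchanging two planes
  set u := a i₀ + a i₁ with hu
  set w := b i₀ + b i₁ with hw
  have hQu : Q u = 0 := by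
    rw [hu, Q_add' (Q := Q), Qa, Qa, oaa _ _ h01]
    linear_combination h2
  have hQw : Q w = 0 := by
    rw [hw, Q_add' (Q := Q), Qb, Qb, obb _ _ h01]
    linear_combination h2
  have huw : BB u w = 0 := by
    simp only [hu, hw, hb.add_left, hb.add_right, Bab, oab _ _ h01, oab _ _ h01.symm]
    linear_combination h2
  have hg : sg Q u w ∈ omegaGL Q := sg_ts_mem_omega hQ hn hQu hQw huw
  have hgv : ∀ v, (sg Q u w).val *ᵥ v = v + BB v w • u + BB v u • w := by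
    intro v
    rw [sg_apply hQ hQu huw]
    unfold sgFun
    rw [hQw, zero_mul, zero_smul, sub_zero, sub_eq_add_neg, ← neg_smul, hneg]
  have hga0 : (sg Q u w).val *ᵥ a i₀ = a i₁ := by
    rw [hgv]
    simp only [hu, hw, hb.add_right, Bab, oab _ _ h01, Saa, oaa _ _ h01]
    rw [add_zero, add_zero, zero_smul, one_smul, add_zero, ← add_assoc, ← two_smul F, h2, zero_smul, zero_add]
  have hgb0 : (sg Q u w).val *ᵥ b i₀ = b i₁ := by
    rw [hgv]
    simp only [hu, hw, hb.add_right, Bba, oba _ _ h01, Sbb, obb _ _ h01]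
    rw [add_zero, add_zero, zero_smul, one_smul, add_zero, ← add_assoc, ← two_smul F, h2, zero_smul, zero_add]
  have hga1 : (sg Q u w).val *ᵥ a i₁ = a i₀ := by
    rw [hgv]
    simp only [hu, hw, hb.add_right, Bab, oab _ _ h01.symm, Saa, oaa _ _ h01.symm]
    rw [zero_add, zero_add, zero_smul, one_smul, add_zero, add_comm (a i₀), ← add_assoc, ← two_smul F, h2, zero_smul, zero_add]
  have hgb1 : (sg Q u w).val *ᵥ b i₁ = b i₀ := by
    rw [hgv]
    simp only [hu, hw, hb.add_right, Bba, oba _ _ h01.symm, Sbb, obb _ _ h01.symm]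
    rw [zero_add, zero_add, zero_smul, one_smul, add_zero, add_comm (b i₀), ← add_assoc, ← two_smul F, h2, zero_smul, zero_add]
  have hgfix : ∀ v, BB v (a i₀) = 0 → BB v (a i₁) = 0 → BB v (b i₀) = 0 → BB v (b i₁) = 0 → (sg Q u w).val *ᵥ v = v := by
    intro v h1 h3 h4 h5
    rw [hgv, hu, hw, hb.add_right, hb.add_right, h1, h3, h4, h5]
    simp
  have hgH : sg Q u w ∉ decompositionStabilizer D ⊓ omegaGL Q := by
    rintro ⟨hs, -⟩
    have hc0 : c i₀ ≠ 0 := by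
      intro h0
      have := Qc i₀
      rw [h0, Q_zero hQ] at this
      exact zero_ne_one this
    have ha1 : a i₁ ≠ 0 := by
      intro h0
      have := Qa i₁
      rw [h0, Q_zero hQ] at this
      exact zero_ne_one this
    refine not_mem_stab hQ hnd horth h01 (hc i₀) hc0 ?_ (ha i₀) ?_ ?_ hs
    · exact hgfix _ (Bca _) (horth _ _ h01 _ (hc i₀) _ (ha i₁)) (Bcb _) (horth _ _ h01 _ (hc i₀) _ (hb' i₁))
    · rw [hga0]; exact ha i₁
    · rw [hga0]; exact ha1
  have hgT : ∀ v ∈ S, (sg Q u w).val *ᵥ v ∈ S := by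
    rintro v ⟨i, hi, hv⟩
    have hany : ∀ j, j ≠ i → ∀ y ∈ D j, BB v y = 0 := fun j hj y hy => horth i j hj.symm _ hi _ hy
    by_cases c0 : i = i₀
    · subst c0
      rcases hrep _ v hi hv with ⟨α, β, rfl⟩ | ⟨γ, δ, rfl⟩
      · refine ⟨i₁, ?_, by rw [hiso _ hg, hv]⟩
        rw [Matrix.mulVec_add, Matrix.mulVec_smul, Matrix.mulVec_smul, hga0, hgb0]
        exact (D i₁).add_mem ((D i₁).smul_mem _ (ha i₁)) ((D i₁).smul_mem _ (hb' i₁))
      · rw [hgfix _ ?_ (hany _ h01.symm _ (ha i₁)) ?_ (hany _ h01.symm _ (hb' i₁))]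
        · exact ⟨_, hi, hv⟩
        · simp only [hb.add_left, hb.smul_left, Bca, Bda, mul_zero, add_zero]
        · simp only [hb.add_left, hb.smul_left, Bcb, Bdb, mul_zero, add_zero]
    by_cases c1 : i = i₁
    · subst c1
      rcases hrep _ v hi hv with ⟨α, β, rfl⟩ | ⟨γ, δ, rfl⟩
      · refine ⟨i₀, ?_, by rw [hiso _ hg, hv]⟩
        rw [Matrix.mulVec_add, Matrix.mulVec_smul, Matrix.mulVec_smul, hga1, hgb1]
        exact (D i₀).add_mem ((D i₀).smul_mem _ (ha i₀)) ((D i₀).smul_mem _ (hb' i₀))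
      · rw [hgfix _ (hany _ h01 _ (ha i₀)) ?_ (hany _ h01 _ (hb' i₀)) ?_]
        · exact ⟨_, hi, hv⟩
        · simp only [hb.add_left, hb.smul_left, Bca, Bda, mul_zero, add_zero]
        · simp only [hb.add_left, hb.smul_left, Bcb, Bdb, mul_zero, add_zero]
    · rw [hgfix _ (hany _ (Ne.symm c0) _ (ha i₀)) (hany _ (Ne.symm c1) _ (ha i₁)) (hany _ (Ne.symm c0) _ (hb' i₀)) (hany _ (Ne.symm c1) _ (hb' i₁))]
      exact ⟨i, hi, hv⟩
  -- the element outside `K`
  set x := a i₀ + a i₁ + a i₂ with hxdef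
  have hQx : Q x = 1 := by
    rw [hxdef, Q_add' (Q := Q), Q_add' (Q := Q), Qa, Qa, Qa, hb.add_left, oaa _ _ h01, oaa _ _ h02, oaa _ _ h12]
    linear_combination h2
  have hs : rf Q x * rf Q (a i₃) ∈ omegaGL Q := rf_mul_mem_omega hQ (by rw [hQx]; exact one_ne_zero) (by rw [hQx, Qa])
  have hse : (rf Q x * rf Q (a i₃)).val *ᵥ b i₀ = b i₀ + x := by
    rw [Units.val_mul, ← Matrix.mulVec_mulVec, hrf _ _ (Qa i₃), oba _ _ h03, zero_smul, add_zero, hrf _ _ hQx, hxdef, hb.add_right, hb.add_right,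
      Bba, oba _ _ h01, oba _ _ h02]
    simp
  refine exists_between S inf_le_right ?_ hg hgH hgT hs (v₀ := b i₀) ⟨i₀, hb' i₀, Qb i₀⟩ ?_
  · rintro g ⟨⟨τ, hτ⟩, hgΩ⟩ v ⟨i, hi, hv⟩
    refine ⟨τ i, ?_, by rw [hiso g hgΩ, hv]⟩
    rw [← hτ i]
    exact ⟨v, hi, by rw [Matrix.toLin'_apply]⟩
  · rw [hse]
    rintro ⟨j, hj, -⟩
    have h5 : j = i₁ := by
      by_contra hc'
      have := horth _ _ hc' _ hj _ (hb' i₁)
      rw [hb.add_left, obb _ _ h01, zero_add, hxdef, hb.add_left, hb.add_left, oab _ _ h01, Bab, oab _ _ h12.symm] at this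
      simp at this
    have h6 : j = i₂ := by
      by_contra hc'
      have := horth _ _ hc' _ hj _ (hb' i₂)
      rw [hb.add_left, obb _ _ h02, zero_add, hxdef, hb.add_left, hb.add_left, oab _ _ h02, oab _ _ h12, Bab] at this
      simp at this
    exact h12 (h5.symm.trans h6)

end Quad

end Cfsg.Agent.Lib.ClassMax.OmegaFrame
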