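import Mathlib
import Cfsg.Agent.Lib.ClassMax.OmegaCrit
import Cfsg.Agent.Lib.ClassMax.OmegaPlane

/-! A quadratic extension structure on an orthogonal space whose elements rescale the form: the unitary subgroups. -/

set_option autoImplicit false

namespace Cfsg.Agent.Lib.ClassMax.OmegaCore

open Matrix Cfsg.Geo Cfsg.Agent.Lib.ClassMax Cfsg.Agent.Lib.ClassMax.QuadOver

variable {ι : Type} [Fintype ι] [DecidableEq ι] {F : Type*} [Field F] {Q : (ι → F) → F}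

local notation "BB" => QuadraticMap.polar Q
local notation "VV" => (ι → F)
local notation "MM" => Matrix ι ι F
local notation "GG" => GL ι F

/-- The data of a quadratic extension field acting on the orthogonal space. -/
structure QF (Q : (ι → F) → F) (κ : Matrix ι ι F) (τ ν : F) : Prop where
  sq : ∀ v, κ *ᵥ (κ *ᵥ v) = τ • κ *ᵥ v - ν • v
  adj : ∀ u v, QuadraticMap.polar Q (κ *ᵥ u) v = τ * QuadraticMap.polar Q u v - QuadraticMap.polar Q u (κ *ᵥ v)
  scale : ∀ v, Q (κ *ᵥ v) = ν * Q v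
  split : ∀ v, QuadraticMap.polar Q v (κ *ᵥ v) = τ * Q v
  nonz : ∀ a b : F, a ^ 2 + a * b * τ + b ^ 2 * ν = 0 → a = 0 ∧ b = 0

/-- The line of `c` over the extension field. -/
def KL (κ : Matrix ι ι F) (c : ι → F) : Submodule F (ι → F) := Submodule.span F (Set.range ![c, κ *ᵥ c])

theorem mem_KL {κ : MM} {c x : VV} : x ∈ KL κ c ↔ ∃ a b : F, a • c + b • κ *ᵥ c = x := by
  unfold KL
  rw [Submodule.mem_span_range_iff_exists_fun]
  constructor
  · rintro ⟨t, rfl⟩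
    refine ⟨t 0, t 1, ?_⟩
    rw [Fin.sum_univ_two]
    rfl
  · rintro ⟨a, b, rfl⟩
    refine ⟨![a, b], ?_⟩
    rw [Fin.sum_univ_two]
    rfl

theorem finrank_KL_le (κ : MM) (c : VV) : Module.finrank F (KL κ c) ≤ 2 := by
  unfold KL
  have : Module.finrank F (Submodule.span F (Set.range ![c, κ *ᵥ c])) ≤ Fintype.card (Fin 2) := finrank_range_le_card _
  simpa using this

theorem self_mem_KL {κ : MM} {c : VV} : c ∈ KL κ c := mem_KL.mpr ⟨1, 0, by simp⟩

theorem kappa_mem_KL {κ : MM} {c : VV} : κ *ᵥ c ∈ KL κ c := mem_KL.mpr ⟨0, 1, by simp⟩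

section Form

variable (hQ : IsNondegenerateQuadraticForm Q) {κ : Matrix ι ι F} {τ ν : F} (qf : QF Q κ τ ν)
include qf

theorem QF.nu_ne : ν ≠ 0 := by
  intro h0
  have := (qf.nonz 0 1 (by rw [h0]; ring)).2
  exact one_ne_zero this

theorem QF.N_ne {a b : F} (h : ¬ (a = 0 ∧ b = 0)) : a ^ 2 + a * b * τ + b ^ 2 * ν ≠ 0 :=
  fun h0 => h (qf.nonz a b h0)

omit qf in
theorem mulVec_lin (a b : F) (v : ι → F) : κ *ᵥ (a • v + b • κ *ᵥ v) = a • κ *ᵥ v + b • κ *ᵥ (κ *ᵥ v) := by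
  rw [Matrix.mulVec_add, Matrix.mulVec_smul, Matrix.mulVec_smul]

theorem lin_conj (a b : F) (v : ι → F) :
    (a + b * τ) • (a • v + b • κ *ᵥ v) + (-b) • κ *ᵥ (a • v + b • κ *ᵥ v) = (a ^ 2 + a * b * τ + b ^ 2 * ν) • v := by
  rw [mulVec_lin, qf.sq]
  module

/-- Stability of a line. -/
theorem KL_stable {c x : VV} (hx : x ∈ KL κ c) : κ *ᵥ x ∈ KL κ c := by
  obtain ⟨a, b, rfl⟩ := mem_KL.mp hx
  rw [mulVec_lin, qf.sq]
  refine mem_KL.mpr ⟨-(b * ν), a + b * τ, ?_⟩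
  module

theorem sup_stable {A B : Submodule F VV} (hA : ∀ x ∈ A, κ *ᵥ x ∈ A) (hB : ∀ x ∈ B, κ *ᵥ x ∈ B) : ∀ x ∈ A ⊔ B, κ *ᵥ x ∈ A ⊔ B := by
  intro x hx
  obtain ⟨a, ha, b, hb, rfl⟩ := Submodule.mem_sup.mp hx
  rw [Matrix.mulVec_add]
  exact Submodule.add_mem_sup (hA a ha) (hB b hb)

/-- If a non-zero element of the field moves `c` into a stable subspace, `c` lies there. -/
theorem line_mem {T : Submodule F VV} (hT : ∀ x ∈ T, κ *ᵥ x ∈ T) {a b : F} (hne : ¬ (a = 0 ∧ b = 0)) {c : VV}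
    (h : a • c + b • κ *ᵥ c ∈ T) : c ∈ T := by
  have h1 := T.add_mem (T.smul_mem (a + b * τ) h) (T.smul_mem (-b) (hT _ h))
  rw [lin_conj qf] at h1
  have h2 := T.smul_mem (a ^ 2 + a * b * τ + b ^ 2 * ν)⁻¹ h1
  rwa [smul_smul, inv_mul_cancel₀ (qf.N_ne hne), one_smul] at h2

theorem line_ne {a b : F} (hne : ¬ (a = 0 ∧ b = 0)) {c : VV} (hc : c ≠ 0) : a • c + b • κ *ᵥ c ≠ 0 := by
  intro h0
  apply hc
  have h1 := lin_conj qf a b c
  rw [h0, Matrix.mulVec_zero, smul_zero, smul_zero, add_zero] at h1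
  exact (smul_eq_zero.mp h1.symm).resolve_left (qf.N_ne hne)

/-- Independence of three lines. -/
theorem ind6 {c₁ c₂ c₃ : VV} (h1 : c₁ ≠ 0) (h2 : c₂ ∉ KL κ c₁) (h3 : c₃ ∉ KL κ c₁ ⊔ KL κ c₂) (a : Fin 6 → F)
    (h : ∑ i, a i • ![c₁, κ *ᵥ c₁, c₂, κ *ᵥ c₂, c₃, κ *ᵥ c₃] i = 0) : a = 0 := by
  rw [Fin.sum_univ_six] at h
  simp only [Matrix.cons_val_zero, Matrix.cons_val_one, Matrix.cons_val] at h
  have hS1 : ∀ x ∈ KL κ c₁, κ *ᵥ x ∈ KL κ c₁ := fun x hx => KL_stable qf hx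
  have hS2 : ∀ x ∈ KL κ c₂, κ *ᵥ x ∈ KL κ c₂ := fun x hx => KL_stable qf hx
  have hS := sup_stable qf hS1 hS2
  have e3 : a 4 = 0 ∧ a 5 = 0 := by
    by_contra hne
    apply h3
    apply line_mem qf hS hne
    have e : a 4 • c₃ + a 5 • κ *ᵥ c₃ = -(a 0 • c₁ + a 1 • κ *ᵥ c₁) + -(a 2 • c₂ + a 3 • κ *ᵥ c₂) := by
      rw [← sub_eq_zero, ← h]
      abel
    rw [e]
    refine Submodule.add_mem_sup (Submodule.neg_mem _ (mem_KL.mpr ⟨_, _, rfl⟩)) (Submodule.neg_mem _ (mem_KL.mpr ⟨_, _, rfl⟩))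
  rw [e3.1, e3.2, zero_smul, zero_smul, add_zero, add_zero] at h
  have e2 : a 2 = 0 ∧ a 3 = 0 := by
    by_contra hne
    apply h2
    apply line_mem qf hS1 hne
    have e : a 2 • c₂ + a 3 • κ *ᵥ c₂ = -(a 0 • c₁ + a 1 • κ *ᵥ c₁) := by
      rw [← sub_eq_zero, sub_neg_eq_add, add_comm, ← add_assoc]
      exact h
    rw [e]
    exact Submodule.neg_mem _ (mem_KL.mpr ⟨_, _, rfl⟩)
  rw [e2.1, e2.2, zero_smul, zero_smul, add_zero, add_zero] at h
  have e1 : a 0 = 0 ∧ a 1 = 0 := by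
    by_contra hne
    exact line_ne qf hne h1 h
  funext i
  fin_cases i
  · exact e1.1
  · exact e1.2
  · exact e2.1
  · exact e2.2
  · exact e3.1
  · exact e3.2

include hQ

omit qf in
/-- Prescribing values of the polar form on an independent family. -/
theorem exists_vals {r : ℕ} (w : Fin r → VV) (hw : ∀ a : Fin r → F, ∑ i, a i • w i = 0 → a = 0) (t : Fin r → F) :
    ∃ d, ∀ i, BB (w i) d = t i := by
  have hb := hQ.polar_bilinear
  let L : VV →ₗ[F] (Fin r → F) := LinearMap.pi fun i => bilinOf BB hb (w i)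
  have hL : ∀ d i, L d i = BB (w i) d := fun d i => rfl
  by_contra hcon
  push Not at hcon
  have ht : t ∉ LinearMap.range L := by
    rintro ⟨d, rfl⟩
    obtain ⟨i, hi⟩ := hcon d
    exact hi rfl
  obtain ⟨φ, h1, h2⟩ := exists_dotProduct_of_notMem ht
  have h3 : ∀ d, BB (∑ i, φ i • w i) d = 0 := by
    intro d
    have h4 := h1 _ ⟨d, rfl⟩
    have hsum : ∀ s : Finset (Fin r), BB (∑ i ∈ s, φ i • w i) d = ∑ i ∈ s, φ i * BB (w i) d := by
      intro s
      induction s using Finset.induction_on with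
      | empty => simp [pol_zero_left hQ]
      | insert a s ha ih =>
        rw [Finset.sum_insert ha, Finset.sum_insert ha, hb.add_left, hb.smul_left, ih]
    rw [hsum]
    simpa [dotProduct, hL] using h4
  have h5 : ∑ i, φ i • w i = 0 := by
    by_contra h0
    obtain ⟨x, hx⟩ := (hQ.nondegenerate _ h0).2
    exact hx (h3 x)
  have h6 := hw φ h5
  rw [h6] at h2
  simp at h2

/-- A non-singular vector perpendicular to three lines. -/
theorem exists_nonsing_perp (hn : 13 ≤ Fintype.card ι) (c : Fin 3 → VV) :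
    ∃ e, (∀ i, BB (c i) e = 0) ∧ (∀ i, BB (κ *ᵥ c i) e = 0) ∧ Q e ≠ 0 := by
  have hb := hQ.polar_bilinear
  by_contra hcon
  push Not at hcon
  let L : VV →ₗ[F] (Fin 3 ⊕ Fin 3 → F) := LinearMap.pi fun i => bilinOf BB hb (Sum.elim c (fun i => κ *ᵥ c i) i)
  have hL : ∀ v, v ∈ LinearMap.ker L → (∀ i, BB (c i) v = 0) ∧ ∀ i, BB (κ *ᵥ c i) v = 0 := by
    intro v hv
    have h1 := LinearMap.mem_ker.mp hv
    exact ⟨fun i => congrFun h1 (Sum.inl i), fun i => congrFun h1 (Sum.inr i)⟩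
  have hts : IsTotallySingularQuad Q (LinearMap.ker L) := fun w hw => by
    obtain ⟨h1, h2⟩ := hL w hw
    exact hcon w h1 h2
  have h3 := two_finrank_le hQ hts
  have h4 := LinearMap.finrank_range_add_finrank_ker L
  have h5 : Module.finrank F (LinearMap.range L) ≤ 6 := by
    have := Submodule.finrank_le (LinearMap.range L)
    simpa using this
  simp only [Module.finrank_fintype_fun_eq_card] at h4
  omega

/-- Any vector can be made singular by a correction perpendicular to three lines. -/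
theorem exists_sing_val [Finite F] (hn : 13 ≤ Fintype.card ι) (c : Fin 3 → VV) (d₀ : VV) :
    ∃ d, (∀ i, BB (c i) d = BB (c i) d₀) ∧ (∀ i, BB (κ *ᵥ c i) d = BB (κ *ᵥ c i) d₀) ∧ Q d = 0 := by
  have hb := hQ.polar_bilinear
  obtain ⟨e, h1, h2, h3⟩ := exists_nonsing_perp hQ qf hn c
  let Φ : (Fin 3 → F) →ₗ[F] VV :=
    { toFun := fun x => x 0 • e + x 1 • κ *ᵥ e + x 2 • d₀
      map_add' := fun x y => by
        simp only [Pi.add_apply]
        module
      map_smul' := fun c x => by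
        simp only [Pi.smul_apply, smul_eq_mul, RingHom.id_apply]
        module }
  obtain ⟨x, hx0, hxQ⟩ := Cfsg.Agent.Lib.Quad.exists_isotropic ((quadOf Q hQ).comp Φ) (by simp)
  have hz : Q (Φ x) = 0 := hxQ
  have hΦ : Φ x = x 0 • e + x 1 • κ *ᵥ e + x 2 • d₀ := rfl
  have hlin : ∀ a b : F, Q (a • e + b • κ *ᵥ e) = (a ^ 2 + a * b * τ + b ^ 2 * ν) * Q e := by
    intro a b
    rw [Q_add' (Q := Q), hQ.smul, hQ.smul, qf.scale, hb.smul_left, hb.smul_right, qf.split]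
    ring
  have hx2 : x 2 ≠ 0 := by
    intro h0
    rw [hΦ, h0, zero_smul, add_zero, hlin] at hz
    have h4 : x 0 = 0 ∧ x 1 = 0 := by
      by_contra hne
      exact mul_ne_zero (qf.N_ne hne) h3 hz
    apply hx0
    funext i
    fin_cases i
    · exact h4.1
    · exact h4.2
    · exact h0
  have hκe : ∀ i, BB (c i) (κ *ᵥ e) = 0 := by
    intro i
    have := qf.adj (c i) e
    rw [h2 i, h1 i, mul_zero, zero_sub] at this
    exact neg_eq_zero.mp this.symm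
  have hκκe : ∀ i, BB (κ *ᵥ c i) (κ *ᵥ e) = 0 := by
    intro i
    have := qf.adj (κ *ᵥ c i) e
    rw [qf.sq, pol_sub_left hQ, hb.smul_left, hb.smul_left, h2 i, h1 i] at this
    simp only [mul_zero, sub_zero, zero_sub] at this
    exact neg_eq_zero.mp this.symm
  refine ⟨(x 2)⁻¹ • Φ x, fun i => ?_, fun i => ?_, ?_⟩
  · rw [hΦ, hb.smul_right, hb.add_right, hb.add_right, hb.smul_right, hb.smul_right, hb.smul_right, h1 i, hκe i]
    field_simp
    ring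
  · rw [hΦ, hb.smul_right, hb.add_right, hb.add_right, hb.smul_right, hb.smul_right, hb.smul_right, h2 i, hκκe i]
    field_simp
    ring
  · rw [hQ.smul, hz, mul_zero]

/-- Singular vectors with prescribed values on three independent lines. -/
theorem exists_d [Finite F] (hn : 13 ≤ Fintype.card ι) {c₁ c₂ c₃ : VV} (h1 : c₁ ≠ 0) (h2 : c₂ ∉ KL κ c₁) (h3 : c₃ ∉ KL κ c₁ ⊔ KL κ c₂)
    (t₀ t₁ t₂ t₃ t₄ t₅ : F) :
    ∃ d, Q d = 0 ∧ BB c₁ d = t₀ ∧ BB (κ *ᵥ c₁) d = t₁ ∧ BB c₂ d = t₂ ∧ BB (κ *ᵥ c₂) d = t₃ ∧ BB c₃ d = t₄ ∧ BB (κ *ᵥ c₃) d = t₅ := by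
  obtain ⟨d₀, hd₀⟩ := exists_vals hQ ![c₁, κ *ᵥ c₁, c₂, κ *ᵥ c₂, c₃, κ *ᵥ c₃] (ind6 qf h1 h2 h3) ![t₀, t₁, t₂, t₃, t₄, t₅]
  obtain ⟨d, h4, h5, h6⟩ := exists_sing_val hQ qf hn ![c₁, c₂, c₃] d₀
  refine ⟨d, h6, ?_, ?_, ?_, ?_, ?_, ?_⟩
  · rw [show BB c₁ d = BB c₁ d₀ from h4 0]; exact hd₀ 0
  · rw [show BB (κ *ᵥ c₁) d = BB (κ *ᵥ c₁) d₀ from h5 0]; exact hd₀ 1
  · rw [show BB c₂ d = BB c₂ d₀ from h4 1]; exact hd₀ 2
  · rw [show BB (κ *ᵥ c₂) d = BB (κ *ᵥ c₂) d₀ from h5 1]; exact hd₀ 3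
  · rw [show BB c₃ d = BB c₃ d₀ from h4 2]; exact hd₀ 4
  · rw [show BB (κ *ᵥ c₃) d = BB (κ *ᵥ c₃) d₀ from h5 2]; exact hd₀ 5

end Form

section Max

variable [Fintype F] (hQ : IsNondegenerateQuadraticForm Q) {κ : Matrix ι ι F} {τ ν : F} (qf : QF Q κ τ ν)
include hQ qf

theorem pol_adj_right (u v : ι → F) : BB u (κ *ᵥ v) = τ * BB u v - BB (κ *ᵥ u) v := by
  rw [qf.adj]
  ring

theorem pol_kk (u v : ι → F) : BB (κ *ᵥ u) (κ *ᵥ v) = ν * BB u v := by
  have hb := hQ.polar_bilinear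
  rw [qf.adj, qf.sq, pol_sub_right hQ, hb.smul_right, hb.smul_right]
  ring

/-- Perpendicularity to a line. -/
theorem perp_right {y c : ι → F} (h1 : BB y c = 0) (h2 : BB (κ *ᵥ y) c = 0) : BB y (κ *ᵥ c) = 0 := by
  rw [pol_adj_right hQ qf, h1, h2]
  ring

theorem perp_left {y c : ι → F} (h1 : BB y c = 0) (h2 : BB y (κ *ᵥ c) = 0) : BB (κ *ᵥ y) c = 0 := by
  rw [qf.adj, h1, h2]
  ring

omit qf in
theorem pol_self_zero {z : ι → F} (hz : Q z = 0) : BB z z = 0 := by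
  rw [pol_self hQ, hz, mul_zero]

theorem sing_k {z : ι → F} (hz : Q z = 0) : Q (κ *ᵥ z) = 0 := by
  rw [qf.scale, hz, mul_zero]

theorem pol_zk {z : ι → F} (hz : Q z = 0) : BB z (κ *ᵥ z) = 0 := by
  rw [qf.split, hz, mul_zero]

theorem sing_KL {z x : ι → F} (hz : Q z = 0) (hx : x ∈ KL κ z) : Q x = 0 := by
  obtain ⟨a, b, rfl⟩ := mem_KL.mp hx
  have hb := hQ.polar_bilinear
  rw [Q_add' (Q := Q), hQ.smul, hQ.smul, sing_k hQ qf hz, hz, hb.smul_left, hb.smul_right, pol_zk hQ qf hz]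
  ring

theorem pol_KL {z x : ι → F} (hz : Q z = 0) (hx : x ∈ KL κ z) : BB z x = 0 := by
  obtain ⟨a, b, rfl⟩ := mem_KL.mp hx
  have hb := hQ.polar_bilinear
  rw [hb.add_right, hb.smul_right, hb.smul_right, pol_zk hQ qf hz, pol_self_zero hQ hz]
  ring

omit hQ qf [Fintype F] in
theorem perp_KL {y z x : ι → F} (hb : IsBilinearForm BB) (h1 : BB y z = 0) (h2 : BB y (κ *ᵥ z) = 0) (hx : x ∈ KL κ z) : BB y x = 0 := by
  obtain ⟨a, b, rfl⟩ := mem_KL.mp hx
  rw [hb.add_right, hb.smul_right, hb.smul_right, h1, h2]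
  ring

/-- A line-parameter Siegel element commutes with the field. -/
theorem sg_k_comm {z : ι → F} (hz : Q z = 0) (μ : F) :
    ((sg Q z (μ • κ *ᵥ z) : GL ι F) : Matrix ι ι F) * κ = κ * ((sg Q z (μ • κ *ᵥ z) : GL ι F) : Matrix ι ι F) := by
  have hb := hQ.polar_bilinear
  have h0 : BB z (μ • κ *ᵥ z) = 0 := by rw [hb.smul_right, pol_zk hQ qf hz, mul_zero]
  apply Cfsg.Agent.Lib.Classical.mat_ext_mulVec
  intro v
  rw [← Matrix.mulVec_mulVec, ← Matrix.mulVec_mulVec, sg_apply hQ hz h0, sg_apply hQ hz h0]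
  unfold sgFun
  have hQ0 : Q (μ • κ *ᵥ z) = 0 := by rw [hQ.smul, sing_k hQ qf hz, mul_zero]
  rw [hQ0]
  simp only [zero_mul, zero_smul, sub_zero, hb.smul_right]
  rw [pol_kk hQ qf, qf.adj, Matrix.mulVec_sub, Matrix.mulVec_add, Matrix.mulVec_smul, Matrix.mulVec_smul, Matrix.mulVec_smul, qf.sq]
  module

omit [Fintype F] hQ qf in
/-- A criterion for normalising. -/
theorem mem_norm_of_conj {K : Subalgebra F (Matrix ι ι F)} (hk : ∀ k, k ∈ K ↔ ∃ a b : F, k = a • 1 + b • κ) {g : GL ι F} {p q : F} (hq : q ≠ 0)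
    (h : (g : Matrix ι ι F) * κ * ((g⁻¹ : GL ι F) : Matrix ι ι F) = p • 1 + q • κ) : g ∈ subalgebraNormalizer K := by
  have e1 : ∀ a b : F, (g : Matrix ι ι F) * (a • 1 + b • κ) * ((g⁻¹ : GL ι F) : Matrix ι ι F) = (a + b * p) • 1 + (b * q) • κ := by
    intro a b
    rw [Matrix.mul_add, Matrix.add_mul, Matrix.mul_smul, Matrix.mul_smul, Matrix.smul_mul, Matrix.smul_mul, h, Matrix.mul_one,
      ← Units.val_mul, mul_inv_cancel, Units.val_one]
    module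
  intro k
  constructor
  · intro hkK
    obtain ⟨a, b, rfl⟩ := (hk _).mp hkK
    rw [e1]
    exact (hk _).mpr ⟨_, _, rfl⟩
  · intro hkK
    obtain ⟨a, b, hab⟩ := (hk _).mp hkK
    have e2 : k = (a - b * q⁻¹ * p) • 1 + (b * q⁻¹) • κ := by
      have e3 := e1 (a - b * q⁻¹ * p) (b * q⁻¹)
      have e4 : (a - b * q⁻¹ * p + b * q⁻¹ * p) = a := by ring
      have e5 : b * q⁻¹ * q = b := by field_simp
      rw [e4, e5, ← hab] at e3
      have hg : IsUnit (g : Matrix ι ι F) := g.isUnit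
      have hgi : ((g⁻¹ : GL ι F) : Matrix ι ι F) * (g : Matrix ι ι F) = 1 := by
        rw [← Units.val_mul, inv_mul_cancel, Units.val_one]
      have e6 : (g : Matrix ι ι F) * k = (g : Matrix ι ι F) * ((a - b * q⁻¹ * p) • 1 + (b * q⁻¹) • κ) := by
        have := congrArg (fun m => m * (g : Matrix ι ι F)) e3
        simp only [Matrix.mul_assoc, hgi, Matrix.mul_one] at this
        exact this.symm
      have := congrArg (fun m => ((g⁻¹ : GL ι F) : Matrix ι ι F) * m) e6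
      simpa only [← Matrix.mul_assoc, hgi, Matrix.one_mul] using this
    rw [e2]
    exact (hk _).mpr ⟨_, _, rfl⟩

/-- The Siegel elements with parameter on the line lie in the normaliser. -/
theorem sg_line_mem {K : Subalgebra F (Matrix ι ι F)} (hk : ∀ k, k ∈ K ↔ ∃ a b : F, k = a • 1 + b • κ) {z x : ι → F} (hz : Q z = 0) (hx : x ∈ KL κ z) :
    sg Q z x ∈ subalgebraNormalizer K := by
  obtain ⟨a, b, rfl⟩ := mem_KL.mp hx
  have hb := hQ.polar_bilinear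
  have h1 : BB z (a • z) = 0 := by rw [hb.smul_right, pol_self_zero hQ hz, mul_zero]
  have h2 : BB z (b • κ *ᵥ z) = 0 := by rw [hb.smul_right, pol_zk hQ qf hz, mul_zero]
  rw [← sg_mul hQ hz h1 h2]
  have h3 : sg Q z (a • z) = 1 := by
    apply gl_ext_mulVec
    intro v
    rw [sg_apply hQ hz h1]
    unfold sgFun
    rw [hQ.smul, hz, hb.smul_right]
    simp only [Units.val_one, Matrix.one_mulVec, mul_zero, zero_mul, zero_smul, sub_zero]
    module
  rw [h3, one_mul]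
  apply mem_norm_of_conj hk (p := 0) (q := 1) one_ne_zero
  rw [sg_k_comm hQ qf hz b, Matrix.mul_assoc, ← Units.val_mul, mul_inv_cancel, Units.val_one, Matrix.mul_one]
  simp

end Max

end Cfsg.Agent.Lib.ClassMax.OmegaCore
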