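import Mathlib
import Cfsg.Agent.Lib.ClassMax.OmegaGU

/-! The maximality of the normaliser of a quadratic extension field inside `Ω`. -/

set_option autoImplicit false

namespace Cfsg.Agent.Lib.ClassMax.OmegaCore

open Matrix Cfsg.Geo Cfsg.Agent.Lib.ClassMax Cfsg.Agent.Lib.ClassMax.QuadOver

variable {ι : Type} [Fintype ι] [DecidableEq ι] {F : Type*} [Field F] {Q : (ι → F) → F}

local notation "BB" => QuadraticMap.polar Q
local notation "VV" => (ι → F)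
local notation "MM" => Matrix ι ι F
local notation "GG" => GL ι F

section Max

variable [Fintype F] (hQ : IsNondegenerateQuadraticForm Q) {κ : Matrix ι ι F} {τ ν : F} (qf : QF Q κ τ ν)
include hQ qf

/-- Moving the second parameter of a Siegel element. -/
theorem move {M : Subgroup (GL ι F)} (hLine : ∀ z x : ι → F, Q z = 0 → x ∈ KL κ z → sg Q z x ∈ M)
    {u c v : ι → F} (hu : Q u = 0) (hc : Q c = 0) (hv : Q v = 0) (huc : BB u c = 0) (huv : BB u v = 0)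
    (hkuv : BB (κ *ᵥ u) v = 0) (hcv : BB c v = 0) (hne : BB c (κ *ᵥ v) ≠ 0) (hM : sg Q u c ∈ M) : sg Q u v ∈ M := by
  have hb := hQ.polar_bilinear
  have hν := qf.nu_ne
  obtain ⟨d, hd⟩ : ∃ d, d = ν⁻¹ • (τ • v - κ *ᵥ v) := ⟨_, rfl⟩
  have hkd : κ *ᵥ d = v := by
    rw [hd, Matrix.mulVec_smul, Matrix.mulVec_sub, Matrix.mulVec_smul, qf.sq]
    have : τ • κ *ᵥ v - (τ • κ *ᵥ v - ν • v) = ν • v := by abel
    rw [this, smul_smul, inv_mul_cancel₀ hν, one_smul]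
  have hdQ : Q d = 0 := by
    have := qf.scale d
    rw [hkd, hv] at this
    exact (mul_eq_zero.mp this.symm).resolve_left hν
  obtain ⟨s, hs⟩ : ∃ s, s = BB c d := ⟨_, rfl⟩
  have hs' : s = - (ν⁻¹ * BB c (κ *ᵥ v)) := by
    rw [hs, hd, hb.smul_right, pol_sub_right hQ, hb.smul_right, hcv]
    ring
  have hs0 : s ≠ 0 := by
    rw [hs']
    exact neg_ne_zero.mpr (mul_ne_zero (inv_ne_zero hν) hne)
  have hdv : BB d v = 0 := by
    rw [← hkd]
    exact pol_zk hQ qf hdQ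
  have hud : BB u d = 0 := by
    rw [hd, hb.smul_right, pol_sub_right hQ, hb.smul_right, huv, pol_adj_right hQ qf, huv, hkuv]
    ring
  have hE : sg Q d (s⁻¹ • v) ∈ M := hLine d _ hdQ (mem_KL.mpr ⟨0, s⁻¹, by rw [hkd]; simp⟩)
  have e := sg_comm hQ hu hc hdQ (x := c) (y := d) (w := s⁻¹ • v) (by rw [hQ.smul, hv, mul_zero]) huc (by rw [hb.smul_right, hdv, mul_zero])
    hud (by rw [hb.smul_right, huv, mul_zero]) (by rw [hb.smul_right, hcv, mul_zero])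
  rw [← hs, sg_smul_left hQ s hu (by rw [hb.smul_right, huv, mul_zero]), smul_smul, mul_inv_cancel₀ hs0, one_smul] at e
  rw [← e]
  exact mul_mem (mul_mem (mul_mem hM hE) (inv_mem hM)) (inv_mem hE)

omit qf in
/-- A singular vector perpendicular to a short family and off a small subspace. -/
theorem exists_sing_off {r : ℕ} (c : Fin r → ι → F) (T : Submodule F (ι → F)) (h : r + Module.finrank F T + 3 ≤ Fintype.card ι) :
    ∃ w, Q w = 0 ∧ (∀ i, BB (c i) w = 0) ∧ w ∉ T := by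
  obtain ⟨z, -, h1, h2, h3⟩ := exists_sing hQ (OrthPair.top hQ) c (bot_le : ⊥ ≤ T) (by simpa using h)
  exact ⟨z, h1, h2, h3⟩

omit hQ qf [Fintype F] in
theorem finrank_KL2_le (a b : ι → F) : Module.finrank F (KL κ a ⊔ KL κ b : Submodule F (ι → F)) ≤ 4 := by
  have h1 := finrank_KL_le κ a
  have h2 := finrank_KL_le κ b
  have h3 := Submodule.finrank_add_le_finrank_add_finrank (KL κ a) (KL κ b)
  omega

omit hQ qf [Fintype F] in
theorem finrank_KL3_le (a b c : ι → F) : Module.finrank F (KL κ a ⊔ KL κ b ⊔ KL κ c : Submodule F (ι → F)) ≤ 6 := by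
  have h1 := finrank_KL2_le (κ := κ) a b
  have h2 := finrank_KL_le κ c
  have h3 := Submodule.finrank_add_le_finrank_add_finrank (KL κ a ⊔ KL κ b) (KL κ c)
  omega

/-- Symmetry of lines. -/
theorem KL_symm {c x : ι → F} (hx : x ∈ KL κ c) (hx0 : x ≠ 0) : c ∈ KL κ x := by
  obtain ⟨a, b, rfl⟩ := mem_KL.mp hx
  have hne : ¬ (a = 0 ∧ b = 0) := by
    rintro ⟨rfl, rfl⟩
    apply hx0
    simp
  exact line_mem qf (fun y hy => KL_stable qf hy) hne self_mem_KL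

/-- Moving the second parameter among all singular vectors perpendicular to the line. -/
theorem move2 (hn : 13 ≤ Fintype.card ι) {M : Subgroup (GL ι F)} (hLine : ∀ z x : ι → F, Q z = 0 → x ∈ KL κ z → sg Q z x ∈ M)
    {u c v : ι → F} (hu0 : u ≠ 0) (hu : Q u = 0) (hc : Q c = 0) (hv : Q v = 0) (huc : BB u c = 0) (hkuc : BB (κ *ᵥ u) c = 0)
    (hcn : c ∉ KL κ u) (huv : BB u v = 0) (hkuv : BB (κ *ᵥ u) v = 0) (hM : sg Q u c ∈ M) : sg Q u v ∈ M := by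
  have hb := hQ.polar_bilinear
  by_cases hvn : v ∈ KL κ u
  · exact hLine u v hu hvn
  obtain ⟨w, hw, hwp, hwT⟩ := exists_sing_off hQ ![u, κ *ᵥ u] (KL κ u ⊔ KL κ c ⊔ KL κ v)
    (by have := finrank_KL3_le (κ := κ) u c v; omega)
  have huw : BB u w = 0 := hwp 0
  have hkuw : BB (κ *ᵥ u) w = 0 := hwp 1
  have hw1 : w ∉ KL κ u ⊔ KL κ c := fun h => hwT (Submodule.mem_sup_left h)
  have hw2 : w ∉ KL κ u ⊔ KL κ v := fun h => hwT ((sup_le (le_sup_left.trans le_sup_left) le_sup_right : KL κ u ⊔ KL κ v ≤ KL κ u ⊔ KL κ c ⊔ KL κ v) h)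
  obtain ⟨d₁, a1, a2, a3, a4, a5, a6, a7⟩ := exists_d hQ qf hn hu0 hcn hw1 0 0 0 1 0 1
  obtain ⟨d₂, b1, b2, b3, b4, b5, b6, b7⟩ := exists_d hQ qf hn hu0 hvn hw2 0 0 0 1 0 1
  have s1 : sg Q u d₁ ∈ M := by
    refine move hQ qf hLine hu hc a1 huc a2 a3 a4 ?_ hM
    rw [pol_adj_right hQ qf, a4, a5]
    simp
  have s2 : sg Q u w ∈ M := by
    refine move hQ qf hLine hu a1 hw a2 huw hkuw (by rw [pol_comm]; exact a6) ?_ s1
    rw [pol_comm, a7]
    exact one_ne_zero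
  have s3 : sg Q u d₂ ∈ M := by
    refine move hQ qf hLine hu hw b1 huw b2 b3 b6 ?_ s2
    rw [pol_adj_right hQ qf, b6, b7]
    simp
  refine move hQ qf hLine hu b1 hv b2 huv hkuv (by rw [pol_comm]; exact b4) ?_ s3
  rw [pol_comm, b5]
  exact one_ne_zero

/-- All Siegel elements with perpendicular lines. -/
theorem all_perp (hn : 13 ≤ Fintype.card ι) {M : Subgroup (GL ι F)} (hLine : ∀ z x : ι → F, Q z = 0 → x ∈ KL κ z → sg Q z x ∈ M)
    {u c : ι → F} (hu0 : u ≠ 0) (hu : Q u = 0) (hc : Q c = 0) (huc : BB u c = 0) (hkuc : BB (κ *ᵥ u) c = 0)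
    (hcn : c ∉ KL κ u) (hM : sg Q u c ∈ M) {x v : ι → F} (hx : Q x = 0) (hv : Q v = 0) (hxv : BB x v = 0) (hkxv : BB (κ *ᵥ x) v = 0) :
    sg Q x v ∈ M := by
  by_cases hx0 : x = 0
  · rw [hx0, sg_zero_left hQ]
    exact one_mem _
  obtain ⟨w, hw, hwp, hwT⟩ := exists_sing_off hQ ![x, κ *ᵥ x, u, κ *ᵥ u] (KL κ x ⊔ KL κ u)
    (by have := finrank_KL2_le (κ := κ) x u; simp; omega)
  have hxw : BB x w = 0 := hwp 0
  have hkxw : BB (κ *ᵥ x) w = 0 := hwp 1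
  have huw : BB u w = 0 := hwp 2
  have hkuw : BB (κ *ᵥ u) w = 0 := hwp 3
  have hw0 : w ≠ 0 := fun h => hwT (h ▸ Submodule.zero_mem _)
  have s1 : sg Q u w ∈ M := move2 hQ qf hn hLine hu0 hu hc hw huc hkuc hcn huw hkuw hM
  have s2 : sg Q w u ∈ M := by
    rw [sg_swap hQ hu hw huw, ← sg_inv hQ hu huw]
    exact inv_mem s1
  have hwu : BB w u = 0 := by rw [pol_comm]; exact huw
  have hkwu : BB (κ *ᵥ w) u = 0 := perp_left hQ qf hwu (by rw [pol_comm]; exact hkuw)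
  have hun : u ∉ KL κ w := fun h => hwT (Submodule.mem_sup_right (KL_symm hQ qf h hu0))
  have hwx : BB w x = 0 := by rw [pol_comm]; exact hxw
  have hkwx : BB (κ *ᵥ w) x = 0 := perp_left hQ qf hwx (by rw [pol_comm]; exact hkxw)
  have s3 : sg Q w x ∈ M := move2 hQ qf hn hLine hw0 hw hu hx hwu hkwu hun hwx hkwx s2
  have s4 : sg Q x w ∈ M := by
    rw [sg_swap hQ hw hx hwx, ← sg_inv hQ hw hwx]
    exact inv_mem s3
  have hwn : w ∉ KL κ x := fun h => hwT (Submodule.mem_sup_left h)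
  exact move2 hQ qf hn hLine hx0 hx hw hv hxw hkxw hwn hxv hkxv s4

/-- All Siegel elements with singular parameters. -/
theorem all_sing (hn : 13 ≤ Fintype.card ι) {M : Subgroup (GL ι F)} (hLine : ∀ z x : ι → F, Q z = 0 → x ∈ KL κ z → sg Q z x ∈ M)
    {u c : ι → F} (hu0 : u ≠ 0) (hu : Q u = 0) (hc : Q c = 0) (huc : BB u c = 0) (hkuc : BB (κ *ᵥ u) c = 0)
    (hcn : c ∉ KL κ u) (hM : sg Q u c ∈ M) {x v : ι → F} (hx : Q x = 0) (hv : Q v = 0) (hxv : BB x v = 0) :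
    sg Q x v ∈ M := by
  by_cases hx0 : x = 0
  · rw [hx0, sg_zero_left hQ]
    exact one_mem _
  by_cases hvn : v ∈ KL κ x
  · exact hLine x v hx hvn
  have hAll := fun {x' v' : ι → F} => all_perp hQ qf hn hLine hu0 hu hc huc hkuc hcn hM (x := x') (v := v')
  obtain ⟨y, hy, hyp, hyT⟩ := exists_sing_off hQ ![x, κ *ᵥ x, v] (KL κ x ⊔ KL κ v)
    (by have := finrank_KL2_le (κ := κ) x v; simp; omega)
  have hxy : BB x y = 0 := hyp 0
  have hkxy : BB (κ *ᵥ x) y = 0 := hyp 1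
  have hvy : BB v y = 0 := hyp 2
  obtain ⟨b, b1, b2, b3, b4, b5, b6, b7⟩ := exists_d hQ qf hn hx0 hvn hyT 0 0 0 0 1 0
  have s1 : sg Q x y ∈ M := hAll hx hy hxy hkxy
  have hbv : BB b v = 0 := by rw [pol_comm]; exact b4
  have s2 : sg Q b v ∈ M := hAll b1 hv hbv (perp_left hQ qf hbv (by rw [pol_comm]; exact b5))
  have e := sg_comm hQ hx hy b1 hv hxy hbv b2 hxv (by rw [pol_comm]; exact hvy)
  rw [b6, one_smul] at e
  rw [← e]
  exact mul_mem (mul_mem (mul_mem s1 s2) (inv_mem s1)) (inv_mem s2)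

/-- Extracting a perpendicular pair from an element moving a line. -/
theorem extract (hn : 13 ≤ Fintype.card ι) {M : Subgroup (GL ι F)} (hLine : ∀ z x : ι → F, Q z = 0 → x ∈ KL κ z → sg Q z x ∈ M)
    {g : GL ι F} (hg : g ∈ M) (hiso : ∀ v, Q ((g : Matrix ι ι F) *ᵥ v) = Q v) {z : ι → F} (hz : Q z = 0)
    (hgz : (g : Matrix ι ι F) *ᵥ (κ *ᵥ z) ∉ KL κ ((g : Matrix ι ι F) *ᵥ z)) :
    ∃ x a : ι → F, x ≠ 0 ∧ Q x = 0 ∧ Q a = 0 ∧ BB x a = 0 ∧ BB (κ *ᵥ x) a = 0 ∧ a ∉ KL κ x ∧ sg Q x a ∈ M := by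
  have hb := hQ.polar_bilinear
  obtain ⟨x, hxd⟩ : ∃ x, x = (g : Matrix ι ι F) *ᵥ z := ⟨_, rfl⟩
  obtain ⟨y, hyd⟩ : ∃ y, y = (g : Matrix ι ι F) *ᵥ (κ *ᵥ z) := ⟨_, rfl⟩
  rw [← hxd, ← hyd] at hgz
  have hx : Q x = 0 := by rw [hxd, hiso, hz]
  have hy : Q y = 0 := by rw [hyd, hiso, sing_k hQ qf hz]
  have hxy : BB x y = 0 := by rw [hxd, hyd, pol_iso' g hiso, pol_zk hQ qf hz]
  have hzk : BB z (κ *ᵥ z) = 0 := pol_zk hQ qf hz
  have hM : sg Q x y ∈ M := by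
    have e := sg_conj hQ hiso hz hzk
    rw [← hxd, ← hyd] at e
    rw [← e]
    exact mul_mem (mul_mem hg (hLine z _ hz kappa_mem_KL)) (inv_mem hg)
  have hx0 : x ≠ 0 := by
    intro h0
    apply hgz
    have hz0 : z = 0 := by
      have h1 : ((g⁻¹ : GL ι F) : Matrix ι ι F) *ᵥ x = z := by
        rw [hxd, Matrix.mulVec_mulVec, ← Units.val_mul, inv_mul_cancel, Units.val_one, Matrix.one_mulVec]
      rw [← h1, h0, Matrix.mulVec_zero]
    rw [hyd, hz0, Matrix.mulVec_zero, Matrix.mulVec_zero]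
    exact Submodule.zero_mem _
  obtain ⟨c₃, hc₃, hc₃p, hc₃T⟩ := exists_sing_off hQ ![x, κ *ᵥ x] (KL κ x ⊔ KL κ y)
    (by have := finrank_KL2_le (κ := κ) x y; omega)
  have hxc : BB x c₃ = 0 := hc₃p 0
  have hkxc : BB (κ *ᵥ x) c₃ = 0 := hc₃p 1
  obtain ⟨e₀, e1, e2, e3, e4, e5, e6, e7⟩ := exists_d hQ qf hn hx0 hgz hc₃T 0 0 1 τ 0 1
  have he₀a : BB e₀ (κ *ᵥ e₀) = 0 := pol_zk hQ qf e1
  have hxa : BB x (κ *ᵥ e₀) = 0 := by rw [pol_adj_right hQ qf, e2, e3]; ring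
  have hya : BB y (κ *ᵥ e₀) = 0 := by rw [pol_adj_right hQ qf, e4, e5]; ring
  have hkxa : BB (κ *ᵥ x) (κ *ᵥ e₀) = 0 := by rw [pol_kk hQ qf, e2, mul_zero]
  have hca : BB c₃ (κ *ᵥ e₀) = -1 := by rw [pol_adj_right hQ qf, e6, e7]; ring
  have e := sg_comm hQ hx hy e1 (sing_k hQ qf e1) hxy he₀a e2 hxa hya
  rw [e4, one_smul] at e
  refine ⟨x, κ *ᵥ e₀, hx0, hx, sing_k hQ qf e1, hxa, hkxa, ?_, ?_⟩
  · intro hin
    have h0 : BB c₃ (κ *ᵥ e₀) = 0 := perp_KL hb (by rw [pol_comm]; exact hxc) (by rw [pol_comm]; exact hkxc) hin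
    rw [hca] at h0
    exact (neg_ne_zero.mpr one_ne_zero) h0
  · rw [← e]
    have hE := hLine e₀ _ e1 (kappa_mem_KL (κ := κ))
    exact mul_mem (mul_mem (mul_mem hM hE) (inv_mem hM)) (inv_mem hE)

/-- If an isometry maps each singular line of the field into a line of the field, it normalises the field. -/
theorem mem_norm_of_lines (hn : 13 ≤ Fintype.card ι) {K : Subalgebra F (Matrix ι ι F)} (hk : ∀ k, k ∈ K ↔ ∃ a b : F, k = a • 1 + b • κ)
    {g : GL ι F} (hiso : ∀ v, Q ((g : Matrix ι ι F) *ᵥ v) = Q v)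
    (hL : ∀ z, Q z = 0 → (g : Matrix ι ι F) *ᵥ (κ *ᵥ z) ∈ KL κ ((g : Matrix ι ι F) *ᵥ z)) : g ∈ subalgebraNormalizer K := by
  have hb := hQ.polar_bilinear
  obtain ⟨κ', hκ'⟩ : ∃ κ', κ' = (g : Matrix ι ι F) * κ * ((g⁻¹ : GL ι F) : Matrix ι ι F) := ⟨_, rfl⟩
  have hgg : ∀ y : ι → F, (g : Matrix ι ι F) *ᵥ (((g⁻¹ : GL ι F) : Matrix ι ι F) *ᵥ y) = y := by
    intro y
    rw [Matrix.mulVec_mulVec, ← Units.val_mul, mul_inv_cancel, Units.val_one, Matrix.one_mulVec]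
  have h1 : ∀ y, Q y = 0 → κ' *ᵥ y ∈ KL κ y := by
    intro y hy
    have := hL (((g⁻¹ : GL ι F) : Matrix ι ι F) *ᵥ y) (by rw [iso_inv hiso, hy])
    rw [hgg] at this
    rwa [hκ', ← Matrix.mulVec_mulVec, ← Matrix.mulVec_mulVec]
  -- comparison of coefficients for perpendicular vectors
  have h2 : ∀ y y' : ι → F, y ≠ 0 → Q y = 0 → Q y' = 0 → BB y y' = 0 → y' ∉ KL κ y → ∀ p q p' q' : F,
      κ' *ᵥ y = p • y + q • κ *ᵥ y → κ' *ᵥ y' = p' • y' + q' • κ *ᵥ y' → p = p' ∧ q = q' := by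
    intro y y' hy0 hy hy' hyy' hn' p q p' q' e1 e2
    have hs : Q (y + y') = 0 := by rw [Q_add' (Q := Q), hy, hy', hyy']; ring
    obtain ⟨r, s, e3⟩ := mem_KL.mp (h1 _ hs)
    rw [Matrix.mulVec_add κ', e1, e2, Matrix.mulVec_add κ] at e3
    have e4 : (p' - r) • y' + (q' - s) • κ *ᵥ y' = -((p - r) • y + (q - s) • κ *ᵥ y) := by
      linear_combination (norm := module) -e3
    have e5 : p' - r = 0 ∧ q' - s = 0 := by
      by_contra hne
      apply hn'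
      refine line_mem qf (fun z hz => KL_stable qf hz) hne ?_
      rw [e4]
      exact Submodule.neg_mem _ (mem_KL.mpr ⟨_, _, rfl⟩)
    rw [e5.1, e5.2, zero_smul, zero_smul, add_zero] at e4
    have e6 : p - r = 0 ∧ q - s = 0 := by
      by_contra hne
      exact line_ne qf hne hy0 (neg_eq_zero.mp e4.symm)
    have e7 := sub_eq_zero.mp e5.1
    have e8 := sub_eq_zero.mp e5.2
    have e9 := sub_eq_zero.mp e6.1
    have e10 := sub_eq_zero.mp e6.2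
    exact ⟨e9.trans e7.symm, e10.trans e8.symm⟩
  obtain ⟨y₀, hy₀, -, hy₀T⟩ := exists_sing_off hQ (![] : Fin 0 → ι → F) ⊥ (by simp; omega)
  have hy₀0 : y₀ ≠ 0 := fun h => hy₀T (h ▸ Submodule.zero_mem _)
  obtain ⟨p, q, hpq⟩ := mem_KL.mp (h1 y₀ hy₀)
  have h3 : ∀ y, Q y = 0 → κ' *ᵥ y = p • y + q • κ *ᵥ y := by
    intro y hy
    by_cases hy0 : y = 0
    · rw [hy0]
      simp
    obtain ⟨w, hw, hwp, hwT⟩ := exists_sing_off hQ ![y₀, y] (KL κ y₀ ⊔ KL κ y)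
      (by have := finrank_KL2_le (κ := κ) y₀ y; omega)
    have hw0 : w ≠ 0 := fun h => hwT (h ▸ Submodule.zero_mem _)
    obtain ⟨p', q', hpq'⟩ := mem_KL.mp (h1 w hw)
    obtain ⟨p'', q'', hpq''⟩ := mem_KL.mp (h1 y hy)
    have e1 := h2 y₀ w hy₀0 hy₀ hw (hwp 0) (fun h => hwT (Submodule.mem_sup_left h)) p q p' q' hpq.symm hpq'.symm
    have e2 := h2 y w hy0 hy hw (hwp 1) (fun h => hwT (Submodule.mem_sup_right h)) p'' q'' p' q' hpq''.symm hpq'.symm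
    rw [e1.1, e1.2, ← e2.1, ← e2.2]
    exact hpq''.symm
  have h4 : κ' = p • 1 + q • κ := by
    apply Cfsg.Agent.Lib.Classical.mat_ext_mulVec
    intro v
    obtain ⟨x₁, x₂, a1, a2, -, -, rfl⟩ := exists_sing_split hQ (by omega) (Q_zero hQ) (pol_zero_left hQ v)
    rw [Matrix.mulVec_add κ', h3 _ a1, h3 _ a2, Matrix.add_mulVec, Matrix.smul_mulVec, Matrix.smul_mulVec, Matrix.one_mulVec,
      Matrix.mulVec_add κ]
    module
  have hq : q ≠ 0 := by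
    intro hq0
    obtain ⟨z₀, hz₀⟩ : ∃ z₀, z₀ = ((g⁻¹ : GL ι F) : Matrix ι ι F) *ᵥ y₀ := ⟨_, rfl⟩
    have hz₀0 : z₀ ≠ 0 := by
      intro h0
      apply hy₀0
      rw [← hgg y₀, ← hz₀, h0, Matrix.mulVec_zero]
    have e := hpq
    rw [hq0, zero_smul, add_zero] at e
    have e1 : (g : Matrix ι ι F) *ᵥ (κ *ᵥ z₀) = (g : Matrix ι ι F) *ᵥ (p • z₀) := by
      rw [Matrix.mulVec_smul, hz₀, hgg, e, hκ', ← Matrix.mulVec_mulVec, ← Matrix.mulVec_mulVec]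
    have hgi : ∀ y : ι → F, ((g⁻¹ : GL ι F) : Matrix ι ι F) *ᵥ ((g : Matrix ι ι F) *ᵥ y) = y := by
      intro y
      rw [Matrix.mulVec_mulVec, ← Units.val_mul, inv_mul_cancel, Units.val_one, Matrix.one_mulVec]
    have e2 : κ *ᵥ z₀ = p • z₀ := by
      rw [← hgi (κ *ᵥ z₀), e1, hgi]
    have hne : ¬ ((-p) = 0 ∧ (1 : F) = 0) := fun h => one_ne_zero h.2
    apply line_ne qf hne hz₀0
    rw [e2]
    module
  exact mem_norm_of_conj hk hq (by rw [← hκ', h4])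

/-- The normaliser does not contain `Ω`. -/
theorem exists_not_norm (hn : 13 ≤ Fintype.card ι) {K : Subalgebra F (Matrix ι ι F)} (hk : ∀ k, k ∈ K ↔ ∃ a b : F, k = a • 1 + b • κ) :
    ∃ g ∈ omegaGL Q, g ∉ subalgebraNormalizer K := by
  have hb := hQ.polar_bilinear
  obtain ⟨x, hx, -, hxT⟩ := exists_sing_off hQ (![] : Fin 0 → ι → F) ⊥ (by simp; omega)
  have hx0 : x ≠ 0 := fun h => hxT (h ▸ Submodule.zero_mem _)
  obtain ⟨a, ha, hap, haT⟩ := exists_sing_off hQ ![x, κ *ᵥ x] (KL κ x)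
    (by have := finrank_KL_le κ x; omega)
  have hxa : BB x a = 0 := hap 0
  have hkxa : BB (κ *ᵥ x) a = 0 := hap 1
  obtain ⟨c₃, -, -, hc₃T⟩ := exists_sing_off hQ (![] : Fin 0 → ι → F) (KL κ x ⊔ KL κ a)
    (by have := finrank_KL2_le (κ := κ) x a; simp; omega)
  obtain ⟨v, -, v1, v2, v3, v4, -, -⟩ := exists_d hQ qf hn hx0 haT hc₃T 0 1 0 0 0 0
  refine ⟨sg Q x a, sg_mem_omega hQ (by omega) hx hxa, fun hN => ?_⟩
  have h1 := (hN κ).mp ((hk κ).mpr ⟨0, 1, by simp⟩)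
  obtain ⟨p, q, hpq⟩ := (hk _).mp h1
  have h2 : (sg Q x a : Matrix ι ι F) * κ = (p • 1 + q • κ) * (sg Q x a : Matrix ι ι F) := by
    rw [← hpq, Matrix.mul_assoc, ← Units.val_mul, inv_mul_cancel, Units.val_one, Matrix.mul_one]
  have hmv : ∀ w : ι → F, (sg Q x a : Matrix ι ι F) *ᵥ (κ *ᵥ w) = p • (sg Q x a : Matrix ι ι F) *ᵥ w + q • κ *ᵥ ((sg Q x a : Matrix ι ι F) *ᵥ w) := by
    intro w
    have := congrArg (fun m => m *ᵥ w) h2
    simp only [← Matrix.mulVec_mulVec] at this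
    rw [this, Matrix.add_mulVec, Matrix.smul_mulVec, Matrix.smul_mulVec, Matrix.one_mulVec]
  have hxx : BB x x = 0 := pol_self_zero hQ hx
  have hfix : (sg Q x a : Matrix ι ι F) *ᵥ x = x := sg_fix hQ hx hxa hxx hxa
  have hfix2 : (sg Q x a : Matrix ι ι F) *ᵥ (κ *ᵥ x) = κ *ᵥ x := by
    refine sg_fix hQ hx hxa ?_ hkxa
    rw [pol_comm]
    exact pol_zk hQ qf hx
  have h3 := hmv x
  rw [hfix, hfix2] at h3
  have h4 : p = 0 ∧ q - 1 = 0 := by
    by_contra hne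
    apply line_ne qf hne hx0
    linear_combination (norm := module) -h3
  have hq : q = 1 := sub_eq_zero.mp h4.2
  have hva : BB v a = 0 := by rw [pol_comm]; exact v3
  have hvx : BB v x = 0 := by rw [pol_comm]; exact v1
  have hvfix : (sg Q x a : Matrix ι ι F) *ᵥ v = v := sg_fix hQ hx hxa hvx hva
  have h5 := hmv v
  rw [hvfix, h4.1, hq, zero_smul, zero_add, one_smul, sg_apply hQ hx hxa] at h5
  unfold sgFun at h5
  have h6 : BB (κ *ᵥ v) a = 0 := by rw [qf.adj, hva, pol_comm v (κ *ᵥ a), v4]; ring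
  have h7 : BB (κ *ᵥ v) x = -1 := by rw [qf.adj, hvx, pol_comm v (κ *ᵥ x), v2]; ring
  rw [h6, h7, ha] at h5
  have h8 : a = 0 := by linear_combination (norm := module) h5
  exact haT (h8 ▸ Submodule.zero_mem _)

/-- Maximality of the normaliser of the field. -/
theorem isMaximal_qf (hn : 13 ≤ Fintype.card ι) {K : Subalgebra F (Matrix ι ι F)} (hk : ∀ k, k ∈ K ↔ ∃ a b : F, k = a • 1 + b • κ) :
    IsMaximalIn (omegaGL Q) (subalgebraNormalizer K ⊓ omegaGL Q) := by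
  have hb := hQ.polar_bilinear
  constructor
  · refine lt_of_le_of_ne inf_le_right ?_
    intro heq
    obtain ⟨g, hg, hgn⟩ := exists_not_norm hQ qf hn hk
    rw [← heq] at hg
    exact hgn hg.1
  intro M hHM hMΩ
  by_cases hle : M ≤ subalgebraNormalizer K ⊓ omegaGL Q
  · exact Or.inl (le_antisymm hle hHM)
  right
  refine le_antisymm hMΩ ?_
  obtain ⟨g, hgM, hgH⟩ := SetLike.not_le_iff_exists.mp hle
  have hgΩ := hMΩ hgM
  have hiso : ∀ v, Q ((g : Matrix ι ι F) *ᵥ v) = Q v := (mem_iso_iff g).mp (omegaGL_le_iso hgΩ)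
  have hLine : ∀ z x : ι → F, Q z = 0 → x ∈ KL κ z → sg Q z x ∈ M := fun z x hz hx =>
    hHM ⟨sg_line_mem hQ qf hk hz hx, sg_mem_omega hQ (by omega) hz (pol_KL hQ qf hz hx)⟩
  obtain ⟨z, hz, hgz⟩ : ∃ z, Q z = 0 ∧ (g : Matrix ι ι F) *ᵥ (κ *ᵥ z) ∉ KL κ ((g : Matrix ι ι F) *ᵥ z) := by
    by_contra hcon
    push Not at hcon
    exact hgH ⟨mem_norm_of_lines hQ qf hn hk hiso hcon, hgΩ⟩
  obtain ⟨x, a, hx0, hx, ha, hxa, hkxa, han, hM⟩ := extract hQ qf hn hLine hgM hiso hz hgz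
  have hAll := fun {x' v' : ι → F} => all_sing hQ qf hn hLine hx0 hx ha hxa hkxa han hM (x := x') (v := v')
  have hFull : ∀ u, Q u = 0 → FullCentre Q M u := by
    intro u hu w hw
    obtain ⟨w₁, w₂, a1, a2, a3, a4, rfl⟩ := exists_sing_split hQ (by omega) hu hw
    rw [← sg_mul hQ hu a3 a4]
    exact mul_mem (hAll hu a1 a3) (hAll hu a2 a4)
  obtain ⟨p, -, p', -, hp, hp', hpp', -, -⟩ := exists_hyp hQ (OrthPair.top hQ) (![] : Fin 0 → ι → F) (by simp; omega)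
  exact omega_le_of_centres hQ hn hp hp' (hFull p hp) (hFull p' hp') (by rw [hpp']; exact one_ne_zero)

end Max

end Cfsg.Agent.Lib.ClassMax.OmegaCore
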