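import Mathlib
import Cfsg.Agent.Lib.ClassMax.OmegaGU2

/-! Extraction of the data of a quadratic extension field acting on an orthogonal space by similarities. -/

set_option autoImplicit false

namespace Cfsg.Agent.Lib.ClassMax.OmegaCore

open Matrix Cfsg.Geo Cfsg.Agent.Lib.ClassMax Cfsg.Agent.Lib.ClassMax.QuadOver

variable {ι : Type} [Fintype ι] [DecidableEq ι] {F : Type*} [Field F] {Q : (ι → F) → F}

local notation "BB" => QuadraticMap.polar Q

/-- A two-dimensional subalgebra is spanned by `1` and one more element. -/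
theorem exists_gen_two [Nonempty ι] {K : Subalgebra F (Matrix ι ι F)} (h2 : Module.finrank F K = 2) :
    ∃ κ ∈ K, (∀ a b : F, a • (1 : Matrix ι ι F) + b • κ = 0 → a = 0 ∧ b = 0) ∧ ∀ k, k ∈ K ↔ ∃ a b : F, k = a • 1 + b • κ := by
  have h2' : Module.finrank F (Subalgebra.toSubmodule K) = 2 := h2
  obtain ⟨κ, hκ, hκT⟩ : ∃ κ, κ ∈ Subalgebra.toSubmodule K ∧ κ ∉ Submodule.span F {(1 : Matrix ι ι F)} := by
    by_contra hcon
    push Not at hcon
    have h3 : Subalgebra.toSubmodule K ≤ Submodule.span F {(1 : Matrix ι ι F)} := hcon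
    have h4 := Submodule.finrank_mono h3
    have h5 := finrank_span_le_card (R := F) ({1} : Set (Matrix ι ι F))
    simp only [Set.toFinset_singleton, Finset.card_singleton] at h5
    omega
  have hind : ∀ a b : F, a • (1 : Matrix ι ι F) + b • κ = 0 → a = 0 ∧ b = 0 := by
    intro a b h0
    by_cases hb : b = 0
    · rw [hb, zero_smul, add_zero] at h0
      exact ⟨(smul_eq_zero.mp h0).resolve_right one_ne_zero, hb⟩
    · exfalso
      apply hκT
      have : κ = (-(b⁻¹ * a)) • (1 : Matrix ι ι F) := by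
        have e : b • κ = (-a) • (1 : Matrix ι ι F) := by
          rw [neg_smul]
          exact eq_neg_of_add_eq_zero_right h0
        have := congrArg (fun m => b⁻¹ • m) e
        simp only [smul_smul, inv_mul_cancel₀ hb, one_smul] at this
        rw [this]
        congr 1
        ring
      rw [this]
      exact Submodule.smul_mem _ _ (Submodule.mem_span_singleton_self _)
  refine ⟨κ, hκ, hind, ?_⟩
  have hli : LinearIndependent F ![(1 : Matrix ι ι F), κ] := LinearIndependent.pair_iff.mpr hind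
  have hfr := finrank_span_eq_card hli
  have hle : Submodule.span F (Set.range ![(1 : Matrix ι ι F), κ]) ≤ Subalgebra.toSubmodule K := by
    rw [Submodule.span_le]
    rintro x ⟨i, rfl⟩
    fin_cases i
    · exact K.one_mem
    · exact hκ
  have heq := Submodule.eq_of_le_of_finrank_eq hle (by rw [hfr, h2']; simp)
  intro k
  have e1 : k ∈ K ↔ k ∈ Subalgebra.toSubmodule K := Iff.rfl
  rw [e1, ← heq, Submodule.mem_span_range_iff_exists_fun]
  constructor
  · rintro ⟨t, rfl⟩
    refine ⟨t 0, t 1, ?_⟩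
    rw [Fin.sum_univ_two]
    rfl
  · rintro ⟨a, b, rfl⟩
    refine ⟨![a, b], ?_⟩
    rw [Fin.sum_univ_two]
    rfl

/-- A vector is determined by its polar values. -/
theorem eq_of_pol (hQ : IsNondegenerateQuadraticForm Q) {x y : ι → F} (h : ∀ w, BB w x = BB w y) : x = y := by
  by_contra hne
  obtain ⟨w, hw⟩ := (hQ.nondegenerate (x - y) (sub_ne_zero.mpr hne)).1
  apply hw
  rw [pol_sub_right hQ, h, sub_self]

/-- The data of the field. -/
theorem exists_kdata [Nonempty ι] (hQ : IsNondegenerateQuadraticForm Q) {K : Subalgebra F (Matrix ι ι F)} (hK : IsFieldSubalgebra 2 K)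
    (hac : IsAdjointClosedFor BB K) (hnsa : ¬ IsSelfAdjointFor BB K) (hsc : ∀ k ∈ K, ∃ c : F, ∀ v : ι → F, Q (k *ᵥ v) = c * Q v) :
    ∃ κ τ ν, QF Q κ τ ν ∧ ∀ k, k ∈ K ↔ ∃ a b : F, k = a • 1 + b • κ := by
  have hb := hQ.polar_bilinear
  obtain ⟨κ, hκ, hind, hk⟩ := exists_gen_two hK.finrank_eq
  obtain ⟨κ', hκ', hadj⟩ := hac κ hκ
  obtain ⟨α, β, rfl⟩ := (hk _).mp hκ'
  have E1 : ∀ u v : ι → F, BB (κ *ᵥ u) v = α * BB u v + β * BB u (κ *ᵥ v) := by
    intro u v
    rw [hadj, Matrix.add_mulVec, Matrix.smul_mulVec, Matrix.smul_mulVec, Matrix.one_mulVec, hb.add_right, hb.smul_right, hb.smul_right]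
  have E2 : ∀ v : ι → F, κ *ᵥ v = (α * (1 + β)) • v + (β ^ 2) • κ *ᵥ v := by
    intro v
    apply eq_of_pol hQ
    intro w
    rw [hb.add_right, hb.smul_right, hb.smul_right]
    have p1 := pol_comm (Q := Q) w (κ *ᵥ v)
    have p2 := pol_comm (Q := Q) v w
    have p3 := pol_comm (Q := Q) v (κ *ᵥ w)
    have a1 := E1 v w
    have a2 := E1 w v
    linear_combination p1 + a1 + α * p2 + β * p3 + β * a2
  have E3 : (α * (1 + β)) • (1 : Matrix ι ι F) + (β ^ 2 - 1) • κ = 0 := by
    apply Cfsg.Agent.Lib.Classical.mat_ext_mulVec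
    intro v
    rw [Matrix.add_mulVec, Matrix.smul_mulVec, Matrix.smul_mulVec, Matrix.one_mulVec, Matrix.zero_mulVec]
    linear_combination (norm := module) -(E2 v)
  obtain ⟨E4, E5⟩ := hind _ _ E3
  have hβ : β = -1 := by
    by_contra hne
    have h1 : 1 + β ≠ 0 := fun h => hne (by linear_combination h)
    have hα : α = 0 := (mul_eq_zero.mp E4).resolve_right h1
    have hβ1 : β = 1 := by
      have : (β - 1) * (1 + β) = 0 := by linear_combination E5
      have := (mul_eq_zero.mp this).resolve_right h1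
      exact sub_eq_zero.mp this
    apply hnsa
    intro k' hk' u v
    obtain ⟨a, b, rfl⟩ := (hk _).mp hk'
    have h2 := E1 u v
    rw [hα, hβ1, zero_mul, zero_add, one_mul] at h2
    rw [Matrix.add_mulVec, Matrix.add_mulVec, Matrix.smul_mulVec, Matrix.smul_mulVec, Matrix.smul_mulVec, Matrix.smul_mulVec,
      Matrix.one_mulVec, Matrix.one_mulVec, hb.add_left, hb.add_right, hb.smul_left, hb.smul_left, hb.smul_right, hb.smul_right, h2]
  subst hβ
  have hadj' : ∀ u v : ι → F, BB (κ *ᵥ u) v = α * BB u v - BB u (κ *ᵥ v) := by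
    intro u v
    rw [E1]
    ring
  obtain ⟨ν, hν⟩ := hsc κ hκ
  have hkk : ∀ u v : ι → F, BB (κ *ᵥ u) (κ *ᵥ v) = ν * BB u v := by
    intro u v
    rw [QuadraticMap.polar, QuadraticMap.polar, ← Matrix.mulVec_add, hν, hν, hν]
    ring
  have hsq : ∀ v : ι → F, κ *ᵥ (κ *ᵥ v) = α • κ *ᵥ v - ν • v := by
    intro v
    apply eq_of_pol hQ
    intro w
    rw [pol_sub_right hQ, hb.smul_right, hb.smul_right]
    have h1 := hadj' w (κ *ᵥ v)
    rw [hkk] at h1
    linear_combination h1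
  obtain ⟨c', hc'⟩ := hsc (1 + κ) (K.add_mem K.one_mem hκ)
  have hspl : ∀ v : ι → F, BB v (κ *ᵥ v) = (c' - 1 - ν) * Q v := by
    intro v
    have h1 := hc' v
    rw [Matrix.add_mulVec, Matrix.one_mulVec, Q_add' (Q := Q), hν] at h1
    linear_combination h1
  obtain ⟨u₀, v₀, huv⟩ : ∃ u₀ v₀ : ι → F, BB u₀ v₀ ≠ 0 := by
    obtain ⟨i⟩ := ‹Nonempty ι›
    obtain ⟨w, hw⟩ := (hQ.nondegenerate (Pi.single i 1) (by
      intro h0
      have := congrFun h0 i
      simp at this)).1
    exact ⟨_, _, hw⟩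
  have hτ : c' - 1 - ν = α := by
    have h1 := hspl (u₀ + v₀)
    rw [Matrix.mulVec_add, hb.add_left, hb.add_right, hb.add_right, hspl, hspl, pol_comm v₀ (κ *ᵥ u₀), hadj', Q_add' (Q := Q)] at h1
    have h2 : (α - (c' - 1 - ν)) * BB u₀ v₀ = 0 := by linear_combination h1
    have := (mul_eq_zero.mp h2).resolve_right huv
    linear_combination -this
  rw [hτ] at hspl
  have hκκ : κ * κ = α • κ - ν • (1 : Matrix ι ι F) := by
    apply Cfsg.Agent.Lib.Classical.mat_ext_mulVec
    intro v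
    rw [← Matrix.mulVec_mulVec, hsq, Matrix.sub_mulVec, Matrix.smul_mulVec, Matrix.smul_mulVec, Matrix.one_mulVec]
  refine ⟨κ, α, ν, ⟨hsq, hadj', hν, hspl, ?_⟩, hk⟩
  intro a b hN
  by_contra hne
  have hk0 : a • (1 : Matrix ι ι F) + b • κ ≠ 0 := fun h => hne (hind a b h)
  obtain ⟨k', -, hk'⟩ := hK.inv _ ((hk _).mpr ⟨a, b, rfl⟩) hk0
  have hk'' := mul_eq_one_comm.mp hk'
  have hprod : (a • (1 : Matrix ι ι F) + b • κ) * ((a + b * α) • 1 + (-b) • κ) = 0 := by
    have e : (a • (1 : Matrix ι ι F) + b • κ) * ((a + b * α) • 1 + (-b) • κ) = (a ^ 2 + a * b * α + b ^ 2 * ν) • 1 := by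
      simp only [Matrix.add_mul, Matrix.mul_add, Matrix.smul_mul, Matrix.mul_smul, Matrix.one_mul, Matrix.mul_one, hκκ]
      module
    rw [e, hN, zero_smul]
  have hz : (a + b * α) • (1 : Matrix ι ι F) + (-b) • κ = 0 := by
    have := congrArg (fun m => k' * m) hprod
    simpa only [← Matrix.mul_assoc, hk'', Matrix.one_mul, Matrix.mul_zero] using this
  obtain ⟨h1, h2⟩ := hind _ _ hz
  have hb0 : b = 0 := neg_eq_zero.mp h2
  apply hne
  refine ⟨?_, hb0⟩
  rw [hb0] at h1
  simpa using h1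

end Cfsg.Agent.Lib.ClassMax.OmegaCore
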