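import Mathlib
import Cfsg.Agent.Lib.ClassMax.SpOver

/-! In characteristic two: the isometry group of a quadratic form polarising to the standard alternating form is
maximal in `Sp`. -/

set_option autoImplicit false

namespace Cfsg.Agent.Lib.ClassMax.OrthInSp

open Matrix Cfsg.Geo Cfsg.Agent.Lib.ClassMax Cfsg.Agent.Lib.KnownSimple

variable {m : ℕ} {F : Type*} [Field F]

local notation "V" => (Fin m ⊕ Fin m → F)
local notation "MM" => Matrix (Fin m ⊕ Fin m) (Fin m ⊕ Fin m) F
local notation "GG" => GL (Fin m ⊕ Fin m) F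
local notation "ff" => Cfsg.sympForm m F

section

variable {Q : (Fin m ⊕ Fin m → F) → F} (hQ : IsNondegenerateQuadraticForm Q)
  (hpol : ∀ u v, QuadraticMap.polar Q u v = Cfsg.sympForm m F u v)

include hpol in
theorem Q_add (u v : Fin m ⊕ Fin m → F) : Q (u + v) = Q u + Q v + Cfsg.sympForm m F u v := by
  rw [← hpol, QuadraticMap.polar]; ring

include hQ in
theorem Q_smul' (c : F) (v : Fin m ⊕ Fin m → F) : Q (c • v) = c ^ 2 * Q v := hQ.smul c v

include hQ hpol in
/-- A hyperbolic singular pair orthogonal to two given vectors. -/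
theorem exists_hyp_pair (h2 : (2 : F) = 0) (hm : 7 ≤ m) (y u₀ : Fin m ⊕ Fin m → F)
    (hsq : ∀ a : F, ∃ b : F, b ^ 2 = a) :
    ∃ b b' : Fin m ⊕ Fin m → F, Q b = 0 ∧ Q b' = 0 ∧ Cfsg.sympForm m F b b' = 1 ∧
      Cfsg.sympForm m F y b = 0 ∧ Cfsg.sympForm m F y b' = 0 ∧ Cfsg.sympForm m F u₀ b = 0 ∧
      Cfsg.sympForm m F u₀ b' = 0 := by
  have hf := sympForm_isSymplectic (m := m) (F := F)
  have hcard : Fintype.card (Fin m ⊕ Fin m) = m + m := by simp
  set S := Submodule.span F (Set.range ![y, u₀]) with hS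
  have hyS : y ∈ S := Submodule.subset_span ⟨0, rfl⟩
  have hu₀S : u₀ ∈ S := Submodule.subset_span ⟨1, rfl⟩
  obtain ⟨p, hp, hpS⟩ := exists_perp_not_mem hf.bilinear ![y, u₀] ![y, u₀] (by omega)
  have hp0 : ff y p = 0 := hp 0
  have hp1 : ff u₀ p = 0 := hp 1
  -- a singular vector outside `S`
  obtain ⟨r, hrQ, hr0, hr1, hrS⟩ : ∃ r, Q r = 0 ∧ ff y r = 0 ∧ ff u₀ r = 0 ∧ r ∉ S := by
    by_cases hQp : Q p = 0
    · exact ⟨p, hQp, hp0, hp1, hpS⟩
    · obtain ⟨q, hq, hqS⟩ := exists_perp_not_mem hf.bilinear ![y, u₀, p] ![y, u₀, p] (by omega)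
      have hq0 : ff y q = 0 := hq 0
      have hq1 : ff u₀ q = 0 := hq 1
      have hq2 : ff p q = 0 := hq 2
      obtain ⟨α, hα⟩ := hsq (Q q / Q p)
      refine ⟨α • p + q, ?_, ?_, ?_, ?_⟩
      · rw [Q_add hpol, Q_smul' hQ, sympForm_smul_left, hq2, hα]
        field_simp
        linear_combination (Q q) * h2
      · rw [sympForm_add_right, sympForm_smul_right, hp0, hq0]; simp
      · rw [sympForm_add_right, sympForm_smul_right, hp1, hq1]; simp
      · intro hmem
        apply hqS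
        have hle : S ≤ Submodule.span F (Set.range ![y, u₀, p]) := by
          rw [hS]
          apply Submodule.span_mono
          rintro _ ⟨i, rfl⟩
          fin_cases i
          · exact ⟨0, rfl⟩
          · exact ⟨1, rfl⟩
        have hp' : p ∈ Submodule.span F (Set.range ![y, u₀, p]) := Submodule.subset_span ⟨2, rfl⟩
        have := Submodule.sub_mem _ (hle hmem) (Submodule.smul_mem _ α hp')
        simpa using this
  obtain ⟨z, hz, hzr⟩ := exists_perp_of_notMem hf hrS
  have hz0 : ff y z = 0 := hz y hyS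
  have hz1 : ff u₀ z = 0 := hz u₀ hu₀S
  refine ⟨r, z + Q z • r, hrQ, ?_, ?_, hr0, ?_, hr1, ?_⟩
  · rw [Q_add hpol, Q_smul' hQ, hrQ, sympForm_smul_right, sympForm_swap z r, hzr]
    ring
  · rw [sympForm_add_right, sympForm_smul_right, sympForm_self, hzr]; simp
  · rw [sympForm_add_right, sympForm_smul_right, hr0, hz0]; simp
  · rw [sympForm_add_right, sympForm_smul_right, hr1, hz1]; simp

include hQ hpol in
/-- Vectors with prescribed value of `Q` and of a linear functional. -/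
theorem exists_level (h2 : (2 : F) = 0) (hm : 7 ≤ m) (hsq : ∀ a : F, ∃ b : F, b ^ 2 = a)
    {y : Fin m ⊕ Fin m → F} (hy : y ≠ 0) (κ e : F) :
    ∃ a' : Fin m ⊕ Fin m → F, a' ≠ 0 ∧ Q a' = κ ∧ Cfsg.sympForm m F y a' = e := by
  have hf := sympForm_isSymplectic (m := m) (F := F)
  obtain ⟨x, hx⟩ := (hf.nondegenerate y hy).2
  obtain ⟨u₀, hu₀y⟩ : ∃ u₀, ff y u₀ = e := ⟨(e / ff y x) • x, by
    rw [sympForm_smul_right]
    field_simp⟩
  obtain ⟨b, b', hb, hb', hbb, h1, h2', h3, h4⟩ := exists_hyp_pair hQ hpol h2 hm y u₀ hsq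
  set t := κ - Q u₀ with ht
  refine ⟨u₀ + b + t • b', ?_, ?_, ?_⟩
  · intro h0
    have h5 : ff b' (u₀ + b + t • b') = 0 := by
      rw [h0]; exact symp_zero_right hf _
    rw [sympForm_add_right, sympForm_add_right, sympForm_smul_right, sympForm_self, sympForm_swap b' u₀,
      sympForm_swap b' b, h4, hbb] at h5
    simp at h5
  · rw [Q_add hpol, Q_add hpol, Q_smul' hQ, hb, hb', sympForm_add_left, sympForm_smul_right,
      sympForm_smul_right, h3, h4, hbb, ht]
    ring
  · rw [sympForm_add_right, sympForm_add_right, sympForm_smul_right, hu₀y, h1, h2']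
    ring

include hQ hpol in
/-- Witt transitivity on vectors with equal value. -/
theorem exists_iso_map {a a' : Fin m ⊕ Fin m → F} (ha : a ≠ 0) (ha' : a' ≠ 0) (h : Q a = Q a') :
    ∃ g : GG, (∀ v, Q ((g : MM) *ᵥ v) = Q v) ∧ (g : MM) *ᵥ a = a' := by
  obtain ⟨θ, -, hθ⟩ := exists_dotProduct_of_notMem (S := ⊥) (u := a) (by simpa using ha)
  let T : V →ₗ[F] V :=
    { toFun := fun v => v + (θ ⬝ᵥ v) • (a' - a)
      map_add' := fun u v => by simp only [dotProduct_add, add_smul]; abel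
      map_smul' := fun c u => by simp only [dotProduct_smul, smul_add, smul_smul, smul_eq_mul, RingHom.id_apply] }
  have hTa : T a = a' := by
    show a + (θ ⬝ᵥ a) • (a' - a) = a'
    rw [hθ, one_smul]; abel
  have hTc : ∀ c : F, T (c • a) = c • a' := fun c => by rw [map_smul, hTa]
  obtain ⟨g, hg1, hg2⟩ := witt_quad_fun hQ (Submodule.span F {a}) T
    (by
      intro u hu
      obtain ⟨c, rfl⟩ := Submodule.mem_span_singleton.mp hu
      rw [hTc, hQ.smul, hQ.smul, h])
    (by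
      intro u hu h0
      obtain ⟨c, rfl⟩ := Submodule.mem_span_singleton.mp hu
      rw [hTc] at h0
      rcases smul_eq_zero.mp h0 with h1 | h1
      · rw [h1, zero_smul]
      · exact absurd h1 ha')
  exact ⟨g, hg1, by rw [hg2 a (Submodule.mem_span_singleton_self a), hTa]⟩

include hpol in
/-- `Q`-isometries lie in `spGL`. -/
theorem iso_mem_spGL {g : GG} (hg : ∀ v, Q ((g : MM) *ᵥ v) = Q v) : g ∈ Cfsg.spGL m F := by
  rw [mem_spGL_iff]
  intro u v
  rw [← hpol, ← hpol, QuadraticMap.polar, QuadraticMap.polar, ← Matrix.mulVec_add, hg, hg, hg]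

include hpol in
theorem iso_mem_H {g : GG} (hg : ∀ v, Q ((g : MM) *ᵥ v) = Q v) :
    g ∈ quadSimilarityGroup Q ⊓ Cfsg.spGL m F :=
  ⟨⟨1, fun v => by rw [hg]; simp⟩, iso_mem_spGL hpol hg⟩

include hpol in
/-- Elements of `H` are isometries. -/
theorem H_iso {g : GG} (hg : g ∈ quadSimilarityGroup Q ⊓ Cfsg.spGL m F) (hm : 0 < m) (v : Fin m ⊕ Fin m → F) :
    Q ((g : MM) *ᵥ v) = Q v := by
  have hf := sympForm_isSymplectic (m := m) (F := F)
  obtain ⟨⟨c, hc⟩, hs⟩ := hg
  have hsp : ∀ u v, ff ((g : MM) *ᵥ u) ((g : MM) *ᵥ v) = ff u v := hs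
  have h1 : ∀ u v, ff u v = c * ff u v := by
    intro u v
    have h : QuadraticMap.polar Q ((g : MM) *ᵥ u) ((g : MM) *ᵥ v) = c * QuadraticMap.polar Q u v := by
      rw [QuadraticMap.polar, QuadraticMap.polar, ← Matrix.mulVec_add, hc, hc, hc]
      ring
    have := hsp u v
    rw [← hpol, ← hpol, h] at this
    rw [← hpol]
    exact this.symm
  -- a non-zero value
  have hex : ∃ x : Fin m ⊕ Fin m → F, x ≠ 0 := ⟨Pi.single (Sum.inl ⟨0, hm⟩) 1, fun h => by
    have := congrFun h (Sum.inl ⟨0, hm⟩)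
    simp at this⟩
  obtain ⟨x, hx⟩ := hex
  obtain ⟨w, hw⟩ := (hf.nondegenerate x hx).1
  have hc1 : (c : F) = 1 := by
    have h2 := h1 w x
    have h3 : ((c : F) - 1) * ff w x = 0 := by linear_combination -h2
    rcases mul_eq_zero.mp h3 with h4 | h4
    · exact sub_eq_zero.mp h4
    · exact absurd h4 hw
  rw [hc, hc1, one_mul]

include hpol in
/-- The orthogonal transvection. -/
theorem stv_refl_iso (h2 : (2 : F) = 0) {x : Fin m ⊕ Fin m → F} (hx : Q x ≠ 0) (hQ : IsNondegenerateQuadraticForm Q)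
    (v : Fin m ⊕ Fin m → F) : Q ((stv x (Q x)⁻¹ : GG) *ᵥ v) = Q v := by
  rw [stv_apply, Q_add hpol, hQ.smul, sympForm_smul_right]
  field_simp
  linear_combination (ff v x ^ 2) * h2

end


section Main

variable [Fintype F] {Q : (Fin m ⊕ Fin m → F) → F} (hQ : IsNondegenerateQuadraticForm Q)
  (hpol : ∀ u v, QuadraticMap.polar Q u v = Cfsg.sympForm m F u v)

include hQ hpol in
/-- The main step: a non-isometry in `M` gives all symplectic transvections. -/
theorem stv_mem_of_not_iso (heven : ¬ Odd (Fintype.card F)) (hm : 7 ≤ m) (M : Subgroup GG)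
    (hH : quadSimilarityGroup Q ⊓ Cfsg.spGL m F ≤ M) (hMS : M ≤ Cfsg.spGL m F) (g : GG) (hgM : g ∈ M)
    (hg : g ∉ quadSimilarityGroup Q) (y : Fin m ⊕ Fin m → F) (c : F) : stv y c ∈ M := by
  classical
  have hf := sympForm_isSymplectic (m := m) (F := F)
  have hm0 : 0 < m := by omega
  -- characteristic two
  have h2 : (2 : F) = 0 := by
    have h3 : ringChar F = 2 := by
      by_contra hne
      exact heven (Nat.odd_iff.mpr (FiniteField.odd_card_of_char_ne_two hne))
    have := ringChar.spec F 2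
    have h4 : ((2 : ℕ) : F) = 0 := (ringChar.spec F 2).mpr (by rw [h3])
    simpa using h4
  haveI : CharP F 2 := CharTwo.of_one_ne_zero_of_two_eq_zero one_ne_zero h2
  haveI : Fact (Nat.Prime 2) := ⟨Nat.prime_two⟩
  have hsq : ∀ a : F, ∃ b : F, b ^ 2 = a := fun a => by
    refine ⟨(frobeniusEquiv F 2).symm a, ?_⟩
    have := frobenius_apply_frobeniusEquiv_symm F 2 a
    rwa [frobenius_def] at this
  by_cases hy : y = 0
  · rw [hy, stv_zero_left]; exact M.one_mem
  by_cases hc : c = 0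
  · rw [hc, stv_zero_right]; exact M.one_mem
  set σ := (frobeniusEquiv F 2).symm with hσ
  have hσsq : ∀ a : F, σ a ^ 2 = a := fun a => by
    have := frobenius_apply_frobeniusEquiv_symm F 2 a
    rwa [frobenius_def] at this
  have hσsq' : ∀ a : F, σ (a ^ 2) = a := fun a => by
    have := frobeniusEquiv_symm_apply_frobenius F 2 a
    rwa [frobenius_def] at this
  -- the additive function `E`
  set ginv : MM := ((g⁻¹ : GG) : MM) with hginv
  have hgS : g ∈ Cfsg.spGL m F := hMS hgM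
  have hgiS : g⁻¹ ∈ Cfsg.spGL m F := inv_mem hgS
  have hform : ∀ u v, ff (ginv *ᵥ u) (ginv *ᵥ v) = ff u v := hgiS
  set E : (Fin m ⊕ Fin m → F) → F := fun v => Q (ginv *ᵥ v) + Q v with hE
  have hEadd : ∀ u v, E (u + v) = E u + E v := by
    intro u v
    simp only [hE]
    rw [Matrix.mulVec_add, Q_add hpol, Q_add hpol, hform]
    linear_combination (ff u v) * h2
  have hEsmul : ∀ (c : F) v, E (c • v) = c ^ 2 * E v := by
    intro c v
    simp only [hE]
    rw [Matrix.mulVec_smul, hQ.smul, hQ.smul]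
    ring
  let L : (Fin m ⊕ Fin m → F) →ₗ[F] F :=
    { toFun := fun v => σ (E v)
      map_add' := fun u v => by rw [hEadd, map_add]
      map_smul' := fun c v => by
        rw [hEsmul, map_mul, hσsq', smul_eq_mul, RingHom.id_apply] }
  obtain ⟨φ, hφ⟩ := exists_dotProduct_eq L
  obtain ⟨a, rfl⟩ := exists_fdual_eq hf φ
  have hEa : ∀ v, E v = ff v a ^ 2 := by
    intro v
    rw [← symp_dot hf, ← hφ, ← hσsq (E v)]
    rfl
  have ha : a ≠ 0 := by
    rintro rfl
    apply hg
    refine ⟨1, fun u => ?_⟩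
    have h1 : E ((g : MM) *ᵥ u) = 0 := by rw [hEa, symp_zero_right hf]; simp
    have h3 : ginv *ᵥ ((g : MM) *ᵥ u) = u := by
      rw [hginv, Matrix.mulVec_mulVec, ← Units.val_mul, inv_mul_cancel, Units.val_one, Matrix.one_mulVec]
    simp only [hE] at h1
    rw [h3] at h1
    have h4 : Q ((g : MM) *ᵥ u) = - Q u := by linear_combination h1
    rw [h4]
    have h5 : - Q u = Q u := by linear_combination (- Q u) * h2
    rw [h5]; simp
  -- the target
  set w := c⁻¹ with hw
  have hw0 : w ≠ 0 := inv_ne_zero hc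
  obtain ⟨e, he⟩ := hsq (w + Q y)
  obtain ⟨a', ha', hQa', hfa'⟩ := exists_level hQ hpol h2 hm hsq hy (Q a) e
  obtain ⟨h, hh, hha⟩ := exists_iso_map hQ hpol ha ha' hQa'.symm
  have hhH := iso_mem_H hpol hh
  have hhS : h ∈ Cfsg.spGL m F := iso_mem_spGL hpol hh
  set g₁ := h * g with hg₁
  have hg₁M : g₁ ∈ M := M.mul_mem (hH hhH) hgM
  have hg₁S : g₁ ∈ Cfsg.spGL m F := hMS hg₁M
  set x := ((g₁⁻¹ : GG) : MM) *ᵥ y with hx
  have hxy : (g₁ : MM) *ᵥ x = y := by
    rw [hx, Matrix.mulVec_mulVec, ← Units.val_mul, mul_inv_cancel, Units.val_one, Matrix.one_mulVec]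
  -- the value of `Q` at `x`
  set y' := ((h⁻¹ : GG) : MM) *ᵥ y with hy'
  have hhy' : (h : MM) *ᵥ y' = y := by
    rw [hy', Matrix.mulVec_mulVec, ← Units.val_mul, mul_inv_cancel, Units.val_one, Matrix.one_mulVec]
  have hxy' : x = ginv *ᵥ y' := by
    rw [hx, hy', hg₁, _root_.mul_inv_rev, Units.val_mul, hginv, Matrix.mulVec_mulVec]
  have hQy' : Q y' = Q y := by rw [← hhy', hh]
  have hfy' : ff y' a = e := by
    have : ff ((h : MM) *ᵥ y') ((h : MM) *ᵥ a) = ff y' a := hhS y' a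
    rw [hhy', hha, hfa'] at this
    exact this.symm
  have hQx : Q x = w := by
    have h1 : E y' = ff y' a ^ 2 := hEa y'
    simp only [hE] at h1
    rw [hQy', hfy', he, ← hxy'] at h1
    linear_combination h1
  have hQx0 : Q x ≠ 0 := by rw [hQx]; exact hw0
  -- conclusion
  have ht : stv x (Q x)⁻¹ ∈ M := hH (iso_mem_H hpol (stv_refl_iso hpol h2 hQx0 hQ))
  have hconj := stv_conj g₁ hg₁S x (Q x)⁻¹
  rw [hxy, hQx, hw, inv_inv] at hconj
  rw [← hconj]
  rw [hQx, hw, inv_inv] at ht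
  exact M.mul_mem (M.mul_mem hg₁M ht) (M.inv_mem hg₁M)

include hQ hpol in
theorem isMaximalIn_orth (hm : 7 ≤ m) (heven : ¬ Odd (Fintype.card F)) :
    IsMaximalIn (Cfsg.spGL m F) (quadSimilarityGroup Q ⊓ Cfsg.spGL m F) := by
  classical
  have hf := sympForm_isSymplectic (m := m) (F := F)
  have hm0 : 0 < m := by omega
  have h2 : (2 : F) = 0 := by
    have h3 : ringChar F = 2 := by
      by_contra hne
      exact heven (Nat.odd_iff.mpr (FiniteField.odd_card_of_char_ne_two hne))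
    have h4 : ((2 : ℕ) : F) = 0 := (ringChar.spec F 2).mpr (by rw [h3])
    simpa using h4
  haveI : CharP F 2 := CharTwo.of_one_ne_zero_of_two_eq_zero one_ne_zero h2
  haveI : Fact (Nat.Prime 2) := ⟨Nat.prime_two⟩
  have hsq : ∀ a : F, ∃ b : F, b ^ 2 = a := fun a => by
    refine ⟨(frobeniusEquiv F 2).symm a, ?_⟩
    have := frobenius_apply_frobeniusEquiv_symm F 2 a
    rwa [frobenius_def] at this
  refine ⟨lt_of_le_of_ne inf_le_right ?_, fun N hPN hNS => ?_⟩
  · intro heq
    obtain ⟨b, b', hb, -, hbb, -⟩ := exists_hyp_pair hQ hpol h2 hm 0 0 hsq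
    have h1 : stv b (1 : F) ∈ quadSimilarityGroup Q ⊓ Cfsg.spGL m F := by
      rw [heq]; exact stv_mem_spGL b 1
    have h3 := H_iso hpol h1 hm0 b'
    rw [stv_apply, Q_add hpol, hQ.smul, hb, sympForm_smul_right, one_mul, sympForm_swap b' b, hbb] at h3
    have h4 : (1 : F) = 0 := by linear_combination h3
    exact one_ne_zero h4
  · by_cases hN : N ≤ quadSimilarityGroup Q
    · exact Or.inl (le_antisymm (le_inf hN hNS) hPN)
    · right
      obtain ⟨g, hgN, hg⟩ := SetLike.not_le_iff_exists.mp hN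
      exact le_antisymm hNS (spGL_le_of_stv N fun y c =>
        stv_mem_of_not_iso hQ hpol heven hm N hPN hNS g hgN hg y c)

end Main

end Cfsg.Agent.Lib.ClassMax.OrthInSp
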