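import Mathlib
import Cfsg.Agent.Lib.ClassMax.EluSymp
import Cfsg.Agent.Lib.ClassMax.EluSpBlock

/-!
Skew maps with scalar square on a symplectic space: symplectic frames adapted to them, their conjugacy under
the isometry group, and the maps acting plane by plane on a family.
-/

set_option autoImplicit false
set_option linter.unusedSimpArgs false
set_option linter.unusedVariables false
set_option linter.unusedSectionVars false

namespace Cfsg.Agent.Lib.ClassMax.SkewFrame

open Module Polynomial Cfsg.Agent.Lib.ClassMax.ElusiveSp Cfsg.Agent.Lib.ClassMax.EluSymp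

variable {F V : Type*} [Field F] [AddCommGroup V] [Module F V] [FiniteDimensional F V] {B : LinearMap.BilinForm F V}

/-- The induction producing a family, for maps whose adjoint is a scalar multiple of themselves. -/
theorem exists_family_back (halt : ∀ v, B v v = 0) (x : V →ₗ[F] V) {c : F} (hback : ∀ w y, B (x w) y = c * B w (x y))
    (R : V × V → V × V → Prop)
    (hR : ∀ ω ω', R ω ω' → x ω.1 ∈ Pl (F := F) ω' ∧ x ω.2 ∈ Pl (F := F) ω')
    (hstep : ∀ W : Submodule F V, W ≠ ⊥ → Nd B W → (∀ w ∈ W, x w ∈ W) →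
      ∃ T : Finset (V × V), T.Nonempty ∧ Fam B T ∧ (∀ ω ∈ T, ω.1 ∈ W ∧ ω.2 ∈ W) ∧
        ∀ ω ∈ T, ∃ ω' ∈ T, R ω ω') :
    ∀ (d : ℕ) (W : Submodule F V), finrank F W = d → Nd B W → (∀ w ∈ W, x w ∈ W) →
      ∃ s : Finset (V × V), Fam B s ∧ (∀ ω ∈ s, ω.1 ∈ W ∧ ω.2 ∈ W) ∧
        Submodule.span F (Pts s) = W ∧ ∀ ω ∈ s, ∃ ω' ∈ s, R ω ω' := by
  classical
  intro d
  induction d using Nat.strong_induction_on with
  | _ d ih =>
    intro W hd hnd hinv
    by_cases hbot : W = ⊥
    · subst hbot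
      exact ⟨∅, ⟨by simp, by simp⟩, by simp, by simp [Pts], by simp⟩
    obtain ⟨T, hTne, hTfam, hTW, hTR⟩ := hstep W hbot hnd hinv
    let W' : Submodule F V :=
      { carrier := {w | w ∈ W ∧ ∀ ω ∈ T, B w ω.1 = 0 ∧ B w ω.2 = 0}
        add_mem' := by
          rintro a b ⟨ha, ha'⟩ ⟨hb, hb'⟩
          refine ⟨W.add_mem ha hb, fun ω hω => ?_⟩
          simp [(ha' ω hω).1, (ha' ω hω).2, (hb' ω hω).1, (hb' ω hω).2]
        zero_mem' := ⟨W.zero_mem, by simp⟩
        smul_mem' := by
          rintro c a ⟨ha, ha'⟩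
          refine ⟨W.smul_mem _ ha, fun ω hω => ?_⟩
          simp [(ha' ω hω).1, (ha' ω hω).2] }
    have hW'mem : ∀ w, w ∈ W' ↔ w ∈ W ∧ ∀ ω ∈ T, B w ω.1 = 0 ∧ B w ω.2 = 0 := fun w => Iff.rfl
    have hprojW : ∀ w, proj B T w ∈ W := by
      intro w
      rw [proj_apply]
      apply W.sum_mem
      intro ω hω
      exact W.sub_mem (W.smul_mem _ (hTW ω hω).1) (W.smul_mem _ (hTW ω hω).2)
    have hsubW' : ∀ w ∈ W, w - proj B T w ∈ W' := by
      intro w hw
      refine (hW'mem _).mpr ⟨W.sub_mem hw (hprojW w), fun ω hω => ?_⟩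
      obtain ⟨h1, h2⟩ := form_proj_left halt hTfam w hω
      simp [h1, h2]
    have hW'lt : W' < W := by
      refine lt_of_le_of_ne (fun w hw => hw.1) ?_
      intro h
      obtain ⟨ω, hω⟩ := hTne
      have h1 : ω.1 ∈ W' := by rw [h]; exact (hTW ω hω).1
      have h2 := ((hW'mem _).mp h1).2 ω hω |>.2
      rw [hTfam.hyp ω hω] at h2
      exact one_ne_zero h2
    have hW'nd : Nd B W' := by
      intro u hu hu0
      obtain ⟨y, hy, hyu⟩ := hnd u hu.1 hu0
      refine ⟨y - proj B T y, hsubW' y hy, ?_⟩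
      have h1 : B u (proj B T y) = 0 := by
        rw [proj_apply, map_sum]
        apply Finset.sum_eq_zero
        intro ω hω
        simp [(hu.2 ω hω).1, (hu.2 ω hω).2]
      rw [map_sub, h1, sub_zero]
      exact hyu
    have hW'inv : ∀ w ∈ W', x w ∈ W' := by
      intro w hw
      refine (hW'mem _).mpr ⟨hinv w hw.1, fun ω hω => ?_⟩
      obtain ⟨ω', hω', hr⟩ := hTR ω hω
      obtain ⟨h1, h2⟩ := hR ω ω' hr
      have hpl : ∀ y ∈ Pl (F := F) ω', B w y = 0 := by
        intro y hy
        obtain ⟨a, b, rfl⟩ := Submodule.mem_span_pair.mp hy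
        simp [(hw.2 ω' hω').1, (hw.2 ω' hω').2]
      rw [hback, hback, hpl _ h1, hpl _ h2]
      simp
    obtain ⟨s, hsfam, hsW, hsspan, hsR⟩ := ih (finrank F W')
      (by rw [← hd]; exact Submodule.finrank_lt_finrank_of_lt hW'lt) W' rfl hW'nd hW'inv
    have hdisj : Disjoint T s := by
      rw [Finset.disjoint_left]
      intro ω hω hωs
      have h1 := (hsW ω hωs).1.2 ω hω |>.2
      rw [hTfam.hyp ω hω] at h1
      exact one_ne_zero h1
    refine ⟨T ∪ s, ⟨?_, ?_⟩, ?_, ?_, ?_⟩
    · intro ω hω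
      rcases Finset.mem_union.mp hω with h | h
      · exact hTfam.hyp ω h
      · exact hsfam.hyp ω h
    · intro ω hω η hη hne
      rcases Finset.mem_union.mp hω with h | h <;> rcases Finset.mem_union.mp hη with h' | h'
      · exact hTfam.orth ω h η h' hne
      · obtain ⟨h1, h2⟩ := (hsW η h').1.2 ω h
        obtain ⟨h3, h4⟩ := (hsW η h').2.2 ω h
        refine ⟨?_, ?_, ?_, ?_⟩
        · rw [skew halt, h1, neg_zero]
        · rw [skew halt, h3, neg_zero]
        · rw [skew halt, h2, neg_zero]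
        · rw [skew halt, h4, neg_zero]
      · obtain ⟨h1, h2⟩ := (hsW ω h).1.2 η h'
        obtain ⟨h3, h4⟩ := (hsW ω h).2.2 η h'
        exact ⟨h1, h2, h3, h4⟩
      · exact hsfam.orth ω h η h' hne
    · intro ω hω
      rcases Finset.mem_union.mp hω with h | h
      · exact hTW ω h
      · exact ⟨(hsW ω h).1.1, (hsW ω h).2.1⟩
    · apply le_antisymm
      · rw [Submodule.span_le]
        rintro u (⟨ω, hω, rfl⟩ | ⟨ω, hω, rfl⟩)
        · rcases Finset.mem_union.mp hω with h | h
          · exact (hTW ω h).1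
          · exact (hsW ω h).1.1
        · rcases Finset.mem_union.mp hω with h | h
          · exact (hTW ω h).2
          · exact (hsW ω h).2.1
      · intro w hw
        have h1 : w = proj B T w + (w - proj B T w) := by abel
        rw [h1]
        apply Submodule.add_mem
        · rw [proj_apply]
          apply Submodule.sum_mem
          intro ω hω
          apply Submodule.sub_mem
          · exact Submodule.smul_mem _ _ (Submodule.subset_span (Or.inl ⟨ω, Finset.mem_union_left _ hω, rfl⟩))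
          · exact Submodule.smul_mem _ _ (Submodule.subset_span (Or.inr ⟨ω, Finset.mem_union_left _ hω, rfl⟩))
        · have h2 := hsubW' w hw
          rw [← hsspan] at h2
          refine Submodule.span_mono ?_ h2
          rintro u (⟨ω, hω, rfl⟩ | ⟨ω, hω, rfl⟩)
          · exact Or.inl ⟨ω, Finset.mem_union_right _ hω, rfl⟩
          · exact Or.inr ⟨ω, Finset.mem_union_right _ hω, rfl⟩
    · intro ω hω
      rcases Finset.mem_union.mp hω with h | h
      · obtain ⟨ω', h1, h2⟩ := hTR ω h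
        exact ⟨ω', Finset.mem_union_left _ h1, h2⟩
      · obtain ⟨ω', h1, h2⟩ := hsR ω h
        exact ⟨ω', Finset.mem_union_right _ h1, h2⟩

/-- The map acting on the plane of each pair of a family by a fixed matrix of trace zero. -/
noncomputable def planeMap (B : LinearMap.BilinForm F V) (s : Finset (V × V)) (a b c : F) : V →ₗ[F] V :=
  famMap B s (fun ω => -(c • ω.1 - a • ω.2)) (fun ω => a • ω.1 + b • ω.2)

section plane

variable (halt : ∀ v, B v v = 0) {s : Finset (V × V)} (hs : Fam B s)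

include halt hs

theorem planeMap_fst (a b c : F) {η : V × V} (hη : η ∈ s) : planeMap B s a b c η.1 = a • η.1 + b • η.2 :=
  famMap_fst halt hs _ _ hη

theorem planeMap_snd (a b c : F) {η : V × V} (hη : η ∈ s) : planeMap B s a b c η.2 = c • η.1 - a • η.2 := by
  unfold planeMap
  rw [famMap_snd halt hs _ _ hη, neg_neg]

theorem planeMap_sq (hspan : Submodule.span F (Pts s) = ⊤) (a b c : F) (v : V) :
    planeMap B s a b c (planeMap B s a b c v) = (a ^ 2 + b * c) • v := by
  have : (planeMap B s a b c).comp (planeMap B s a b c) = (a ^ 2 + b * c) • LinearMap.id := by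
    apply ext_on_pts halt hs hspan
    · intro ω hω
      simp only [LinearMap.comp_apply, LinearMap.smul_apply, LinearMap.id_apply, planeMap_fst halt hs a b c hω, map_add, map_smul,
        planeMap_snd halt hs a b c hω]
      module
    · intro ω hω
      simp only [LinearMap.comp_apply, LinearMap.smul_apply, LinearMap.id_apply, planeMap_snd halt hs a b c hω, map_sub, map_smul,
        planeMap_fst halt hs a b c hω]
      module
  exact LinearMap.congr_fun this v

theorem planeMap_skew (hspan : Submodule.span F (Pts s) = ⊤) (a b c : F) (u v : V) :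
    B (planeMap B s a b c u) v = - B u (planeMap B s a b c v) := by
  have := form_ext_on_pts halt hs hspan (B.compl₁₂ (planeMap B s a b c) LinearMap.id) (-(B.compl₁₂ LinearMap.id (planeMap B s a b c)))
    (fun ω hω η hη => by
      simp only [LinearMap.compl₁₂_apply, LinearMap.neg_apply, LinearMap.id_apply, planeMap_fst halt hs a b c hω, planeMap_fst halt hs a b c hη,
        map_add, map_smul, LinearMap.add_apply, LinearMap.smul_apply, smul_eq_mul]
      rw [(pts_form halt hs hω hη).1, (pts_form halt hs hω hη).2.2]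
      ring)
    (fun ω hω η hη => by
      simp only [LinearMap.compl₁₂_apply, LinearMap.neg_apply, LinearMap.id_apply, planeMap_fst halt hs a b c hω, planeMap_snd halt hs a b c hη,
        map_add, map_sub, map_smul, LinearMap.add_apply, LinearMap.smul_apply, smul_eq_mul]
      rw [(pts_form halt hs hω hη).1, (pts_form halt hs hω hη).2.1]
      ring)
    (fun ω hω η hη => by
      simp only [LinearMap.compl₁₂_apply, LinearMap.neg_apply, LinearMap.id_apply, planeMap_snd halt hs a b c hω, planeMap_fst halt hs a b c hη,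
        map_add, map_sub, map_smul, LinearMap.add_apply, LinearMap.sub_apply, LinearMap.smul_apply, smul_eq_mul]
      rw [(pts_form halt hs hω hη).1, (pts_form halt hs hω hη).2.1]
      ring)
    (fun ω hω η hη => by
      simp only [LinearMap.compl₁₂_apply, LinearMap.neg_apply, LinearMap.id_apply, planeMap_snd halt hs a b c hω, planeMap_snd halt hs a b c hη,
        map_sub, map_smul, LinearMap.sub_apply, LinearMap.smul_apply, smul_eq_mul]
      rw [(pts_form halt hs hω hη).2.1, (pts_form halt hs hω hη).2.2]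
      ring) u v
  simpa using this

end plane

section skew

variable [Fintype F] (halt : ∀ v, B v v = 0) (h2 : (2 : F) ≠ 0) {T : V →ₗ[F] V} (hskew : ∀ u v, B (T u) v = - B u (T v)) {δ : F} (hδ : δ ≠ 0)
  (hsq : ∀ v, T (T v) = δ • v)

include halt h2 hskew hδ hsq

/-- A vector of value one in a non-degenerate invariant subspace. -/
theorem exists_unit {W : Submodule F V} (hbot : W ≠ ⊥) (hnd : Nd B W) (hinv : ∀ w ∈ W, T w ∈ W) : ∃ u ∈ W, B u (T u) = 1 := by
  classical
  have hsymm : ∀ u v, B u (T v) = B v (T u) := by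
    intro u v
    rw [skew halt v (T u), hskew, neg_neg]
  obtain ⟨u₀, hu₀, hc⟩ : ∃ u₀ ∈ W, B u₀ (T u₀) ≠ 0 := by
    by_contra hcon
    push Not at hcon
    obtain ⟨e, he, he0⟩ := (Submodule.ne_bot_iff W).mp hbot
    obtain ⟨v, hv, hne⟩ := hnd e he he0
    have hzero : ∀ u ∈ W, ∀ v ∈ W, B u (T v) = 0 := by
      intro u hu v hv
      have h1 := hcon (u + v) (W.add_mem hu hv)
      simp only [map_add, LinearMap.add_apply] at h1
      rw [hcon u hu, hcon v hv, hsymm v u] at h1
      have h3 : (2 : F) * B u (T v) = 0 := by linear_combination h1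
      exact (mul_eq_zero.mp h3).resolve_left h2
    apply hne
    have h3 : v = T (δ⁻¹ • T v) := by
      rw [map_smul, hsq, smul_smul, inv_mul_cancel₀ hδ, one_smul]
    rw [h3]
    exact hzero e he _ (W.smul_mem _ (hinv v hv))
  set c := B u₀ (T u₀) with hcdef
  have hodd : Fintype.card F % 2 = 1 := by
    apply FiniteField.odd_card_of_char_ne_two
    intro h
    apply h2
    have h5 := ringChar.Nat.cast_ringChar (R := F)
    rw [h] at h5
    exact_mod_cast h5
  have hdeg1 : (X ^ 2 + C (-c⁻¹) : F[X]).degree = 2 := by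
    compute_degree!
  have hdeg2 : (C (-δ) * X ^ 2 : F[X]).degree = 2 := by
    rw [degree_C_mul (neg_ne_zero.mpr hδ), degree_X_pow]
    rfl
  obtain ⟨s', t', hst⟩ := FiniteField.exists_root_sum_quadratic hdeg1 hdeg2 hodd
  simp only [eval_add, eval_pow, eval_X, eval_C, eval_mul] at hst
  refine ⟨s' • u₀ + t' • T u₀, W.add_mem (W.smul_mem _ hu₀) (W.smul_mem _ (hinv _ hu₀)), ?_⟩
  have e1 : T (s' • u₀ + t' • T u₀) = s' • T u₀ + (t' * δ) • u₀ := by
    rw [map_add, map_smul, map_smul, hsq, smul_smul]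
  rw [e1]
  simp only [map_add, map_smul, LinearMap.add_apply, LinearMap.smul_apply, smul_eq_mul, halt]
  have e2 : B (T u₀) u₀ = -c := by rw [skew halt, neg_inj]
  rw [e2, ← hcdef]
  have : c * (s' ^ 2 + (-δ) * t' ^ 2 - c⁻¹) = 0 := by
    have : s' ^ 2 + (-δ) * t' ^ 2 - c⁻¹ = s' ^ 2 + -c⁻¹ + -δ * t' ^ 2 := by ring
    rw [this, hst, mul_zero]
  have h5 : c * c⁻¹ = 1 := mul_inv_cancel₀ hc
  linear_combination this + h5

/-- A symplectic family adapted to a skew map with scalar square. -/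
theorem skew_family (hnd : Nd B ⊤) :
    ∃ s : Finset (V × V), Fam B s ∧ Submodule.span F (Pts s) = ⊤ ∧ ∀ ω ∈ s, T ω.1 = ω.2 ∧ T ω.2 = δ • ω.1 := by
  classical
  obtain ⟨s, h1, -, h3, h4⟩ := exists_family_back halt T (c := -1) (fun w y => by rw [hskew]; ring)
    (fun ω ω' => ω' = ω ∧ T ω.1 = ω.2 ∧ T ω.2 = δ • ω.1)
    (fun ω ω' h => by
      obtain ⟨rfl, h5, h6⟩ := h
      rw [h5, h6]
      exact ⟨snd_mem_Pl _, Submodule.smul_mem _ _ (fst_mem_Pl _)⟩)
    (fun W hbot hW hinv => by
      obtain ⟨u, hu, hu1⟩ := exists_unit halt h2 hskew hδ hsq hbot hW hinv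
      refine ⟨{(u, T u)}, by simp, fam_single hu1, ?_, ?_⟩
      · intro ω hω
        rw [Finset.mem_singleton] at hω
        subst hω
        exact ⟨hu, hinv u hu⟩
      · intro ω hω
        rw [Finset.mem_singleton] at hω
        subst hω
        exact ⟨_, Finset.mem_singleton_self _, rfl, rfl, hsq u⟩)
    (finrank F (⊤ : Submodule F V)) ⊤ rfl hnd (fun _ _ => trivial)
  refine ⟨s, h1, h3, fun ω hω => ?_⟩
  obtain ⟨ω', -, -, h5, h6⟩ := h4 ω hω
  exact ⟨h5, h6⟩

end skew

/-- Two spanning families are interchanged by an isometry. -/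
theorem exists_transport (halt : ∀ v, B v v = 0) {s s' : Finset (V × V)} (hs : Fam B s) (hs' : Fam B s')
    (hspan : Submodule.span F (Pts s) = ⊤) (hspan' : Submodule.span F (Pts s') = ⊤) :
    ∃ (g : V →ₗ[F] V) (φ : V × V → V × V), (∀ u v, B (g u) (g v) = B u v) ∧ (∀ ω ∈ s, φ ω ∈ s' ∧ g ω.1 = (φ ω).1 ∧ g ω.2 = (φ ω).2) := by
  classical
  have hcard : s.card = s'.card := by
    have h1 := finrank_family halt hs hspan
    have h2 := finrank_family halt hs' hspan'
    omega
  let e : s ≃ s' := Finset.equivOfCardEq hcard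
  let φ : V × V → V × V := fun ω => if h : ω ∈ s then (e ⟨ω, h⟩ : V × V) else 0
  have hφ : ∀ ω (h : ω ∈ s), φ ω = (e ⟨ω, h⟩ : V × V) := fun ω h => dif_pos h
  have hφmem : ∀ ω ∈ s, φ ω ∈ s' := by
    intro ω h
    rw [hφ ω h]
    exact (e ⟨ω, h⟩).2
  have hφinj : ∀ ω ∈ s, ∀ η ∈ s, ω ≠ η → φ ω ≠ φ η := by
    intro ω h η h' hne heq
    rw [hφ ω h, hφ η h'] at heq
    have := e.injective (Subtype.ext heq)
    exact hne (congrArg Subtype.val this)
  let g : V →ₗ[F] V := famMap B s (fun ω => -(φ ω).2) (fun ω => (φ ω).1)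
  have hg1 : ∀ ω ∈ s, g ω.1 = (φ ω).1 := fun ω h => famMap_fst halt hs _ _ h
  have hg2 : ∀ ω ∈ s, g ω.2 = (φ ω).2 := fun ω h => by
    show famMap B s _ _ ω.2 = _
    rw [famMap_snd halt hs _ _ h, neg_neg]
  refine ⟨g, φ, ?_, fun ω h => ⟨hφmem ω h, hg1 ω h, hg2 ω h⟩⟩
  intro u v
  have key : ∀ ω ∈ s, ∀ η ∈ s, B (φ ω).1 (φ η).1 = B ω.1 η.1 ∧ B (φ ω).1 (φ η).2 = B ω.1 η.2 ∧ B (φ ω).2 (φ η).1 = B ω.2 η.1 ∧ B (φ ω).2 (φ η).2 = B ω.2 η.2 := by
    intro ω h η h'
    by_cases hne : ω = η
    · subst hne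
      rw [halt, halt, halt, halt, skew halt (φ ω).2, skew halt ω.2, hs'.hyp _ (hφmem ω h), hs.hyp _ h]
      exact ⟨rfl, rfl, rfl, rfl⟩
    · obtain ⟨a1, a2, a3, a4⟩ := hs.orth ω h η h' hne
      obtain ⟨b1, b2, b3, b4⟩ := hs'.orth _ (hφmem ω h) _ (hφmem η h') (hφinj ω h η h' hne)
      rw [a1, a2, a3, a4, b1, b2, b3, b4]
      exact ⟨rfl, rfl, rfl, rfl⟩
  have := form_ext_on_pts halt hs hspan (B.compl₁₂ g g) B
    (fun ω hω η hη => by
      simp only [LinearMap.compl₁₂_apply, hg1 ω hω, hg1 η hη]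
      exact (key ω hω η hη).1)
    (fun ω hω η hη => by
      simp only [LinearMap.compl₁₂_apply, hg1 ω hω, hg2 η hη]
      exact (key ω hω η hη).2.1)
    (fun ω hω η hη => by
      simp only [LinearMap.compl₁₂_apply, hg2 ω hω, hg1 η hη]
      exact (key ω hω η hη).2.2.1)
    (fun ω hω η hη => by
      simp only [LinearMap.compl₁₂_apply, hg2 ω hω, hg2 η hη]
      exact (key ω hω η hη).2.2.2) u v
  simpa using this

/-- Two skew maps with the same scalar square are conjugate under an isometry. -/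
theorem skew_conj [Fintype F] (halt : ∀ v, B v v = 0) (h2 : (2 : F) ≠ 0) (hnd : Nd B ⊤) {T T' : V →ₗ[F] V} (hskew : ∀ u v, B (T u) v = - B u (T v))
    (hskew' : ∀ u v, B (T' u) v = - B u (T' v)) {δ : F} (hδ : δ ≠ 0) (hsq : ∀ v, T (T v) = δ • v) (hsq' : ∀ v, T' (T' v) = δ • v) :
    ∃ g : V →ₗ[F] V, (∀ u v, B (g u) (g v) = B u v) ∧ ∀ v, g (T v) = T' (g v) := by
  obtain ⟨s, h1, h3, h4⟩ := skew_family halt h2 hskew hδ hsq hnd
  obtain ⟨s', h1', h3', h4'⟩ := skew_family halt h2 hskew' hδ hsq' hnd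
  obtain ⟨g, φ, hg, hφ⟩ := exists_transport halt h1 h1' h3 h3'
  refine ⟨g, hg, ?_⟩
  have : g.comp T = T'.comp g := by
    apply ext_on_pts halt h1 h3
    · intro ω hω
      obtain ⟨a1, a2, a3⟩ := hφ ω hω
      simp only [LinearMap.comp_apply, (h4 ω hω).1, a3, a2, (h4' _ a1).1]
    · intro ω hω
      obtain ⟨a1, a2, a3⟩ := hφ ω hω
      simp only [LinearMap.comp_apply, (h4 ω hω).2, map_smul, a3, a2, (h4' _ a1).2]
  exact fun v => LinearMap.congr_fun this v

end Cfsg.Agent.Lib.ClassMax.SkewFrame
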