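import Mathlib
import Cfsg.Agent.Lib.ClassMax.SkewFrame
import Cfsg.Agent.Lib.ClassMax.EluSpBlock2

/-!
An isometry of odd prime order with a block of minimal dimension does not commute with a skew map whose square is a
non-square scalar, unless the order of `q` modulo `r` is twice an odd number.
-/

set_option autoImplicit false
set_option linter.unusedSimpArgs false
set_option linter.unusedVariables false
set_option linter.unusedSectionVars false

namespace Cfsg.Agent.Lib.ClassMax.SkewBlock

open Module Polynomial Matrix Cfsg.Agent.Lib.ClassMax.ElusiveSp Cfsg.Agent.Lib.ClassMax.EluSymp Cfsg.Agent.Lib.ClassMax.EluSpBlock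
  Cfsg.Agent.Lib.ClassMax.EluFix Cfsg.Agent.Lib.ClassMax.EluOrder Cfsg.Agent.Lib.ClassMax.EluBlock Cfsg.Agent.Lib.ClassMax.EluImpr2
  Cfsg.Agent.Lib.ClassMax.EluImpr Cfsg.Agent.Lib.ClassMax.EluConj

/-- An isometry of odd order of a non-degenerate form on a space of odd dimension has a fixed vector. -/
theorem fixed_of_odd {F E : Type*} [Field F] [AddCommGroup E] [Module F E] [FiniteDimensional F E] (h2 : (2 : F) ≠ 0) (g' : LinearMap.BilinForm F E)
    (hnd : ∀ u, u ≠ 0 → ∃ v, g' u v ≠ 0) (T₀ : Module.End F E) (hiso : ∀ u v, g' (T₀ u) (T₀ v) = g' u v) {r : ℕ} (hodd : Odd r) (hT : T₀ ^ r = 1)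
    (hdim : Odd (finrank F E)) : ∃ v, v ≠ 0 ∧ T₀ v = v := by
  classical
  let b := Module.finBasis F E
  let A : Matrix (Fin (finrank F E)) (Fin (finrank F E)) F := LinearMap.toMatrix b b T₀
  let G : Matrix (Fin (finrank F E)) (Fin (finrank F E)) F := BilinForm.toMatrix b g'
  have hG : G.det ≠ 0 := by
    rw [← Matrix.separatingLeft_iff_det_ne_zero]
    rw [show G.SeparatingLeft ↔ g'.SeparatingLeft from LinearMap.BilinForm.separatingLeft_toMatrix_iff b]
    intro u hu
    by_contra h0
    obtain ⟨v, hv⟩ := hnd u h0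
    exact hv (hu v)
  have hAG : Aᵀ * G * A = G := by
    have h1 := LinearMap.BilinForm.toMatrix_comp b b g' T₀ T₀
    have h3 : g'.comp T₀ T₀ = g' := by
      ext u v
      exact hiso u v
    rw [h3] at h1
    exact h1.symm
  have hdetA2 : A.det * A.det = 1 := by
    have h1 := congrArg Matrix.det hAG
    rw [det_mul, det_mul, det_transpose] at h1
    have h3 : (A.det * A.det - 1) * G.det = 0 := by linear_combination h1
    have h4 := (mul_eq_zero.mp h3).resolve_right hG
    linear_combination h4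
  have hdetAr : A.det ^ r = 1 := by
    have h1 : A ^ r = 1 := by
      have : LinearMap.toMatrix b b (T₀ ^ r) = A ^ r := (LinearMap.toMatrix_pow b T₀ r).symm
      rw [← this, hT]
      exact LinearMap.toMatrix_one b
    rw [← det_pow, h1, det_one]
  have hdetA : A.det = 1 := by
    obtain ⟨k, hk⟩ := hodd
    rw [hk, pow_succ, pow_mul, sq, hdetA2, one_pow, one_mul] at hdetAr
    exact hdetAr
  have key : (A - 1).det = 0 := by
    have h1 : Aᵀ * G * (A - 1) = (1 - Aᵀ) * G := by
      rw [mul_sub, hAG, sub_mul, one_mul, mul_one]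
    have h3 := congrArg Matrix.det h1
    rw [det_mul, det_mul, det_mul, det_transpose, hdetA, one_mul] at h3
    have h4 : (1 - Aᵀ).det = (-1) ^ (finrank F E) * (A - 1).det := by
      have h5 : 1 - Aᵀ = (-1 : F) • (A - 1)ᵀ := by
        rw [transpose_sub, transpose_one, smul_sub, neg_one_smul, neg_one_smul, neg_sub_neg]
      rw [h5, det_smul, det_transpose, Fintype.card_fin]
    rw [h4, hdim.neg_one_pow] at h3
    have h5 : ((2 : F) * (A - 1).det) * G.det = 0 := by linear_combination h3
    have h6 := (mul_eq_zero.mp h5).resolve_right hG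
    exact (mul_eq_zero.mp h6).resolve_left h2
  have hdetL : LinearMap.det (T₀ - 1) = 0 := by
    rw [← LinearMap.det_toMatrix b, map_sub, LinearMap.toMatrix_one]
    exact key
  obtain ⟨v, hv⟩ := Submodule.exists_mem_ne_zero_of_ne_bot (LinearMap.bot_lt_ker_of_det_eq_zero hdetL).ne'
  refine ⟨v, hv.2, ?_⟩
  have h1 : (T₀ - 1) v = 0 := hv.1
  rw [LinearMap.sub_apply, Module.End.one_apply, sub_eq_zero] at h1
  exact h1

variable {F V : Type*} [Field F] [Fintype F] [AddCommGroup V] [Module F V] [FiniteDimensional F V] {B : LinearMap.BilinForm F V} {r : ℕ} [Fact r.Prime]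

theorem comm_aeval {T κ : Module.End F V} (hcomm : Commute T κ) (p : F[X]) (v : V) : κ (aeval T p v) = aeval T p (κ v) := by
  induction p using Polynomial.induction_on' with
  | add p q hp hq => simp only [map_add, LinearMap.add_apply, hp, hq]
  | monomial n a =>
    rw [aeval_monomial, Module.End.mul_apply, Module.End.mul_apply, Module.algebraMap_end_apply, Module.algebraMap_end_apply, map_smul]
    have h1 : κ ((T ^ n) v) = (T ^ n) (κ v) := by
      have := (hcomm.pow_left n).eq
      exact (LinearMap.congr_fun this v).symm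
    rw [h1]

theorem pow_odd_sq {κ : Module.End F V} {δ : F} (hsq : ∀ v, κ (κ v) = δ • v) (m : ℕ) (v : V) : (κ ^ (2 * m + 1)) v = δ ^ m • κ v := by
  induction m with
  | zero => simp
  | succ m ih =>
    have : 2 * (m + 1) + 1 = (2 * m + 1) + 2 := by ring
    rw [this, pow_add, Module.End.mul_apply, sq, Module.End.mul_apply, hsq, map_smul, ih, pow_succ, smul_smul]
    ring_nf

/-- An endomorphism squaring to a non-square scalar has no invariant subspace of odd dimension. -/
theorem even_of_sq {κ : Module.End F V} {δ : F} (hsq : ∀ v, κ (κ v) = δ • v) (hns : ¬ IsSquare δ) {E : Submodule F V} (hE : ∀ v ∈ E, κ v ∈ E) : Even (finrank F E) := by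
  by_contra hodd
  rw [Nat.not_even_iff_odd] at hodd
  obtain ⟨a, ha⟩ := hodd
  have hδ : δ ≠ 0 := by
    rintro rfl
    exact hns ⟨0, by ring⟩
  let K : Module.End F E := κ.restrict hE
  have h1 : K * K = δ • 1 := by
    apply LinearMap.ext
    intro u
    apply Subtype.ext
    show κ (κ u) = δ • (u : V)
    exact hsq _
  have h3 := congrArg LinearMap.det h1
  rw [map_mul, LinearMap.det_smul, map_one, mul_one, ha] at h3
  apply hns
  refine ⟨LinearMap.det K / δ ^ a, ?_⟩
  have h4 : δ ^ a ≠ 0 := pow_ne_zero _ hδ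
  field_simp
  linear_combination (-1 : F) * h3

section main

variable (halt : ∀ v, B v v = 0) (hnd : Nd B ⊤) (h2 : (2 : F) ≠ 0) (hr2 : r ≠ 2) (hrq : ¬ r ∣ Fintype.card F) {T : Module.End F V} (hT : T ^ r = 1)
  (hiso : ∀ u v, B (T u) (T v) = B u v) {κ : Module.End F V} (hskew : ∀ u v, B (κ u) v = - B u (κ v)) {δ : F} (hsq : ∀ v, κ (κ v) = δ • v)
  (hns : ¬ IsSquare δ) (hcomm : Commute T κ)

include halt hnd h2 hr2 hrq hT hiso hskew hsq hns hcomm

theorem no_comm_four (hdim : finrank F (LinearMap.ker (aeval T (Phi F r))) = orderOf ((Fintype.card F : ℕ) : ZMod r))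
    (h4 : 4 ∣ orderOf ((Fintype.card F : ℕ) : ZMod r)) : False := by
  classical
  have hr : r.Prime := Fact.out
  have hi0 := order_pos (r := r) hrq
  have hδ : δ ≠ 0 := by
    rintro rfl
    exact hns ⟨0, by ring⟩
  set i := orderOf ((Fintype.card F : ℕ) : ZMod r) with hi
  set W := LinearMap.ker (aeval T (Phi F r)) with hW
  have hWT : Inv T W := inv_ker T _
  have hWnd : Nd B W := by
    have := nd_phi_part halt hrq hT hiso hnd (fun _ _ => trivial)
    rwa [top_inf_eq] at this
  have hWκ : ∀ w ∈ W, κ w ∈ W := by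
    intro w hw
    rw [hW, LinearMap.mem_ker] at hw ⊢
    rw [← comm_aeval hcomm, hw, map_zero]
  have hWpos : W ≠ ⊥ := by
    intro h0
    rw [h0, finrank_bot] at hdim
    omega
  obtain ⟨w₀, hw₀, hw₀0⟩ := (Submodule.ne_bot_iff W).mp hWpos
  -- the cyclic subspace
  let ev : F[X] →ₗ[F] V := (LinearMap.applyₗ w₀).comp (aeval T).toLinearMap
  have hev : ∀ p, ev p = aeval T p w₀ := fun p => rfl
  have hSle : LinearMap.range ev ≤ W := by
    rintro _ ⟨p, rfl⟩
    rw [hev]
    exact aeval_mem hWT p hw₀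
  have hSinv : Inv T (LinearMap.range ev) := by
    rintro _ ⟨p, rfl⟩
    refine ⟨X * p, ?_⟩
    rw [hev, hev, map_mul, Module.End.mul_apply, aeval_X]
  have hS : LinearMap.range ev = W := by
    rcases irr_sub hrq le_rfl hdim hSle hSinv with h | h
    · exfalso
      have h1 : w₀ ∈ LinearMap.range ev := ⟨1, by rw [hev, map_one, Module.End.one_apply]⟩
      rw [h] at h1
      exact hw₀0 ((Submodule.mem_bot F).mp h1)
    · exact h
  obtain ⟨p, hp⟩ : ∃ p, aeval T p w₀ = κ w₀ := by
    have h1 : κ w₀ ∈ LinearMap.range ev := by rw [hS]; exact hWκ w₀ hw₀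
    obtain ⟨p, hp⟩ := h1
    exact ⟨p, hp⟩
  have hκW : ∀ w ∈ W, κ w = aeval T p w := by
    intro w hw
    rw [← hS] at hw
    obtain ⟨a, rfl⟩ := hw
    rw [hev, comm_aeval hcomm, ← hp, ← Module.End.mul_apply, ← Module.End.mul_apply, ← map_mul, ← map_mul, mul_comm]
  -- the Frobenius
  obtain ⟨s, hs⟩ : ∃ s, i = 2 * s := by
    obtain ⟨t, ht⟩ := h4
    exact ⟨2 * t, by omega⟩
  have hs0 : 0 < s := by omega
  have hseven : Even s := by
    obtain ⟨t, ht⟩ := h4
    exact ⟨t, by omega⟩
  set q := Fintype.card F with hq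
  set Q := q ^ s with hQ
  have hqneg : ((Q : ℕ) : ZMod r) = -1 := by
    have h1 : ((q : ZMod r) ^ s) ^ 2 = 1 := by
      rw [← pow_mul, mul_comm, ← hs, hi]
      exact pow_orderOf_eq_one _
    have h3 : (q : ZMod r) ^ s ≠ 1 := by
      intro h0
      have := orderOf_dvd_of_pow_eq_one h0
      rw [← hi] at this
      have := Nat.le_of_dvd hs0 this
      omega
    haveI : Fact r.Prime := ⟨hr⟩
    have h5 : ((q : ZMod r) ^ s - 1) * ((q : ZMod r) ^ s + 1) = 0 := by linear_combination h1
    rcases mul_eq_zero.mp h5 with h6 | h6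
    · exact absurd (sub_eq_zero.mp h6) h3
    · rw [hQ, Nat.cast_pow]
      linear_combination h6
  have hrdvd : r ∣ Q + 1 := by
    rw [← ZMod.natCast_eq_zero_iff, Nat.cast_add, hqneg]
    simp
  obtain ⟨e, he⟩ := hrdvd
  let S : Module.End F V := T ^ Q
  have hTS : T * S = 1 := by
    show T * T ^ Q = 1
    rw [← pow_succ', he, pow_mul, hT, one_pow]
  have hcTS : Commute T S := (Commute.refl T).pow_right Q
  -- the polynomial identity
  have hpow : (aeval T p) ^ Q = aeval S p := by
    rw [← map_pow, hQ, hq, ← expand_pow_q p s, expand_aeval]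
  have hκpow : ∀ (n : ℕ), ∀ w ∈ W, (κ ^ n) w = ((aeval T p) ^ n) w := by
    intro n
    induction n with
    | zero => intro w _; simp
    | succ n ih =>
      intro w hw
      rw [pow_succ, pow_succ, Module.End.mul_apply, Module.End.mul_apply, hκW w hw, ih _ (by
        rw [← hκW w hw]
        exact hWκ w hw)]
  obtain ⟨m, hm⟩ : ∃ m, Q = 2 * m + 1 := by
    have : Odd Q := by
      rw [hQ]
      apply Odd.pow
      have := FiniteField.odd_card_of_char_ne_two (F := F) (by
        intro h
        apply h2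
        have h5 := ringChar.Nat.cast_ringChar (R := F)
        rw [h] at h5
        exact_mod_cast h5)
      exact Nat.odd_iff.mpr this
    obtain ⟨m, hm⟩ := this
    exact ⟨m, hm⟩
  have hδm : δ ^ m = 1 := by
    obtain ⟨t, ht⟩ := hseven
    have hq1 : 1 ≤ q := Fintype.card_pos
    have hq3 : q ≠ 0 := by omega
    have hoddq : Odd q := by
      have := FiniteField.odd_card_of_char_ne_two (F := F) (by
        intro h
        apply h2
        have h5 := ringChar.Nat.cast_ringChar (R := F)
        rw [h] at h5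
        exact_mod_cast h5)
      exact Nat.odd_iff.mpr this
    obtain ⟨q', hq'⟩ := hoddq
    have hdvd : (q ^ 2 - 1) ∣ Q - 1 := by
      have h7 : Q = (q ^ 2) ^ t := by
        rw [hQ, ht, ← pow_mul]
        congr 1
        ring
      rw [h7]
      have := Nat.sub_dvd_pow_sub_pow (q ^ 2) 1 t
      simpa using this
    have h8 : q ^ 2 - 1 = 2 * ((q - 1) * (q' + 1)) := by
      have : q ^ 2 = (q - 1) * (q + 1) + 1 := by
        obtain ⟨y, hy⟩ : ∃ y, q = y + 1 := ⟨q - 1, by omega⟩
        rw [hy]
        simp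
        ring
      rw [this, Nat.add_sub_cancel]
      have h9 : q + 1 = 2 * (q' + 1) := by omega
      rw [h9]
      ring
    obtain ⟨w, hw⟩ := hdvd
    rw [h8] at hw
    have h9 : Q - 1 = 2 * m := by omega
    have h10 : m = (q - 1) * ((q' + 1) * w) := by
      have : 2 * m = 2 * ((q - 1) * ((q' + 1) * w)) := by
        rw [← h9, hw]
        ring
      omega
    rw [h10, pow_mul, FiniteField.pow_card_sub_one_eq_one δ hδ, one_pow]
  have hκQ : ∀ u, (κ ^ Q) u = κ u := by
    intro u
    rw [hm, pow_odd_sq hsq, hδm, one_smul]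
  -- the contradiction
  have hw1 : κ w₀ ∈ W := hWκ w₀ hw₀
  have hκ0 : κ w₀ ≠ 0 := by
    intro h0
    have := hsq w₀
    rw [h0, map_zero] at this
    exact hw₀0 ((smul_eq_zero.mp this.symm).resolve_left hδ)
  obtain ⟨v, hv, hne⟩ := hWnd _ hw1 hκ0
  apply hne
  have h5 : B (κ w₀) v = B (aeval S p w₀) v := by
    rw [← hκQ w₀, hκpow Q w₀ hw₀, hpow]
  have h6 : B (aeval S p w₀) v = B w₀ (aeval T p v) := (adj_poly hTS hcTS hiso p w₀ v).symm
  have h7 : B w₀ (aeval T p v) = - B (κ w₀) v := by
    rw [← hκW v hv, hskew, neg_neg]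
  have h8 : (2 : F) * B (κ w₀) v = 0 := by
    rw [h6, h7] at h5
    linear_combination h5
  exact (mul_eq_zero.mp h8).resolve_left h2

theorem no_comm_odd (hdim : finrank F (LinearMap.ker (aeval T (Phi F r))) = 2 * orderOf ((Fintype.card F : ℕ) : ZMod r))
    (hodd : Odd (orderOf ((Fintype.card F : ℕ) : ZMod r))) : False := by
  classical
  have hr : r.Prime := Fact.out
  have hi0 := order_pos (r := r) hrq
  have hδ : δ ≠ 0 := by
    rintro rfl
    exact hns ⟨0, by ring⟩
  have hcast : (r : F) ≠ 0 := ratFree_cast_ne hr hrq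
  set i := orderOf ((Fintype.card F : ℕ) : ZMod r) with hi
  set W := LinearMap.ker (aeval T (Phi F r)) with hW
  have hWT : Inv T W := inv_ker T _
  have hWnd : Nd B W := by
    have := nd_phi_part halt hrq hT hiso hnd (fun _ _ => trivial)
    rwa [top_inf_eq] at this
  have hWκ : ∀ w ∈ W, κ w ∈ W := by
    intro w hw
    rw [hW, LinearMap.mem_ker] at hw ⊢
    rw [← comm_aeval hcomm, hw, map_zero]
  have hκinj : Function.Injective κ := by
    intro a b hab
    have h1 := congrArg κ hab
    rw [hsq, hsq] at h1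
    exact smul_right_injective V hδ h1
  -- the block
  have hT' : aeval (T.restrict hWT) (Phi F r) = 0 := by
    apply LinearMap.ext
    intro u
    apply Subtype.ext
    rw [aeval_restrict T hWT]
    exact u.2
  have hbot : Inv (T.restrict hWT) (⊥ : Submodule F W) := by
    intro w hw
    rw [Submodule.mem_bot] at hw ⊢
    rw [hw, map_zero]
  obtain ⟨E₁, h1, -, -, h4⟩ := chain (T := T.restrict hWT) (phi_squarefree hrq) (phi_degree hrq) hi0 hbot bot_le 1 (by
    rw [hT', LinearMap.ker_zero, finrank_top, finrank_bot, zero_add, one_mul, hdim]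
    omega)
  obtain ⟨g1, g2, g3⟩ := push_inv hWT h1
  rw [h4, finrank_bot, zero_add, one_mul] at g3
  set E₀ := E₁.map W.subtype with hE₀
  have hE₀W : E₀ ≤ W := g1
  -- the block is totally isotropic
  have hti : ∀ u ∈ E₀, ∀ v ∈ E₀, B u v = 0 := by
    rcases rad_cases hrq hT halt hiso hE₀W g3 g2 with h | h
    · exfalso
      have h5 := Cfsg.Agent.Lib.ClassMax.EluSimForm.even_of_nd halt h
      rw [g3] at h5
      exact (Nat.not_even_iff_odd.mpr hodd) h5
    · exact h
  -- the image under the skew map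
  let Ek : Submodule F V := E₀.map κ
  have hEkT : Inv T Ek := by
    rintro _ ⟨u, hu, rfl⟩
    refine ⟨T u, g2 u hu, ?_⟩
    exact (LinearMap.congr_fun hcomm.eq u).symm
  have hEkd : finrank F Ek = i := by
    have := (Submodule.equivMapOfInjective κ hκinj E₀).finrank_eq
    exact this.symm.trans g3
  have hEkW : Ek ≤ W := by
    rintro _ ⟨u, hu, rfl⟩
    exact hWκ u (hE₀W hu)
  have hdisj : E₀ ⊓ Ek = ⊥ := by
    have hinvI : Inv T (E₀ ⊓ Ek) := fun u hu => ⟨g2 u hu.1, hEkT u hu.2⟩
    rcases irr_sub hrq hE₀W g3 (inf_le_left : E₀ ⊓ Ek ≤ E₀) hinvI with h | h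
    · exact h
    · exfalso
      have hle : E₀ ≤ Ek := by
        rw [← h]
        exact inf_le_right
      have heq : E₀ = Ek := Submodule.eq_of_le_of_finrank_eq hle (by rw [g3, hEkd])
      have hinvκ : ∀ v ∈ E₀, κ v ∈ E₀ := by
        intro v hv
        rw [heq]
        exact ⟨v, hv, rfl⟩
      have h5 := even_of_sq hsq hns hinvκ
      rw [g3] at h5
      exact (Nat.not_even_iff_odd.mpr hodd) h5
  have hsup : E₀ ⊔ Ek = W := by
    apply Submodule.eq_of_le_of_finrank_eq (sup_le hE₀W hEkW)
    have h6 := Submodule.finrank_sup_add_finrank_inf_eq E₀ Ek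
    rw [hdisj, finrank_bot, add_zero, g3, hEkd] at h6
    rw [h6, hdim]
    ring
  -- the symmetric form on the block
  have hTpow : ∀ v ∈ E₀, T ((T ^ (r - 1)) v) = v := by
    intro v _
    rw [← Module.End.mul_apply, ← pow_succ']
    have : r - 1 + 1 = r := by have := hr.pos; omega
    rw [this, hT]
    rfl
  have hTpowmem : ∀ v ∈ E₀, ∀ k : ℕ, (T ^ k) v ∈ E₀ := by
    intro v hv k
    induction k with
    | zero => simpa using hv
    | succ k ih =>
      rw [pow_succ', Module.End.mul_apply]
      exact g2 _ ih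
  have hform : ∀ u v, B (T u) (κ (T v)) = B u (κ v) := by
    intro u v
    have : κ (T v) = T (κ v) := (LinearMap.congr_fun hcomm.eq v).symm
    rw [this, hiso]
  have hndE : ∀ u ∈ E₀, u ≠ 0 → ∃ v ∈ E₀, B u (κ v) ≠ 0 := by
    intro u hu hu0
    by_contra hcon
    push Not at hcon
    let R : Submodule F V :=
      { carrier := {a | a ∈ E₀ ∧ ∀ v ∈ E₀, B a (κ v) = 0}
        add_mem' := by
          rintro a b ⟨ha, ha'⟩ ⟨hb, hb'⟩
          refine ⟨E₀.add_mem ha hb, fun v hv => ?_⟩
          rw [map_add, LinearMap.add_apply, ha' v hv, hb' v hv, add_zero]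
        zero_mem' := ⟨E₀.zero_mem, by simp⟩
        smul_mem' := by
          rintro c a ⟨ha, ha'⟩
          refine ⟨E₀.smul_mem _ ha, fun v hv => ?_⟩
          rw [map_smul, LinearMap.smul_apply, ha' v hv, smul_zero] }
    have hRle : R ≤ E₀ := fun a ha => ha.1
    have hRT : Inv T R := by
      rintro a ⟨ha, ha'⟩
      refine ⟨g2 a ha, fun v hv => ?_⟩
      rw [← hTpow v hv, hform]
      exact ha' _ (hTpowmem v hv _)
    have huR : u ∈ R := ⟨hu, hcon⟩
    rcases irr_sub hrq hE₀W g3 hRle hRT with h | h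
    · rw [h] at huR
      exact hu0 ((Submodule.mem_bot F).mp huR)
    · obtain ⟨w, hw, hne⟩ := hWnd u (hE₀W hu) hu0
      rw [← hsup] at hw
      obtain ⟨a, ha, b, hb, rfl⟩ := Submodule.mem_sup.mp hw
      obtain ⟨c, hc, rfl⟩ := hb
      apply hne
      rw [map_add, hti u hu a ha, hcon c hc, add_zero]
  let g' : LinearMap.BilinForm F E₀ := LinearMap.BilinForm.restrict (B.compl₁₂ LinearMap.id κ) E₀
  have hg' : ∀ u v : E₀, g' u v = B u (κ v) := fun u v => rfl
  let T₀ : Module.End F E₀ := T.restrict g2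
  have hT₀v : ∀ (k : ℕ) (u : E₀), (((T₀ ^ k) u : E₀) : V) = (T ^ k) u := by
    intro k u
    induction k with
    | zero => simp
    | succ k ih =>
      rw [pow_succ', Module.End.mul_apply, pow_succ', Module.End.mul_apply, ← ih]
      rfl
  have hT₀r : T₀ ^ r = 1 := by
    apply LinearMap.ext
    intro u
    apply Subtype.ext
    rw [hT₀v, hT]
    rfl
  have hroddr : Odd r := hr.odd_of_ne_two hr2
  obtain ⟨v, hv0, hv⟩ := fixed_of_odd h2 g' (by
      rintro ⟨u, hu⟩ hu0
      obtain ⟨v, hv, hne⟩ := hndE u hu (fun h => hu0 (Subtype.ext h))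
      exact ⟨⟨v, hv⟩, hne⟩) T₀ (by
      rintro ⟨u, hu⟩ ⟨v, hv⟩
      rw [hg', hg']
      exact hform u v) hroddr hT₀r (by rw [g3]; exact hodd)
  have hv1 : T (v : V) = v := congrArg Subtype.val hv
  have hv2 : aeval T (Phi F r) (v : V) = 0 := hE₀W v.2
  have hv3 : aeval T (Phi F r) (v : V) = (r : F) • (v : V) := by
    have hpow : ∀ k : ℕ, (T ^ k) (v : V) = v := by
      intro k
      induction k with
      | zero => simp
      | succ k ih => rw [pow_succ', Module.End.mul_apply, ih, hv1]
    unfold Phi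
    rw [map_sum, LinearMap.sum_apply]
    simp only [map_pow, aeval_X, hpow, Finset.sum_const, Finset.card_range]
    rw [Nat.cast_smul_eq_nsmul]
  rw [hv3] at hv2
  have hv4 := (smul_eq_zero.mp hv2).resolve_left hcast
  exact hv0 (Subtype.ext hv4)

/-- The main statement: no commutation unless the order is twice an odd number. -/
theorem no_comm (hdim : finrank F (LinearMap.ker (aeval T (Phi F r))) = blockDim F r) (h4 : orderOf ((Fintype.card F : ℕ) : ZMod r) % 4 ≠ 2) : False := by
  unfold blockDim at hdim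
  split_ifs at hdim with he
  · refine no_comm_four halt hnd h2 hr2 hrq hT hiso hskew hsq hns hcomm hdim ?_
    obtain ⟨t, ht⟩ := he
    omega
  · exact no_comm_odd halt hnd h2 hr2 hrq hT hiso hskew hsq hns hcomm hdim (Nat.not_even_iff_odd.mp he)

end main

end Cfsg.Agent.Lib.ClassMax.SkewBlock
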