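import Mathlib
import Cfsg.Agent.Lib.ClassMax.OmegaGU3
import Cfsg.Agent.Lib.ClassMax.SpOver

/-! A quadratic extension field acting on a symplectic space with non-trivial adjoint: maximality of its normaliser. -/

set_option autoImplicit false

namespace Cfsg.Agent.Lib.ClassMax.SpGU

open Matrix Cfsg.Geo Cfsg.Agent.Lib.KnownSimple Cfsg.Agent.Lib.Classical Cfsg.Agent.Lib.ClassMax Cfsg.Agent.Lib.ClassMax.QuadOver Cfsg.Agent.Lib.ClassMax.OmegaCore

variable {m : ℕ} {F : Type*} [Field F]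

local notation "ff" => Cfsg.sympForm m F
local notation "VV" => (Fin m ⊕ Fin m → F)
local notation "MM" => Matrix (Fin m ⊕ Fin m) (Fin m ⊕ Fin m) F
local notation "GG" => GL (Fin m ⊕ Fin m) F

/-- The commutator of two unipotent elements with square-zero perturbations. -/
theorem comm_formula3 {ι : Type} [Fintype ι] [DecidableEq ι] (a b : GL ι F) (A N : (ι → F) → (ι → F))
    (ha : ∀ v, (a : Matrix ι ι F) *ᵥ v = v + A v) (hb : ∀ v, (b : Matrix ι ι F) *ᵥ v = v + N v)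
    (hA0 : ∀ v, A (A v) = 0) (hN0 : ∀ v, N (N v) = 0) (hNAN : ∀ v, N (A (N v)) = 0)
    (hAadd : ∀ x y, A (x + y) = A x + A y) (hNadd : ∀ x y, N (x + y) = N x + N y) (v : ι → F) :
    ((a * b * a⁻¹ * b⁻¹ : GL ι F) : Matrix ι ι F) *ᵥ v = v + A (N v) - N (A v) - A (N (A v)) := by
  have hA00 : A 0 = 0 := by
    have := hAadd 0 0
    simpa using this
  have hN00 : N 0 = 0 := by
    have := hNadd 0 0
    simpa using this
  have hAneg : ∀ x, A (-x) = - A x := fun x => by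
    have := hAadd x (-x)
    rw [add_neg_cancel, hA00] at this
    exact (neg_eq_of_add_eq_zero_right this.symm).symm
  have hNneg : ∀ x, N (-x) = - N x := fun x => by
    have := hNadd x (-x)
    rw [add_neg_cancel, hN00] at this
    exact (neg_eq_of_add_eq_zero_right this.symm).symm
  have hainv : ∀ x, ((a⁻¹ : GL ι F) : Matrix ι ι F) *ᵥ x = x + - A x := by
    intro x
    have h1 : (a : Matrix ι ι F) *ᵥ (x + - A x) = x := by
      rw [ha, hAadd, hAneg, hA0, neg_zero, add_zero]; abel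
    rw [← h1, Matrix.mulVec_mulVec, ← Units.val_mul, inv_mul_cancel, Units.val_one, Matrix.one_mulVec, h1]
  have hbinv : ∀ x, ((b⁻¹ : GL ι F) : Matrix ι ι F) *ᵥ x = x + - N x := by
    intro x
    have h1 : (b : Matrix ι ι F) *ᵥ (x + - N x) = x := by
      rw [hb, hNadd, hNneg, hN0, neg_zero, add_zero]; abel
    rw [← h1, Matrix.mulVec_mulVec, ← Units.val_mul, inv_mul_cancel, Units.val_one, Matrix.one_mulVec, h1]
  rw [Units.val_mul, Units.val_mul, Units.val_mul, ← Matrix.mulVec_mulVec, ← Matrix.mulVec_mulVec, ← Matrix.mulVec_mulVec,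
    hbinv, hainv, hb, ha]
  simp only [hAadd, hNadd, hAneg, hNneg, hA0, hN0, hNAN, neg_zero, add_zero, zero_add]
  abel

/-- The quadratic form attached to a skew element. -/
def QK (κ : Matrix (Fin m ⊕ Fin m) (Fin m ⊕ Fin m) F) (v : Fin m ⊕ Fin m → F) : F := Cfsg.sympForm m F (κ *ᵥ v) v

/-- The data of the field. -/
structure SK (κ : Matrix (Fin m ⊕ Fin m) (Fin m ⊕ Fin m) F) (δ : F) : Prop where
  two : (2 : F) ≠ 0
  sq : ∀ v : Fin m ⊕ Fin m → F, κ *ᵥ (κ *ᵥ v) = δ • v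
  skew : ∀ u v : Fin m ⊕ Fin m → F, Cfsg.sympForm m F (κ *ᵥ u) v = - Cfsg.sympForm m F u (κ *ᵥ v)
  ns : ¬ IsSquare δ

section Form

variable {κ : Matrix (Fin m ⊕ Fin m) (Fin m ⊕ Fin m) F} {δ : F} (hs : SK κ δ)
include hs

theorem SK.delta_ne : δ ≠ 0 := by
  intro h0
  apply hs.ns
  rw [h0]
  exact ⟨0, by ring⟩

theorem pol_QK (u v : Fin m ⊕ Fin m → F) : QuadraticMap.polar (QK κ) u v = 2 * ff (κ *ᵥ u) v := by
  unfold QuadraticMap.polar QK
  rw [Matrix.mulVec_add, sympForm_add_left, sympForm_add_right, sympForm_add_right, sympForm_swap (κ *ᵥ v) u, hs.skew u v, sympForm_swap u]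
  ring

theorem qk_nd : IsNondegenerateQuadraticForm (QK κ) where
  smul c v := by
    unfold QK
    rw [Matrix.mulVec_smul, sympForm_smul_left, sympForm_smul_right]
    ring
  polar_bilinear :=
    { add_left := fun x y v => by
        rw [pol_QK hs, pol_QK hs, pol_QK hs, Matrix.mulVec_add, sympForm_add_left]
        ring
      smul_left := fun c x v => by
        rw [pol_QK hs, pol_QK hs, Matrix.mulVec_smul, sympForm_smul_left]
        ring
      add_right := fun x y v => by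
        rw [pol_QK hs, pol_QK hs, pol_QK hs, sympForm_add_right]
        ring
      smul_right := fun c x v => by
        rw [pol_QK hs, pol_QK hs, sympForm_smul_right]
        ring }
  nondegenerate := by
    intro v hv
    have hkv : κ *ᵥ v ≠ 0 := by
      intro h0
      have h1 := hs.sq v
      rw [h0, Matrix.mulVec_zero] at h1
      exact hv ((smul_eq_zero.mp h1.symm).resolve_left hs.delta_ne)
    obtain ⟨⟨x, hx⟩, ⟨x', hx'⟩⟩ := sympForm_isSymplectic.nondegenerate _ hkv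
    have h2 := hs.two
    refine ⟨⟨x', ?_⟩, ⟨x', ?_⟩⟩
    · rw [pol_QK hs, hs.skew, sympForm_swap]
      simp only [neg_neg]
      exact mul_ne_zero h2 hx'
    · rw [pol_QK hs]
      exact mul_ne_zero h2 hx'

theorem qk_qf : QF (QK κ) κ 0 (-δ) where
  sq v := by
    rw [hs.sq]
    simp
  adj u v := by
    rw [pol_QK hs, pol_QK hs u (κ *ᵥ v), hs.sq, hs.skew u (κ *ᵥ v), hs.sq, sympForm_smul_left, sympForm_smul_right]
    ring
  scale v := by
    unfold QK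
    rw [hs.sq, sympForm_smul_left, sympForm_swap (κ *ᵥ v) v]
    ring
  split v := by
    rw [pol_QK hs, sympForm_self]
    ring
  nonz a b h := by
    by_cases hb : b = 0
    · subst hb
      have : a ^ 2 = 0 := by linear_combination h
      exact ⟨pow_eq_zero_iff (two_ne_zero) |>.mp this, rfl⟩
    · exfalso
      apply hs.ns
      refine ⟨a * b⁻¹, ?_⟩
      field_simp
      linear_combination -h

theorem ff_left_k (a c : Fin m ⊕ Fin m → F) : ff (κ *ᵥ a) c = 2⁻¹ * QuadraticMap.polar (QK κ) a c := by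
  rw [pol_QK hs, ← mul_assoc, inv_mul_cancel₀ hs.two, one_mul]

theorem ff_right_k (a c : Fin m ⊕ Fin m → F) : ff a (κ *ᵥ c) = - (2⁻¹ * QuadraticMap.polar (QK κ) a c) := by
  rw [← ff_left_k hs, hs.skew, neg_neg]

theorem pol_k_left (a c : Fin m ⊕ Fin m → F) : QuadraticMap.polar (QK κ) (κ *ᵥ a) c = 2 * δ * ff a c := by
  rw [pol_QK hs, hs.sq, sympForm_smul_left]
  ring

theorem pol_eq (a c : Fin m ⊕ Fin m → F) : QuadraticMap.polar (QK κ) a c = -2 * ff a (κ *ᵥ c) := by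
  rw [pol_QK hs, hs.skew]
  ring

theorem ff_kk (a c : Fin m ⊕ Fin m → F) : ff (κ *ᵥ a) (κ *ᵥ c) = - δ * ff a c := by
  rw [hs.skew, hs.sq, sympForm_smul_right]
  ring

variable [Fintype F]

/-- Singular vectors with prescribed values of the form on three independent lines. -/
theorem exists_d_ff (hn : 13 ≤ Fintype.card (Fin m ⊕ Fin m)) {c₁ c₂ c₃ : Fin m ⊕ Fin m → F} (h1 : c₁ ≠ 0) (h2 : c₂ ∉ KL κ c₁)
    (h3 : c₃ ∉ KL κ c₁ ⊔ KL κ c₂) (a₁ b₁ a₂ b₂ a₃ b₃ : F) :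
    ∃ d, QK κ d = 0 ∧ ff c₁ d = a₁ ∧ ff c₁ (κ *ᵥ d) = b₁ ∧ ff c₂ d = a₂ ∧ ff c₂ (κ *ᵥ d) = b₂ ∧ ff c₃ d = a₃ ∧ ff c₃ (κ *ᵥ d) = b₃ := by
  have hδ := hs.delta_ne
  have h2' := hs.two
  obtain ⟨d, e0, e1, e2, e3, e4, e5, e6⟩ := exists_d (qk_nd hs) (qk_qf hs) hn h1 h2 h3 (-2 * b₁) (2 * δ * a₁) (-2 * b₂) (2 * δ * a₂) (-2 * b₃) (2 * δ * a₃)
  have key : ∀ c t, QuadraticMap.polar (QK κ) (κ *ᵥ c) d = 2 * δ * t → ff c d = t := by
    intro c t h
    rw [pol_k_left hs] at h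
    exact mul_left_cancel₀ (mul_ne_zero h2' hδ) h
  have key2 : ∀ c t, QuadraticMap.polar (QK κ) c d = -2 * t → ff c (κ *ᵥ d) = t := by
    intro c t h
    rw [pol_eq hs] at h
    exact mul_left_cancel₀ (mul_ne_zero (neg_ne_zero.mpr h2') one_ne_zero) (by linear_combination h)
  exact ⟨d, e0, key _ _ e2, key2 _ _ e1, key _ _ e4, key2 _ _ e3, key _ _ e6, key2 _ _ e5⟩

/-- A singular vector perpendicular to the lines of a short family, off a small subspace. -/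
theorem exists_sing_ff {r : ℕ} (c : Fin r → Fin m ⊕ Fin m → F) (T : Submodule F (Fin m ⊕ Fin m → F))
    (h : 2 * r + Module.finrank F T + 3 ≤ Fintype.card (Fin m ⊕ Fin m)) :
    ∃ w, QK κ w = 0 ∧ (∀ i, ff (c i) w = 0) ∧ (∀ i, ff (c i) (κ *ᵥ w) = 0) ∧ w ∉ T := by
  have hδ := hs.delta_ne
  have h2' := hs.two
  obtain ⟨z, -, h1, h2, h3⟩ := exists_sing (qk_nd hs) (OrthPair.top (qk_nd hs)) (Sum.elim c (fun i => κ *ᵥ c i)) (bot_le : ⊥ ≤ T) (by
    have hh := h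
    simp only [Fintype.card_sum, Fintype.card_fin] at hh ⊢
    omega)
  refine ⟨z, h1, fun i => ?_, fun i => ?_, h3⟩
  · have := h2 (Sum.inr i)
    rw [Sum.elim_inr, pol_k_left hs] at this
    exact (mul_eq_zero.mp this).resolve_left (mul_ne_zero h2' hδ)
  · have := h2 (Sum.inl i)
    rw [Sum.elim_inl, pol_eq hs] at this
    exact (mul_eq_zero.mp this).resolve_left (neg_ne_zero.mpr h2')

/-- The elements of the group of the field. -/
noncomputable def TT (κ : Matrix (Fin m ⊕ Fin m) (Fin m ⊕ Fin m) F) (δ : F) (z : Fin m ⊕ Fin m → F) (s : F) : GL (Fin m ⊕ Fin m) F :=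
  sg (QK κ) z ((-(s / (2 * δ))) • κ *ᵥ z)

theorem TT_pol {z : Fin m ⊕ Fin m → F} (hz : QK κ z = 0) (s : F) : QuadraticMap.polar (QK κ) z ((-(s / (2 * δ))) • κ *ᵥ z) = 0 := by
  rw [(qk_nd hs).polar_bilinear.smul_right, pol_zk (qk_nd hs) (qk_qf hs) hz, mul_zero]

theorem TT_apply {z : Fin m ⊕ Fin m → F} (hz : QK κ z = 0) (s : F) (v : Fin m ⊕ Fin m → F) :
    (TT κ δ z s : MM) *ᵥ v = v + (s * ff v z) • z - ((s / δ) * ff v (κ *ᵥ z)) • κ *ᵥ z := by
  have hδ := hs.delta_ne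
  have h2' := hs.two
  unfold TT
  rw [sg_apply (qk_nd hs) hz (TT_pol hs hz s)]
  unfold sgFun
  have hQ0 : QK κ ((-(s / (2 * δ))) • κ *ᵥ z) = 0 := by
    rw [(qk_nd hs).smul, sing_k (qk_nd hs) (qk_qf hs) hz, mul_zero]
  rw [hQ0, (qk_nd hs).polar_bilinear.smul_right, pol_eq hs v z, pol_eq hs v (κ *ᵥ z), hs.sq, sympForm_smul_right]
  have e1 : -(s / (2 * δ)) * (-2 * (δ * ff v z)) = s * ff v z := by
    field_simp
  have e2 : (-2 * ff v (κ *ᵥ z)) • (-(s / (2 * δ))) • κ *ᵥ z = ((s / δ) * ff v (κ *ᵥ z)) • κ *ᵥ z := by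
    rw [smul_smul]
    congr 1
    field_simp
  rw [e1, e2]
  simp

omit [Fintype F] in
/-- Elements commuting with the field and preserving the quadratic form preserve the alternating form. -/
theorem sp_of_comm {g : GG} (hc : (g : MM) * κ = κ * (g : MM)) (hg : ∀ v, QK κ ((g : MM) *ᵥ v) = QK κ v) : g ∈ Cfsg.spGL m F := by
  have hδ := hs.delta_ne
  have h2' := hs.two
  rw [mem_spGL_iff]
  intro u v
  have hcv : ∀ w : Fin m ⊕ Fin m → F, (g : MM) *ᵥ (κ *ᵥ w) = κ *ᵥ ((g : MM) *ᵥ w) := by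
    intro w
    rw [Matrix.mulVec_mulVec, hc, ← Matrix.mulVec_mulVec]
  have hu : u = κ *ᵥ (δ⁻¹ • κ *ᵥ u) := by
    rw [Matrix.mulVec_smul, hs.sq, smul_smul, inv_mul_cancel₀ hδ, one_smul]
  rw [hu, hcv, ff_left_k hs, ff_left_k hs, pol_iso' g hg]

theorem TT_comm {z : Fin m ⊕ Fin m → F} (hz : QK κ z = 0) (s : F) : ((TT κ δ z s : GG) : MM) * κ = κ * ((TT κ δ z s : GG) : MM) :=
  sg_k_comm (qk_nd hs) (qk_qf hs) hz _

theorem TT_iso {z : Fin m ⊕ Fin m → F} (hz : QK κ z = 0) (s : F) (v : Fin m ⊕ Fin m → F) : QK κ ((TT κ δ z s : GG) *ᵥ v) = QK κ v :=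
  sg_iso (qk_nd hs) hz (TT_pol hs hz s) v

/-- The group of the field. -/
theorem TT_mem {K : Subalgebra F (Matrix (Fin m ⊕ Fin m) (Fin m ⊕ Fin m) F)} (hk : ∀ k, k ∈ K ↔ ∃ a b : F, k = a • 1 + b • κ)
    {z : Fin m ⊕ Fin m → F} (hz : QK κ z = 0) (s : F) : TT κ δ z s ∈ subalgebraNormalizer K ⊓ Cfsg.spGL m F := by
  refine ⟨?_, sp_of_comm hs (TT_comm hs hz s) (TT_iso hs hz s)⟩
  apply mem_norm_of_conj hk (p := 0) (q := 1) one_ne_zero
  rw [TT_comm hs hz s, Matrix.mul_assoc, ← Units.val_mul, mul_inv_cancel, Units.val_one, Matrix.mul_one]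
  simp

/-- Propagation of centres along the group of the field. -/
theorem centre_step {K : Subalgebra F (Matrix (Fin m ⊕ Fin m) (Fin m ⊕ Fin m) F)} (hk : ∀ k, k ∈ K ↔ ∃ a b : F, k = a • 1 + b • κ)
    {M : Subgroup GG} (hHM : subalgebraNormalizer K ⊓ Cfsg.spGL m F ≤ M) {b z : Fin m ⊕ Fin m → F} (hb : IsCentre M b)
    (hz : QK κ z = 0) (h1 : ff b (κ *ᵥ z) = 0) (h2 : ff b z ≠ 0) : IsCentre M z := by
  have hT0 := TT_mem hs hk hz 1
  have hT := hHM hT0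
  have hc := hb.map hT0.2 hT
  rw [TT_apply hs hz, h1, mul_zero, zero_smul, sub_zero] at hc
  have hff : ff b (b + (1 * ff b z) • z) ≠ 0 := by
    rw [sympForm_add_right, sympForm_self, sympForm_smul_right, zero_add]
    exact mul_ne_zero (by rw [one_mul]; exact h2) h2
  have h3 := IsCentre.add_smul hb hc hff (-1)
  have h4 : b + (-1 : F) • (b + (1 * ff b z) • z) = (-(ff b z)) • z := by
    simp only [one_mul]
    module
  rw [h4] at h3
  have h5 := h3.smul (-(ff b z))⁻¹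
  rwa [smul_smul, inv_mul_cancel₀ (neg_ne_zero.mpr h2), one_smul] at h5

/-- All centres from one singular centre. -/
theorem sp_le_of_centre (hn : 13 ≤ Fintype.card (Fin m ⊕ Fin m)) {K : Subalgebra F (Matrix (Fin m ⊕ Fin m) (Fin m ⊕ Fin m) F)}
    (hk : ∀ k, k ∈ K ↔ ∃ a b : F, k = a • 1 + b • κ) {M : Subgroup GG} (hHM : subalgebraNormalizer K ⊓ Cfsg.spGL m F ≤ M)
    {b : Fin m ⊕ Fin m → F} (hb0 : b ≠ 0) (hbQ : QK κ b = 0) (hb : IsCentre M b) : Cfsg.spGL m F ≤ M := by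
  have hδ := hs.delta_ne
  have h2' := hs.two
  have hQ := qk_nd hs
  have qf := qk_qf hs
  -- two steps between independent singular vectors
  have htwo : ∀ {a z : Fin m ⊕ Fin m → F}, a ≠ 0 → QK κ a = 0 → IsCentre M a → QK κ z = 0 → z ∉ KL κ a → IsCentre M z := by
    intro a z ha0 ha hac hz hzn
    obtain ⟨c₃, -, -, -, hc₃⟩ := exists_sing_ff hs (![] : Fin 0 → Fin m ⊕ Fin m → F) (KL κ a ⊔ KL κ z)
      (by have := finrank_KL2_le (κ := κ) a z; simp at hn ⊢; omega)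
    obtain ⟨y, e0, e1, e2, e3, e4, -, -⟩ := exists_d_ff hs hn ha0 hzn hc₃ 1 0 1 0 0 0
    have s1 : IsCentre M y := centre_step hs hk hHM hac e0 e2 (by rw [e1]; exact one_ne_zero)
    refine centre_step hs hk hHM s1 hz ?_ ?_
    · rw [sympForm_swap, hs.skew, neg_neg]
      exact e4
    · rw [sympForm_swap, e3]
      exact neg_ne_zero.mpr one_ne_zero
  have hsing : ∀ z : Fin m ⊕ Fin m → F, QK κ z = 0 → IsCentre M z := by
    intro z hz
    by_cases hz0 : z = 0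
    · rw [hz0]
      exact isCentre_zero M
    by_cases hzn : z ∈ KL κ b
    · obtain ⟨z', hz', -, -, hz'T⟩ := exists_sing_ff hs (![] : Fin 0 → Fin m ⊕ Fin m → F) (KL κ b ⊔ KL κ z)
        (by have := finrank_KL2_le (κ := κ) b z; simp at hn ⊢; omega)
      have hz'0 : z' ≠ 0 := fun h => hz'T (h ▸ Submodule.zero_mem _)
      have s1 := htwo hb0 hbQ hb hz' (fun h => hz'T (Submodule.mem_sup_left h))
      refine htwo hz'0 hz' s1 hz fun h => hz'T (Submodule.mem_sup_right ?_)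
      exact KL_symm hQ qf h hz0
    · exact htwo hb0 hbQ hb hz hzn
  refine spGL_le_of_stv M fun x c => ?_
  revert c
  change IsCentre M x
  by_cases hx0 : x = 0
  · rw [hx0]
    exact isCentre_zero M
  obtain ⟨c₂, -, -, -, hc₂⟩ := exists_sing_ff hs (![] : Fin 0 → Fin m ⊕ Fin m → F) (KL κ x)
    (by have := finrank_KL_le κ x; simp at hn ⊢; omega)
  obtain ⟨c₃, -, -, -, hc₃⟩ := exists_sing_ff hs (![] : Fin 0 → Fin m ⊕ Fin m → F) (KL κ x ⊔ KL κ c₂)
    (by have := finrank_KL2_le (κ := κ) x c₂; simp at hn ⊢; omega)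
  obtain ⟨z₁, e0, e1, e2, -, -, -, -⟩ := exists_d_ff hs hn hx0 hc₂ hc₃ 1 (-(2⁻¹ * QK κ x)) 0 0 0 0
  have hz₂ : QK κ (x + (-1 : F) • z₁) = 0 := by
    rw [Q_add' (Q := QK κ), hQ.smul, e0, hQ.polar_bilinear.smul_right, pol_eq hs, e2]
    field_simp
    ring
  have hz₁c := hsing z₁ e0
  have hz₂c := hsing _ hz₂
  have hne : ff z₁ (x + (-1 : F) • z₁) ≠ 0 := by
    rw [sympForm_add_right, sympForm_smul_right, sympForm_self, sympForm_swap, e1]
    simp
  have h3 := IsCentre.add_smul hz₁c hz₂c hne 1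
  have h4 : z₁ + (1 : F) • (x + (-1 : F) • z₁) = x := by
    module
  rwa [h4] at h3

end Form

section Main

variable [Fintype F] {κ : Matrix (Fin m ⊕ Fin m) (Fin m ⊕ Fin m) F} {δ : F} (hs : SK κ δ)
include hs

/-- The elements of the group of the field attached to two perpendicular singular vectors. -/
theorem exists_RR {K : Subalgebra F (Matrix (Fin m ⊕ Fin m) (Fin m ⊕ Fin m) F)} (hk : ∀ k, k ∈ K ↔ ∃ a b : F, k = a • 1 + b • κ)
    {z u : Fin m ⊕ Fin m → F} (hz : QK κ z = 0) (hu : QK κ u = 0) (hzu : ff z u = 0) (hzku : ff z (κ *ᵥ u) = 0) (c : F) :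
    ∃ R ∈ subalgebraNormalizer K ⊓ Cfsg.spGL m F, ∀ v : Fin m ⊕ Fin m → F, (R : MM) *ᵥ v =
      v + c • ((ff v z) • u + (ff v u) • z - δ⁻¹ • (ff v (κ *ᵥ z)) • κ *ᵥ u - δ⁻¹ • (ff v (κ *ᵥ u)) • κ *ᵥ z) := by
  have hδ := hs.delta_ne
  have hQ := qk_nd hs
  have hb := hQ.polar_bilinear
  have hzs : QK κ (z + u) = 0 := by
    rw [Q_add' (Q := QK κ), hz, hu, pol_eq hs, hzku]
    ring
  have hzz : ff (κ *ᵥ z) z = 0 := hz
  have huu : ff (κ *ᵥ u) u = 0 := hu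
  have h1 : ff z (κ *ᵥ z) = 0 := by rw [sympForm_swap, hzz, neg_zero]
  have h2 : ff u (κ *ᵥ u) = 0 := by rw [sympForm_swap, huu, neg_zero]
  have h3 : ff u z = 0 := by rw [sympForm_swap, hzu, neg_zero]
  have h4 : ff (κ *ᵥ u) z = 0 := by rw [sympForm_swap, hzku, neg_zero]
  have h5 : ff (κ *ᵥ z) u = 0 := by rw [hs.skew, hzku, neg_zero]
  have h6 : ff u (κ *ᵥ z) = 0 := by rw [sympForm_swap, h5, neg_zero]
  have h7 : ff (κ *ᵥ z) (κ *ᵥ u) = 0 := by rw [ff_kk hs, hzu, mul_zero]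
  have h8 : ff (κ *ᵥ u) (κ *ᵥ z) = 0 := by rw [sympForm_swap, h7, neg_zero]
  have hsub : ∀ a b e : Fin m ⊕ Fin m → F, ff (a - b) e = ff a e - ff b e := by
    intro a b e
    rw [sub_eq_add_neg, ← neg_one_smul F b, sympForm_add_left, sympForm_smul_left]
    ring
  refine ⟨TT κ δ (z + u) c * TT κ δ z (-c) * TT κ δ u (-c),
    mul_mem (mul_mem (TT_mem hs hk hzs c) (TT_mem hs hk hz _)) (TT_mem hs hk hu _), fun v => ?_⟩
  rw [Units.val_mul, Units.val_mul, ← Matrix.mulVec_mulVec, ← Matrix.mulVec_mulVec, TT_apply hs hu, TT_apply hs hz, TT_apply hs hzs]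
  simp only [Matrix.mulVec_add, sympForm_add_left, sympForm_add_right, hsub, sympForm_smul_left, sympForm_self, h1, h2, h3, h4, h5, h6, h7, h8, hzu, hzku, hzz, huu,
    mul_zero, add_zero, zero_add, sub_zero, zero_sub, zero_mul]
  have e : -c / δ = -(c / δ) := by ring
  rw [e]
  simp only [div_eq_mul_inv]
  module

/-- The extraction: an element of `M` outside the normaliser produces a centre. -/
theorem exists_centre (hn : 13 ≤ Fintype.card (Fin m ⊕ Fin m)) {K : Subalgebra F (Matrix (Fin m ⊕ Fin m) (Fin m ⊕ Fin m) F)}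
    (hk : ∀ k, k ∈ K ↔ ∃ a b : F, k = a • 1 + b • κ) {M : Subgroup GG} (hHM : subalgebraNormalizer K ⊓ Cfsg.spGL m F ≤ M)
    {g : GG} (hgM : g ∈ M) (hgS : g ∈ Cfsg.spGL m F) {z : Fin m ⊕ Fin m → F} (hz : QK κ z = 0)
    (hgz : (g : MM) *ᵥ (κ *ᵥ z) ∉ KL κ ((g : MM) *ᵥ z)) :
    ∃ b, b ≠ 0 ∧ QK κ b = 0 ∧ IsCentre M b := by
  have hδ := hs.delta_ne
  have h2' := hs.two
  have hQ := qk_nd hs
  have qf := qk_qf hs
  have hiso := (mem_spGL_iff g).mp hgS
  obtain ⟨x, hxd⟩ : ∃ x, x = (g : MM) *ᵥ z := ⟨_, rfl⟩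
  obtain ⟨y, hyd⟩ : ∃ y, y = (g : MM) *ᵥ (κ *ᵥ z) := ⟨_, rfl⟩
  rw [← hxd, ← hyd] at hgz
  have hgi : ∀ w : Fin m ⊕ Fin m → F, (g : MM) *ᵥ (((g⁻¹ : GG) : MM) *ᵥ w) = w := by
    intro w
    rw [Matrix.mulVec_mulVec, ← Units.val_mul, mul_inv_cancel, Units.val_one, Matrix.one_mulVec]
  have hig : ∀ w : Fin m ⊕ Fin m → F, ((g⁻¹ : GG) : MM) *ᵥ ((g : MM) *ᵥ w) = w := by
    intro w
    rw [Matrix.mulVec_mulVec, ← Units.val_mul, inv_mul_cancel, Units.val_one, Matrix.one_mulVec]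
  have hff : ∀ a c : Fin m ⊕ Fin m → F, ff (((g⁻¹ : GG) : MM) *ᵥ a) c = ff a ((g : MM) *ᵥ c) := by
    intro a c
    rw [← hiso, hgi]
  have hz0 : z ≠ 0 := by
    intro h0
    apply hgz
    rw [hyd, h0, Matrix.mulVec_zero, Matrix.mulVec_zero]
    exact Submodule.zero_mem _
  have hx0 : x ≠ 0 := by
    intro h0
    apply hz0
    rw [← hig z, ← hxd, h0, Matrix.mulVec_zero]
  obtain ⟨c₃, -, -, -, hc₃⟩ := exists_sing_ff hs (![] : Fin 0 → Fin m ⊕ Fin m → F) (KL κ x ⊔ KL κ y)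
    (by have := finrank_KL2_le (κ := κ) x y; simp at hn ⊢; omega)
  obtain ⟨w, w0, w1, w2, w3, w4, -, -⟩ := exists_d_ff hs hn hx0 hgz hc₃ 0 0 1 0 0 0
  obtain ⟨u, u0, u1, u2, hu⟩ := exists_sing_ff hs ![z, ((g⁻¹ : GG) : MM) *ᵥ w, ((g⁻¹ : GG) : MM) *ᵥ (κ *ᵥ w)] (⊥ : Submodule F (Fin m ⊕ Fin m → F))
    (by simp at hn ⊢; omega)
  have hu0 : u ≠ 0 := fun h => hu (by rw [h]; exact Submodule.zero_mem _)
  have hzu : ff z u = 0 := u1 0
  have hzku : ff z (κ *ᵥ u) = 0 := u2 0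
  have a1 : ff (((g⁻¹ : GG) : MM) *ᵥ w) u = 0 := u1 1
  have a2 : ff (((g⁻¹ : GG) : MM) *ᵥ w) (κ *ᵥ u) = 0 := u2 1
  have a3 : ff (((g⁻¹ : GG) : MM) *ᵥ (κ *ᵥ w)) u = 0 := u1 2
  have a4 : ff (((g⁻¹ : GG) : MM) *ᵥ (κ *ᵥ w)) (κ *ᵥ u) = 0 := u2 2
  rw [hff] at a1 a2 a3 a4
  obtain ⟨x₂, hx₂⟩ : ∃ x₂, x₂ = (g : MM) *ᵥ u := ⟨_, rfl⟩
  obtain ⟨y₂, hy₂⟩ : ∃ y₂, y₂ = (g : MM) *ᵥ (κ *ᵥ u) := ⟨_, rfl⟩
  rw [← hx₂] at a1 a3
  rw [← hy₂] at a2 a4
  have hzz : ff (κ *ᵥ z) z = 0 := hz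
  have huu : ff (κ *ᵥ u) u = 0 := u0
  have hxy : ff x y = 0 := by rw [hxd, hyd, hiso, sympForm_swap, hzz, neg_zero]
  have hxx₂ : ff x x₂ = 0 := by rw [hxd, hx₂, hiso, hzu]
  have hxy₂ : ff x y₂ = 0 := by rw [hxd, hy₂, hiso, hzku]
  have hyx₂ : ff y x₂ = 0 := by rw [hyd, hx₂, hiso, hs.skew, hzku, neg_zero]
  have hyy₂ : ff y y₂ = 0 := by rw [hyd, hy₂, hiso, ff_kk hs, hzu, mul_zero]
  have hx₂y₂ : ff x₂ y₂ = 0 := by rw [hx₂, hy₂, hiso, sympForm_swap, huu, neg_zero]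
  have hyx : ff y x = 0 := by rw [sympForm_swap, hxy, neg_zero]
  have hx₂x : ff x₂ x = 0 := by rw [sympForm_swap, hxx₂, neg_zero]
  have hy₂x : ff y₂ x = 0 := by rw [sympForm_swap, hxy₂, neg_zero]
  have hx₂y : ff x₂ y = 0 := by rw [sympForm_swap, hyx₂, neg_zero]
  have hy₂y : ff y₂ y = 0 := by rw [sympForm_swap, hyy₂, neg_zero]
  have hy₂x₂ : ff y₂ x₂ = 0 := by rw [sympForm_swap, hx₂y₂, neg_zero]
  have hww : ff (κ *ᵥ w) w = 0 := w0
  have hwkw : ff w (κ *ᵥ w) = 0 := by rw [sympForm_swap, hww, neg_zero]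
  have hwx : ff w x = 0 := by rw [sympForm_swap, w1, neg_zero]
  have hkwx : ff (κ *ᵥ w) x = 0 := by rw [sympForm_swap, w2, neg_zero]
  have hwy : ff w y = -1 := by rw [sympForm_swap, w3]
  have hkwy : ff (κ *ᵥ w) y = 0 := by rw [sympForm_swap, w4, neg_zero]
  have hx₂w : ff x₂ w = 0 := by rw [sympForm_swap, a1, neg_zero]
  have hy₂w : ff y₂ w = 0 := by rw [sympForm_swap, a2, neg_zero]
  have hx₂kw : ff x₂ (κ *ᵥ w) = 0 := by rw [sympForm_swap, a3, neg_zero]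
  have hy₂kw : ff y₂ (κ *ᵥ w) = 0 := by rw [sympForm_swap, a4, neg_zero]
  have hsub : ∀ a b e : Fin m ⊕ Fin m → F, ff (a - b) e = ff a e - ff b e := by
    intro a b e
    rw [sub_eq_add_neg, ← neg_one_smul F b, sympForm_add_left, sympForm_smul_left]
    ring
  have hneg : ∀ a e : Fin m ⊕ Fin m → F, ff (-a) e = - ff a e := by
    intro a e
    rw [← neg_one_smul F a, sympForm_smul_left]
    ring
  have key : ∀ c s : F, ∃ Z ∈ M, ∀ v : Fin m ⊕ Fin m → F, (Z : MM) *ᵥ v =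
      v + (s * c * δ⁻¹) • ((ff v w) • y₂ + (ff v y₂) • w) + (c ^ 2 * s * δ⁻¹ ^ 2 * ff v y₂) • y₂ := by
    intro c s
    obtain ⟨R, hR, hRv⟩ := exists_RR hs hk hz u0 hzu hzku c
    have hRM := hHM hR
    have hTM := hHM (TT_mem hs hk w0 s)
    refine ⟨(g * R * g⁻¹) * TT κ δ w s * (g * R * g⁻¹)⁻¹ * (TT κ δ w s)⁻¹,
      mul_mem (mul_mem (mul_mem (mul_mem (mul_mem hgM hRM) (inv_mem hgM)) hTM) (inv_mem (mul_mem (mul_mem hgM hRM) (inv_mem hgM)))) (inv_mem hTM), fun v => ?_⟩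
    rw [comm_formula3 (g * R * g⁻¹) (TT κ δ w s)
      (fun v => c • ((ff v x) • x₂ + (ff v x₂) • x - δ⁻¹ • (ff v y) • y₂ - δ⁻¹ • (ff v y₂) • y))
      (fun v => (s * ff v w) • w - ((s / δ) * ff v (κ *ᵥ w)) • κ *ᵥ w)]
    · simp only [sympForm_add_left, hsub, hneg, sympForm_smul_left, sympForm_self, hwx, hkwx, hwy, hkwy, a1, a2, a3, a4, hx₂w, hy₂w, hx₂kw, hy₂kw, w1, w2, w3, w4, hww, hwkw,
        hxy, hxx₂, hxy₂, hyx₂, hyy₂, hx₂y₂, hyx, hx₂x, hy₂x, hx₂y, hy₂y, hy₂x₂,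
        mul_zero, mul_one, add_zero, zero_add, sub_zero, zero_sub, zero_mul, smul_zero, zero_smul, smul_add, smul_sub, smul_smul, smul_neg, neg_zero, neg_smul, mul_neg]
      try simp only [div_eq_mul_inv]
      module
    · intro v
      rw [Units.val_mul, Units.val_mul, ← Matrix.mulVec_mulVec, ← Matrix.mulVec_mulVec, hRv]
      simp only [Matrix.mulVec_add, Matrix.mulVec_sub, Matrix.mulVec_smul, hgi, hff]
      rw [← hxd, ← hyd, ← hx₂, ← hy₂]
    · intro v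
      rw [TT_apply hs w0]
      abel
    · intro v
      simp only [sympForm_add_left, hsub, sympForm_smul_left, sympForm_self, hxy, hxx₂, hxy₂, hyx₂, hyy₂, hx₂y₂, hyx, hx₂x, hy₂x, hx₂y, hy₂y, hy₂x₂,
        mul_zero, add_zero, zero_add, sub_zero, zero_sub, zero_mul, smul_zero, zero_smul, smul_add, smul_sub, sub_self, neg_zero]
    · intro v
      simp only [sympForm_add_left, hsub, sympForm_smul_left, sympForm_self, hww, hwkw,
        mul_zero, add_zero, zero_add, sub_zero, zero_sub, zero_mul, smul_zero, zero_smul, smul_add, smul_sub, sub_self, neg_zero]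
    · intro v
      simp only [sympForm_add_left, hsub, hneg, sympForm_smul_left, sympForm_self, hwx, hkwx, hwy, hkwy, a1, a2, a3, a4, hx₂w, hy₂w, hx₂kw, hy₂kw, w1, w2, w3, w4, hww, hwkw,
        mul_zero, mul_one, add_zero, zero_add, sub_zero, zero_sub, zero_mul, smul_zero, zero_smul, smul_add, smul_sub, sub_self, neg_zero]
    · intro a b
      simp only [sympForm_add_left, add_smul, smul_add, smul_sub]
      abel
    · intro a b
      simp only [sympForm_add_left, mul_add, add_smul]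
      abel
  have hcy : IsCentre M y₂ := by
    intro d
    obtain ⟨Z₁, hZ₁, h1⟩ := key 1 (d * δ ^ 2 / 2)
    obtain ⟨Z₂, hZ₂, h2⟩ := key (-1) (-(d * δ ^ 2 / 2))
    have e : stv y₂ d = Z₁ * Z₂⁻¹ := by
      rw [eq_mul_inv_iff_mul_eq]
      apply gl_ext_mulVec
      intro v
      rw [Units.val_mul, ← Matrix.mulVec_mulVec, h2, stv_apply, h1]
      simp only [sympForm_add_left, sympForm_smul_left, sympForm_self, a2, mul_zero, add_zero]
      have e1 : -(d * δ ^ 2 / 2) * -1 * δ⁻¹ = d * δ ^ 2 / 2 * 1 * δ⁻¹ := by ring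
      have e2 : ((-1 : F) ^ 2 * -(d * δ ^ 2 / 2) * δ⁻¹ ^ 2 * ff v y₂) = -(d / 2 * ff v y₂) := by
        field_simp
      have e3 : ((1 : F) ^ 2 * (d * δ ^ 2 / 2) * δ⁻¹ ^ 2 * ff v y₂) = d / 2 * ff v y₂ := by
        field_simp
      rw [e1, e2, e3]
      have e4 : d * ff v y₂ = 2 * (d / 2 * ff v y₂) := by
        field_simp
      rw [e4]
      module
    rw [e]
    exact mul_mem hZ₁ (inv_mem hZ₂)
  have hgiS : g⁻¹ ∈ Cfsg.spGL m F := inv_mem hgS
  have hc := hcy.map hgiS (inv_mem hgM)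
  rw [hy₂, hig] at hc
  refine ⟨κ *ᵥ u, ?_, sing_k hQ qf u0, hc⟩
  intro h0
  apply hu0
  have h1 := hs.sq u
  rw [h0, Matrix.mulVec_zero] at h1
  exact (smul_eq_zero.mp h1.symm).resolve_left hδ

/-- The lines criterion for normalising, from an element of the symplectic group. -/
theorem mem_norm_of_lines_sp (hn : 13 ≤ Fintype.card (Fin m ⊕ Fin m)) {K : Subalgebra F (Matrix (Fin m ⊕ Fin m) (Fin m ⊕ Fin m) F)}
    (hk : ∀ k, k ∈ K ↔ ∃ a b : F, k = a • 1 + b • κ) {g : GG} (hgS : g ∈ Cfsg.spGL m F)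
    (hL : ∀ z, QK κ z = 0 → (g : MM) *ᵥ (κ *ᵥ z) ∈ KL κ ((g : MM) *ᵥ z)) : g ∈ subalgebraNormalizer K := by
  have hδ := hs.delta_ne
  have hQ := qk_nd hs
  have qf := qk_qf hs
  have hiso := (mem_spGL_iff g).mp hgS
  have hgg : ∀ y : Fin m ⊕ Fin m → F, (g : MM) *ᵥ (((g⁻¹ : GG) : MM) *ᵥ y) = y := by
    intro y
    rw [Matrix.mulVec_mulVec, ← Units.val_mul, mul_inv_cancel, Units.val_one, Matrix.one_mulVec]
  have hgi : ∀ y : Fin m ⊕ Fin m → F, ((g⁻¹ : GG) : MM) *ᵥ ((g : MM) *ᵥ y) = y := by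
    intro y
    rw [Matrix.mulVec_mulVec, ← Units.val_mul, inv_mul_cancel, Units.val_one, Matrix.one_mulVec]
  -- the singular vectors are mapped to singular vectors
  have hS : ∀ z, QK κ z = 0 → QK κ ((g : MM) *ᵥ z) = 0 := by
    intro z hz
    by_cases hz0 : z = 0
    · rw [hz0, Matrix.mulVec_zero]
      exact Q_zero hQ
    obtain ⟨p, q, hpq⟩ := mem_KL.mp (hL z hz)
    have h1 : ff (p • (g : MM) *ᵥ z + q • κ *ᵥ ((g : MM) *ᵥ z)) ((g : MM) *ᵥ z) = 0 := by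
      rw [hpq, hiso]
      exact hz
    rw [sympForm_add_left, sympForm_smul_left, sympForm_smul_left, sympForm_self, mul_zero, zero_add] at h1
    rcases mul_eq_zero.mp h1 with h2 | h2
    · exfalso
      rw [h2, zero_smul, add_zero] at hpq
      have e : (g : MM) *ᵥ (κ *ᵥ z) = (g : MM) *ᵥ (p • z) := by
        rw [Matrix.mulVec_smul]
        exact hpq.symm
      have e2 : κ *ᵥ z = p • z := by
        rw [← hgi (κ *ᵥ z), e, hgi]
      have hne : ¬ ((-p) = 0 ∧ (1 : F) = 0) := fun h => one_ne_zero h.2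
      apply line_ne qf hne hz0
      rw [e2]
      module
    · exact h2
  -- hence they are permuted
  have hsurj : ∀ y, QK κ y = 0 → QK κ (((g⁻¹ : GG) : MM) *ᵥ y) = 0 := by
    classical
    let f : {z : Fin m ⊕ Fin m → F // QK κ z = 0} → {z : Fin m ⊕ Fin m → F // QK κ z = 0} := fun z => ⟨(g : MM) *ᵥ z.1, hS z.1 z.2⟩
    have hinj : Function.Injective f := by
      intro a b hab
      have := congrArg Subtype.val hab
      apply Subtype.ext
      rw [← hgi a.1, ← hgi b.1]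
      exact congrArg _ this
    have hsj := Finite.injective_iff_surjective.mp hinj
    intro y hy
    obtain ⟨z, hz⟩ := hsj ⟨y, hy⟩
    have e : (g : MM) *ᵥ z.1 = y := congrArg Subtype.val hz
    rw [← e, hgi]
    exact z.2
  obtain ⟨κ', hκ'⟩ : ∃ κ', κ' = (g : MM) * κ * ((g⁻¹ : GG) : MM) := ⟨_, rfl⟩
  have h1 : ∀ y, QK κ y = 0 → κ' *ᵥ y ∈ KL κ y := by
    intro y hy
    have := hL (((g⁻¹ : GG) : MM) *ᵥ y) (hsurj y hy)
    rw [hgg] at this
    rwa [hκ', ← Matrix.mulVec_mulVec, ← Matrix.mulVec_mulVec]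
  have hn' : Fintype.card (Fin m ⊕ Fin m) = Fintype.card (Fin m ⊕ Fin m) := rfl
  have h2 : ∀ y y' : Fin m ⊕ Fin m → F, y ≠ 0 → QK κ y = 0 → QK κ y' = 0 → QuadraticMap.polar (QK κ) y y' = 0 → y' ∉ KL κ y → ∀ p q p' q' : F,
      κ' *ᵥ y = p • y + q • κ *ᵥ y → κ' *ᵥ y' = p' • y' + q' • κ *ᵥ y' → p = p' ∧ q = q' := by
    intro y y' hy0 hy hy' hyy' hn' p q p' q' e1 e2
    have hs' : QK κ (y + y') = 0 := by rw [Q_add' (Q := QK κ), hy, hy', hyy']; ring
    obtain ⟨r, s, e3⟩ := mem_KL.mp (h1 _ hs')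
    rw [Matrix.mulVec_add κ', e1, e2, Matrix.mulVec_add κ] at e3
    have e4 : (p' - r) • y' + (q' - s) • κ *ᵥ y' = -((p - r) • y + (q - s) • κ *ᵥ y) := by
      linear_combination (norm := module) -e3
    have e5 : p' - r = 0 ∧ q' - s = 0 := by
      by_contra hne
      apply hn'
      refine line_mem qf (fun z hz => KL_stable qf hz) hne ?_
      rw [e4]
      exact Submodule.neg_mem _ (mem_KL.mpr ⟨_, _, rfl⟩)
    rw [e5.1, e5.2, zero_smul, zero_smul, add_zero] at e4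
    have e6 : p - r = 0 ∧ q - s = 0 := by
      by_contra hne
      exact line_ne qf hne hy0 (neg_eq_zero.mp e4.symm)
    have e7 := sub_eq_zero.mp e5.1
    have e8 := sub_eq_zero.mp e5.2
    have e9 := sub_eq_zero.mp e6.1
    have e10 := sub_eq_zero.mp e6.2
    exact ⟨e9.trans e7.symm, e10.trans e8.symm⟩
  obtain ⟨y₀, hy₀, -, hy₀T⟩ := exists_sing_off hQ (![] : Fin 0 → Fin m ⊕ Fin m → F) ⊥ (by simp at hn ⊢; omega)
  have hy₀0 : y₀ ≠ 0 := fun h => hy₀T (h ▸ Submodule.zero_mem _)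
  obtain ⟨p, q, hpq⟩ := mem_KL.mp (h1 y₀ hy₀)
  have h3 : ∀ y, QK κ y = 0 → κ' *ᵥ y = p • y + q • κ *ᵥ y := by
    intro y hy
    by_cases hy0 : y = 0
    · rw [hy0]
      simp
    obtain ⟨w, hw, hwp, hwT⟩ := exists_sing_off hQ ![y₀, y] (KL κ y₀ ⊔ KL κ y)
      (by have := finrank_KL2_le (κ := κ) y₀ y; simp at hn ⊢; omega)
    have hw0 : w ≠ 0 := fun h => hwT (h ▸ Submodule.zero_mem _)
    obtain ⟨p', q', hpq'⟩ := mem_KL.mp (h1 w hw)
    obtain ⟨p'', q'', hpq''⟩ := mem_KL.mp (h1 y hy)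
    have e1 := h2 y₀ w hy₀0 hy₀ hw (hwp 0) (fun h => hwT (Submodule.mem_sup_left h)) p q p' q' hpq.symm hpq'.symm
    have e2 := h2 y w hy0 hy hw (hwp 1) (fun h => hwT (Submodule.mem_sup_right h)) p'' q'' p' q' hpq''.symm hpq'.symm
    rw [e1.1, e1.2, ← e2.1, ← e2.2]
    exact hpq''.symm
  have h4 : κ' = p • 1 + q • κ := by
    apply Cfsg.Agent.Lib.Classical.mat_ext_mulVec
    intro v
    obtain ⟨x₁, x₂, a1, a2, -, -, rfl⟩ := exists_sing_split hQ (by simp at hn ⊢; omega) (Q_zero hQ) (pol_zero_left hQ v)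
    rw [Matrix.mulVec_add κ', h3 _ a1, h3 _ a2, Matrix.add_mulVec, Matrix.smul_mulVec, Matrix.smul_mulVec, Matrix.one_mulVec,
      Matrix.mulVec_add κ]
    module
  have hq : q ≠ 0 := by
    intro hq0
    obtain ⟨z₀, hz₀⟩ : ∃ z₀, z₀ = ((g⁻¹ : GG) : MM) *ᵥ y₀ := ⟨_, rfl⟩
    have hz₀0 : z₀ ≠ 0 := by
      intro h0
      apply hy₀0
      rw [← hgg y₀, ← hz₀, h0, Matrix.mulVec_zero]
    have e := hpq
    rw [hq0, zero_smul, add_zero] at e
    have e1 : (g : MM) *ᵥ (κ *ᵥ z₀) = (g : MM) *ᵥ (p • z₀) := by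
      rw [Matrix.mulVec_smul, hz₀, hgg, e, hκ', ← Matrix.mulVec_mulVec, ← Matrix.mulVec_mulVec]
    have e2 : κ *ᵥ z₀ = p • z₀ := by
      rw [← hgi (κ *ᵥ z₀), e1, hgi]
    have hne : ¬ ((-p) = 0 ∧ (1 : F) = 0) := fun h => one_ne_zero h.2
    apply line_ne qf hne hz₀0
    rw [e2]
    module
  exact mem_norm_of_conj hk hq (by rw [← hκ', h4])

/-- Some transvection does not normalise the field. -/
theorem exists_stv_not_norm (hn : 13 ≤ Fintype.card (Fin m ⊕ Fin m)) {K : Subalgebra F (Matrix (Fin m ⊕ Fin m) (Fin m ⊕ Fin m) F)}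
    (hk : ∀ k, k ∈ K ↔ ∃ a b : F, k = a • 1 + b • κ) : ∃ g ∈ Cfsg.spGL m F, g ∉ subalgebraNormalizer K := by
  have hδ := hs.delta_ne
  have hQ := qk_nd hs
  have qf := qk_qf hs
  obtain ⟨b, hb, -, -, hbT⟩ := exists_sing_ff hs (![] : Fin 0 → Fin m ⊕ Fin m → F) ⊥ (by simp at hn ⊢; omega)
  have hb0 : b ≠ 0 := fun h => hbT (h ▸ Submodule.zero_mem _)
  obtain ⟨c₂, -, -, -, hc₂⟩ := exists_sing_ff hs (![] : Fin 0 → Fin m ⊕ Fin m → F) (KL κ b)
    (by have := finrank_KL_le κ b; simp at hn ⊢; omega)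
  obtain ⟨c₃, -, -, -, hc₃⟩ := exists_sing_ff hs (![] : Fin 0 → Fin m ⊕ Fin m → F) (KL κ b ⊔ KL κ c₂)
    (by have := finrank_KL2_le (κ := κ) b c₂; simp at hn ⊢; omega)
  obtain ⟨v, -, v1, v2, -, -, -, -⟩ := exists_d_ff hs hn hb0 hc₂ hc₃ 0 1 0 0 0 0
  refine ⟨stv b 1, stv_mem_spGL b 1, fun hN => ?_⟩
  have h1 := (hN κ).mp ((hk κ).mpr ⟨0, 1, by simp⟩)
  obtain ⟨p, q, hpq⟩ := (hk _).mp h1
  have h2 : ((stv b 1 : GG) : MM) * κ = (p • 1 + q • κ) * ((stv b 1 : GG) : MM) := by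
    rw [← hpq, Matrix.mul_assoc, ← Units.val_mul, inv_mul_cancel, Units.val_one, Matrix.mul_one]
  have h3 := congrArg (fun A => A *ᵥ v) h2
  simp only [← Matrix.mulVec_mulVec] at h3
  rw [Matrix.add_mulVec, Matrix.smul_mulVec, Matrix.smul_mulVec, Matrix.one_mulVec, stv_apply, stv_apply] at h3
  have hvb : ff v b = 0 := by rw [sympForm_swap, v1, neg_zero]
  have hkvb : ff (κ *ᵥ v) b = -1 := by
    rw [sympForm_swap, v2]
  rw [hvb, hkvb] at h3
  simp only [mul_zero, mul_one, zero_smul, add_zero] at h3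
  -- `b` would lie on the line of `v`
  have hbn : b ∉ KL κ v := by
    intro hin
    have hv : v ∈ KL κ b := KL_symm hQ qf hin hb0
    obtain ⟨α, β, e⟩ := mem_KL.mp hv
    have hbb : ff b (κ *ᵥ b) = 0 := by
      have : ff (κ *ᵥ b) b = 0 := hb
      rw [sympForm_swap, this, neg_zero]
    rw [← e, Matrix.mulVec_add, Matrix.mulVec_smul, Matrix.mulVec_smul, hs.sq, sympForm_add_right, sympForm_smul_right, sympForm_smul_right,
      sympForm_smul_right, hbb, sympForm_self] at v2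
    simp at v2
  apply hbn
  refine mem_KL.mpr ⟨-p, 1 - q, ?_⟩
  linear_combination (norm := module) h3

/-- The maximality theorem. -/
theorem isMaximal_sk (hn : 13 ≤ Fintype.card (Fin m ⊕ Fin m)) {K : Subalgebra F (Matrix (Fin m ⊕ Fin m) (Fin m ⊕ Fin m) F)}
    (hk : ∀ k, k ∈ K ↔ ∃ a b : F, k = a • 1 + b • κ) :
    IsMaximalIn (Cfsg.spGL m F) (subalgebraNormalizer K ⊓ Cfsg.spGL m F) := by
  constructor
  · refine lt_of_le_of_ne inf_le_right ?_
    intro heq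
    obtain ⟨g, hg, hgn⟩ := exists_stv_not_norm hs hn hk
    rw [← heq] at hg
    exact hgn hg.1
  intro M hHM hMS
  by_cases hle : M ≤ subalgebraNormalizer K ⊓ Cfsg.spGL m F
  · exact Or.inl (le_antisymm hle hHM)
  right
  refine le_antisymm hMS ?_
  obtain ⟨g, hgM, hgH⟩ := SetLike.not_le_iff_exists.mp hle
  have hgS := hMS hgM
  obtain ⟨z, hz, hgz⟩ : ∃ z, QK κ z = 0 ∧ (g : MM) *ᵥ (κ *ᵥ z) ∉ KL κ ((g : MM) *ᵥ z) := by
    by_contra hcon
    push Not at hcon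
    exact hgH ⟨mem_norm_of_lines_sp hs hn hk hgS hcon, hgS⟩
  obtain ⟨b, hb0, hbQ, hb⟩ := exists_centre hs hn hk hHM hgM hgS hz hgz
  exact sp_le_of_centre hs hn hk hHM hb0 hbQ hb

end Main

/-- The data of the field from the hypotheses on the subalgebra. -/
theorem exists_sk (hm : 0 < m) (h2 : (2 : F) ≠ 0) {K : Subalgebra F (Matrix (Fin m ⊕ Fin m) (Fin m ⊕ Fin m) F)} (hK : IsFieldSubalgebra 2 K)
    (hac : IsAdjointClosedFor (Cfsg.sympForm m F) K) (hnsa : ¬ IsSelfAdjointFor (Cfsg.sympForm m F) K) :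
    ∃ κ δ, SK κ δ ∧ ∀ k, k ∈ K ↔ ∃ a b : F, k = a • 1 + b • κ := by
  haveI : Nonempty (Fin m ⊕ Fin m) := ⟨Sum.inl ⟨0, hm⟩⟩
  obtain ⟨κ₀, hκ₀, hind₀, hk₀⟩ := exists_gen_two hK.finrank_eq
  have hne : ∀ {x y : Fin m ⊕ Fin m → F}, (∀ w, ff w x = ff w y) → x = y := by
    intro x y h
    by_contra hxy
    have h0 : x - y ≠ 0 := sub_ne_zero.mpr hxy
    obtain ⟨⟨w, hw⟩, -⟩ := sympForm_isSymplectic.nondegenerate _ h0
    apply hw
    have : x - y = x + (-1 : F) • y := by module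
    rw [this, sympForm_add_right, sympForm_smul_right, h]
    ring
  obtain ⟨κ', hκ', hadj⟩ := hac κ₀ hκ₀
  obtain ⟨α, β, rfl⟩ := (hk₀ _).mp hκ'
  have E1 : ∀ u v : Fin m ⊕ Fin m → F, ff (κ₀ *ᵥ u) v = α * ff u v + β * ff u (κ₀ *ᵥ v) := by
    intro u v
    rw [hadj, Matrix.add_mulVec, Matrix.smul_mulVec, Matrix.smul_mulVec, Matrix.one_mulVec, sympForm_add_right, sympForm_smul_right, sympForm_smul_right]
  have E2 : ∀ v : Fin m ⊕ Fin m → F, κ₀ *ᵥ v = (α * (1 + β)) • v + (β ^ 2) • κ₀ *ᵥ v := by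
    intro v
    apply hne
    intro w
    rw [sympForm_add_right, sympForm_smul_right, sympForm_smul_right]
    have p1 := sympForm_swap (m := m) (F := F) w (κ₀ *ᵥ v)
    have p2 := sympForm_swap (m := m) (F := F) v w
    have p3 := sympForm_swap (m := m) (F := F) v (κ₀ *ᵥ w)
    have a1 := E1 v w
    have a2 := E1 w v
    linear_combination p1 - a1 - α * p2 - β * p3 + β * a2
  have E3 : (α * (1 + β)) • (1 : Matrix (Fin m ⊕ Fin m) (Fin m ⊕ Fin m) F) + (β ^ 2 - 1) • κ₀ = 0 := by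
    apply Cfsg.Agent.Lib.Classical.mat_ext_mulVec
    intro v
    rw [Matrix.add_mulVec, Matrix.smul_mulVec, Matrix.smul_mulVec, Matrix.one_mulVec, Matrix.zero_mulVec]
    linear_combination (norm := module) -(E2 v)
  obtain ⟨E4, E5⟩ := hind₀ _ _ E3
  have hβ : β = -1 := by
    by_contra hne'
    have h1 : 1 + β ≠ 0 := fun h => hne' (by linear_combination h)
    have hα : α = 0 := (mul_eq_zero.mp E4).resolve_right h1
    have hβ1 : β = 1 := by
      have : (β - 1) * (1 + β) = 0 := by linear_combination E5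
      have := (mul_eq_zero.mp this).resolve_right h1
      exact sub_eq_zero.mp this
    apply hnsa
    intro k' hk' u v
    obtain ⟨a, b, rfl⟩ := (hk₀ _).mp hk'
    have h3 := E1 u v
    rw [hα, hβ1, zero_mul, zero_add, one_mul] at h3
    rw [Matrix.add_mulVec, Matrix.add_mulVec, Matrix.smul_mulVec, Matrix.smul_mulVec, Matrix.smul_mulVec, Matrix.smul_mulVec,
      Matrix.one_mulVec, Matrix.one_mulVec, sympForm_add_left, sympForm_add_right, sympForm_smul_left, sympForm_smul_left, sympForm_smul_right, sympForm_smul_right, h3]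
  subst hβ
  -- the skew generator
  obtain ⟨κ, hκd⟩ : ∃ κ, κ = κ₀ - (α / 2) • (1 : Matrix (Fin m ⊕ Fin m) (Fin m ⊕ Fin m) F) := ⟨_, rfl⟩
  have hκv : ∀ v : Fin m ⊕ Fin m → F, κ *ᵥ v = κ₀ *ᵥ v - (α / 2) • v := by
    intro v
    rw [hκd, Matrix.sub_mulVec, Matrix.smul_mulVec, Matrix.one_mulVec]
  have hsub : ∀ a b e : Fin m ⊕ Fin m → F, ff a (b - e) = ff a b - ff a e := by
    intro a b e
    rw [sub_eq_add_neg, ← neg_one_smul F e, sympForm_add_right, sympForm_smul_right]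
    ring
  have hsub' : ∀ a b e : Fin m ⊕ Fin m → F, ff (b - e) a = ff b a - ff e a := by
    intro a b e
    rw [sub_eq_add_neg, ← neg_one_smul F e, sympForm_add_left, sympForm_smul_left]
    ring
  have hskew : ∀ u v : Fin m ⊕ Fin m → F, ff (κ *ᵥ u) v = - ff u (κ *ᵥ v) := by
    intro u v
    rw [hκv, hκv, hsub, hsub', E1, sympForm_smul_left, sympForm_smul_right]
    field_simp
    ring
  have hκK : κ ∈ K := by
    rw [hκd]
    exact K.sub_mem hκ₀ (K.smul_mem K.one_mem _)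
  have hind : ∀ a b : F, a • (1 : Matrix (Fin m ⊕ Fin m) (Fin m ⊕ Fin m) F) + b • κ = 0 → a = 0 ∧ b = 0 := by
    intro a b h
    have h3 : (a - b * (α / 2)) • (1 : Matrix (Fin m ⊕ Fin m) (Fin m ⊕ Fin m) F) + b • κ₀ = 0 := by
      rw [← h, hκd]
      module
    obtain ⟨e1, e2⟩ := hind₀ _ _ h3
    rw [e2] at e1
    exact ⟨by simpa using e1, e2⟩
  have hk : ∀ k, k ∈ K ↔ ∃ a b : F, k = a • 1 + b • κ := by
    intro k
    rw [hk₀]
    constructor
    · rintro ⟨a, b, rfl⟩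
      refine ⟨a + b * (α / 2), b, ?_⟩
      rw [hκd]
      module
    · rintro ⟨a, b, rfl⟩
      refine ⟨a - b * (α / 2), b, ?_⟩
      rw [hκd]
      module
  obtain ⟨a, b, hab⟩ := (hk _).mp (K.mul_mem hκK hκK)
  have hb0 : b = 0 := by
    have h3 : ∀ u v : Fin m ⊕ Fin m → F, 2 * (b * ff u (κ *ᵥ v)) = 0 := by
      intro u v
      have e1 : ff ((κ * κ) *ᵥ u) v = ff u ((κ * κ) *ᵥ v) := by
        rw [← Matrix.mulVec_mulVec, ← Matrix.mulVec_mulVec, hskew, hskew, neg_neg]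
      rw [hab, Matrix.add_mulVec, Matrix.add_mulVec, Matrix.smul_mulVec, Matrix.smul_mulVec, Matrix.smul_mulVec, Matrix.smul_mulVec, Matrix.one_mulVec, Matrix.one_mulVec,
        sympForm_add_left, sympForm_add_right, sympForm_smul_left, sympForm_smul_left, sympForm_smul_right, sympForm_smul_right, hskew] at e1
      linear_combination -e1
    by_contra hb
    have hκ0 : ∃ v : Fin m ⊕ Fin m → F, κ *ᵥ v ≠ 0 := by
      by_contra hcon
      push Not at hcon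
      have : (0 : F) • (1 : Matrix (Fin m ⊕ Fin m) (Fin m ⊕ Fin m) F) + (1 : F) • κ = 0 := by
        apply Cfsg.Agent.Lib.Classical.mat_ext_mulVec
        intro v
        rw [Matrix.add_mulVec, Matrix.smul_mulVec, Matrix.smul_mulVec, hcon v]
        simp
      have := (hind _ _ this).2
      exact one_ne_zero this
    obtain ⟨v, hv⟩ := hκ0
    obtain ⟨⟨w, hw⟩, -⟩ := sympForm_isSymplectic.nondegenerate _ hv
    have := h3 w v
    exact mul_ne_zero h2 (mul_ne_zero hb hw) this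
  rw [hb0, zero_smul, add_zero] at hab
  refine ⟨κ, a, ⟨h2, fun v => ?_, hskew, ?_⟩, hk⟩
  · rw [Matrix.mulVec_mulVec, hab, Matrix.smul_mulVec, Matrix.one_mulVec]
  · rintro ⟨s, hs⟩
    have hne1 : κ - s • (1 : Matrix (Fin m ⊕ Fin m) (Fin m ⊕ Fin m) F) ≠ 0 := by
      intro h0
      have : (-s) • (1 : Matrix (Fin m ⊕ Fin m) (Fin m ⊕ Fin m) F) + (1 : F) • κ = 0 := by
        rw [← h0]
        module
      exact one_ne_zero (hind _ _ this).2
    have hne2 : κ + s • (1 : Matrix (Fin m ⊕ Fin m) (Fin m ⊕ Fin m) F) ≠ 0 := by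
      intro h0
      have : (s) • (1 : Matrix (Fin m ⊕ Fin m) (Fin m ⊕ Fin m) F) + (1 : F) • κ = 0 := by
        rw [← h0]
        module
      exact one_ne_zero (hind _ _ this).2
    obtain ⟨k', -, hk'⟩ := hK.inv _ (K.sub_mem hκK (K.smul_mem K.one_mem s)) hne1
    have hk'' := mul_eq_one_comm.mp hk'
    have hprod : (κ - s • (1 : Matrix (Fin m ⊕ Fin m) (Fin m ⊕ Fin m) F)) * (κ + s • 1) = 0 := by
      have : (κ - s • (1 : Matrix (Fin m ⊕ Fin m) (Fin m ⊕ Fin m) F)) * (κ + s • 1) = κ * κ - (s * s) • 1 := by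
        simp only [Matrix.sub_mul, Matrix.mul_add, Matrix.smul_mul, Matrix.mul_smul, Matrix.one_mul, Matrix.mul_one]
        module
      rw [this, hab, hs, sub_self]
    apply hne2
    have := congrArg (fun A => k' * A) hprod
    simpa only [← Matrix.mul_assoc, hk'', Matrix.one_mul, Matrix.mul_zero] using this

end Cfsg.Agent.Lib.ClassMax.SpGU
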