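import Mathlib
import Cfsg.Agent.Lib.ClassMax.SkewBlock
import Cfsg.Agent.Lib.ClassMax.SpGU
import Cfsg.Agent.Lib.ClassMax.EluOForm2
import Cfsg.Agent.Lib.Classical.HermOrder

/-!
The unitary group of a quadratic field structure embeds in the normaliser of the field in the symplectic group.
-/

set_option autoImplicit false
set_option linter.unusedSimpArgs false
set_option linter.unusedVariables false
set_option linter.unusedSectionVars false

namespace Cfsg.Agent.Lib.ClassMax.SkewGU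

open Module Polynomial Matrix Cfsg.Geo Cfsg.Agent.Lib.ClassMax Cfsg.Agent.Lib.ClassMax.ElusiveSp Cfsg.Agent.Lib.ClassMax.EluSymp
  Cfsg.Agent.Lib.ClassMax.SpGU Cfsg.Agent.Lib.KnownSimple

section abstract

variable {F L : Type*} [Field F] [Field L] [Fintype L] {d q : ℕ}

local notation "VV" => (Fin d ⊕ Fin d → F)
local notation "MM" => Matrix (Fin d ⊕ Fin d) (Fin d ⊕ Fin d) F
local notation "ff" => Cfsg.sympForm d F

variable (hL : Fintype.card L = q ^ 2) (ρ : L →+* Matrix (Fin d ⊕ Fin d) (Fin d ⊕ Fin d) F) (ι₀ : F → L)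
  (hι₀ : ∀ c : F, ρ (ι₀ c) = c • (1 : Matrix (Fin d ⊕ Fin d) (Fin d ⊕ Fin d) F)) (h : (Fin d ⊕ Fin d → F) → (Fin d ⊕ Fin d → F) → L)
  (h_add_left : ∀ u u' v, h (u + u') v = h u v + h u' v) (h_add_right : ∀ u v v', h u (v + v') = h u v + h u v')
  (h_left : ∀ x u v, h (ρ x *ᵥ u) v = x * h u v) (h_sym : ∀ u v, h v u = (h u v) ^ q)
  (hB : ∀ u v u' v', h u v = h u' v' → Cfsg.sympForm d F u v = Cfsg.sympForm d F u' v')
  (e : Fin d → (Fin d ⊕ Fin d → F)) (he : ∀ i j, h (e i) (e j) = if i = j then 1 else 0) (hspan : ∀ v, v = ∑ j, ρ (h v (e j)) *ᵥ e j)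

/-- The coordinates. -/
def coord (h : VV → VV → L) (e : Fin d → VV) (v : VV) : Fin d → L := fun j => h v (e j)

/-- The vector with given coordinates. -/
def vec (ρ : L →+* MM) (e : Fin d → VV) (a : Fin d → L) : VV := ∑ j, ρ (a j) *ᵥ e j

theorem vec_add (a b : Fin d → L) : vec ρ e (a + b) = vec ρ e a + vec ρ e b := by
  unfold vec
  rw [← Finset.sum_add_distrib]
  refine Finset.sum_congr rfl fun j _ => ?_
  rw [Pi.add_apply, map_add, Matrix.add_mulVec]

theorem vec_smul (x : L) (a : Fin d → L) : vec ρ e (x • a) = ρ x *ᵥ vec ρ e a := by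
  unfold vec
  rw [Matrix.mulVec_sum]
  refine Finset.sum_congr rfl fun j _ => ?_
  rw [Pi.smul_apply, smul_eq_mul, map_mul, Matrix.mulVec_mulVec]

include h_add_left h_left in
theorem h_zero_left (v : VV) : h 0 v = 0 := by
  have h1 := h_add_left 0 0 v
  rw [add_zero] at h1
  exact left_eq_add.mp h1

include h_add_left h_left in
theorem h_sum_left {κ' : Type*} (t : Finset κ') (f : κ' → VV) (v : VV) : h (∑ i ∈ t, f i) v = ∑ i ∈ t, h (f i) v := by
  classical
  induction t using Finset.induction_on with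
  | empty => simpa using h_zero_left ρ h h_add_left h_left v
  | insert a t ha ih => rw [Finset.sum_insert ha, Finset.sum_insert ha, h_add_left, ih]

include h_add_left h_left he in
theorem coord_vec (a : Fin d → L) : coord h e (vec ρ e a) = a := by
  classical
  funext j
  unfold coord vec
  rw [h_sum_left ρ h h_add_left h_left, Finset.sum_eq_single j]
  · rw [h_left, he, if_pos rfl, mul_one]
  · intro i _ hij
    rw [h_left, he, if_neg hij, mul_zero]
  · intro hj
    exact absurd (Finset.mem_univ j) hj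

include hspan in
theorem vec_coord (v : VV) : vec ρ e (coord h e v) = v := (hspan v).symm

include h_add_left h_left in
theorem coord_add (u v : VV) : coord h e (u + v) = coord h e u + coord h e v := by
  funext j
  exact h_add_left u v (e j)

include h_add_left h_left in
theorem coord_smul (x : L) (v : VV) : coord h e (ρ x *ᵥ v) = x • coord h e v := by
  funext j
  exact h_left x v (e j)

include hL h_sym h_left in
theorem h_right (x : L) (u v : VV) : h u (ρ x *ᵥ v) = x ^ q * h u v := by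
  have h1 : ∀ y : L, (y ^ q) ^ q = y := by
    intro y
    rw [← pow_mul, ← sq, ← hL, FiniteField.pow_card]
  rw [h_sym (ρ x *ᵥ v) u, h_left, mul_pow, ← h_sym]

include hL h_add_left h_add_right h_left h_sym he in
theorem h_vec (a b : Fin d → L) : h (vec ρ e a) (vec ρ e b) = Cfsg.hermForm d L q a b := by
  classical
  have hzero : ∀ u, h u 0 = 0 := by
    intro u
    have h1 := h_add_right u 0 0
    rw [add_zero] at h1
    exact left_eq_add.mp h1
  have hsum : ∀ (t : Finset (Fin d)) (u : VV) (f : Fin d → VV), h u (∑ j ∈ t, f j) = ∑ j ∈ t, h u (f j) := by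
    intro t u f
    induction t using Finset.induction_on with
    | empty => simpa using hzero u
    | insert a t ha ih => rw [Finset.sum_insert ha, Finset.sum_insert ha, h_add_right, ih]
  unfold vec Cfsg.hermForm
  rw [h_sum_left ρ h h_add_left h_left]
  refine Finset.sum_congr rfl fun i _ => ?_
  rw [h_left, hsum, Finset.sum_eq_single i]
  · rw [h_right hL ρ h h_left h_sym, he, if_pos rfl, mul_one]
  · intro j _ hij
    rw [h_right hL ρ h h_left h_sym, he, if_neg hij.symm, mul_zero]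
  · intro hi
    exact absurd (Finset.mem_univ i) hi

/-- The linear map attached to a matrix over the extension. -/
def act (A : Matrix (Fin d) (Fin d) L) : VV →ₗ[F] VV where
  toFun v := vec ρ e (A *ᵥ coord h e v)
  map_add' u v := by
    rw [coord_add ρ h h_add_left h_left e, Matrix.mulVec_add, vec_add]
  map_smul' c v := by
    have h1 : ∀ w : VV, c • w = ρ (ι₀ c) *ᵥ w := by
      intro w
      rw [hι₀, Matrix.smul_mulVec, Matrix.one_mulVec]
    rw [RingHom.id_apply, h1, coord_smul ρ h h_add_left h_left e, Matrix.mulVec_smul, vec_smul, ← h1]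

include hL hι₀ h_add_left h_add_right h_left h_sym hB he hspan in
theorem exists_hom :
    ∃ f : Cfsg.GU d L q →* GL (Fin d ⊕ Fin d) F, Function.Injective f ∧
      ∀ g, f g ∈ Cfsg.spGL d F ∧ ∀ x, ((f g : GL (Fin d ⊕ Fin d) F) : MM) * ρ x = ρ x * ((f g : GL (Fin d ⊕ Fin d) F) : MM) := by
  classical
  let A : Matrix (Fin d) (Fin d) L → (VV →ₗ[F] VV) := act ρ ι₀ hι₀ h h_add_left h_left e
  have hA : ∀ (M : Matrix (Fin d) (Fin d) L) v, A M v = vec ρ e (M *ᵥ coord h e v) := fun M v => rfl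
  let M₀ : Cfsg.GU d L q →* MM :=
    { toFun := fun g => LinearMap.toMatrix' (A (g : GL (Fin d) L))
      map_one' := by
        have : A ((1 : Cfsg.GU d L q) : GL (Fin d) L) = LinearMap.id := by
          apply LinearMap.ext
          intro v
          rw [hA]
          simp only [OneMemClass.coe_one, Units.val_one, Matrix.one_mulVec]
          exact vec_coord ρ h e hspan v
        rw [this, LinearMap.toMatrix'_id]
      map_mul' := fun g g' => by
        rw [← LinearMap.toMatrix'_comp]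
        congr 1
        apply LinearMap.ext
        intro v
        rw [LinearMap.comp_apply, hA, hA, hA, coord_vec ρ h h_add_left h_left e he, Matrix.mulVec_mulVec]
        rfl }
  have hM₀ : ∀ g v, M₀ g *ᵥ v = vec ρ e (((g : GL (Fin d) L) : Matrix (Fin d) (Fin d) L) *ᵥ coord h e v) := by
    intro g v
    show LinearMap.toMatrix' (A (g : GL (Fin d) L)) *ᵥ v = _
    rw [LinearMap.toMatrix'_mulVec]
    rfl
  refine ⟨M₀.toHomUnits, ?_, ?_⟩
  · intro g g' hgg
    have h1 : M₀ g = M₀ g' := by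
      have := congrArg (fun x : GL (Fin d ⊕ Fin d) F => (x : MM)) hgg
      simpa using this
    apply Subtype.ext
    apply Units.ext
    apply Cfsg.Agent.Lib.Classical.mat_ext_mulVec
    intro a
    have h3 := hM₀ g (vec ρ e a)
    have h4 := hM₀ g' (vec ρ e a)
    rw [coord_vec ρ h h_add_left h_left e he] at h3 h4
    rw [h1, h4] at h3
    have h5 := congrArg (coord h e) h3
    rw [coord_vec ρ h h_add_left h_left e he, coord_vec ρ h h_add_left h_left e he] at h5
    exact h5.symm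
  · intro g
    have hcoe : ∀ w, ((M₀.toHomUnits g : GL (Fin d ⊕ Fin d) F) : MM) *ᵥ w = vec ρ e (((g : GL (Fin d) L) : Matrix (Fin d) (Fin d) L) *ᵥ coord h e w) := by
      intro w
      rw [MonoidHom.coe_toHomUnits]
      exact hM₀ g w
    constructor
    · intro u v
      change ff (((M₀.toHomUnits g : GL (Fin d ⊕ Fin d) F) : MM) *ᵥ u) (((M₀.toHomUnits g : GL (Fin d ⊕ Fin d) F) : MM) *ᵥ v) = ff u v
      apply hB
      rw [hcoe, hcoe, h_vec hL ρ h h_add_left h_add_right h_left h_sym e he]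
      have h1 := g.2 (coord h e u) (coord h e v)
      have h3 : Cfsg.hermForm d L q (((g : GL (Fin d) L) : Matrix (Fin d) (Fin d) L) *ᵥ coord h e u) (((g : GL (Fin d) L) : Matrix (Fin d) (Fin d) L) *ᵥ coord h e v)
          = Cfsg.hermForm d L q (coord h e u) (coord h e v) := h1
      rw [h3, ← h_vec hL ρ h h_add_left h_add_right h_left h_sym e he, vec_coord ρ h e hspan, vec_coord ρ h e hspan]
    · intro x
      apply Cfsg.Agent.Lib.Classical.mat_ext_mulVec
      intro v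
      rw [← Matrix.mulVec_mulVec, ← Matrix.mulVec_mulVec, hcoe, hcoe, coord_smul ρ h h_add_left h_left e, Matrix.mulVec_smul, vec_smul]

end abstract

section concrete

variable {F : Type*} [Field F] [Fintype F] {d : ℕ}

local notation "VV" => (Fin d ⊕ Fin d → F)
local notation "MM" => Matrix (Fin d ⊕ Fin d) (Fin d ⊕ Fin d) F
local notation "ff" => Cfsg.sympForm d F

theorem sq_mat {κ : Matrix (Fin d ⊕ Fin d) (Fin d ⊕ Fin d) F} {δ : F} (hs : SK κ δ) : κ * κ = δ • (1 : Matrix (Fin d ⊕ Fin d) (Fin d ⊕ Fin d) F) := by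
  apply Cfsg.Agent.Lib.Classical.mat_ext_mulVec
  intro v
  rw [← Matrix.mulVec_mulVec, hs.sq, Matrix.smul_mulVec, Matrix.one_mulVec]

theorem indep_one {κ : Matrix (Fin d ⊕ Fin d) (Fin d ⊕ Fin d) F} {δ : F} (hd : 0 < d) (hs : SK κ δ) {a b : F} (h : a • (1 : Matrix (Fin d ⊕ Fin d) (Fin d ⊕ Fin d) F) + b • κ = 0) :
    a = 0 ∧ b = 0 := by
  haveI : Nonempty (Fin d ⊕ Fin d) := ⟨Sum.inl ⟨0, hd⟩⟩
  have hb : b = 0 := by
    by_contra hb
    apply hs.ns
    have h1 : κ = (-(a / b)) • (1 : Matrix (Fin d ⊕ Fin d) (Fin d ⊕ Fin d) F) := by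
      have h3 : b • κ = (-a) • (1 : Matrix (Fin d ⊕ Fin d) (Fin d ⊕ Fin d) F) := by
        rw [neg_smul]
        exact eq_neg_of_add_eq_zero_right h
      calc κ = b⁻¹ • (b • κ) := by rw [smul_smul, inv_mul_cancel₀ hb, one_smul]
        _ = _ := by
          rw [h3, smul_smul]
          congr 1
          field_simp
    have h3 := sq_mat hs
    rw [h1, smul_mul_smul_comm, one_mul] at h3
    have h4 : ((-(a / b)) * (-(a / b)) - δ) • (1 : Matrix (Fin d ⊕ Fin d) (Fin d ⊕ Fin d) F) = 0 := by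
      rw [sub_smul, h3, sub_self]
    have h5 := (smul_eq_zero.mp h4).resolve_right one_ne_zero
    exact ⟨-(a / b), by linear_combination -h5⟩
  subst hb
  rw [zero_smul, add_zero] at h
  exact ⟨(smul_eq_zero.mp h).resolve_right one_ne_zero, rfl⟩

/-- A frame adapted to the skew map. -/
theorem exists_frame (hd : 0 < d) {κ : Matrix (Fin d ⊕ Fin d) (Fin d ⊕ Fin d) F} {δ : F} (hs : SK κ δ) :
    ∃ e : Fin d → (Fin d ⊕ Fin d → F), (∀ i j, ff (e i) (κ *ᵥ e j) = if i = j then 1 else 0) ∧ (∀ i j, ff (e i) (e j) = 0) ∧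
      ∀ v, v = ∑ j, (ff v (κ *ᵥ e j) • e j - ff v (e j) • (κ *ᵥ e j)) := by
  classical
  have hδ : δ ≠ 0 := hs.delta_ne
  let BB := ElusiveSp.sympB d F
  let Tκ : (Fin d ⊕ Fin d → F) →ₗ[F] (Fin d ⊕ Fin d → F) := Matrix.toLin' κ
  obtain ⟨s, hs1, hs2, hs3⟩ := SkewFrame.skew_family (B := BB) (ElusiveSp.sympB_alt (d := d) (F := F)) hs.two (T := Tκ)
    (fun u v => hs.skew u v) hδ (fun v => hs.sq v) (ElusiveSp.sympB_nd (d := d) (F := F))
  have hcard : s.card = d := by
    have h1 := finrank_family (ElusiveSp.sympB_alt (d := d) (F := F)) hs1 hs2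
    rw [ElusiveSp.finrank_sum] at h1
    omega
  let e₀ : s ≃ Fin d := Finset.equivFinOfCardEq hcard
  let ω : Fin d → (Fin d ⊕ Fin d → F) × (Fin d ⊕ Fin d → F) := fun j => (e₀.symm j : _)
  have hωs : ∀ j, ω j ∈ s := fun j => (e₀.symm j).2
  have hωinj : ∀ i j, i ≠ j → ω i ≠ ω j := by
    intro i j hij heq
    exact hij (e₀.symm.injective (Subtype.ext heq))
  have hκe : ∀ j, κ *ᵥ (ω j).1 = (ω j).2 := fun j => (hs3 _ (hωs j)).1
  refine ⟨fun j => (ω j).1, ?_, ?_, ?_⟩
  · intro i j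
    show ff (ω i).1 (κ *ᵥ (ω j).1) = _
    rw [hκe]
    by_cases hij : i = j
    · subst hij
      rw [if_pos rfl]
      exact hs1.hyp _ (hωs i)
    · rw [if_neg hij]
      exact (hs1.orth _ (hωs i) _ (hωs j) (hωinj i j hij)).2.1
  · intro i j
    show ff (ω i).1 (ω j).1 = 0
    by_cases hij : i = j
    · subst hij
      exact ElusiveSp.sympB_alt (d := d) (F := F) _
    · exact (hs1.orth _ (hωs i) _ (hωs j) (hωinj i j hij)).1
  · intro v
    have h1 := proj_eq_of_mem (ElusiveSp.sympB_alt (d := d) (F := F)) hs1 (u := v) (by rw [hs2]; trivial)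
    rw [proj_apply] at h1
    simp only [hκe]
    conv_lhs => rw [← h1]
    rw [← Finset.sum_coe_sort s (fun x => BB v x.2 • x.1 - BB v x.1 • x.2)]
    exact (Equiv.sum_comp e₀.symm (fun x : s => BB v (x : (Fin d ⊕ Fin d → F) × (Fin d ⊕ Fin d → F)).2 • (x : (Fin d ⊕ Fin d → F) × (Fin d ⊕ Fin d → F)).1 - BB v (x : (Fin d ⊕ Fin d → F) × (Fin d ⊕ Fin d → F)).1 • (x : (Fin d ⊕ Fin d → F) × (Fin d ⊕ Fin d → F)).2)).symm

omit [Fintype F] in
theorem norm_of_comm {K : Subalgebra F (Matrix (Fin d ⊕ Fin d) (Fin d ⊕ Fin d) F)} {y : GL (Fin d ⊕ Fin d) F}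
    (hc : ∀ k ∈ K, (y : Matrix (Fin d ⊕ Fin d) (Fin d ⊕ Fin d) F) * k = k * (y : Matrix (Fin d ⊕ Fin d) (Fin d ⊕ Fin d) F)) : y ∈ subalgebraNormalizer K := by
  have hc1 : ∀ k ∈ K, (y : Matrix (Fin d ⊕ Fin d) (Fin d ⊕ Fin d) F) * k * ((y⁻¹ : GL (Fin d ⊕ Fin d) F) : Matrix (Fin d ⊕ Fin d) (Fin d ⊕ Fin d) F) = k := by
    intro k hkK
    rw [hc k hkK, mul_assoc, Units.mul_inv, mul_one]
  intro k
  constructor
  · intro hkK
    rw [hc1 k hkK]
    exact hkK
  · intro hkK
    have e1 := hc _ hkK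
    have e2 : (y : Matrix (Fin d ⊕ Fin d) (Fin d ⊕ Fin d) F) * k * ((y⁻¹ : GL (Fin d ⊕ Fin d) F) : Matrix (Fin d ⊕ Fin d) (Fin d ⊕ Fin d) F) * (y : Matrix (Fin d ⊕ Fin d) (Fin d ⊕ Fin d) F)
        = (y : Matrix (Fin d ⊕ Fin d) (Fin d ⊕ Fin d) F) * k := by
      rw [mul_assoc, Units.inv_mul, mul_one]
    rw [e2] at e1
    have e3 : (y : Matrix (Fin d ⊕ Fin d) (Fin d ⊕ Fin d) F) * k * ((y⁻¹ : GL (Fin d ⊕ Fin d) F) : Matrix (Fin d ⊕ Fin d) (Fin d ⊕ Fin d) F) = k := (Units.mul_right_inj y).mp e1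
    rw [e3] at hkK
    exact hkK

set_option maxHeartbeats 4000000 in
/-- The order of the unitary group divides the order of the normaliser of the field in the symplectic group. -/
theorem card_gu_dvd {p : ℕ} [Fact p.Prime] [CharP F p] (hd : 0 < d) {K : Subalgebra F (Matrix (Fin d ⊕ Fin d) (Fin d ⊕ Fin d) F)} (hK : IsFieldSubalgebra 2 K)
    {κ : Matrix (Fin d ⊕ Fin d) (Fin d ⊕ Fin d) F} {δ : F} (hs : SK κ δ) (hk : ∀ k, k ∈ K ↔ ∃ a b : F, k = a • 1 + b • κ) :
    (Fintype.card F ^ (d * (d - 1) / 2) * ∏ i ∈ Finset.range d, (if Even i then Fintype.card F ^ (i + 1) + 1 else Fintype.card F ^ (i + 1) - 1)) ∣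
      Nat.card ↥(subalgebraNormalizer K ⊓ Cfsg.spGL d F) := by
  classical
  haveI hne : Nonempty (Fin d ⊕ Fin d) := ⟨Sum.inl ⟨0, hd⟩⟩
  set q := Fintype.card F with hq
  have hκK : κ ∈ K := (hk κ).2 ⟨0, 1, by simp⟩
  have hδ : δ ≠ 0 := hs.delta_ne
  have hfield : IsField ↥K :=
    { exists_pair_ne := ⟨0, 1, fun h => (one_ne_zero (α := Matrix (Fin d ⊕ Fin d) (Fin d ⊕ Fin d) F)) (congrArg Subtype.val h).symm⟩
      mul_comm := fun a b => Subtype.ext (hK.comm a a.2 b b.2)
      mul_inv_cancel := by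
        intro a ha
        obtain ⟨y, hy, hay⟩ := hK.inv a a.2 (fun h => ha (Subtype.ext h))
        exact ⟨⟨y, hy⟩, Subtype.ext hay⟩ }
  letI instL : Field ↥K := hfield.toField
  haveI : Module.Finite F K := Module.finite_of_finrank_pos (by rw [hK.finrank_eq]; omega)
  haveI : Finite ↥K := Module.finite_of_finite F
  letI : Fintype ↥K := Fintype.ofFinite _
  have hL : Fintype.card ↥K = q ^ 2 := by
    rw [← Nat.card_eq_fintype_card, Module.natCard_eq_pow_finrank (K := F), hK.finrank_eq, Nat.card_eq_fintype_card]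
  let ρ : ↥K →+* Matrix (Fin d ⊕ Fin d) (Fin d ⊕ Fin d) F :=
    { toFun := Subtype.val
      map_one' := rfl
      map_mul' := fun _ _ => rfl
      map_zero' := rfl
      map_add' := fun _ _ => rfl }
  have hρ : ∀ x : ↥K, ρ x = x.1 := fun _ => rfl
  let ι₀ : F →+* ↥K :=
    { toFun := fun c => ⟨c • 1, (hk _).2 ⟨c, 0, by simp⟩⟩
      map_one' := Subtype.ext (one_smul _ _)
      map_mul' := fun a b => Subtype.ext (by
        show (a * b) • (1 : Matrix (Fin d ⊕ Fin d) (Fin d ⊕ Fin d) F) = (a • (1 : Matrix (Fin d ⊕ Fin d) (Fin d ⊕ Fin d) F)) * (b • 1)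
        rw [smul_mul_smul_comm, one_mul])
      map_zero' := Subtype.ext (zero_smul _ _)
      map_add' := fun a b => Subtype.ext (add_smul _ _ _) }
  have hι₀ : ∀ c : F, ρ (ι₀ c) = c • (1 : Matrix (Fin d ⊕ Fin d) (Fin d ⊕ Fin d) F) := fun c => rfl
  haveI : CharP ↥K p := charP_of_injective_ringHom ι₀.injective p
  let κL : ↥K := ⟨κ, hκK⟩
  have hκL : κL * κL = ι₀ δ := Subtype.ext (sq_mat hs)
  have hodd : Fintype.card F % 2 = 1 := by
    apply FiniteField.odd_card_of_char_ne_two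
    intro h
    apply hs.two
    have h5 := ringChar.Nat.cast_ringChar (R := F)
    rw [h] at h5
    exact_mod_cast h5
  have hfrobκ : κL ^ q = - κL := by
    have hchar : ringChar F ≠ 2 := by
      intro h
      apply hs.two
      have h5 := ringChar.Nat.cast_ringChar (R := F)
      rw [h] at h5
      exact_mod_cast h5
    have h1 : δ ^ (q / 2) = -1 := by
      rcases FiniteField.pow_dichotomy hchar hδ with h | h
      · exact absurd ((FiniteField.isSquare_iff hchar hδ).mpr h) hs.ns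
      · exact h
    obtain ⟨m, hm⟩ : ∃ m, q = 2 * m + 1 := ⟨q / 2, by omega⟩
    have hm' : q / 2 = m := by omega
    rw [hm', ] at h1
    rw [hm, pow_succ, pow_mul, sq, hκL, ← map_pow, h1, map_neg, map_one]
    ring
  have hfrobι : ∀ a : F, (ι₀ a) ^ q = ι₀ a := by
    intro a
    rw [← map_pow, hq, FiniteField.pow_card]
  obtain ⟨kk, hkk0, hkk⟩ := FiniteField.card F p
  have hfrob : ∀ a b : F, (ι₀ a + ι₀ b * κL) ^ q = ι₀ a - ι₀ b * κL := by
    intro a b
    have e1 : (ι₀ a + ι₀ b * κL) ^ q = (ι₀ a) ^ q + (ι₀ b * κL) ^ q := by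
      rw [hq, hkk]
      exact add_pow_char_pow _ _ p kk
    rw [e1, mul_pow, hfrobι, hfrobι, hfrobκ]
    ring
  -- the hermitian form
  let h : (Fin d ⊕ Fin d → F) → (Fin d ⊕ Fin d → F) → ↥K := fun u v => ι₀ (ff u (κ *ᵥ v)) + ι₀ (- ff u v) * κL
  have hval : ∀ u v, (h u v).1 = ff u (κ *ᵥ v) • (1 : Matrix (Fin d ⊕ Fin d) (Fin d ⊕ Fin d) F) + (- ff u v) • κ := by
    intro u v
    show (ff u (κ *ᵥ v) • (1 : Matrix (Fin d ⊕ Fin d) (Fin d ⊕ Fin d) F)) + ((- ff u v) • (1 : Matrix (Fin d ⊕ Fin d) (Fin d ⊕ Fin d) F)) * κ = _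
    rw [smul_mul_assoc, one_mul]
  have h_add_left : ∀ u u' v, h (u + u') v = h u v + h u' v := by
    intro u u' v
    show ι₀ (ff (u + u') (κ *ᵥ v)) + ι₀ (- ff (u + u') v) * κL = ι₀ (ff u (κ *ᵥ v)) + ι₀ (- ff u v) * κL + (ι₀ (ff u' (κ *ᵥ v)) + ι₀ (- ff u' v) * κL)
    rw [sympForm_add_left, sympForm_add_left, neg_add, map_add, map_add]
    ring
  have h_add_right : ∀ u v v', h u (v + v') = h u v + h u v' := by
    intro u v v'
    show ι₀ (ff u (κ *ᵥ (v + v'))) + ι₀ (- ff u (v + v')) * κL = ι₀ (ff u (κ *ᵥ v)) + ι₀ (- ff u v) * κL + (ι₀ (ff u (κ *ᵥ v')) + ι₀ (- ff u v') * κL)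
    rw [Matrix.mulVec_add, sympForm_add_right, sympForm_add_right, neg_add, map_add, map_add]
    ring
  have hform : ∀ (a b : F) (u : Fin d ⊕ Fin d → F), (a • (1 : Matrix (Fin d ⊕ Fin d) (Fin d ⊕ Fin d) F) + b • κ) *ᵥ u = a • u + b • (κ *ᵥ u) := by
    intro a b u
    rw [Matrix.add_mulVec, Matrix.smul_mulVec, Matrix.smul_mulVec, Matrix.one_mulVec]
  have hgen : ∀ x : ↥K, ∃ a b : F, x = ι₀ a + ι₀ b * κL := by
    intro x
    obtain ⟨a, b, hab⟩ := (hk x.1).1 x.2
    refine ⟨a, b, Subtype.ext ?_⟩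
    rw [hab]
    show _ = (a • (1 : Matrix (Fin d ⊕ Fin d) (Fin d ⊕ Fin d) F)) + (b • (1 : Matrix (Fin d ⊕ Fin d) (Fin d ⊕ Fin d) F)) * κ
    rw [smul_mul_assoc, one_mul]
  have hρgen : ∀ (a b : F) (u : Fin d ⊕ Fin d → F), ρ (ι₀ a + ι₀ b * κL) *ᵥ u = a • u + b • (κ *ᵥ u) := by
    intro a b u
    rw [map_add, map_mul, hι₀, hι₀, show ρ κL = κ from rfl, smul_mul_assoc, one_mul, hform]
  have hff1 : ∀ u v, ff (κ *ᵥ u) (κ *ᵥ v) = - δ * ff u v := by
    intro u v
    rw [hs.skew, hs.sq, sympForm_smul_right]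
    ring
  have h_left : ∀ x u v, h (ρ x *ᵥ u) v = x * h u v := by
    intro x u v
    obtain ⟨a, b, rfl⟩ := hgen x
    rw [hρgen]
    show ι₀ (ff (a • u + b • (κ *ᵥ u)) (κ *ᵥ v)) + ι₀ (- ff (a • u + b • (κ *ᵥ u)) v) * κL = (ι₀ a + ι₀ b * κL) * (ι₀ (ff u (κ *ᵥ v)) + ι₀ (- ff u v) * κL)
    rw [sympForm_add_left, sympForm_add_left, sympForm_smul_left, sympForm_smul_left, sympForm_smul_left, sympForm_smul_left, hff1, hs.skew]
    simp only [map_add, map_neg, map_mul]
    have e := hκL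
    linear_combination (ι₀ b * ι₀ (ff u v)) * e
  have h_sym : ∀ u v, h v u = (h u v) ^ q := by
    intro u v
    have e1 : (h u v) ^ q = ι₀ (ff u (κ *ᵥ v)) - ι₀ (- ff u v) * κL := hfrob _ _
    rw [e1]
    show ι₀ (ff v (κ *ᵥ u)) + ι₀ (- ff v u) * κL = _
    have e2 : ff v (κ *ᵥ u) = ff u (κ *ᵥ v) := by
      rw [sympForm_swap v, hs.skew, neg_neg]
    have e3 : - ff v u = ff u v := by
      rw [sympForm_swap v, neg_neg]
    rw [e2, e3, map_neg]
    ring
  have hB : ∀ u v u' v', h u v = h u' v' → ff u v = ff u' v' := by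
    intro u v u' v' heq
    have h1 := congrArg Subtype.val heq
    rw [hval, hval] at h1
    have h3 : (ff u (κ *ᵥ v) - ff u' (κ *ᵥ v')) • (1 : Matrix (Fin d ⊕ Fin d) (Fin d ⊕ Fin d) F) + (ff u' v' - ff u v) • κ = 0 := by
      rw [sub_smul, sub_smul]
      have h4 : ∀ (A B C D : Matrix (Fin d ⊕ Fin d) (Fin d ⊕ Fin d) F), A + -B = C + -D → (A - C) + (D - B) = 0 := by
        intro A B C D hh
        have : A - C + (D - B) = (A + -B) - (C + -D) := by abel
        rw [this, hh, sub_self]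
      apply h4
      rw [← neg_smul, ← neg_smul]
      exact h1
    have h5 := (indep_one hd hs h3).2
    exact (sub_eq_zero.mp h5).symm
  -- the frame
  obtain ⟨e, hee, hee2, hes⟩ := exists_frame hd hs
  have he : ∀ i j, h (e i) (e j) = if i = j then 1 else 0 := by
    intro i j
    show ι₀ (ff (e i) (κ *ᵥ e j)) + ι₀ (- ff (e i) (e j)) * κL = _
    rw [hee, hee2, neg_zero, map_zero, zero_mul, add_zero]
    split_ifs
    · exact map_one _
    · exact map_zero _
  have hspan : ∀ v, v = ∑ j, ρ (h v (e j)) *ᵥ e j := by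
    intro v
    have h3 : ∀ j, ρ (h v (e j)) *ᵥ e j = ff v (κ *ᵥ e j) • e j - ff v (e j) • (κ *ᵥ e j) := by
      intro j
      show ρ (ι₀ (ff v (κ *ᵥ e j)) + ι₀ (- ff v (e j)) * κL) *ᵥ e j = _
      rw [hρgen, neg_smul, sub_eq_add_neg]
    simp_rw [h3]
    exact hes v
  obtain ⟨f, hf, hf2⟩ := exists_hom hL ρ ι₀ hι₀ h h_add_left h_add_right h_left h_sym hB e he hspan
  have hrange : f.range ≤ subalgebraNormalizer K ⊓ Cfsg.spGL d F := by
    rintro _ ⟨g, rfl⟩
    exact ⟨norm_of_comm (fun k hkK => (hf2 g).2 ⟨k, hkK⟩), (hf2 g).1⟩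
  have hc := Subgroup.card_dvd_of_le hrange
  have hc2 : Nat.card f.range = Nat.card (Cfsg.GU d ↥K q) := (Nat.card_congr (MonoidHom.ofInjective hf).toEquiv).symm
  rw [hc2, Cfsg.Agent.Lib.Classical.card_gu hL d] at hc
  exact hc

end concrete

end Cfsg.Agent.Lib.ClassMax.SkewGU
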