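import Mathlib
import Cfsg.Agent.Lib.ClassMax.SkewGU

/-!
Elements of the symplectic group normalising a quadratic field with skew generator, up to conjugacy.
-/

set_option autoImplicit false
set_option linter.unusedSimpArgs false
set_option linter.unusedVariables false
set_option linter.unusedSectionVars false

namespace Cfsg.Agent.Lib.ClassMax.SkewSp

open Module Polynomial Matrix Cfsg.Geo Cfsg.Agent.Lib.ClassMax Cfsg.Agent.Lib.ClassMax.ElusiveSp Cfsg.Agent.Lib.ClassMax.EluSymp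
  Cfsg.Agent.Lib.ClassMax.SpGU Cfsg.Agent.Lib.KnownSimple Cfsg.Agent.Lib.ClassMax.SkewFrame Cfsg.Agent.Lib.ClassMax.EluSpBlock

variable {F : Type*} [Field F] {d : ℕ}

local notation "VV" => (Fin d ⊕ Fin d → F)
local notation "MM" => Matrix (Fin d ⊕ Fin d) (Fin d ⊕ Fin d) F
local notation "ff" => Cfsg.sympForm d F
local notation "GG" => GL (Fin d ⊕ Fin d) F

/-- The inverse of a matrix with a prescribed action. -/
theorem gl_inv_mulVec (G : GL (Fin d ⊕ Fin d) F) (v : Fin d ⊕ Fin d → F) :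
    ((G⁻¹ : GL (Fin d ⊕ Fin d) F) : Matrix (Fin d ⊕ Fin d) (Fin d ⊕ Fin d) F) *ᵥ ((G : Matrix (Fin d ⊕ Fin d) (Fin d ⊕ Fin d) F) *ᵥ v) = v := by
  rw [Matrix.mulVec_mulVec, Units.inv_mul, Matrix.one_mulVec]

theorem gl_mulVec_inv (G : GL (Fin d ⊕ Fin d) F) (v : Fin d ⊕ Fin d → F) :
    (G : Matrix (Fin d ⊕ Fin d) (Fin d ⊕ Fin d) F) *ᵥ (((G⁻¹ : GL (Fin d ⊕ Fin d) F) : Matrix (Fin d ⊕ Fin d) (Fin d ⊕ Fin d) F) *ᵥ v) = v := by
  rw [Matrix.mulVec_mulVec, Units.mul_inv, Matrix.one_mulVec]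

/-- An isometry as an element of the symplectic group. -/
theorem gl_of_iso (g : (Fin d ⊕ Fin d → F) →ₗ[F] (Fin d ⊕ Fin d → F)) (hg : ∀ u v, Cfsg.sympForm d F (g u) (g v) = Cfsg.sympForm d F u v) :
    ∃ G : GL (Fin d ⊕ Fin d) F, G ∈ Cfsg.spGL d F ∧ ∀ v, (G : Matrix (Fin d ⊕ Fin d) (Fin d ⊕ Fin d) F) *ᵥ v = g v := by
  have hinj : Function.Injective g := by
    rw [← LinearMap.ker_eq_bot, LinearMap.ker_eq_bot']
    intro u hu
    apply sympForm_right_eq_zero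
    intro x
    rw [sympForm_swap]
    have h0 : Cfsg.sympForm d F (0 : Fin d ⊕ Fin d → F) (g x) = 0 := by
      have := sympForm_smul_left (m := d) (F := F) (0 : F) 0 (g x)
      simpa using this
    have := hg u x
    rw [hu, h0] at this
    rw [← this]
    simp
  let e := LinearEquiv.ofInjectiveEndo g hinj
  refine ⟨Cfsg.Agent.Lib.Classical.glOfEquiv e, ?_, fun v => ?_⟩
  · intro u v
    change ff (((Cfsg.Agent.Lib.Classical.glOfEquiv e : GL (Fin d ⊕ Fin d) F) : Matrix (Fin d ⊕ Fin d) (Fin d ⊕ Fin d) F) *ᵥ u)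
      (((Cfsg.Agent.Lib.Classical.glOfEquiv e : GL (Fin d ⊕ Fin d) F) : Matrix (Fin d ⊕ Fin d) (Fin d ⊕ Fin d) F) *ᵥ v) = _
    rw [Cfsg.Agent.Lib.Classical.glOfEquiv_mulVec, Cfsg.Agent.Lib.Classical.glOfEquiv_mulVec]
    exact hg u v
  · rw [Cfsg.Agent.Lib.Classical.glOfEquiv_mulVec]
    rfl

section main

variable [Fintype F] {κ : Matrix (Fin d ⊕ Fin d) (Fin d ⊕ Fin d) F} {δ : F} (hs : SK κ δ)

include hs

/-- A skew map with the right square is conjugate to the generator. -/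
theorem conj_skew {T : (Fin d ⊕ Fin d → F) →ₗ[F] (Fin d ⊕ Fin d → F)} (hskew : ∀ u v, Cfsg.sympForm d F (T u) v = - Cfsg.sympForm d F u (T v))
    (hsq : ∀ v, T (T v) = δ • v) :
    ∃ G : GL (Fin d ⊕ Fin d) F, G ∈ Cfsg.spGL d F ∧ ∀ v, (G : Matrix (Fin d ⊕ Fin d) (Fin d ⊕ Fin d) F) *ᵥ (κ *ᵥ v) = T ((G : Matrix (Fin d ⊕ Fin d) (Fin d ⊕ Fin d) F) *ᵥ v) := by
  obtain ⟨g, hg, hgT⟩ := skew_conj (B := sympB d F) (T := Matrix.toLin' κ) (T' := T) (sympB_alt (d := d) (F := F)) hs.two (sympB_nd (d := d) (F := F))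
    (fun u v => hs.skew u v) (fun u v => hskew u v) hs.delta_ne (fun v => hs.sq v) hsq
  obtain ⟨G, hG, hGv⟩ := gl_of_iso g (fun u v => hg u v)
  refine ⟨G, hG, fun v => ?_⟩
  rw [hGv, hGv]
  exact hgT v

/-- Conjugating a map normalising the skew map. -/
theorem conj_relation {T : (Fin d ⊕ Fin d → F) →ₗ[F] (Fin d ⊕ Fin d → F)} {G x : GL (Fin d ⊕ Fin d) F}
    (hG : ∀ v, (G : Matrix (Fin d ⊕ Fin d) (Fin d ⊕ Fin d) F) *ᵥ (κ *ᵥ v) = T ((G : Matrix (Fin d ⊕ Fin d) (Fin d ⊕ Fin d) F) *ᵥ v)) {ε : F}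
    (hx : ∀ w, (x : Matrix (Fin d ⊕ Fin d) (Fin d ⊕ Fin d) F) *ᵥ (T w) = ε • T ((x : Matrix (Fin d ⊕ Fin d) (Fin d ⊕ Fin d) F) *ᵥ w)) :
    ((G⁻¹ * x * G : GL (Fin d ⊕ Fin d) F) : Matrix (Fin d ⊕ Fin d) (Fin d ⊕ Fin d) F) * κ =
      ε • (κ * ((G⁻¹ * x * G : GL (Fin d ⊕ Fin d) F) : Matrix (Fin d ⊕ Fin d) (Fin d ⊕ Fin d) F)) := by
  apply Cfsg.Agent.Lib.Classical.mat_ext_mulVec
  intro v
  have hinv : ∀ w, ((G⁻¹ : GL (Fin d ⊕ Fin d) F) : Matrix (Fin d ⊕ Fin d) (Fin d ⊕ Fin d) F) *ᵥ (T w) = κ *ᵥ (((G⁻¹ : GL (Fin d ⊕ Fin d) F) : Matrix (Fin d ⊕ Fin d) (Fin d ⊕ Fin d) F) *ᵥ w) := by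
    intro w
    have h1 := hG (((G⁻¹ : GL (Fin d ⊕ Fin d) F) : Matrix (Fin d ⊕ Fin d) (Fin d ⊕ Fin d) F) *ᵥ w)
    rw [gl_mulVec_inv] at h1
    rw [← h1, gl_inv_mulVec]
  rw [Matrix.smul_mulVec, ← Matrix.mulVec_mulVec, ← Matrix.mulVec_mulVec]
  simp only [Units.val_mul, ← Matrix.mulVec_mulVec]
  rw [hG, hx, Matrix.mulVec_smul, hinv]

/-- The criterion for the normaliser. -/
theorem norm_crit {K : Subalgebra F (Matrix (Fin d ⊕ Fin d) (Fin d ⊕ Fin d) F)} (hk : ∀ k, k ∈ K ↔ ∃ a b : F, k = a • 1 + b • κ) {y : GL (Fin d ⊕ Fin d) F} {ε : F} (hε : ε * ε = 1)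
    (hy : (y : Matrix (Fin d ⊕ Fin d) (Fin d ⊕ Fin d) F) * κ = ε • (κ * (y : Matrix (Fin d ⊕ Fin d) (Fin d ⊕ Fin d) F))) : y ∈ subalgebraNormalizer K := by
  have h1 : (y : Matrix (Fin d ⊕ Fin d) (Fin d ⊕ Fin d) F) * κ * ((y⁻¹ : GL (Fin d ⊕ Fin d) F) : Matrix (Fin d ⊕ Fin d) (Fin d ⊕ Fin d) F) = ε • κ := by
    rw [hy, smul_mul_assoc, mul_assoc, Units.mul_inv, mul_one]
  have h2 : ((y⁻¹ : GL (Fin d ⊕ Fin d) F) : Matrix (Fin d ⊕ Fin d) (Fin d ⊕ Fin d) F) * κ * (y : Matrix (Fin d ⊕ Fin d) (Fin d ⊕ Fin d) F) = ε • κ := by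
    have h3 : κ * (y : Matrix (Fin d ⊕ Fin d) (Fin d ⊕ Fin d) F) = ε • ((y : Matrix (Fin d ⊕ Fin d) (Fin d ⊕ Fin d) F) * κ) := by
      rw [hy, smul_smul, hε, one_smul]
    rw [mul_assoc, h3, mul_smul_comm, ← mul_assoc, Units.inv_mul, one_mul]
  intro k
  constructor
  · intro hkK
    obtain ⟨a, b, rfl⟩ := (hk k).1 hkK
    refine (hk _).2 ⟨a, b * ε, ?_⟩
    rw [mul_add, add_mul, mul_smul_comm, mul_one, smul_mul_assoc, Units.mul_inv, mul_smul_comm, smul_mul_assoc, h1, smul_smul]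
  · intro hkK
    obtain ⟨a, b, hab⟩ := (hk _).1 hkK
    refine (hk _).2 ⟨a, b * ε, ?_⟩
    have h3 : k = ((y⁻¹ : GL (Fin d ⊕ Fin d) F) : Matrix (Fin d ⊕ Fin d) (Fin d ⊕ Fin d) F) * ((y : Matrix (Fin d ⊕ Fin d) (Fin d ⊕ Fin d) F) * k * ((y⁻¹ : GL (Fin d ⊕ Fin d) F) : Matrix (Fin d ⊕ Fin d) (Fin d ⊕ Fin d) F)) * (y : Matrix (Fin d ⊕ Fin d) (Fin d ⊕ Fin d) F) := by
      simp only [mul_assoc, Units.inv_mul, mul_one]
      rw [← mul_assoc, Units.inv_mul, one_mul]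
    rw [h3, hab, mul_add, add_mul, mul_smul_comm, mul_one, smul_mul_assoc, Units.inv_mul, mul_smul_comm, smul_mul_assoc, h2, smul_smul]

/-- An element of odd order normalising the field commutes with the generator. -/
theorem comm_of_norm {K : Subalgebra F (Matrix (Fin d ⊕ Fin d) (Fin d ⊕ Fin d) F)} (hd : 0 < d) (hk : ∀ k, k ∈ K ↔ ∃ a b : F, k = a • 1 + b • κ) {y : GL (Fin d ⊕ Fin d) F}
    (hy : y ∈ subalgebraNormalizer K) {r : ℕ} (hr : Odd r) (hyr : y ^ r = 1) :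
    (y : Matrix (Fin d ⊕ Fin d) (Fin d ⊕ Fin d) F) * κ = κ * (y : Matrix (Fin d ⊕ Fin d) (Fin d ⊕ Fin d) F) := by
  have hκK : κ ∈ K := (hk κ).2 ⟨0, 1, by simp⟩
  obtain ⟨a, b, hab⟩ := (hk _).1 ((hy κ).1 hκK)
  have hsq := SkewGU.sq_mat hs
  have h1 : (a • (1 : Matrix (Fin d ⊕ Fin d) (Fin d ⊕ Fin d) F) + b • κ) * (a • 1 + b • κ) = δ • 1 := by
    rw [← hab]
    have : (y : Matrix (Fin d ⊕ Fin d) (Fin d ⊕ Fin d) F) * κ * ((y⁻¹ : GL (Fin d ⊕ Fin d) F) : Matrix (Fin d ⊕ Fin d) (Fin d ⊕ Fin d) F) * ((y : Matrix (Fin d ⊕ Fin d) (Fin d ⊕ Fin d) F) * κ * ((y⁻¹ : GL (Fin d ⊕ Fin d) F) : Matrix (Fin d ⊕ Fin d) (Fin d ⊕ Fin d) F))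
        = (y : Matrix (Fin d ⊕ Fin d) (Fin d ⊕ Fin d) F) * (κ * κ) * ((y⁻¹ : GL (Fin d ⊕ Fin d) F) : Matrix (Fin d ⊕ Fin d) (Fin d ⊕ Fin d) F) := by
      simp only [mul_assoc]
      rw [← mul_assoc (((y⁻¹ : GL (Fin d ⊕ Fin d) F) : Matrix (Fin d ⊕ Fin d) (Fin d ⊕ Fin d) F)) (y : Matrix (Fin d ⊕ Fin d) (Fin d ⊕ Fin d) F), Units.inv_mul, one_mul]
    rw [this, hsq, mul_smul_comm, smul_mul_assoc, mul_one, Units.mul_inv]
  have h2 : (a * a + b * b * δ - δ) • (1 : Matrix (Fin d ⊕ Fin d) (Fin d ⊕ Fin d) F) + (2 * a * b) • κ = 0 := by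
    have h3 : (a • (1 : Matrix (Fin d ⊕ Fin d) (Fin d ⊕ Fin d) F) + b • κ) * (a • 1 + b • κ) = (a * a + b * b * δ) • (1 : Matrix (Fin d ⊕ Fin d) (Fin d ⊕ Fin d) F) + (2 * a * b) • κ := by
      rw [add_mul, mul_add, mul_add, smul_mul_smul_comm, smul_mul_smul_comm, smul_mul_smul_comm, smul_mul_smul_comm, one_mul, one_mul, mul_one, hsq, smul_smul, add_smul, two_mul, add_mul, add_smul]
      rw [mul_comm b a]
      abel
    rw [h3] at h1
    rw [sub_smul, ← h1]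
    abel
  obtain ⟨e1, e2⟩ := SkewGU.indep_one hd hs h2
  have hb : b ≠ 0 := by
    rintro rfl
    apply hs.ns
    exact ⟨a, by linear_combination -e1⟩
  have ha : a = 0 := by
    have : (2 * a) * b = 0 := e2
    have h3 := (mul_eq_zero.mp this).resolve_right hb
    exact (mul_eq_zero.mp h3).resolve_left hs.two
  subst ha
  have hbb : b * b = 1 := by
    have h3 : (b * b - 1) * δ = 0 := by linear_combination e1
    have h4 := (mul_eq_zero.mp h3).resolve_right hs.delta_ne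
    linear_combination h4
  rw [zero_smul, zero_add] at hab
  have hyκ : (y : Matrix (Fin d ⊕ Fin d) (Fin d ⊕ Fin d) F) * κ = b • (κ * (y : Matrix (Fin d ⊕ Fin d) (Fin d ⊕ Fin d) F)) := by
    have h3 : (y : Matrix (Fin d ⊕ Fin d) (Fin d ⊕ Fin d) F) * κ * ((y⁻¹ : GL (Fin d ⊕ Fin d) F) : Matrix (Fin d ⊕ Fin d) (Fin d ⊕ Fin d) F) * (y : Matrix (Fin d ⊕ Fin d) (Fin d ⊕ Fin d) F)
        = (y : Matrix (Fin d ⊕ Fin d) (Fin d ⊕ Fin d) F) * κ := by
      rw [mul_assoc, Units.inv_mul, mul_one]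
    rw [← h3, hab, smul_mul_assoc]
  have hpow : ∀ n : ℕ, ((y ^ n : GL (Fin d ⊕ Fin d) F) : Matrix (Fin d ⊕ Fin d) (Fin d ⊕ Fin d) F) * κ = b ^ n • (κ * ((y ^ n : GL (Fin d ⊕ Fin d) F) : Matrix (Fin d ⊕ Fin d) (Fin d ⊕ Fin d) F)) := by
    intro n
    induction n with
    | zero => simp
    | succ n ih =>
      rw [pow_succ, Units.val_mul, mul_assoc, hyκ, mul_smul_comm, ← mul_assoc, ih, smul_mul_assoc, smul_smul, mul_assoc, pow_succ, mul_comm b]
  have h5 := hpow r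
  rw [hyr, Units.val_one, one_mul, mul_one] at h5
  have hbr : b ^ r = 1 := by
    have h6 : (0 : F) • (1 : Matrix (Fin d ⊕ Fin d) (Fin d ⊕ Fin d) F) + (1 - b ^ r) • κ = 0 := by
      rw [zero_smul, zero_add, sub_smul, one_smul, ← h5, sub_self]
    have h7 := (SkewGU.indep_one hd hs h6).2
    linear_combination -h7
  have hb1 : b = 1 := by
    obtain ⟨k, hk⟩ := hr
    rw [hk, pow_succ, pow_mul, sq, hbb, one_pow, one_mul] at hbr
    exact hbr
  rw [hyκ, hb1, one_smul]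

/-- Every element of the symplectic group with scalar square is conjugate into the normaliser. -/
theorem exists_conj_of_sq [DecidableEq F] {K : Subalgebra F (Matrix (Fin d ⊕ Fin d) (Fin d ⊕ Fin d) F)} (hd : 0 < d) (hk : ∀ k, k ∈ K ↔ ∃ a b : F, k = a • 1 + b • κ) {x : GL (Fin d ⊕ Fin d) F}
    (hx : x ∈ Cfsg.spGL d F) {z : F} (hz : ((x ^ 2 : GL (Fin d ⊕ Fin d) F) : Matrix (Fin d ⊕ Fin d) (Fin d ⊕ Fin d) F) = z • (1 : Matrix (Fin d ⊕ Fin d) (Fin d ⊕ Fin d) F)) :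
    ∃ g ∈ Cfsg.spGL d F, g⁻¹ * x * g ∈ subalgebraNormalizer K := by
  classical
  have h2 := hs.two
  let B := sympB d F
  have halt : ∀ v, B v v = 0 := sympB_alt (d := d) (F := F)
  have hnd : Nd B ⊤ := sympB_nd (d := d) (F := F)
  let X : (Fin d ⊕ Fin d → F) →ₗ[F] (Fin d ⊕ Fin d → F) := Matrix.toLin' (x : Matrix (Fin d ⊕ Fin d) (Fin d ⊕ Fin d) F)
  have hXv : ∀ v, X v = (x : Matrix (Fin d ⊕ Fin d) (Fin d ⊕ Fin d) F) *ᵥ v := fun v => rfl
  have hiso : ∀ u v, B (X u) (X v) = B u v := fun u v => hx u v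
  have hXX : ∀ v, X (X v) = z • v := by
    intro v
    rw [hXv, hXv, Matrix.mulVec_mulVec]
    have : (x : Matrix (Fin d ⊕ Fin d) (Fin d ⊕ Fin d) F) * (x : Matrix (Fin d ⊕ Fin d) (Fin d ⊕ Fin d) F) = z • 1 := by
      rw [← Units.val_mul, ← sq, hz]
    rw [this, Matrix.smul_mulVec, Matrix.one_mulVec]
  have hzz : z * z = 1 := by
    obtain ⟨u, hu⟩ : ∃ u : Fin d ⊕ Fin d → F, u ≠ 0 := ⟨Pi.single (Sum.inl ⟨0, hd⟩) 1, by
      intro h
      have := congrFun h (Sum.inl ⟨0, hd⟩)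
      simp at this⟩
    obtain ⟨v, -, hv⟩ := hnd u trivial hu
    have h1 := hiso (X u) (X v)
    rw [hXX, hXX, hiso, map_smul, map_smul, LinearMap.smul_apply, smul_eq_mul, smul_eq_mul] at h1
    have h3 : (z * z - 1) * B u v = 0 := by linear_combination h1
    have h4 := (mul_eq_zero.mp h3).resolve_right hv
    linear_combination h4
  have hz' : z = 1 ∨ z = -1 := by
    have h3 : (z - 1) * (z + 1) = 0 := by linear_combination hzz
    rcases mul_eq_zero.mp h3 with h | h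
    · left; linear_combination h
    · right; linear_combination h
  rcases hz' with rfl | rfl
  · -- an involution
    let U : Submodule F (Fin d ⊕ Fin d → F) := LinearMap.ker (X - 1)
    let W : Submodule F (Fin d ⊕ Fin d → F) := LinearMap.ker (X + 1)
    have hU : ∀ u, u ∈ U ↔ X u = u := by
      intro u
      show (X - 1) u = 0 ↔ _
      rw [LinearMap.sub_apply, Module.End.one_apply, sub_eq_zero]
    have hW : ∀ u, u ∈ W ↔ X u = - u := by
      intro u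
      show (X + 1) u = 0 ↔ _
      rw [LinearMap.add_apply, Module.End.one_apply, add_eq_zero_iff_eq_neg]
    have hhalf : (2 : F)⁻¹ + (2 : F)⁻¹ = 1 := by
      rw [← two_mul, mul_inv_cancel₀ h2]
    have hdec : ∀ v, ∃ a ∈ U, ∃ b ∈ W, v = a + b := by
      intro v
      refine ⟨(2 : F)⁻¹ • (v + X v), (hU _).2 ?_, (2 : F)⁻¹ • (v - X v), (hW _).2 ?_, ?_⟩
      · rw [map_smul, map_add, hXX, one_smul, add_comm]
      · rw [map_smul, map_sub, hXX, one_smul, ← smul_neg, neg_sub]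
      · have : (2 : F)⁻¹ • (v + X v) + (2 : F)⁻¹ • (v - X v) = ((2 : F)⁻¹ + (2 : F)⁻¹) • v := by module
        rw [this, hhalf, one_smul]
    have horth : ∀ u ∈ U, ∀ w ∈ W, B u w = 0 := by
      intro u hu w hw
      have h1 := hiso u w
      rw [(hU u).1 hu, (hW w).1 hw, map_neg] at h1
      have h3 : (2 : F) * B u w = 0 := by linear_combination -h1
      exact (mul_eq_zero.mp h3).resolve_left h2
    have hNU : Nd B U := by
      intro u hu hu0
      obtain ⟨v, -, hv⟩ := hnd u trivial hu0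
      obtain ⟨a, ha, b, hb, rfl⟩ := hdec v
      refine ⟨a, ha, ?_⟩
      rw [map_add, horth u hu b hb, add_zero] at hv
      exact hv
    have hNW : Nd B W := by
      intro w hw hw0
      obtain ⟨v, -, hv⟩ := hnd w trivial hw0
      obtain ⟨a, ha, b, hb, rfl⟩ := hdec v
      refine ⟨b, hb, ?_⟩
      rw [map_add, orth_symm halt (horth a ha w hw), zero_add] at hv
      exact hv
    obtain ⟨s₁, f1, f2, f3⟩ := exists_fam halt hNU
    obtain ⟨s₂, g1, g2, g3⟩ := exists_fam halt hNW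
    have hfam : Fam B (s₁ ∪ s₂) := by
      refine ⟨?_, ?_⟩
      · intro ω hω
        rcases Finset.mem_union.mp hω with h | h
        · exact f1.hyp ω h
        · exact g1.hyp ω h
      · intro ω hω η hη hne
        rcases Finset.mem_union.mp hω with h | h <;> rcases Finset.mem_union.mp hη with h' | h'
        · exact f1.orth ω h η h' hne
        · exact ⟨horth _ (f2 ω h).1 _ (g2 η h').1, horth _ (f2 ω h).1 _ (g2 η h').2, horth _ (f2 ω h).2 _ (g2 η h').1, horth _ (f2 ω h).2 _ (g2 η h').2⟩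
        · exact ⟨orth_symm halt (horth _ (f2 η h').1 _ (g2 ω h).1), orth_symm halt (horth _ (f2 η h').2 _ (g2 ω h).1),
            orth_symm halt (horth _ (f2 η h').1 _ (g2 ω h).2), orth_symm halt (horth _ (f2 η h').2 _ (g2 ω h).2)⟩
        · exact g1.orth ω h η h' hne
    have hspan : Submodule.span F (Pts (s₁ ∪ s₂)) = ⊤ := by
      rw [eq_top_iff]
      intro v _
      obtain ⟨a, ha, b, hb, rfl⟩ := hdec v
      apply Submodule.add_mem
      · rw [← f3] at ha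
        refine Submodule.span_mono ?_ ha
        rintro _ (⟨ω, hω, rfl⟩ | ⟨ω, hω, rfl⟩)
        · exact Or.inl ⟨ω, Finset.mem_union_left _ hω, rfl⟩
        · exact Or.inr ⟨ω, Finset.mem_union_left _ hω, rfl⟩
      · rw [← g3] at hb
        refine Submodule.span_mono ?_ hb
        rintro _ (⟨ω, hω, rfl⟩ | ⟨ω, hω, rfl⟩)
        · exact Or.inl ⟨ω, Finset.mem_union_right _ hω, rfl⟩
        · exact Or.inr ⟨ω, Finset.mem_union_right _ hω, rfl⟩
    let T := planeMap B (s₁ ∪ s₂) 0 1 δ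
    have hTsk : ∀ u v, Cfsg.sympForm d F (T u) v = - Cfsg.sympForm d F u (T v) := fun u v => planeMap_skew halt hfam hspan 0 1 δ u v
    have hTsq : ∀ v, T (T v) = δ • v := by
      intro v
      rw [show T (T v) = _ from planeMap_sq halt hfam hspan 0 1 δ v]
      congr 1
      ring
    obtain ⟨G, hG, hGκ⟩ := conj_skew hs hTsk hTsq
    have hcomm : X.comp T = T.comp X := by
      apply ext_on_pts halt hfam hspan
      · intro ω hω
        have h1 : T ω.1 = ω.2 := by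
          rw [show T ω.1 = _ from planeMap_fst halt hfam 0 1 δ hω]
          simp
        rcases Finset.mem_union.mp hω with h | h
        · rw [LinearMap.comp_apply, LinearMap.comp_apply, h1, (hU _).1 (f2 ω h).2, (hU _).1 (f2 ω h).1, h1]
        · rw [LinearMap.comp_apply, LinearMap.comp_apply, h1, (hW _).1 (g2 ω h).2, (hW _).1 (g2 ω h).1, map_neg, h1]
      · intro ω hω
        have h1 : T ω.2 = δ • ω.1 := by
          rw [show T ω.2 = _ from planeMap_snd halt hfam 0 1 δ hω]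
          simp
        rcases Finset.mem_union.mp hω with h | h
        · rw [LinearMap.comp_apply, LinearMap.comp_apply, h1, map_smul, (hU _).1 (f2 ω h).1, (hU _).1 (f2 ω h).2, h1]
        · rw [LinearMap.comp_apply, LinearMap.comp_apply, h1, map_smul, (hW _).1 (g2 ω h).1, (hW _).1 (g2 ω h).2, map_neg, h1, smul_neg]
    refine ⟨G, hG, norm_crit hs hk (ε := 1) (by ring) (conj_relation hs hGκ (T := T) (fun w => ?_))⟩
    rw [one_smul]
    exact LinearMap.congr_fun hcomm w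
  · -- an element squaring to minus one
    have hskew : ∀ u v, B (X u) v = - B u (X v) := by
      intro u v
      have h1 := hiso u (X v)
      rw [hXX, map_smul, smul_eq_mul] at h1
      linear_combination -h1
    obtain ⟨s, h1, h3, h4⟩ := skew_family (T := X) halt h2 hskew (neg_ne_zero.mpr one_ne_zero) hXX hnd
    have hodd : Fintype.card F % 2 = 1 := by
      apply FiniteField.odd_card_of_char_ne_two
      intro h
      apply h2
      have h5 := ringChar.Nat.cast_ringChar (R := F)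
      rw [h] at h5
      exact_mod_cast h5
    obtain ⟨a, b, hab⟩ := FiniteField.exists_root_sum_quadratic (R := F) (f := Polynomial.X ^ 2 + Polynomial.C (-δ)) (g := Polynomial.X ^ 2)
      (by compute_degree!) (by simp) hodd
    have hab' : a ^ 2 + b * b = δ := by
      simp only [Polynomial.eval_add, Polynomial.eval_pow, Polynomial.eval_X, Polynomial.eval_C] at hab
      linear_combination hab
    let T := planeMap B s a b b
    have hTsk : ∀ u v, Cfsg.sympForm d F (T u) v = - Cfsg.sympForm d F u (T v) := fun u v => planeMap_skew halt h1 h3 a b b u v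
    have hTsq : ∀ v, T (T v) = δ • v := by
      intro v
      rw [show T (T v) = _ from planeMap_sq halt h1 h3 a b b v, hab']
    obtain ⟨G, hG, hGκ⟩ := conj_skew hs hTsk hTsq
    have hrel : X.comp T = (-1 : F) • (T.comp X) := by
      apply ext_on_pts halt h1 h3
      · intro ω hω
        obtain ⟨e1, e2⟩ := h4 ω hω
        have h5 : T ω.1 = a • ω.1 + b • ω.2 := planeMap_fst halt h1 a b b hω
        have h6 : T ω.2 = b • ω.1 - a • ω.2 := planeMap_snd halt h1 a b b hω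
        simp only [LinearMap.comp_apply, LinearMap.smul_apply, h5, h6, map_add, map_smul, e1, e2]
        module
      · intro ω hω
        obtain ⟨e1, e2⟩ := h4 ω hω
        have h5 : T ω.1 = a • ω.1 + b • ω.2 := planeMap_fst halt h1 a b b hω
        have h6 : T ω.2 = b • ω.1 - a • ω.2 := planeMap_snd halt h1 a b b hω
        simp only [LinearMap.comp_apply, LinearMap.smul_apply, h5, h6, map_add, map_sub, map_smul, e1, e2]
        module
    exact ⟨G, hG, norm_crit hs hk (ε := -1) (by ring) (conj_relation hs hGκ (T := T) (fun w => LinearMap.congr_fun hrel w))⟩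

end main

end Cfsg.Agent.Lib.ClassMax.SkewSp
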