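import Mathlib
import Cfsg.Agent.Lib.ClassMax.SkewSp
import Cfsg.Agent.Lib.ClassMax.EluSpBlock2

/-!
Field structures on a symplectic space whose elements are self-adjoint: the form is the image of a
bilinear alternating form over the field.
-/

set_option autoImplicit false
set_option linter.unusedSimpArgs false
set_option linter.unusedVariables false
set_option linter.unusedSectionVars false

namespace Cfsg.Agent.Lib.ClassMax.SelfField

open Module Polynomial Matrix Cfsg.Geo Cfsg.Agent.Lib.ClassMax Cfsg.Agent.Lib.ClassMax.ElusiveSp Cfsg.Agent.Lib.ClassMax.EluSymp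
  Cfsg.Agent.Lib.ClassMax.SpGU Cfsg.Agent.Lib.KnownSimple Cfsg.Agent.Lib.ClassMax.SkewFrame Cfsg.Agent.Lib.ClassMax.EluSpBlock Cfsg.Agent.Lib.ClassMax.EluSpBlock2

section form

variable {F L V : Type*} [Field F] [Field L] [Algebra F L] [FiniteDimensional F L]
  [AddCommGroup V] [Module F V] [Module L V] [IsScalarTower F L V] [FiniteDimensional F V]
  {B : LinearMap.BilinForm F V}

/-- A functional through which every functional factors. -/
theorem exists_pairing : ∃ τ : L →ₗ[F] F, τ 1 ≠ 0 ∧ ∀ φ : L →ₗ[F] F, ∃ x : L, ∀ a, φ a = τ (a * x) := by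
  obtain ⟨τ, hτ⟩ : ∃ τ : Module.Dual F L, τ 1 ≠ 0 := by
    by_contra hcon
    push Not at hcon
    exact one_ne_zero ((Module.forall_dual_apply_eq_zero_iff F (1 : L)).mp hcon)
  refine ⟨τ, hτ, fun φ => ?_⟩
  let P : L →ₗ[F] Module.Dual F L :=
    { toFun := fun x => τ.comp (LinearMap.mulRight F x)
      map_add' := fun x y => by
        apply LinearMap.ext
        intro a
        simp [mul_add]
      map_smul' := fun c x => by
        apply LinearMap.ext
        intro a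
        simp [mul_smul_comm] }
  have hP : ∀ x a, P x a = τ (a * x) := fun x a => rfl
  have hinj : Function.Injective P := by
    rw [← LinearMap.ker_eq_bot, LinearMap.ker_eq_bot']
    intro x hx
    by_contra hx0
    apply hτ
    have h1 := LinearMap.congr_fun hx x⁻¹
    rw [hP, inv_mul_cancel₀ hx0] at h1
    exact h1
  have hsurj : Function.Surjective P :=
    (LinearMap.injective_iff_surjective_of_finrank_eq_finrank (Subspace.dual_finrank_eq (K := F) (V := L)).symm).mp hinj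
  obtain ⟨x, rfl⟩ := hsurj φ
  exact ⟨x, fun a => rfl⟩

/-- The form over the field. -/
theorem exists_form (hadj : ∀ (a : L) u v, B (a • u) v = B u (a • v)) (hLalt : ∀ (a : L) v, B (a • v) v = 0) :
    ∃ (f : LinearMap.BilinForm L V) (τ : L →ₗ[F] F), (∀ u v, B u v = τ (f u v)) ∧ (∀ v, f v v = 0) ∧ (∀ u v, f u v = 0 ↔ ∀ a : L, B (a • u) v = 0) := by
  obtain ⟨τ, hτ1, hτ⟩ := exists_pairing (F := F) (L := L)
  let φ : V → V → (L →ₗ[F] F) := fun u v =>
    { toFun := fun a => B (a • u) v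
      map_add' := fun a b => by
        rw [add_smul, map_add, LinearMap.add_apply]
      map_smul' := fun c a => by
        rw [smul_assoc, map_smul, LinearMap.smul_apply, RingHom.id_apply, smul_eq_mul] }
  have hφ : ∀ u v a, φ u v a = B (a • u) v := fun u v a => rfl
  choose g hg using fun u v => hτ (φ u v)
  have hg' : ∀ u v a, τ (a * g u v) = B (a • u) v := fun u v a => (hg u v a).symm
  have huniq : ∀ x y : L, (∀ a, τ (a * x) = τ (a * y)) → x = y := by
    intro x y h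
    by_contra hne
    have hne' : x - y ≠ 0 := sub_ne_zero.mpr hne
    apply hτ1
    have h1 := h (x - y)⁻¹
    have h2 : (1 : L) = (x - y)⁻¹ * x - (x - y)⁻¹ * y := by
      rw [← mul_sub, inv_mul_cancel₀ hne']
    rw [h2, map_sub, h1, sub_self]
  have hadd1 : ∀ u u' v, g (u + u') v = g u v + g u' v := by
    intro u u' v
    apply huniq
    intro a
    rw [mul_add, map_add, hg', hg', hg', smul_add, map_add, LinearMap.add_apply]
  have hsmul1 : ∀ (c : L) u v, g (c • u) v = c * g u v := by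
    intro c u v
    apply huniq
    intro a
    rw [hg', ← mul_assoc, hg', mul_smul]
  have hadd2 : ∀ u v v', g u (v + v') = g u v + g u v' := by
    intro u v v'
    apply huniq
    intro a
    rw [mul_add, map_add, hg', hg', hg', map_add]
  have hsmul2 : ∀ (c : L) u v, g u (c • v) = c * g u v := by
    intro c u v
    apply huniq
    intro a
    rw [hg', ← mul_assoc, hg', ← hadj, smul_smul, mul_comm c a]
  refine ⟨LinearMap.mk₂ L g hadd1 hsmul1 hadd2 hsmul2, τ, ?_, ?_, ?_⟩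
  · intro u v
    rw [LinearMap.mk₂_apply]
    have := hg' u v 1
    rw [one_mul, one_smul] at this
    exact this.symm
  · intro v
    rw [LinearMap.mk₂_apply]
    apply huniq
    intro a
    rw [hg', mul_zero, map_zero, hLalt]
  · intro u v
    rw [LinearMap.mk₂_apply]
    constructor
    · intro h a
      rw [← hg', h, mul_zero, map_zero]
    · intro h
      apply huniq
      intro a
      rw [hg', h, mul_zero, map_zero]

/-- The dimension of a stable subspace. -/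
theorem dvd_stable {M : Submodule F V} (hM : ∀ (a : L), ∀ w ∈ M, a • w ∈ M) : finrank F L ∣ finrank F M := by
  classical
  haveI : Module.Finite L V := Module.Finite.of_restrictScalars_finite F L V
  let M' : Submodule L V := { M.toAddSubmonoid with smul_mem' := fun a w hw => hM a w hw }
  have h5 : finrank F L * finrank L M' = finrank F M' := Module.finrank_mul_finrank F L M'
  have h6 : finrank F M' = finrank F M := rfl
  rw [← h6, ← h5]
  exact Dvd.intro _ rfl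

/-- The dimension of a stable non-degenerate subspace. -/
theorem two_mul_dvd (halt : ∀ v, B v v = 0) (hadj : ∀ (a : L) u v, B (a • u) v = B u (a • v)) (hLalt : ∀ (a : L) v, B (a • v) v = 0)
    {M : Submodule F V} (hM : ∀ (a : L), ∀ w ∈ M, a • w ∈ M) (hnd : Nd B M) : 2 * finrank F L ∣ finrank F M := by
  classical
  haveI : Module.Finite L V := Module.Finite.of_restrictScalars_finite F L V
  obtain ⟨f, τ, h1, h2, h3⟩ := exists_form (F := F) (L := L) (V := V) (B := B) hadj hLalt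
  let M' : Submodule L V := { M.toAddSubmonoid with smul_mem' := fun a w hw => hM a w hw }
  have hmem : ∀ w, w ∈ M' ↔ w ∈ M := fun w => Iff.rfl
  have hnd' : Nd f M' := by
    intro u hu hu0
    obtain ⟨v, hv, hne⟩ := hnd u ((hmem u).1 hu) hu0
    refine ⟨v, (hmem v).2 hv, fun h => hne ?_⟩
    have := (h3 u v).1 h 1
    rwa [one_smul] at this
  obtain ⟨s, s1, s2, s3⟩ := exists_fam (F := L) (V := V) (B := f) h2 hnd'
  have h4 : finrank L M' = 2 * s.card := by
    rw [← s3]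
    exact finrank_span_pts h2 s1
  have h5 : finrank F L * finrank L M' = finrank F M' := Module.finrank_mul_finrank F L M'
  have h6 : finrank F M' = finrank F M := rfl
  rw [← h6, ← h5, h4]
  exact ⟨s.card, by ring⟩

end form

section aut

/-- An automorphism of a finite field of order prime to the degree is trivial. -/
theorem aut_trivial {F E : Type*} [Field F] [Field E] [Finite E] [Algebra F E] {r : ℕ} (hcop : Nat.Coprime r (finrank F E))
    (τ : E ≃ₐ[F] E) (hτ : τ ^ r = 1) : τ = 1 := by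
  haveI : FiniteDimensional F E := Module.Finite.of_finite
  have h1 : τ ^ (finrank F E) = 1 := by
    rw [← IsGalois.card_aut_eq_finrank]
    exact pow_card_eq_one'
  have h2 : τ ^ (r.gcd (finrank F E)) = 1 := pow_gcd_eq_one.mpr ⟨hτ, h1⟩
  rw [hcop, pow_one] at h2
  exact h2

end aut

section concrete

variable {F : Type*} [Field F] {d k : ℕ} {K : Subalgebra F (Matrix (Fin d ⊕ Fin d) (Fin d ⊕ Fin d) F)}

local notation "VV" => (Fin d ⊕ Fin d → F)
local notation "MM" => Matrix (Fin d ⊕ Fin d) (Fin d ⊕ Fin d) F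
local notation "ff" => Cfsg.sympForm d F
local notation "GG" => GL (Fin d ⊕ Fin d) F

/-- The field structure of the subalgebra. -/
theorem isField_of (hd : 0 < d) (hK : IsFieldSubalgebra k K) : IsField ↥K := by
  haveI : Nonempty (Fin d ⊕ Fin d) := ⟨Sum.inl ⟨0, hd⟩⟩
  exact
    { exists_pair_ne := ⟨0, 1, fun h => (one_ne_zero (α := Matrix (Fin d ⊕ Fin d) (Fin d ⊕ Fin d) F)) (congrArg Subtype.val h).symm⟩
      mul_comm := fun a b => Subtype.ext (hK.comm a a.2 b b.2)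
      mul_inv_cancel := by
        intro a ha
        obtain ⟨y, hy, hay⟩ := hK.inv a a.2 (fun h => ha (Subtype.ext h))
        exact ⟨⟨y, hy⟩, Subtype.ext hay⟩ }

/-- The module structure over the subalgebra. -/
noncomputable def modOf (K : Subalgebra F (Matrix (Fin d ⊕ Fin d) (Fin d ⊕ Fin d) F)) : Module ↥K (Fin d ⊕ Fin d → F) where
  smul a v := a.1 *ᵥ v
  one_smul v := Matrix.one_mulVec v
  mul_smul a b v := (Matrix.mulVec_mulVec v a.1 b.1).symm
  smul_zero a := Matrix.mulVec_zero _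
  smul_add a u v := Matrix.mulVec_add _ _ _
  add_smul a b v := Matrix.add_mulVec _ _ _
  zero_smul v := Matrix.zero_mulVec v

theorem modOf_smul (a : ↥K) (v : Fin d ⊕ Fin d → F) : (modOf K).toSMul.smul a v = a.1 *ᵥ v := rfl

theorem tower_of (K : Subalgebra F (Matrix (Fin d ⊕ Fin d) (Fin d ⊕ Fin d) F)) :
    @IsScalarTower F ↥K (Fin d ⊕ Fin d → F) _ (modOf K).toSMul _ :=
  letI := modOf K
  ⟨fun c a v => Matrix.smul_mulVec c a.1 v⟩

/-- An element of the field killing a non-zero vector vanishes. -/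
theorem eq_zero_of_mulVec (hK : IsFieldSubalgebra k K) {a : Matrix (Fin d ⊕ Fin d) (Fin d ⊕ Fin d) F} (ha : a ∈ K) {v : Fin d ⊕ Fin d → F} (hv : v ≠ 0)
    (h : a *ᵥ v = 0) : a = 0 := by
  by_contra ha0
  obtain ⟨b, hb, hab⟩ := hK.inv a ha ha0
  apply hv
  have h1 : (b * a) *ᵥ v = v := by
    rw [hK.comm b hb a ha, hab, Matrix.one_mulVec]
  rw [← h1, ← Matrix.mulVec_mulVec, h, Matrix.mulVec_zero]

/-- A stable subspace has dimension divisible by the degree. -/
theorem dvd_of_stable [Finite F] (hd : 0 < d) (hK : IsFieldSubalgebra k K) {M : Submodule F (Fin d ⊕ Fin d → F)}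
    (hM : ∀ a ∈ K, ∀ w ∈ M, a *ᵥ w ∈ M) : k ∣ finrank F M := by
  haveI : Finite ↥K := Subtype.finite
  have FD : FiniteDimensional F ↥K := Module.Finite.of_finite
  have := @dvd_stable F ↥K (Fin d ⊕ Fin d → F) _ (isField_of hd hK).toField K.algebra FD _ _ (modOf K) (tower_of K) _ M (fun a w hw => hM a.1 a.2 w hw)
  rwa [show finrank F ↥K = k from hK.finrank_eq] at this

/-- A stable non-degenerate subspace has dimension divisible by twice the degree. -/
theorem two_dvd_of_stable [Finite F] (hd : 0 < d) (hK : IsFieldSubalgebra k K) (hKf : IsSelfAdjointFor ff K) (hKalt : ∀ a ∈ K, ∀ v : Fin d ⊕ Fin d → F, ff (a *ᵥ v) v = 0)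
    {M : Submodule F (Fin d ⊕ Fin d → F)} (hM : ∀ a ∈ K, ∀ w ∈ M, a *ᵥ w ∈ M) (hnd : Nd (sympB d F) M) : 2 * k ∣ finrank F M := by
  haveI : Finite ↥K := Subtype.finite
  have FD : FiniteDimensional F ↥K := Module.Finite.of_finite
  have := @two_mul_dvd F ↥K (Fin d ⊕ Fin d → F) _ (isField_of hd hK).toField K.algebra FD _ _ (modOf K) (tower_of K) _ (sympB d F) (sympB_alt (d := d) (F := F))
    (fun a u v => hKf a.1 a.2 u v) (fun a v => hKalt a.1 a.2 v) M (fun a w hw => hM a.1 a.2 w hw) hnd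
  rwa [show finrank F ↥K = k from hK.finrank_eq] at this

/-- An element of the normaliser with many fixed vectors centralises the field. -/
theorem comm_of_fix (hK : IsFieldSubalgebra k K) {y : GL (Fin d ⊕ Fin d) F} (hy : y ∈ subalgebraNormalizer K)
    (hfix : d < finrank F (LinearMap.ker (Matrix.toLin' (y : Matrix (Fin d ⊕ Fin d) (Fin d ⊕ Fin d) F) - 1)))
    {a : Matrix (Fin d ⊕ Fin d) (Fin d ⊕ Fin d) F} (ha : a ∈ K) : (y : Matrix (Fin d ⊕ Fin d) (Fin d ⊕ Fin d) F) * a = a * (y : Matrix (Fin d ⊕ Fin d) (Fin d ⊕ Fin d) F) := by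
  classical
  by_cases ha0 : a = 0
  · simp [ha0]
  obtain ⟨b, hb, hab⟩ := hK.inv a ha ha0
  set W := LinearMap.ker (Matrix.toLin' (y : Matrix (Fin d ⊕ Fin d) (Fin d ⊕ Fin d) F) - 1) with hW
  have hWmem : ∀ w, w ∈ W ↔ (y : Matrix (Fin d ⊕ Fin d) (Fin d ⊕ Fin d) F) *ᵥ w = w := by
    intro w
    show (Matrix.toLin' (y : Matrix (Fin d ⊕ Fin d) (Fin d ⊕ Fin d) F) - 1) w = 0 ↔ _
    rw [LinearMap.sub_apply, Module.End.one_apply, sub_eq_zero, Matrix.toLin'_apply]
  let La : (Fin d ⊕ Fin d → F) →ₗ[F] (Fin d ⊕ Fin d → F) := Matrix.toLin' a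
  have hLa : ∀ v, La v = a *ᵥ v := fun v => rfl
  have hLinj : Function.Injective La := by
    rw [← LinearMap.ker_eq_bot, LinearMap.ker_eq_bot']
    intro v hv
    have h1 : (b * a) *ᵥ v = v := by
      rw [hK.comm b hb a ha, hab, Matrix.one_mulVec]
    rw [← h1, ← Matrix.mulVec_mulVec, ← hLa, hv, Matrix.mulVec_zero]
  set W' := W.map La with hW'
  have h1 : finrank F W' = finrank F W := (Submodule.equivMapOfInjective La hLinj W).finrank_eq.symm
  have h2 := Submodule.finrank_sup_add_finrank_inf_eq W W'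
  have h3 : finrank F ((W ⊔ W' : Submodule F (Fin d ⊕ Fin d → F))) ≤ d + d := by
    have := Submodule.finrank_le (W ⊔ W')
    simpa [finrank_pi] using this
  have h4 : 0 < finrank F ((W ⊓ W' : Submodule F (Fin d ⊕ Fin d → F))) := by omega
  obtain ⟨x, hx, hx0⟩ := Submodule.exists_mem_ne_zero_of_ne_bot (fun h : W ⊓ W' = ⊥ => by
    rw [h, finrank_bot] at h4
    omega)
  obtain ⟨w, hw, rfl⟩ := hx.2
  have hw0 : w ≠ 0 := by
    rintro rfl
    exact hx0 (map_zero La)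
  have e1 := (hWmem w).1 hw
  have e2 := (hWmem _).1 hx.1
  rw [hLa] at e2
  have e3 : ((y⁻¹ : GL (Fin d ⊕ Fin d) F) : Matrix (Fin d ⊕ Fin d) (Fin d ⊕ Fin d) F) *ᵥ w = w := by
    conv_lhs => rw [← e1]
    exact SkewSp.gl_inv_mulVec y w
  have hc := (hy a).1 ha
  have e4 : ((y : Matrix (Fin d ⊕ Fin d) (Fin d ⊕ Fin d) F) * a * ((y⁻¹ : GL (Fin d ⊕ Fin d) F) : Matrix (Fin d ⊕ Fin d) (Fin d ⊕ Fin d) F) - a) *ᵥ w = 0 := by
    rw [Matrix.sub_mulVec, ← Matrix.mulVec_mulVec, e3, ← Matrix.mulVec_mulVec, e2, sub_self]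
  have e5 := eq_zero_of_mulVec hK (K.sub_mem hc ha) hw0 e4
  have e6 := sub_eq_zero.mp e5
  calc (y : Matrix (Fin d ⊕ Fin d) (Fin d ⊕ Fin d) F) * a
      = (y : Matrix (Fin d ⊕ Fin d) (Fin d ⊕ Fin d) F) * a * ((y⁻¹ : GL (Fin d ⊕ Fin d) F) : Matrix (Fin d ⊕ Fin d) (Fin d ⊕ Fin d) F) * (y : Matrix (Fin d ⊕ Fin d) (Fin d ⊕ Fin d) F) := by
        rw [mul_assoc _ _ (y : Matrix (Fin d ⊕ Fin d) (Fin d ⊕ Fin d) F), Units.inv_mul, mul_one]
    _ = _ := by rw [e6]

/-- An element of the normaliser of order prime to the degree centralises the field. -/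
theorem comm_of_pow [Finite F] (hd : 0 < d) (hK : IsFieldSubalgebra k K) {y : GL (Fin d ⊕ Fin d) F} (hy : y ∈ subalgebraNormalizer K)
    {r : ℕ} (hcop : Nat.Coprime r k) (hyr : y ^ r = 1)
    {a : Matrix (Fin d ⊕ Fin d) (Fin d ⊕ Fin d) F} (ha : a ∈ K) : (y : Matrix (Fin d ⊕ Fin d) (Fin d ⊕ Fin d) F) * a = a * (y : Matrix (Fin d ⊕ Fin d) (Fin d ⊕ Fin d) F) := by
  classical
  letI fK : Field ↥K := (isField_of hd hK).toField
  haveI : Finite ↥K := Subtype.finite
  haveI : FiniteDimensional F ↥K := Module.Finite.of_finite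
  have hval : ∀ b c : ↥K, ((b * c : ↥K) : Matrix (Fin d ⊕ Fin d) (Fin d ⊕ Fin d) F) = b.1 * c.1 := fun _ _ => rfl
  let τ₀ : ↥K →ₐ[F] ↥K :=
    { toFun := fun b => ⟨(y : Matrix (Fin d ⊕ Fin d) (Fin d ⊕ Fin d) F) * b.1 * ((y⁻¹ : GL (Fin d ⊕ Fin d) F) : Matrix (Fin d ⊕ Fin d) (Fin d ⊕ Fin d) F), (hy b.1).1 b.2⟩
      map_one' := Subtype.ext (by
        show (y : Matrix (Fin d ⊕ Fin d) (Fin d ⊕ Fin d) F) * 1 * ((y⁻¹ : GL (Fin d ⊕ Fin d) F) : Matrix (Fin d ⊕ Fin d) (Fin d ⊕ Fin d) F) = 1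
        rw [mul_one, Units.mul_inv])
      map_mul' := fun b c => Subtype.ext (by
        show (y : Matrix (Fin d ⊕ Fin d) (Fin d ⊕ Fin d) F) * (b.1 * c.1) * ((y⁻¹ : GL (Fin d ⊕ Fin d) F) : Matrix (Fin d ⊕ Fin d) (Fin d ⊕ Fin d) F) =
          ((y : Matrix (Fin d ⊕ Fin d) (Fin d ⊕ Fin d) F) * b.1 * ((y⁻¹ : GL (Fin d ⊕ Fin d) F) : Matrix (Fin d ⊕ Fin d) (Fin d ⊕ Fin d) F)) *
          ((y : Matrix (Fin d ⊕ Fin d) (Fin d ⊕ Fin d) F) * c.1 * ((y⁻¹ : GL (Fin d ⊕ Fin d) F) : Matrix (Fin d ⊕ Fin d) (Fin d ⊕ Fin d) F))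
        simp only [mul_assoc]
        rw [← mul_assoc (((y⁻¹ : GL (Fin d ⊕ Fin d) F) : Matrix (Fin d ⊕ Fin d) (Fin d ⊕ Fin d) F)) (y : Matrix (Fin d ⊕ Fin d) (Fin d ⊕ Fin d) F), Units.inv_mul, one_mul])
      map_zero' := Subtype.ext (by
        show (y : Matrix (Fin d ⊕ Fin d) (Fin d ⊕ Fin d) F) * 0 * ((y⁻¹ : GL (Fin d ⊕ Fin d) F) : Matrix (Fin d ⊕ Fin d) (Fin d ⊕ Fin d) F) = 0
        rw [mul_zero, zero_mul])
      map_add' := fun b c => Subtype.ext (by
        show (y : Matrix (Fin d ⊕ Fin d) (Fin d ⊕ Fin d) F) * (b.1 + c.1) * ((y⁻¹ : GL (Fin d ⊕ Fin d) F) : Matrix (Fin d ⊕ Fin d) (Fin d ⊕ Fin d) F) =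
          (y : Matrix (Fin d ⊕ Fin d) (Fin d ⊕ Fin d) F) * b.1 * ((y⁻¹ : GL (Fin d ⊕ Fin d) F) : Matrix (Fin d ⊕ Fin d) (Fin d ⊕ Fin d) F) +
          (y : Matrix (Fin d ⊕ Fin d) (Fin d ⊕ Fin d) F) * c.1 * ((y⁻¹ : GL (Fin d ⊕ Fin d) F) : Matrix (Fin d ⊕ Fin d) (Fin d ⊕ Fin d) F)
        rw [mul_add, add_mul])
      commutes' := fun c => Subtype.ext (by
        show (y : Matrix (Fin d ⊕ Fin d) (Fin d ⊕ Fin d) F) * (algebraMap F (Matrix (Fin d ⊕ Fin d) (Fin d ⊕ Fin d) F) c) * ((y⁻¹ : GL (Fin d ⊕ Fin d) F) : Matrix (Fin d ⊕ Fin d) (Fin d ⊕ Fin d) F) = algebraMap F (Matrix (Fin d ⊕ Fin d) (Fin d ⊕ Fin d) F) c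
        rw [Algebra.algebraMap_eq_smul_one, mul_smul_comm, smul_mul_assoc, mul_one, Units.mul_inv]) }
  have hτ₀ : ∀ b : ↥K, (τ₀ b).1 = (y : Matrix (Fin d ⊕ Fin d) (Fin d ⊕ Fin d) F) * b.1 * ((y⁻¹ : GL (Fin d ⊕ Fin d) F) : Matrix (Fin d ⊕ Fin d) (Fin d ⊕ Fin d) F) := fun b => rfl
  let τ : ↥K ≃ₐ[F] ↥K := AlgEquiv.ofBijective τ₀ τ₀.bijective
  have hτ : ∀ b : ↥K, (τ b).1 = (y : Matrix (Fin d ⊕ Fin d) (Fin d ⊕ Fin d) F) * b.1 * ((y⁻¹ : GL (Fin d ⊕ Fin d) F) : Matrix (Fin d ⊕ Fin d) (Fin d ⊕ Fin d) F) := fun b => rfl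
  have hpow : ∀ (n : ℕ) (b : ↥K), ((τ ^ n) b).1 = ((y ^ n : GL (Fin d ⊕ Fin d) F) : Matrix (Fin d ⊕ Fin d) (Fin d ⊕ Fin d) F) * b.1 * (((y ^ n)⁻¹ : GL (Fin d ⊕ Fin d) F) : Matrix (Fin d ⊕ Fin d) (Fin d ⊕ Fin d) F) := by
    intro n
    induction n with
    | zero =>
      intro b
      simp
    | succ n ih =>
      intro b
      rw [pow_succ, AlgEquiv.mul_apply, ih, hτ, pow_succ, _root_.mul_inv_rev]
      simp only [Units.val_mul, mul_assoc]
  have h1 : τ ^ r = 1 := by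
    apply AlgEquiv.ext
    intro b
    apply Subtype.ext
    rw [hpow, hyr]
    simp
  have h2 : τ = 1 := aut_trivial (by rwa [show finrank F ↥K = k from hK.finrank_eq]) τ h1
  have h3 := hτ ⟨a, ha⟩
  rw [h2] at h3
  have e6 : (y : Matrix (Fin d ⊕ Fin d) (Fin d ⊕ Fin d) F) * a * ((y⁻¹ : GL (Fin d ⊕ Fin d) F) : Matrix (Fin d ⊕ Fin d) (Fin d ⊕ Fin d) F) = a := h3.symm
  calc (y : Matrix (Fin d ⊕ Fin d) (Fin d ⊕ Fin d) F) * a
      = (y : Matrix (Fin d ⊕ Fin d) (Fin d ⊕ Fin d) F) * a * ((y⁻¹ : GL (Fin d ⊕ Fin d) F) : Matrix (Fin d ⊕ Fin d) (Fin d ⊕ Fin d) F) * (y : Matrix (Fin d ⊕ Fin d) (Fin d ⊕ Fin d) F) := by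
        rw [mul_assoc _ _ (y : Matrix (Fin d ⊕ Fin d) (Fin d ⊕ Fin d) F), Units.inv_mul, mul_one]
    _ = _ := by rw [e6]

end concrete

section embed

variable {F L : Type*} [Field F] [Field L] [Algebra F L] [FiniteDimensional F L] {d m : ℕ}
  [Module L (Fin d ⊕ Fin d → F)] [IsScalarTower F L (Fin d ⊕ Fin d → F)]

/-- The order of the symplectic group, in the form of the general linear group. -/
theorem card_spGL_eq (L : Type*) [Field L] [Fintype L] (m : ℕ) :
    Nat.card (Cfsg.spGL m L) = Fintype.card L ^ (m ^ 2) * ∏ i ∈ Finset.range m, (Fintype.card L ^ (2 * (i + 1)) - 1) := by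
  classical
  rw [← Cfsg.Agent.Lib.Classical.card_sp rfl m]
  have e1 := Nat.card_congr (Cfsg.Agent.Lib.Classical.spEquivPres (F := L) m).toEquiv
  rw [e1]
  exact Nat.card_congr (Cfsg.Agent.Lib.Classical.presEquiv (Cfsg.sympForm m L)).toEquiv

/-- The symplectic group over the field acts on the symplectic space over the ground field. -/
theorem exists_sp_hom [Fintype L] (hadj : ∀ (a : L) u v, Cfsg.sympForm d F (a • u) v = Cfsg.sympForm d F u (a • v)) (hLalt : ∀ (a : L) v, Cfsg.sympForm d F (a • v) v = 0)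
    (hm : finrank L (Fin d ⊕ Fin d → F) = m + m) :
    ∃ φ : Cfsg.spGL m L →* GL (Fin d ⊕ Fin d) F, Function.Injective φ ∧ ∀ g, φ g ∈ Cfsg.spGL d F ∧
      ∀ (a : L) v, ((φ g : GL (Fin d ⊕ Fin d) F) : Matrix (Fin d ⊕ Fin d) (Fin d ⊕ Fin d) F) *ᵥ (a • v) = a • (((φ g : GL (Fin d ⊕ Fin d) F) : Matrix (Fin d ⊕ Fin d) (Fin d ⊕ Fin d) F) *ᵥ v) := by
  classical
  haveI : Module.Finite L (Fin d ⊕ Fin d → F) := Module.Finite.of_restrictScalars_finite F L _
  obtain ⟨f, τ, h1, h2, h3⟩ := exists_form (F := F) (L := L) (V := Fin d ⊕ Fin d → F) (B := sympB d F) hadj hLalt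
  have hnd : Nd f ⊤ := by
    intro u _ hu0
    obtain ⟨v, -, hv⟩ := sympB_nd (d := d) (F := F) u trivial hu0
    refine ⟨v, trivial, fun h => hv ?_⟩
    rw [h1, h, map_zero]
  obtain ⟨e, he⟩ := exists_std_isometry (F := L) (V := Fin d ⊕ Fin d → F) (B := f) h2 hnd hm
  let A : Cfsg.spGL m L → ((Fin d ⊕ Fin d → F) →ₗ[L] (Fin d ⊕ Fin d → F)) := fun g =>
    (e : (Fin m ⊕ Fin m → L) →ₗ[L] (Fin d ⊕ Fin d → F)) ∘ₗ Matrix.toLin' ((g : GL (Fin m ⊕ Fin m) L) : Matrix (Fin m ⊕ Fin m) (Fin m ⊕ Fin m) L) ∘ₗ (e.symm : (Fin d ⊕ Fin d → F) →ₗ[L] (Fin m ⊕ Fin m → L))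
  have hA : ∀ g v, A g v = e (((g : GL (Fin m ⊕ Fin m) L) : Matrix (Fin m ⊕ Fin m) (Fin m ⊕ Fin m) L) *ᵥ e.symm v) := fun g v => rfl
  let M₀ : Cfsg.spGL m L →* Matrix (Fin d ⊕ Fin d) (Fin d ⊕ Fin d) F :=
    { toFun := fun g => LinearMap.toMatrix' ((A g).restrictScalars F)
      map_one' := by
        have : (A 1).restrictScalars F = LinearMap.id := by
          apply LinearMap.ext
          intro v
          show A 1 v = v
          rw [hA]
          simp
        rw [this, LinearMap.toMatrix'_id]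
      map_mul' := fun g g' => by
        rw [← LinearMap.toMatrix'_comp]
        congr 1
        apply LinearMap.ext
        intro v
        show A (g * g') v = A g (A g' v)
        rw [hA, hA, hA, LinearEquiv.symm_apply_apply, Matrix.mulVec_mulVec]
        rfl }
  have hM₀ : ∀ g v, M₀ g *ᵥ v = e (((g : GL (Fin m ⊕ Fin m) L) : Matrix (Fin m ⊕ Fin m) (Fin m ⊕ Fin m) L) *ᵥ e.symm v) := by
    intro g v
    show LinearMap.toMatrix' ((A g).restrictScalars F) *ᵥ v = _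
    rw [LinearMap.toMatrix'_mulVec]
    rfl
  refine ⟨M₀.toHomUnits, ?_, ?_⟩
  · intro g g' hgg
    have h1 : M₀ g = M₀ g' := by
      have := congrArg (fun x : GL (Fin d ⊕ Fin d) F => (x : Matrix (Fin d ⊕ Fin d) (Fin d ⊕ Fin d) F)) hgg
      simpa using this
    apply Subtype.ext
    apply Units.ext
    apply Cfsg.Agent.Lib.Classical.mat_ext_mulVec
    intro w
    have h3 := hM₀ g (e w)
    have h4 := hM₀ g' (e w)
    rw [LinearEquiv.symm_apply_apply] at h3 h4
    rw [h1, h4] at h3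
    exact (e.injective h3).symm
  · intro g
    have hcoe : ∀ w, ((M₀.toHomUnits g : GL (Fin d ⊕ Fin d) F) : Matrix (Fin d ⊕ Fin d) (Fin d ⊕ Fin d) F) *ᵥ w = e (((g : GL (Fin m ⊕ Fin m) L) : Matrix (Fin m ⊕ Fin m) (Fin m ⊕ Fin m) L) *ᵥ e.symm w) := by
      intro w
      rw [MonoidHom.coe_toHomUnits]
      exact hM₀ g w
    constructor
    · intro u v
      change Cfsg.sympForm d F (((M₀.toHomUnits g : GL (Fin d ⊕ Fin d) F) : Matrix (Fin d ⊕ Fin d) (Fin d ⊕ Fin d) F) *ᵥ u) (((M₀.toHomUnits g : GL (Fin d ⊕ Fin d) F) : Matrix (Fin d ⊕ Fin d) (Fin d ⊕ Fin d) F) *ᵥ v) = _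
      rw [hcoe, hcoe]
      have e1 := h1 (e (((g : GL (Fin m ⊕ Fin m) L) : Matrix (Fin m ⊕ Fin m) (Fin m ⊕ Fin m) L) *ᵥ e.symm u)) (e (((g : GL (Fin m ⊕ Fin m) L) : Matrix (Fin m ⊕ Fin m) (Fin m ⊕ Fin m) L) *ᵥ e.symm v))
      rw [he] at e1
      have e2 : Cfsg.sympForm m L (((g : GL (Fin m ⊕ Fin m) L) : Matrix (Fin m ⊕ Fin m) (Fin m ⊕ Fin m) L) *ᵥ e.symm u) (((g : GL (Fin m ⊕ Fin m) L) : Matrix (Fin m ⊕ Fin m) (Fin m ⊕ Fin m) L) *ᵥ e.symm v) = Cfsg.sympForm m L (e.symm u) (e.symm v) := g.2 _ _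
      have e3 := h1 u v
      have e4 := he (e.symm u) (e.symm v)
      rw [LinearEquiv.apply_symm_apply, LinearEquiv.apply_symm_apply] at e4
      show sympB d F _ _ = sympB d F u v
      rw [e1, e2, e3, e4]
    · intro a v
      rw [hcoe, hcoe, map_smul, Matrix.mulVec_smul, map_smul]

/-- The order of the symplectic group over the field divides the order of the centraliser. -/
theorem card_dvd_abs [Finite L] (hadj : ∀ (a : L) u v, Cfsg.sympForm d F (a • u) v = Cfsg.sympForm d F u (a • v)) (hLalt : ∀ (a : L) v, Cfsg.sympForm d F (a • v) v = 0)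
    (hm' : finrank F L * (m + m) = d + d) (hk0 : 0 < finrank F L) {G : Subgroup (GL (Fin d ⊕ Fin d) F)}
    (hG : ∀ x : GL (Fin d ⊕ Fin d) F, (∀ (a : L) v, (x : Matrix (Fin d ⊕ Fin d) (Fin d ⊕ Fin d) F) *ᵥ (a • v) = a • ((x : Matrix (Fin d ⊕ Fin d) (Fin d ⊕ Fin d) F) *ᵥ v)) → x ∈ G) :
    Nat.card L ^ (m ^ 2) * ∏ i ∈ Finset.range m, (Nat.card L ^ (2 * (i + 1)) - 1) ∣ Nat.card ↥(G ⊓ Cfsg.spGL d F) := by
  classical
  letI : Fintype L := Fintype.ofFinite L
  have hm : finrank L (Fin d ⊕ Fin d → F) = m + m := by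
    have h1 := Module.finrank_mul_finrank F L (Fin d ⊕ Fin d → F)
    have h2 : finrank F (Fin d ⊕ Fin d → F) = d + d := by simp [finrank_pi]
    rw [h2, ← hm'] at h1
    exact Nat.eq_of_mul_eq_mul_left hk0 h1
  obtain ⟨φ, hφ, hφ2⟩ := exists_sp_hom (F := F) (L := L) (d := d) (m := m) hadj hLalt hm
  have hrange : φ.range ≤ G ⊓ Cfsg.spGL d F := by
    rintro _ ⟨g, rfl⟩
    exact ⟨hG _ (hφ2 g).2, (hφ2 g).1⟩
  have hc := Subgroup.card_dvd_of_le hrange
  have hc2 : Nat.card φ.range = Nat.card (Cfsg.spGL m L) := (Nat.card_congr (MonoidHom.ofInjective hφ).toEquiv).symm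
  rw [hc2, card_spGL_eq] at hc
  rwa [Nat.card_eq_fintype_card]

end embed

section arith

/-- Splitting off the multiples of `k` in a product. -/
theorem prod_split (f : ℕ → ℕ) {k : ℕ} (hk : 0 < k) (m : ℕ) :
    ∏ i ∈ Finset.range (k * m), f (i + 1) =
      (∏ j ∈ Finset.range m, f (k * (j + 1))) * ∏ i ∈ (Finset.range (k * m)).filter (fun i => ¬ k ∣ i + 1), f (i + 1) := by
  rw [← Finset.prod_filter_mul_prod_filter_not (Finset.range (k * m)) (fun i => k ∣ i + 1)]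
  congr 1
  symm
  apply Finset.prod_nbij (fun j => k * (j + 1) - 1)
  · intro j hj
    rw [Finset.mem_range] at hj
    rw [Finset.mem_filter, Finset.mem_range]
    have h1 : k * (j + 1) ≤ k * m := Nat.mul_le_mul_left _ hj
    have h2 : 0 < k * (j + 1) := Nat.mul_pos hk (by omega)
    refine ⟨by omega, ?_⟩
    rw [Nat.sub_add_cancel h2]
    exact Dvd.intro _ rfl
  · intro a _ b _ hab
    simp only at hab
    have h2 : 0 < k * (a + 1) := Nat.mul_pos hk (by omega)
    have h3 : 0 < k * (b + 1) := Nat.mul_pos hk (by omega)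
    have h4 : k * (a + 1) = k * (b + 1) := by omega
    have := Nat.eq_of_mul_eq_mul_left hk h4
    omega
  · intro i hi
    rw [Finset.mem_coe, Finset.mem_filter, Finset.mem_range] at hi
    obtain ⟨hi1, t, ht⟩ := hi
    have ht0 : 0 < t := by
      rcases Nat.eq_zero_or_pos t with h | h
      · subst h
        simp at ht
      · exact h
    refine ⟨t - 1, ?_, ?_⟩
    · rw [Finset.mem_coe, Finset.mem_range]
      have h1 : k * t ≤ k * m := by omega
      have h2 := Nat.le_of_mul_le_mul_left h1 hk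
      omega
    · simp only
      rw [Nat.sub_add_cancel ht0, ← ht]
      omega
  · intro j _
    have h2 : 0 < k * (j + 1) := Nat.mul_pos hk (by omega)
    rw [Nat.sub_add_cancel h2]

/-- A prime dividing the index divides a factor for a non-multiple of the degree. -/
theorem exists_factor {q k m r N I : ℕ} (hr : r.Prime) (hq : 1 < q) (hk : 0 < k) (hrq : ¬ r ∣ q)
    (hN : (q ^ k) ^ (m ^ 2) * ∏ i ∈ Finset.range m, ((q ^ k) ^ (2 * (i + 1)) - 1) ∣ N)
    (hI : N * I = q ^ ((k * m) ^ 2) * ∏ i ∈ Finset.range (k * m), (q ^ (2 * (i + 1)) - 1)) (hrI : r ∣ I) :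
    ∃ j, 0 < j ∧ j ≤ k * m ∧ ¬ k ∣ j ∧ r ∣ q ^ (2 * j) - 1 := by
  obtain ⟨t, rfl⟩ := hN
  have hq0 : 0 < q := by omega
  rw [prod_split (fun i => q ^ (2 * i) - 1) hk m] at hI
  have e1 : ∀ j, (q ^ k) ^ (2 * (j + 1)) - 1 = q ^ (2 * (k * (j + 1))) - 1 := by
    intro j
    rw [← pow_mul]
    congr 2
    ring
  simp only [e1] at hI
  set A := ∏ j ∈ Finset.range m, (q ^ (2 * (k * (j + 1))) - 1) with hA
  set C := ∏ i ∈ (Finset.range (k * m)).filter (fun i => ¬ k ∣ i + 1), (q ^ (2 * (i + 1)) - 1) with hC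
  have hApos : 0 < A := by
    apply Finset.prod_pos
    intro j _
    have : 1 < q ^ (2 * (k * (j + 1))) := Nat.one_lt_pow (by
      have : 0 < k * (j + 1) := Nat.mul_pos hk (by omega)
      omega) hq
    omega
  have e2 : k * m ^ 2 ≤ (k * m) ^ 2 := by
    rw [mul_pow, sq k]
    exact Nat.mul_le_mul_right _ (Nat.le_mul_of_pos_left _ hk)
  obtain ⟨e, he⟩ := Nat.exists_eq_add_of_le e2
  have e3 : q ^ ((k * m) ^ 2) = (q ^ k) ^ (m ^ 2) * q ^ e := by
    rw [he, pow_add, pow_mul]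
  have hB : 0 < (q ^ k) ^ (m ^ 2) * A := Nat.mul_pos (pow_pos (pow_pos hq0 _) _) hApos
  have e4 : t * I = q ^ e * C := by
    apply Nat.eq_of_mul_eq_mul_left hB
    rw [e3] at hI
    calc (q ^ k) ^ (m ^ 2) * A * (t * I) = (q ^ k) ^ (m ^ 2) * A * t * I := by ring
      _ = (q ^ k) ^ (m ^ 2) * q ^ e * (A * C) := hI
      _ = _ := by ring
  have e5 : r ∣ q ^ e * C := by
    rw [← e4]
    exact Dvd.dvd.mul_left hrI t
  rcases (hr.dvd_mul).mp e5 with h | h
  · exact absurd (hr.dvd_of_dvd_pow h) hrq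
  · obtain ⟨i, hi, hi2⟩ := (hr.prime.dvd_finset_prod_iff _).mp h
    rw [Finset.mem_filter, Finset.mem_range] at hi
    exact ⟨i + 1, by omega, by omega, hi.2, hi2⟩

end arith

section index

variable {F : Type*} [Field F] [Fintype F] {d k : ℕ} {K : Subalgebra F (Matrix (Fin d ⊕ Fin d) (Fin d ⊕ Fin d) F)}

/-- A prime dividing the order of `q ^ (2j) - 1` and the block dimension. -/
theorem blockDim_dvd_of {r : ℕ} [Fact r.Prime] {j : ℕ} (h : r ∣ Fintype.card F ^ (2 * j) - 1) : blockDim F r ∣ 2 * j := by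
  have h3 : ((Fintype.card F : ℕ) : ZMod r) ^ (2 * j) = 1 := (EluOrder.pow_eq_one_iff_dvd Fintype.card_pos).mpr h
  have h4 := orderOf_dvd_of_pow_eq_one h3
  unfold blockDim
  split_ifs with he
  · exact h4
  · have h6 : Nat.Coprime (orderOf ((Fintype.card F : ℕ) : ZMod r)) 2 := by
      rw [Nat.coprime_two_right]
      exact Nat.not_even_iff_odd.mp he
    exact Nat.mul_dvd_mul_left 2 (h6.dvd_of_dvd_mul_left h4)

/-- The order of the symplectic group over the field divides the order of the normaliser. -/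
theorem card_sp_dvd (hd : 0 < d) (hK : IsFieldSubalgebra k K) (hKf : IsSelfAdjointFor (Cfsg.sympForm d F) K)
    (hKalt : ∀ a ∈ K, ∀ v : Fin d ⊕ Fin d → F, Cfsg.sympForm d F (a *ᵥ v) v = 0) {m : ℕ} (hm : d = k * m) :
    (Fintype.card F ^ k) ^ (m ^ 2) * ∏ i ∈ Finset.range m, ((Fintype.card F ^ k) ^ (2 * (i + 1)) - 1) ∣ Nat.card ↥(subalgebraNormalizer K ⊓ Cfsg.spGL d F) := by
  have hk : 0 < k := by
    rcases Nat.eq_zero_or_pos k with h | h
    · subst h
      omega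
    · exact h
  haveI : Finite ↥K := Subtype.finite
  have FD : FiniteDimensional F ↥K := Module.Finite.of_finite
  have hcard : Nat.card ↥K = Fintype.card F ^ k := by
    rw [Module.natCard_eq_pow_finrank (K := F), Nat.card_eq_fintype_card, show finrank F ↥K = k from hK.finrank_eq]
  have hfr : finrank F ↥K = k := hK.finrank_eq
  have := @card_dvd_abs F ↥K _ (isField_of hd hK).toField K.algebra FD d m (modOf K) (tower_of K) _ (fun a u v => hKf a.1 a.2 u v) (fun a v => hKalt a.1 a.2 v)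
    (by rw [hfr, hm]; ring) (by rw [hfr]; exact hk) (subalgebraNormalizer K) (fun x hx => SkewGU.norm_of_comm (fun a ha => by
      apply Cfsg.Agent.Lib.Classical.mat_ext_mulVec
      intro v
      rw [← Matrix.mulVec_mulVec, ← Matrix.mulVec_mulVec]
      exact hx ⟨a, ha⟩ v))
  rwa [hcard] at this

/-- A prime dividing the index divides a factor for a non-multiple of the degree. -/
theorem exists_factor_of_index (hd : 0 < d) (hK : IsFieldSubalgebra k K) (hKf : IsSelfAdjointFor (Cfsg.sympForm d F) K)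
    (hKalt : ∀ a ∈ K, ∀ v : Fin d ⊕ Fin d → F, Cfsg.sympForm d F (a *ᵥ v) v = 0) {r : ℕ} (hr : r.Prime) (hrq : ¬ r ∣ Fintype.card F) (hkd : k ∣ d)
    (hΩ : r ∣ (subalgebraNormalizer K).relIndex (Cfsg.spGL d F)) :
    ∃ j, 0 < j ∧ j ≤ d ∧ ¬ k ∣ j ∧ r ∣ Fintype.card F ^ (2 * j) - 1 := by
  obtain ⟨m, rfl⟩ := hkd
  have hk : 0 < k := by
    rcases Nat.eq_zero_or_pos k with h | h
    · subst h
      simp at hd
    · exact h
  have h := Subgroup.card_mul_index ((subalgebraNormalizer K).subgroupOf (Cfsg.spGL (k * m) F))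
  have h1 : Nat.card ↥((subalgebraNormalizer K).subgroupOf (Cfsg.spGL (k * m) F)) = Nat.card ↥(subalgebraNormalizer K ⊓ Cfsg.spGL (k * m) F) := by
    rw [← Subgroup.inf_subgroupOf_right]
    exact Nat.card_congr (Subgroup.subgroupOfEquivOfLe inf_le_right).toEquiv
  rw [h1, card_spGL_eq] at h
  exact exists_factor hr Fintype.one_lt_card hk hrq (card_sp_dvd hd hK hKf hKalt rfl) h hΩ

/-- The part without fixed vectors of a centralising element. -/
theorem phi_dvd (hd : 0 < d) (hK : IsFieldSubalgebra k K) (hKf : IsSelfAdjointFor (Cfsg.sympForm d F) K)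
    (hKalt : ∀ a ∈ K, ∀ v : Fin d ⊕ Fin d → F, Cfsg.sympForm d F (a *ᵥ v) v = 0) {r : ℕ} [Fact r.Prime] (hrq : ¬ r ∣ Fintype.card F)
    {y : GL (Fin d ⊕ Fin d) F} (hy : y ∈ Cfsg.spGL d F) (hyr : y ^ r = 1)
    (hcomm : ∀ a ∈ K, (y : Matrix (Fin d ⊕ Fin d) (Fin d ⊕ Fin d) F) * a = a * (y : Matrix (Fin d ⊕ Fin d) (Fin d ⊕ Fin d) F))
    (hfix : finrank F (LinearMap.ker (Matrix.toLin' (y : Matrix (Fin d ⊕ Fin d) (Fin d ⊕ Fin d) F) - 1)) + blockDim F r = 2 * d) :
    2 * k ∣ blockDim F r := by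
  classical
  let B := sympB d F
  have halt : ∀ v, B v v = 0 := sympB_alt (d := d) (F := F)
  have hnd : Nd B ⊤ := sympB_nd (d := d) (F := F)
  let T : Module.End F (Fin d ⊕ Fin d → F) := Matrix.toLin' (y : Matrix (Fin d ⊕ Fin d) (Fin d ⊕ Fin d) F)
  have hTv : ∀ v, T v = (y : Matrix (Fin d ⊕ Fin d) (Fin d ⊕ Fin d) F) *ᵥ v := fun v => rfl
  have hiso : ∀ u v, B (T u) (T v) = B u v := fun u v => hy u v
  have hTpow : ∀ (n : ℕ) (v : Fin d ⊕ Fin d → F), (T ^ n) v = ((y ^ n : GL (Fin d ⊕ Fin d) F) : Matrix (Fin d ⊕ Fin d) (Fin d ⊕ Fin d) F) *ᵥ v := by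
    intro n v
    induction n generalizing v with
    | zero => simp
    | succ n ih =>
      rw [pow_succ, pow_succ, Units.val_mul, ← Matrix.mulVec_mulVec, Module.End.mul_apply, ih, hTv]
  have hTr : T ^ r = 1 := by
    apply LinearMap.ext
    intro v
    rw [hTpow, hyr, Units.val_one, Matrix.one_mulVec, Module.End.one_apply]
  have hTa : ∀ a ∈ K, ∀ (n : ℕ) v, (T ^ n) (a *ᵥ v) = a *ᵥ ((T ^ n) v) := by
    intro a ha n v
    induction n generalizing v with
    | zero => simp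
    | succ n ih =>
      rw [pow_succ, Module.End.mul_apply, Module.End.mul_apply, hTv, hTv, Matrix.mulVec_mulVec, hcomm a ha, ← Matrix.mulVec_mulVec, ih]
  have hphi : aeval T (Phi F r) = ∑ j ∈ Finset.range r, T ^ j := by
    unfold Phi
    rw [map_sum]
    simp
  set M := LinearMap.ker (aeval T (Phi F r)) with hM
  have hMst : ∀ a ∈ K, ∀ w ∈ M, a *ᵥ w ∈ M := by
    intro a ha w hw
    have h0 : aeval T (Phi F r) w = 0 := hw
    show aeval T (Phi F r) (a *ᵥ w) = 0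
    rw [hphi, LinearMap.sum_apply] at h0 ⊢
    rw [Finset.sum_congr rfl (fun j _ => hTa a ha j w), ← Matrix.mulVec_sum, h0, Matrix.mulVec_zero]
  have hdim : finrank F M = blockDim F r := by
    have h1 := dim_parts (B := B) (T := T) halt hrq hTr hiso (U := ⊤) hnd (fun u _ => trivial)
    have e : ∀ W : Submodule F (Fin d ⊕ Fin d → F), finrank F ↥((⊤ : Submodule F (Fin d ⊕ Fin d → F)) ⊓ W) = finrank F W := fun W => by rw [top_inf_eq]
    rw [e, e, finrank_top, finrank_pi, Fintype.card_sum, Fintype.card_fin] at h1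
    have h2 : finrank F (LinearMap.ker (T - 1)) + blockDim F r = 2 * d := hfix
    rw [hM]
    omega
  have hMnd : Nd B M := by
    have h1 := nd_phi_part (B := B) (T := T) halt hrq hTr hiso (U := ⊤) hnd (fun u _ => trivial)
    rwa [top_inf_eq] at h1
  have := two_dvd_of_stable hd hK hKf hKalt hMst hMnd
  rwa [hdim] at this

/-- The dimensions of the spaces of fixed vectors of conjugate elements. -/
theorem finrank_ker_conj (x g : GL (Fin d ⊕ Fin d) F) :
    finrank F (LinearMap.ker (Matrix.toLin' ((g⁻¹ * x * g : GL (Fin d ⊕ Fin d) F) : Matrix (Fin d ⊕ Fin d) (Fin d ⊕ Fin d) F) - 1)) =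
      finrank F (LinearMap.ker (Matrix.toLin' (x : Matrix (Fin d ⊕ Fin d) (Fin d ⊕ Fin d) F) - 1)) := by
  let e : (Fin d ⊕ Fin d → F) ≃ₗ[F] (Fin d ⊕ Fin d → F) := LinearEquiv.ofLinear (Matrix.toLin' (g : Matrix (Fin d ⊕ Fin d) (Fin d ⊕ Fin d) F))
    (Matrix.toLin' ((g⁻¹ : GL (Fin d ⊕ Fin d) F) : Matrix (Fin d ⊕ Fin d) (Fin d ⊕ Fin d) F))
    (by
      rw [← Matrix.toLin'_mul, Units.mul_inv, Matrix.toLin'_one])
    (by
      rw [← Matrix.toLin'_mul, Units.inv_mul, Matrix.toLin'_one])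
  have he : ∀ v, e v = (g : Matrix (Fin d ⊕ Fin d) (Fin d ⊕ Fin d) F) *ᵥ v := fun v => rfl
  have hmap : (LinearMap.ker (Matrix.toLin' ((g⁻¹ * x * g : GL (Fin d ⊕ Fin d) F) : Matrix (Fin d ⊕ Fin d) (Fin d ⊕ Fin d) F) - 1)).map (e : (Fin d ⊕ Fin d → F) →ₗ[F] (Fin d ⊕ Fin d → F)) =
      LinearMap.ker (Matrix.toLin' (x : Matrix (Fin d ⊕ Fin d) (Fin d ⊕ Fin d) F) - 1) := by
    have hk : ∀ (A : GL (Fin d ⊕ Fin d) F) w, w ∈ LinearMap.ker (Matrix.toLin' (A : Matrix (Fin d ⊕ Fin d) (Fin d ⊕ Fin d) F) - 1) ↔ (A : Matrix (Fin d ⊕ Fin d) (Fin d ⊕ Fin d) F) *ᵥ w = w := by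
      intro A w
      rw [LinearMap.mem_ker, LinearMap.sub_apply, Module.End.one_apply, sub_eq_zero, Matrix.toLin'_apply]
    ext w
    rw [Submodule.mem_map, hk]
    constructor
    · rintro ⟨u, hu, rfl⟩
      rw [hk] at hu
      simp only [Units.val_mul, ← Matrix.mulVec_mulVec] at hu
      show (x : Matrix (Fin d ⊕ Fin d) (Fin d ⊕ Fin d) F) *ᵥ ((g : Matrix (Fin d ⊕ Fin d) (Fin d ⊕ Fin d) F) *ᵥ u) = (g : Matrix (Fin d ⊕ Fin d) (Fin d ⊕ Fin d) F) *ᵥ u
      conv_rhs => rw [← hu]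
      rw [SkewSp.gl_mulVec_inv]
    · intro hw
      refine ⟨((g⁻¹ : GL (Fin d ⊕ Fin d) F) : Matrix (Fin d ⊕ Fin d) (Fin d ⊕ Fin d) F) *ᵥ w, ?_, SkewSp.gl_mulVec_inv g w⟩
      rw [hk]
      simp only [Units.val_mul, ← Matrix.mulVec_mulVec]
      rw [SkewSp.gl_mulVec_inv, hw]
  rw [← hmap]
  exact (LinearEquiv.finrank_map_eq e _).symm

/-- The block dimension for the prime two. -/
theorem blockDim_two (hrq : ¬ 2 ∣ Fintype.card F) [Fact (Nat.Prime 2)] : blockDim F 2 = 2 := by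
  have h1 : ((Fintype.card F : ℕ) : ZMod 2) = 1 := by
    have h2 : Fintype.card F % 2 = 1 := by omega
    have h3 := ZMod.natCast_mod (Fintype.card F) 2
    rw [h2] at h3
    rw [← h3]
    simp
  unfold blockDim
  rw [h1, orderOf_one]
  simp

/-- The block dimension for an odd prime. -/
theorem blockDim_dvd_sub {r : ℕ} [Fact r.Prime] (hr2 : r ≠ 2) (hrq : ¬ r ∣ Fintype.card F) : blockDim F r ∣ r - 1 := by
  have hr : r.Prime := Fact.out
  have h0 : ((Fintype.card F : ℕ) : ZMod r) ≠ 0 := by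
    intro h
    exact hrq ((ZMod.natCast_eq_zero_iff _ _).mp h)
  have h1 : ((Fintype.card F : ℕ) : ZMod r) ^ (r - 1) = 1 := ZMod.pow_card_sub_one_eq_one h0
  have h2 := orderOf_dvd_of_pow_eq_one h1
  have h3 : Even (r - 1) := by
    have := hr.odd_of_ne_two hr2
    exact Nat.Odd.sub_odd this odd_one
  unfold blockDim
  split_ifs with he
  · exact h2
  · have h6 : Nat.Coprime (orderOf ((Fintype.card F : ℕ) : ZMod r)) 2 := by
      rw [Nat.coprime_two_right]
      exact Nat.not_even_iff_odd.mp he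
    have h7 : 2 ∣ r - 1 := even_iff_two_dvd.mp h3
    rw [mul_comm]
    exact h6.mul_dvd_of_dvd_of_dvd h2 h7

end index

end Cfsg.Agent.Lib.ClassMax.SelfField
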