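import Mathlib
import Cfsg.Agent.Lib.ClassMax.SelfField
import Cfsg.Agent.Lib.ClassMax.OmegaGU3

/-!
Symplectic frames in dimension four and the elements with scalar square normalising a quadratic field
with self-adjoint generator.
-/

set_option autoImplicit false
set_option linter.unusedSimpArgs false
set_option linter.unusedVariables false
set_option linter.unusedSectionVars false

namespace Cfsg.Agent.Lib.ClassMax.SelfField2

open Module Polynomial Matrix Cfsg.Geo Cfsg.Agent.Lib.ClassMax Cfsg.Agent.Lib.ClassMax.ElusiveSp Cfsg.Agent.Lib.ClassMax.EluSymp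
  Cfsg.Agent.Lib.ClassMax.SpGU Cfsg.Agent.Lib.KnownSimple Cfsg.Agent.Lib.ClassMax.SkewFrame Cfsg.Agent.Lib.ClassMax.EluSpBlock Cfsg.Agent.Lib.ClassMax.EluSpBlock2 Cfsg.Agent.Lib.ClassMax.SelfField

section frame

variable {F V : Type*} [Field F] [AddCommGroup V] [Module F V] [FiniteDimensional F V] {B : LinearMap.BilinForm F V}

/-- A symplectic frame of two hyperbolic pairs. -/
structure Fr (B : LinearMap.BilinForm F V) (a₁ b₁ a₂ b₂ : V) : Prop where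
  h11 : B a₁ b₁ = 1
  h22 : B a₂ b₂ = 1
  aa : B a₁ a₂ = 0
  ab : B a₁ b₂ = 0
  ba : B b₁ a₂ = 0
  bb : B b₁ b₂ = 0

variable {a₁ b₁ a₂ b₂ : V}

theorem Fr.fam (h : Fr B a₁ b₁ a₂ b₂) (halt : ∀ v, B v v = 0) [DecidableEq V] : Fam B ({(a₁, b₁), (a₂, b₂)} : Finset (V × V)) := by
  constructor
  · intro ω hω
    rw [Finset.mem_insert, Finset.mem_singleton] at hω
    rcases hω with rfl | rfl
    · exact h.h11
    · exact h.h22
  · intro ω hω η hη hne
    rw [Finset.mem_insert, Finset.mem_singleton] at hω hη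
    rcases hω with rfl | rfl <;> rcases hη with rfl | rfl
    · exact absurd rfl hne
    · exact ⟨h.aa, h.ab, h.ba, h.bb⟩
    · exact ⟨orth_symm halt h.aa, orth_symm halt h.ba, orth_symm halt h.ab, orth_symm halt h.bb⟩
    · exact absurd rfl hne

theorem Fr.ne (h : Fr B a₁ b₁ a₂ b₂) : ((a₁, b₁) : V × V) ≠ (a₂, b₂) := by
  intro he
  have h1 : a₁ = a₂ := congrArg Prod.fst he
  have h3 : b₁ = b₂ := congrArg Prod.snd he
  have h4 := h.h11
  rw [h3, h.ab] at h4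
  exact zero_ne_one h4

theorem Fr.span (h : Fr B a₁ b₁ a₂ b₂) (halt : ∀ v, B v v = 0) (hdim : finrank F V = 4) [DecidableEq V] :
    Submodule.span F (Pts ({(a₁, b₁), (a₂, b₂)} : Finset (V × V))) = ⊤ := by
  apply Submodule.eq_top_of_finrank_eq
  rw [finrank_span_pts halt (h.fam halt), Finset.card_pair h.ne, hdim]

/-- The expansion of a vector in a frame. -/
theorem Fr.expand (h : Fr B a₁ b₁ a₂ b₂) (halt : ∀ v, B v v = 0) (hdim : finrank F V = 4) (v : V) :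
    v = B v b₁ • a₁ - B v a₁ • b₁ + (B v b₂ • a₂ - B v a₂ • b₂) := by
  classical
  have h1 := proj_eq_of_mem halt (h.fam halt) (u := v) (by rw [h.span halt hdim]; trivial)
  rw [proj_apply, Finset.sum_pair h.ne] at h1
  exact h1.symm

/-- Two maps agreeing on a frame are equal. -/
theorem Fr.ext (h : Fr B a₁ b₁ a₂ b₂) (halt : ∀ v, B v v = 0) (hdim : finrank F V = 4) {f g : V →ₗ[F] V}
    (h1 : f a₁ = g a₁) (h2 : f b₁ = g b₁) (h3 : f a₂ = g a₂) (h4 : f b₂ = g b₂) : f = g := by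
  apply LinearMap.ext
  intro v
  rw [h.expand halt hdim v]
  simp only [map_add, map_sub, map_smul, h1, h2, h3, h4]

/-- The value of the form on frame coordinates. -/
theorem Fr.form_val (h : Fr B a₁ b₁ a₂ b₂) (halt : ∀ v, B v v = 0) (p q r s p' q' r' s' : F) :
    B (p • a₁ - q • b₁ + (r • a₂ - s • b₂)) (p' • a₁ - q' • b₁ + (r' • a₂ - s' • b₂)) = - p * q' + q * p' - r * s' + s * r' := by
  have e1 : B b₁ a₁ = -1 := by rw [skew halt, h.h11]
  have e2 : B b₂ a₂ = -1 := by rw [skew halt, h.h22]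
  have e3 : B a₂ a₁ = 0 := orth_symm halt h.aa
  have e4 : B a₂ b₁ = 0 := orth_symm halt h.ba
  have e5 : B b₂ a₁ = 0 := orth_symm halt h.ab
  have e6 : B b₂ b₁ = 0 := orth_symm halt h.bb
  simp only [map_add, map_sub, map_smul, LinearMap.add_apply, LinearMap.sub_apply, LinearMap.smul_apply, smul_eq_mul, halt, h.h11, h.h22, h.aa, h.ab, h.ba, h.bb, e1, e2, e3, e4, e5, e6]
  ring

/-- An isometry with prescribed values on a frame. -/
theorem Fr.exists_iso {A₁ B₁ A₂ B₂ : V} (h : Fr B A₁ B₁ A₂ B₂) (h' : Fr B a₁ b₁ a₂ b₂) (halt : ∀ v, B v v = 0) (hdim : finrank F V = 4) :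
    ∃ g : V →ₗ[F] V, (∀ u v, B (g u) (g v) = B u v) ∧ g A₁ = a₁ ∧ g B₁ = b₁ ∧ g A₂ = a₂ ∧ g B₂ = b₂ := by
  let g : V →ₗ[F] V := (B.flip B₁).smulRight a₁ - (B.flip A₁).smulRight b₁ + ((B.flip B₂).smulRight a₂ - (B.flip A₂).smulRight b₂)
  have hg : ∀ v, g v = B v B₁ • a₁ - B v A₁ • b₁ + (B v B₂ • a₂ - B v A₂ • b₂) := fun v => by
    simp [g, LinearMap.flip_apply]
  have e1 : B B₁ A₁ = -1 := by rw [skew halt, h.h11]
  have e2 : B B₂ A₂ = -1 := by rw [skew halt, h.h22]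
  have e3 : B A₂ A₁ = 0 := orth_symm halt h.aa
  have e4 : B A₂ B₁ = 0 := orth_symm halt h.ba
  have e5 : B B₂ A₁ = 0 := orth_symm halt h.ab
  have e6 : B B₂ B₁ = 0 := orth_symm halt h.bb
  refine ⟨g, ?_, ?_, ?_, ?_, ?_⟩
  · intro u v
    rw [hg, hg, h'.form_val halt]
    conv_rhs => rw [h.expand halt hdim u, h.expand halt hdim v]
    rw [h.form_val halt]
  · rw [hg, h.h11, halt, h.ab, h.aa]
    simp
  · rw [hg, halt, e1, h.bb, h.ba]
    simp
  · rw [hg, e4, e3, h.h22, halt]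
    simp
  · rw [hg, e6, e5, halt, e2]
    simp

/-- A pair of vectors adapted to a self-adjoint map without eigenvectors. -/
theorem exists_uv (halt : ∀ v, B v v = 0) (hnd : Nd B ⊤) {K₀ : V →ₗ[F] V} (hne : ∀ u : V, u ≠ 0 → ∀ c : F, K₀ u ≠ c • u) {u : V} (hu : u ≠ 0) :
    ∃ v, B u v = 0 ∧ B (K₀ u) v = 1 := by
  obtain ⟨w, -, hw⟩ := hnd u trivial hu
  by_contra hcon
  push Not at hcon
  have hzero : ∀ v, B u v = 0 → B (K₀ u) v = 0 := by
    intro v hv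
    by_contra hv2
    apply hcon ((B (K₀ u) v)⁻¹ • v)
    · rw [map_smul, hv, smul_zero]
    · rw [map_smul, smul_eq_mul, inv_mul_cancel₀ hv2]
  set c := B (K₀ u) w / B u w with hc
  apply hne u hu c
  by_contra hne2
  have hne3 : K₀ u - c • u ≠ 0 := sub_ne_zero.mpr hne2
  obtain ⟨v, -, hv⟩ := hnd _ trivial hne3
  apply hv
  have h1 := hzero (v - (B u v / B u w) • w) (by
    rw [map_sub, map_smul, smul_eq_mul]
    field_simp
    ring)
  rw [map_sub, map_smul, smul_eq_mul] at h1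
  rw [map_sub, LinearMap.sub_apply, map_smul, LinearMap.smul_apply, smul_eq_mul, hc]
  have h3 : B (K₀ u) w / B u w * B u v = B u v / B u w * B (K₀ u) w := by ring
  rw [h3]
  exact h1

/-- The frame attached to a self-adjoint map. -/
theorem frame_of_gen (halt : ∀ v, B v v = 0) {K₀ : V →ₗ[F] V} (hadj : ∀ u v, B (K₀ u) v = B u (K₀ v)) {δ : F} (hsq : ∀ v, K₀ (K₀ v) = δ • v)
    (hKalt : ∀ v, B (K₀ v) v = 0) {u v : V} (h0 : B u v = 0) (h1 : B (K₀ u) v = 1) : Fr B (K₀ u) v u (K₀ v) := by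
  refine ⟨h1, ?_, hKalt u, ?_, orth_symm halt h0, orth_symm halt (hKalt v)⟩
  · rw [← hadj, h1]
  · rw [← hadj, hsq, map_smul, LinearMap.smul_apply, h0, smul_zero]

end frame

section main

variable {F : Type*} [Field F]

local notation "MM" => Matrix (Fin 2 ⊕ Fin 2) (Fin 2 ⊕ Fin 2) F

/-- The criterion for the normaliser. -/
theorem norm_crit' {d : ℕ} {K : Subalgebra F (Matrix (Fin d ⊕ Fin d) (Fin d ⊕ Fin d) F)} {κ : Matrix (Fin d ⊕ Fin d) (Fin d ⊕ Fin d) F} (hk : ∀ k, k ∈ K ↔ ∃ a b : F, k = a • 1 + b • κ) {y : GL (Fin d ⊕ Fin d) F} {ε : F} (hε : ε * ε = 1)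
    (hy : (y : Matrix (Fin d ⊕ Fin d) (Fin d ⊕ Fin d) F) * κ = ε • (κ * (y : Matrix (Fin d ⊕ Fin d) (Fin d ⊕ Fin d) F))) : y ∈ subalgebraNormalizer K := by
  have h1 : (y : Matrix (Fin d ⊕ Fin d) (Fin d ⊕ Fin d) F) * κ * ((y⁻¹ : GL (Fin d ⊕ Fin d) F) : Matrix (Fin d ⊕ Fin d) (Fin d ⊕ Fin d) F) = ε • κ := by
    rw [hy, smul_mul_assoc, mul_assoc, Units.mul_inv, mul_one]
  have h2 : ((y⁻¹ : GL (Fin d ⊕ Fin d) F) : Matrix (Fin d ⊕ Fin d) (Fin d ⊕ Fin d) F) * κ * (y : Matrix (Fin d ⊕ Fin d) (Fin d ⊕ Fin d) F) = ε • κ := by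
    have h3 : κ * (y : Matrix (Fin d ⊕ Fin d) (Fin d ⊕ Fin d) F) = ε • ((y : Matrix (Fin d ⊕ Fin d) (Fin d ⊕ Fin d) F) * κ) := by
      rw [hy, smul_smul, hε, one_smul]
    rw [mul_assoc, h3, mul_smul_comm, ← mul_assoc, Units.inv_mul, one_mul]
  intro k
  constructor
  · intro hkK
    obtain ⟨a, b, rfl⟩ := (hk k).1 hkK
    refine (hk _).2 ⟨a, b * ε, ?_⟩
    rw [mul_add, add_mul, mul_smul_comm, mul_one, smul_mul_assoc, Units.mul_inv, mul_smul_comm, smul_mul_assoc, h1, smul_smul]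
  · intro hkK
    obtain ⟨a, b, hab⟩ := (hk _).1 hkK
    refine (hk _).2 ⟨a, b * ε, ?_⟩
    have h3 : k = ((y⁻¹ : GL (Fin d ⊕ Fin d) F) : Matrix (Fin d ⊕ Fin d) (Fin d ⊕ Fin d) F) * ((y : Matrix (Fin d ⊕ Fin d) (Fin d ⊕ Fin d) F) * k * ((y⁻¹ : GL (Fin d ⊕ Fin d) F) : Matrix (Fin d ⊕ Fin d) (Fin d ⊕ Fin d) F)) * (y : Matrix (Fin d ⊕ Fin d) (Fin d ⊕ Fin d) F) := by
      simp only [mul_assoc, Units.inv_mul, mul_one]
      rw [← mul_assoc, Units.inv_mul, one_mul]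
    rw [h3, hab, mul_add, add_mul, mul_smul_comm, mul_one, smul_mul_assoc, Units.inv_mul, mul_smul_comm, smul_mul_assoc, h2, smul_smul]

/-- A generator of a quadratic field with scalar square. -/
theorem exists_gen_sq {d : ℕ} (hd : 0 < d) {K : Subalgebra F (Matrix (Fin d ⊕ Fin d) (Fin d ⊕ Fin d) F)} (h2 : (2 : F) ≠ 0) (hK : IsFieldSubalgebra 2 K) :
    ∃ (κ : Matrix (Fin d ⊕ Fin d) (Fin d ⊕ Fin d) F) (δ : F), κ ∈ K ∧ κ * κ = δ • 1 ∧ δ ≠ 0 ∧ (∀ c : F, κ ≠ c • 1) ∧ ∀ k, k ∈ K ↔ ∃ a b : F, k = a • 1 + b • κ := by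
  haveI : Nonempty (Fin d ⊕ Fin d) := ⟨Sum.inl ⟨0, hd⟩⟩
  obtain ⟨κ₀, hκ₀, hind, hk₀⟩ := OmegaCore.exists_gen_two hK.finrank_eq
  obtain ⟨α, β, hαβ⟩ := (hk₀ _).1 (K.mul_mem hκ₀ hκ₀)
  set c := β / 2 with hc
  have hβ : β = c + c := by
    rw [hc]
    field_simp
    ring
  set κ := κ₀ - c • (1 : Matrix (Fin d ⊕ Fin d) (Fin d ⊕ Fin d) F) with hκ
  have hκ₀' : κ₀ = κ + c • 1 := by
    rw [hκ]
    abel
  have hκK : κ ∈ K := K.sub_mem hκ₀ (K.smul_mem K.one_mem c)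
  have hsq : κ * κ = (α + c * c) • 1 := by
    rw [hκ, sub_mul, mul_sub, mul_sub, hαβ, hβ]
    simp only [smul_mul_assoc, mul_smul_comm, one_mul, mul_one, smul_smul, add_smul, smul_add]
    abel
  have hns : ∀ c' : F, κ ≠ c' • 1 := by
    intro c' he
    have h3 : (c' + c) • (1 : Matrix (Fin d ⊕ Fin d) (Fin d ⊕ Fin d) F) + (-1 : F) • κ₀ = 0 := by
      rw [hκ₀', he, add_smul, neg_smul, one_smul]
      abel
    have h4 := (hind _ _ h3).2
    exact one_ne_zero (neg_eq_zero.mp h4)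
  have hδ : α + c * c ≠ 0 := by
    intro h0
    rw [h0, zero_smul] at hsq
    have h3 : κ ≠ 0 := by
      intro h
      apply hns 0
      rw [h, zero_smul]
    obtain ⟨b, hb, hab⟩ := hK.inv κ hκK h3
    apply h3
    calc κ = κ * (κ * b) := by rw [hab, mul_one]
      _ = 0 := by rw [← mul_assoc, hsq, zero_mul]
  refine ⟨κ, α + c * c, hκK, hsq, hδ, hns, ?_⟩
  intro k
  rw [hk₀]
  constructor
  · rintro ⟨a, b, rfl⟩
    refine ⟨a + b * c, b, ?_⟩
    rw [hκ₀', smul_add, add_smul, smul_smul]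
    abel
  · rintro ⟨a, b, rfl⟩
    refine ⟨a - b * c, b, ?_⟩
    rw [hκ, smul_sub, sub_smul, smul_smul]
    abel

/-- Every element of the symplectic group with scalar square is conjugate into the normaliser. -/
theorem exists_conj_two [Fintype F] (h2 : (2 : F) ≠ 0) {K : Subalgebra F (Matrix (Fin 2 ⊕ Fin 2) (Fin 2 ⊕ Fin 2) F)} (hK : IsFieldSubalgebra 2 K)
    (hKf : IsSelfAdjointFor (Cfsg.sympForm 2 F) K) (hKalt : ∀ a ∈ K, ∀ v : Fin 2 ⊕ Fin 2 → F, Cfsg.sympForm 2 F (a *ᵥ v) v = 0)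
    {x : GL (Fin 2 ⊕ Fin 2) F} (hx : x ∈ Cfsg.spGL 2 F) {z : F} (hz : ((x ^ 2 : GL (Fin 2 ⊕ Fin 2) F) : Matrix (Fin 2 ⊕ Fin 2) (Fin 2 ⊕ Fin 2) F) = z • (1 : Matrix (Fin 2 ⊕ Fin 2) (Fin 2 ⊕ Fin 2) F))
    (hns : ∀ z : F, (x : Matrix (Fin 2 ⊕ Fin 2) (Fin 2 ⊕ Fin 2) F) ≠ z • (1 : Matrix (Fin 2 ⊕ Fin 2) (Fin 2 ⊕ Fin 2) F)) :
    ∃ g ∈ Cfsg.spGL 2 F, g⁻¹ * x * g ∈ subalgebraNormalizer K := by
  classical
  obtain ⟨κ, δ, hκK, hsq, hδ, hκns, hk⟩ := exists_gen_sq (d := 2) (by norm_num) h2 hK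
  let B := sympB 2 F
  have halt : ∀ v, B v v = 0 := sympB_alt (d := 2) (F := F)
  have hnd : Nd B ⊤ := sympB_nd (d := 2) (F := F)
  have hdim : finrank F (Fin 2 ⊕ Fin 2 → F) = 4 := by simp [finrank_pi]
  let K₀ : (Fin 2 ⊕ Fin 2 → F) →ₗ[F] (Fin 2 ⊕ Fin 2 → F) := Matrix.toLin' κ
  have hK₀ : ∀ v, K₀ v = κ *ᵥ v := fun v => rfl
  have hadj : ∀ u v, B (K₀ u) v = B u (K₀ v) := fun u v => hKf κ hκK u v
  have hsq' : ∀ v, K₀ (K₀ v) = δ • v := by
    intro v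
    rw [hK₀, hK₀, Matrix.mulVec_mulVec, hsq, Matrix.smul_mulVec, Matrix.one_mulVec]
  have hne : ∀ u : Fin 2 ⊕ Fin 2 → F, u ≠ 0 → ∀ c : F, K₀ u ≠ c • u := by
    intro u hu c he
    apply hκns c
    have h3 : κ - c • (1 : Matrix (Fin 2 ⊕ Fin 2) (Fin 2 ⊕ Fin 2) F) = 0 := by
      apply eq_zero_of_mulVec hK (K.sub_mem hκK (K.smul_mem K.one_mem c)) hu
      rw [Matrix.sub_mulVec, Matrix.smul_mulVec, Matrix.one_mulVec, ← hK₀, he, sub_self]
    exact sub_eq_zero.mp h3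
  obtain ⟨u, hu⟩ : ∃ u : Fin 2 ⊕ Fin 2 → F, u ≠ 0 := ⟨Pi.single (Sum.inl 0) 1, by
    intro h
    have := congrFun h (Sum.inl 0)
    simp at this⟩
  obtain ⟨v, h0, h1⟩ := exists_uv halt hnd hne hu
  have hfr := frame_of_gen halt hadj hsq' (fun v => hKalt κ hκK v) h0 h1
  let X : (Fin 2 ⊕ Fin 2 → F) →ₗ[F] (Fin 2 ⊕ Fin 2 → F) := Matrix.toLin' (x : Matrix (Fin 2 ⊕ Fin 2) (Fin 2 ⊕ Fin 2) F)
  have hXv : ∀ v, X v = (x : Matrix (Fin 2 ⊕ Fin 2) (Fin 2 ⊕ Fin 2) F) *ᵥ v := fun v => rfl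
  have hiso : ∀ u v, B (X u) (X v) = B u v := fun u v => hx u v
  have hXX : ∀ v, X (X v) = z • v := by
    intro v
    rw [hXv, hXv, Matrix.mulVec_mulVec]
    have : (x : Matrix (Fin 2 ⊕ Fin 2) (Fin 2 ⊕ Fin 2) F) * (x : Matrix (Fin 2 ⊕ Fin 2) (Fin 2 ⊕ Fin 2) F) = z • 1 := by
      rw [← Units.val_mul, ← sq, hz]
    rw [this, Matrix.smul_mulVec, Matrix.one_mulVec]
  have hzz : z * z = 1 := by
    obtain ⟨w, -, hw⟩ := hnd u trivial hu
    have h3 := hiso (X u) (X w)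
    rw [hXX, hXX, hiso, map_smul, map_smul, LinearMap.smul_apply, smul_eq_mul, smul_eq_mul] at h3
    have h4 : (z * z - 1) * B u w = 0 := by linear_combination h3
    have h5 := (mul_eq_zero.mp h4).resolve_right hw
    linear_combination h5
  have hz' : z = 1 ∨ z = -1 := by
    have h3 : (z - 1) * (z + 1) = 0 := by linear_combination hzz
    rcases mul_eq_zero.mp h3 with h | h
    · left; linear_combination h
    · right; linear_combination h
  -- the final step from the action on vectors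
  have hfin : ∀ G : GL (Fin 2 ⊕ Fin 2) F, (∀ w, ((G⁻¹ * x * G : GL (Fin 2 ⊕ Fin 2) F) : Matrix (Fin 2 ⊕ Fin 2) (Fin 2 ⊕ Fin 2) F) *ᵥ (κ *ᵥ w) =
      - (κ *ᵥ (((G⁻¹ * x * G : GL (Fin 2 ⊕ Fin 2) F) : Matrix (Fin 2 ⊕ Fin 2) (Fin 2 ⊕ Fin 2) F) *ᵥ w))) → G⁻¹ * x * G ∈ subalgebraNormalizer K := by
    intro G hG
    refine norm_crit' hk (ε := -1) (by ring) ?_
    apply Cfsg.Agent.Lib.Classical.mat_ext_mulVec
    intro w
    rw [← Matrix.mulVec_mulVec, Matrix.smul_mulVec, ← Matrix.mulVec_mulVec, hG, neg_smul, one_smul]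
  rcases hz' with rfl | rfl
  · -- an involution
    let U : Submodule F (Fin 2 ⊕ Fin 2 → F) := LinearMap.ker (X - 1)
    let W : Submodule F (Fin 2 ⊕ Fin 2 → F) := LinearMap.ker (X + 1)
    have hU : ∀ u, u ∈ U ↔ X u = u := by
      intro u
      show (X - 1) u = 0 ↔ _
      rw [LinearMap.sub_apply, Module.End.one_apply, sub_eq_zero]
    have hW : ∀ u, u ∈ W ↔ X u = - u := by
      intro u
      show (X + 1) u = 0 ↔ _
      rw [LinearMap.add_apply, Module.End.one_apply, add_eq_zero_iff_eq_neg]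
    have hhalf : (2 : F)⁻¹ + (2 : F)⁻¹ = 1 := by
      rw [← two_mul, mul_inv_cancel₀ h2]
    have hdec : ∀ v, ∃ a ∈ U, ∃ b ∈ W, v = a + b := by
      intro v
      refine ⟨(2 : F)⁻¹ • (v + X v), (hU _).2 ?_, (2 : F)⁻¹ • (v - X v), (hW _).2 ?_, ?_⟩
      · rw [map_smul, map_add, hXX, one_smul, add_comm]
      · rw [map_smul, map_sub, hXX, one_smul, ← smul_neg, neg_sub]
      · have : (2 : F)⁻¹ • (v + X v) + (2 : F)⁻¹ • (v - X v) = ((2 : F)⁻¹ + (2 : F)⁻¹) • v := by module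
        rw [this, hhalf, one_smul]
    have horth : ∀ u ∈ U, ∀ w ∈ W, B u w = 0 := by
      intro u hu w hw
      have h1 := hiso u w
      rw [(hU u).1 hu, (hW w).1 hw, map_neg] at h1
      have h3 : (2 : F) * B u w = 0 := by linear_combination -h1
      exact (mul_eq_zero.mp h3).resolve_left h2
    have hNU : Nd B U := by
      intro u hu hu0
      obtain ⟨v, -, hv⟩ := hnd u trivial hu0
      obtain ⟨a, ha, b, hb, rfl⟩ := hdec v
      refine ⟨a, ha, ?_⟩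
      rw [map_add, horth u hu b hb, add_zero] at hv
      exact hv
    have hNW : Nd B W := by
      intro w hw hw0
      obtain ⟨v, -, hv⟩ := hnd w trivial hw0
      obtain ⟨a, ha, b, hb, rfl⟩ := hdec v
      refine ⟨b, hb, ?_⟩
      rw [map_add, orth_symm halt (horth a ha w hw), zero_add] at hv
      exact hv
    have hUne : U ≠ ⊥ := by
      intro hbot
      apply hns (-1)
      apply Cfsg.Agent.Lib.Classical.mat_ext_mulVec
      intro v
      obtain ⟨a, ha, b, hb, rfl⟩ := hdec v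
      rw [hbot, Submodule.mem_bot] at ha
      subst ha
      rw [zero_add, ← hXv, (hW b).1 hb, Matrix.smul_mulVec, Matrix.one_mulVec, neg_smul, one_smul]
    have hWne : W ≠ ⊥ := by
      intro hbot
      apply hns 1
      apply Cfsg.Agent.Lib.Classical.mat_ext_mulVec
      intro v
      obtain ⟨a, ha, b, hb, rfl⟩ := hdec v
      rw [hbot, Submodule.mem_bot] at hb
      subst hb
      rw [add_zero, ← hXv, (hU a).1 ha, Matrix.smul_mulVec, Matrix.one_mulVec, one_smul]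
    obtain ⟨a₁, ha₁, ha₁0⟩ := Submodule.exists_mem_ne_zero_of_ne_bot hUne
    obtain ⟨b₁', hb₁', hne₁⟩ := hNU a₁ ha₁ ha₁0
    obtain ⟨a₂, ha₂, ha₂0⟩ := Submodule.exists_mem_ne_zero_of_ne_bot hWne
    obtain ⟨b₂', hb₂', hne₂⟩ := hNW a₂ ha₂ ha₂0
    set b₁ := (B a₁ b₁')⁻¹ • b₁' with hb₁
    set b₂ := (B a₂ b₂')⁻¹ • b₂' with hb₂
    have hb₁U : b₁ ∈ U := U.smul_mem _ hb₁'
    have hb₂W : b₂ ∈ W := W.smul_mem _ hb₂'
    have hfr' : Fr B a₁ b₁ a₂ b₂ := by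
      refine ⟨?_, ?_, horth _ ha₁ _ ha₂, horth _ ha₁ _ hb₂W, horth _ hb₁U _ ha₂, horth _ hb₁U _ hb₂W⟩
      · rw [hb₁, map_smul, smul_eq_mul, inv_mul_cancel₀ hne₁]
      · rw [hb₂, map_smul, smul_eq_mul, inv_mul_cancel₀ hne₂]
    obtain ⟨g, hg, e1, e2, e3, e4⟩ := hfr.exists_iso hfr' halt hdim
    obtain ⟨G, hG, hGv⟩ := SkewSp.gl_of_iso g hg
    refine ⟨G, hG, hfin G ?_⟩
    have hact : ∀ (A : Fin 2 ⊕ Fin 2 → F) (ε : F), X (g A) = ε • g A → ((G⁻¹ * x * G : GL (Fin 2 ⊕ Fin 2) F) : Matrix (Fin 2 ⊕ Fin 2) (Fin 2 ⊕ Fin 2) F) *ᵥ A = ε • A := by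
      intro A ε hA
      simp only [Units.val_mul, ← Matrix.mulVec_mulVec]
      rw [hGv, ← hXv, hA, ← hGv, Matrix.mulVec_smul, SkewSp.gl_inv_mulVec]
    let Y : (Fin 2 ⊕ Fin 2 → F) →ₗ[F] (Fin 2 ⊕ Fin 2 → F) := Matrix.toLin' ((G⁻¹ * x * G : GL (Fin 2 ⊕ Fin 2) F) : Matrix (Fin 2 ⊕ Fin 2) (Fin 2 ⊕ Fin 2) F)
    have hYv : ∀ w, Y w = ((G⁻¹ * x * G : GL (Fin 2 ⊕ Fin 2) F) : Matrix (Fin 2 ⊕ Fin 2) (Fin 2 ⊕ Fin 2) F) *ᵥ w := fun w => rfl
    have y1 : Y (K₀ u) = K₀ u := by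
      rw [hYv, hact _ 1 (by rw [e1, one_smul]; exact (hU _).1 ha₁), one_smul]
    have y2 : Y v = v := by
      rw [hYv, hact _ 1 (by rw [e2, one_smul]; exact (hU _).1 hb₁U), one_smul]
    have y3 : Y u = - u := by
      rw [hYv, hact _ (-1) (by rw [e3, neg_smul, one_smul]; exact (hW _).1 ha₂), neg_smul, one_smul]
    have y4 : Y (K₀ v) = - K₀ v := by
      rw [hYv, hact _ (-1) (by rw [e4, neg_smul, one_smul]; exact (hW _).1 hb₂W), neg_smul, one_smul]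
    have hanti : Y.comp K₀ = - (K₀.comp Y) := by
      apply hfr.ext halt hdim
      · simp only [LinearMap.comp_apply, LinearMap.neg_apply, y1, hsq', map_smul, y3, smul_neg]
      · simp only [LinearMap.comp_apply, LinearMap.neg_apply, y2, y4]
      · simp only [LinearMap.comp_apply, LinearMap.neg_apply, y1, y3, map_neg, neg_neg]
      · simp only [LinearMap.comp_apply, LinearMap.neg_apply, y2, y4, hsq', map_smul, map_neg, neg_neg]
    intro w
    exact LinearMap.congr_fun hanti w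
  · -- an element squaring to minus one
    have hskew : ∀ u v, B (X u) v = - B u (X v) := by
      intro u v
      have h1 := hiso u (X v)
      rw [hXX, map_smul, smul_eq_mul] at h1
      linear_combination -h1
    have hfr' : Fr B ((-δ) • v) (δ⁻¹ • K₀ u) (K₀ v) (- u) := by
      refine ⟨?_, ?_, ?_, ?_, ?_, ?_⟩
      · rw [map_smul, map_smul, LinearMap.smul_apply, smul_eq_mul, smul_eq_mul, skew halt v, hfr.h11]
        field_simp
      · rw [map_neg, skew halt, hfr.h22, neg_neg]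
      · rw [map_smul, LinearMap.smul_apply, hfr.bb, smul_zero]
      · rw [map_neg, map_smul, LinearMap.smul_apply, hfr.ba, smul_zero, neg_zero]
      · rw [map_smul, LinearMap.smul_apply, hfr.ab, smul_zero]
      · rw [map_neg, map_smul, LinearMap.smul_apply, hfr.aa, smul_zero, neg_zero]
    obtain ⟨y₀, hy₀, e1, e2, e3, e4⟩ := hfr.exists_iso hfr' halt hdim
    have hy₀sq : y₀.comp y₀ = - LinearMap.id := by
      apply hfr.ext halt hdim
      · simp only [LinearMap.comp_apply, LinearMap.neg_apply, LinearMap.id_apply, e1, map_smul, e2, smul_smul]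
        rw [mul_inv_eq_iff_eq_mul₀ hδ |>.mpr (by ring : (-δ) = (-1) * δ), neg_one_smul]
      · simp only [LinearMap.comp_apply, LinearMap.neg_apply, LinearMap.id_apply, e2, map_smul, e1, smul_smul]
        rw [inv_mul_eq_div, neg_div_self hδ, neg_one_smul]
      · simp only [LinearMap.comp_apply, LinearMap.neg_apply, LinearMap.id_apply, e3, e4]
      · simp only [LinearMap.comp_apply, LinearMap.neg_apply, LinearMap.id_apply, e4, map_neg, e3]
    have hy₀sq' : ∀ w, y₀ (y₀ w) = (-1 : F) • w := by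
      intro w
      have := LinearMap.congr_fun hy₀sq w
      simp only [LinearMap.comp_apply, LinearMap.neg_apply, LinearMap.id_apply] at this
      rw [this, neg_one_smul]
    have hy₀skew : ∀ a b, B (y₀ a) b = - B a (y₀ b) := by
      intro a b
      have h3 := hy₀ (y₀ a) b
      rw [hy₀sq', map_smul, LinearMap.smul_apply, smul_eq_mul] at h3
      linear_combination -h3
    obtain ⟨g, hg, hgT⟩ := skew_conj (T := y₀) (T' := X) halt h2 hnd hy₀skew hskew (δ := -1) (neg_ne_zero.mpr one_ne_zero) hy₀sq' hXX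
    obtain ⟨G, hG, hGv⟩ := SkewSp.gl_of_iso g hg
    refine ⟨G, hG, hfin G ?_⟩
    have hact : ∀ w, ((G⁻¹ * x * G : GL (Fin 2 ⊕ Fin 2) F) : Matrix (Fin 2 ⊕ Fin 2) (Fin 2 ⊕ Fin 2) F) *ᵥ w = y₀ w := by
      intro w
      simp only [Units.val_mul, ← Matrix.mulVec_mulVec]
      rw [hGv, ← hXv, ← hgT, ← hGv, SkewSp.gl_inv_mulVec]
    have hanti : y₀.comp K₀ = - (K₀.comp y₀) := by
      apply hfr.ext halt hdim
      · simp only [LinearMap.comp_apply, LinearMap.neg_apply, hsq', map_smul, e3, e1]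
        simp [smul_smul]
      · simp only [LinearMap.comp_apply, LinearMap.neg_apply, e4, e2, map_smul, hsq', smul_smul]
        rw [inv_mul_cancel₀ hδ, one_smul]
      · simp only [LinearMap.comp_apply, LinearMap.neg_apply, e1, e3, hsq', neg_smul]
      · simp only [LinearMap.comp_apply, LinearMap.neg_apply, hsq', map_smul, e2, e4, map_neg, neg_neg, smul_smul]
        rw [mul_inv_cancel₀ hδ, one_smul]
    intro w
    rw [hact, ← hK₀, hact, ← hK₀]
    exact LinearMap.congr_fun hanti w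

end main

end Cfsg.Agent.Lib.ClassMax.SelfField2
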