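import Mathlib
import Cfsg.Agent.Lib.ClassMax.PhiCount
import Cfsg.Agent.Lib.ClassMax.SpDecomp
import Cfsg.Agent.Lib.ClassMax.OmegaCore

/-! The stabiliser in `Sp_{2m}(2)` of a decomposition into planes lies in an orthogonal group. -/

set_option autoImplicit false

namespace Cfsg.Agent.Lib.ClassMax.SpTwo

open Matrix Cfsg.Geo Cfsg.Agent.Lib.KnownSimple Cfsg.Agent.Lib.ClassMax Cfsg.Agent.Lib.ClassMax.PhiCount Cfsg.Agent.Lib.ClassMax.SpDecomp

variable {m : ℕ} {F : Type*} [Field F] [Fintype F]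

local notation "VV" => (Fin m ⊕ Fin m → F)
local notation "MM" => Matrix (Fin m ⊕ Fin m) (Fin m ⊕ Fin m) F
local notation "GG" => GL (Fin m ⊕ Fin m) F
local notation "ff" => Cfsg.sympForm m F

theorem eq_one_of_ne (hq : Fintype.card F = 2) {x : F} (hx : x ≠ 0) : x = 1 := by
  have := FiniteField.pow_card_sub_one_eq_one x hx
  rwa [hq, show 2 - 1 = 1 from rfl, pow_one] at this

theorem two_zero (hq : Fintype.card F = 2) : (1 : F) + 1 = 0 := by
  by_contra h
  have := eq_one_of_ne hq h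
  exact one_ne_zero (by linear_combination this)

variable {t : ℕ} {D : Fin t → Submodule F (Fin m ⊕ Fin m → F)}

/-- The count on a plane is a quadratic form with polar form the symplectic form. -/
theorem nz_add (hq : Fintype.card F = 2) {U : Submodule F (Fin m ⊕ Fin m → F)} (h2 : Module.finrank F U = 2)
    (hU : IsNondegenerateOn (Cfsg.sympForm m F) U) {a b : Fin m ⊕ Fin m → F} (ha : a ∈ U) (hb : b ∈ U) :
    nz (a + b) = nz a + nz b + ff a b := by
  have htwo := two_zero hq
  by_cases ha0 : a = 0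
  · subst ha0
    have : ff (0 : Fin m ⊕ Fin m → F) b = 0 := by
      have := sympForm_add_left (0 : Fin m ⊕ Fin m → F) 0 b
      rw [add_zero] at this
      linear_combination -this
    rw [this, nz_zero, zero_add, zero_add, add_zero]
  by_cases hb0 : b = 0
  · subst hb0
    have : ff a (0 : Fin m ⊕ Fin m → F) = 0 := by
      have := sympForm_add_right a (0 : Fin m ⊕ Fin m → F) 0
      rw [add_zero] at this
      linear_combination -this
    rw [this, nz_zero, add_zero, add_zero, add_zero]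
  by_cases hab : a = b
  · subst hab
    have : a + a = 0 := by
      have : a + a = ((1 : F) + 1) • a := by module
      rw [this, htwo, zero_smul]
    rw [this, nz_zero, nz_ne ha0, sympForm_self, add_zero, htwo]
  have hab0 : a + b ≠ 0 := by
    intro h0
    apply hab
    have : a + a = 0 := by
      have : a + a = ((1 : F) + 1) • a := by module
      rw [this, htwo, zero_smul]
    have e : a = -a := eq_neg_of_add_eq_zero_left this
    have e2 : b = -a := eq_neg_of_add_eq_zero_right h0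
    rw [e2, ← e]
  rw [nz_ne hab0, nz_ne ha0, nz_ne hb0]
  have hind : LinearIndependent F ![a, b] := by
    refine LinearIndependent.pair_iff.mpr fun s r h => ?_
    by_cases hs : s = 0
    · subst hs
      rw [zero_smul, zero_add] at h
      exact ⟨rfl, (smul_eq_zero.mp h).resolve_right hb0⟩
    · exfalso
      have hs1 := eq_one_of_ne hq hs
      by_cases hr : r = 0
      · subst hr
        rw [zero_smul, add_zero] at h
        exact hs ((smul_eq_zero.mp h).resolve_right ha0)
      · have hr1 := eq_one_of_ne hq hr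
        rw [hs1, hr1, one_smul, one_smul] at h
        exact hab0 h
  have hfr := finrank_span_eq_card hind
  have hle : Submodule.span F (Set.range ![a, b]) ≤ U := by
    rw [Submodule.span_le]
    rintro x ⟨i, rfl⟩
    fin_cases i
    · exact ha
    · exact hb
  have heq := Submodule.eq_of_le_of_finrank_eq hle (by rw [hfr, h2]; simp)
  by_cases hne : ff a b = 0
  · exfalso
    obtain ⟨⟨x, hx, hxa⟩, -⟩ := hU a ha ha0
    rw [← heq, Submodule.mem_span_range_iff_exists_fun] at hx
    obtain ⟨c, rfl⟩ := hx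
    apply hxa
    rw [Fin.sum_univ_two]
    simp only [Matrix.cons_val_zero, Matrix.cons_val_one]
    rw [sympForm_add_left, sympForm_smul_left, sympForm_smul_left, sympForm_self, sympForm_swap b a, hne]
    ring
  · rw [eq_one_of_ne hq hne]
    linear_combination -htwo

/-- The polar identity for the count. -/
theorem Phi_add (hq : Fintype.card F = 2) (hD : IsNondegenerateMDecomposition (Cfsg.sympForm m F) 2 D) (u v : Fin m ⊕ Fin m → F) :
    Phi D (u + v) = Phi D u + Phi D v + ff u v := by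
  obtain ⟨c, hc, rfl⟩ := exists_family' hD.decomp u
  obtain ⟨d, hd, rfl⟩ := exists_family' hD.decomp v
  rw [← Finset.sum_add_distrib, Phi_sum hD.decomp (c := fun i => c i + d i) (fun i => (D i).add_mem (hc i) (hd i)), Phi_sum hD.decomp hc, Phi_sum hD.decomp hd,
    form_sum hD hc hd, ← Finset.sum_add_distrib, ← Finset.sum_add_distrib]
  refine Finset.sum_congr rfl fun i _ => ?_
  exact nz_add hq (hD.decomp.finrank_eq i) (hD.nondegenerate i) (hc i) (hd i)

theorem stv_phi (hq : Fintype.card F = 2) (hD : IsNondegenerateMDecomposition (Cfsg.sympForm m F) 2 D) {x : Fin m ⊕ Fin m → F} (hx : Phi D x = 1)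
    (v : Fin m ⊕ Fin m → F) : Phi D (((stv x 1 : GG) : MM) *ᵥ v) = Phi D v := by
  have htwo := two_zero hq
  rw [stv_apply, one_mul]
  by_cases h : ff v x = 0
  · rw [h, zero_smul, add_zero]
  · rw [eq_one_of_ne hq h, one_smul, Phi_add hq hD, hx, eq_one_of_ne hq h]
    linear_combination htwo

theorem main (hm : 7 ≤ m) (hq : Fintype.card F = 2) (hD : IsNondegenerateMDecomposition (Cfsg.sympForm m F) 2 D) :
    ∃ K : Subgroup GG, decompositionStabilizer D ⊓ Cfsg.spGL m F < K ∧ K < Cfsg.spGL m F := by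
  have htwo := two_zero hq
  have hcard := card_le_of_decomp hD.decomp
  have ht : 3 ≤ t := by
    simp only [Fintype.card_sum, Fintype.card_fin] at hcard
    omega
  have hne : ∀ i, ∃ z ∈ D i, z ≠ 0 := fun i => by
    apply Submodule.exists_mem_ne_zero_of_ne_bot
    intro hbot
    have := hD.decomp.finrank_eq i
    rw [hbot, finrank_bot] at this
    omega
  choose a ha ha0 using hne
  obtain ⟨i₀, i₁, i₂, h01, h02, h12⟩ : ∃ i₀ i₁ i₂ : Fin t, i₀ ≠ i₁ ∧ i₀ ≠ i₂ ∧ i₁ ≠ i₂ :=
    ⟨⟨0, by omega⟩, ⟨1, by omega⟩, ⟨2, by omega⟩, by simp [Fin.ext_iff], by simp [Fin.ext_iff], by simp [Fin.ext_iff]⟩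
  have horth : ∀ {i j : Fin t}, i ≠ j → ff (a i) (a j) = 0 := fun {i j} h => hD.orthogonal i j h _ (ha i) _ (ha j)
  have hP1 : ∀ i, Phi D (a i) = 1 := fun i => by
    rw [Phi_mem hD.decomp (ha i), nz_ne (ha0 i)]
  have hP₂ : Phi D (a i₀ + a i₁) = 0 := by
    rw [Phi_add hq hD, hP1, hP1, horth h01, add_zero, htwo]
  have hP₃ : Phi D (a i₀ + a i₁ + a i₂) = 1 := by
    rw [Phi_add hq hD, hP₂, hP1, sympForm_add_left, horth h02, horth h12]
    ring
  have hx₂0 : a i₀ + a i₁ ≠ 0 := by
    intro h0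
    have e : a i₀ = - a i₁ := eq_neg_of_add_eq_zero_left h0
    refine not_mem_Wc hD.decomp (ha i₀) (ha0 i₀) ?_
    rw [e]
    exact Submodule.neg_mem _ (mem_Wc_of_ne h01.symm (ha i₁))
  have hHK : decompositionStabilizer D ⊓ Cfsg.spGL m F ≤ Cfsg.isometryGroup F (Phi D) ⊓ Cfsg.spGL m F := by
    rintro g ⟨hg1, hg2⟩
    exact ⟨(OmegaCore.mem_iso_iff g).mpr (Phi_stab hg1), hg2⟩
  refine ⟨Cfsg.isometryGroup F (Phi D) ⊓ Cfsg.spGL m F, lt_of_le_of_ne hHK ?_, lt_of_le_of_ne inf_le_right ?_⟩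
  · intro heq
    have h3 : stv (a i₀ + a i₁ + a i₂) 1 ∈ Cfsg.isometryGroup F (Phi D) ⊓ Cfsg.spGL m F :=
      ⟨(OmegaCore.mem_iso_iff _).mpr (stv_phi hq hD hP₃), stv_mem_spGL _ _⟩
    rw [← heq] at h3
    obtain ⟨σ, hσ⟩ := h3.1
    obtain ⟨⟨y, hy, hya⟩, -⟩ := hD.nondegenerate i₀ _ (ha i₀) (ha0 i₀)
    have hy1 : ff y (a i₀ + a i₁ + a i₂) = 1 := by
      rw [sympForm_add_right, sympForm_add_right, hD.orthogonal i₀ i₁ h01 _ hy _ (ha i₁), hD.orthogonal i₀ i₂ h02 _ hy _ (ha i₂), add_zero, add_zero]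
      exact eq_one_of_ne hq hya
    have hmem : y + (a i₀ + a i₁ + a i₂) ∈ D (σ i₀) := by
      rw [← hσ i₀]
      refine ⟨y, hy, ?_⟩
      rw [Matrix.toLin'_apply, stv_apply, hy1, one_mul, one_smul]
    by_cases hj : σ i₀ = i₁
    · refine not_mem_Wc hD.decomp (ha i₂) (ha0 i₂) ?_
      have e : a i₂ = y + (a i₀ + a i₁ + a i₂) - (y + (a i₀ + a i₁)) := by abel
      rw [e]
      refine Submodule.sub_mem _ (mem_Wc_of_ne (by rw [hj]; exact h12) hmem) ?_
      exact Submodule.add_mem _ (mem_Wc_of_ne h02 hy) (Submodule.add_mem _ (mem_Wc_of_ne h02 (ha _)) (mem_Wc_of_ne h12 (ha _)))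
    · refine not_mem_Wc hD.decomp (ha i₁) (ha0 i₁) ?_
      have e : a i₁ = y + (a i₀ + a i₁ + a i₂) - (y + (a i₀ + a i₂)) := by abel
      rw [e]
      refine Submodule.sub_mem _ (mem_Wc_of_ne hj hmem) ?_
      exact Submodule.add_mem _ (mem_Wc_of_ne h01 hy) (Submodule.add_mem _ (mem_Wc_of_ne h01 (ha _)) (mem_Wc_of_ne h12.symm (ha _)))
  · intro heq
    have h3 : stv (a i₀ + a i₁) 1 ∈ Cfsg.isometryGroup F (Phi D) ⊓ Cfsg.spGL m F := by
      rw [heq]
      exact stv_mem_spGL _ _
    obtain ⟨⟨v, hv⟩, -⟩ := sympForm_isSymplectic.nondegenerate _ hx₂0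
    have h4 := (OmegaCore.mem_iso_iff _).mp h3.1 v
    rw [stv_apply, eq_one_of_ne hq hv, one_mul, one_smul, Phi_add hq hD, hP₂, eq_one_of_ne hq hv, add_zero] at h4
    exact one_ne_zero (by linear_combination h4)

end Cfsg.Agent.Lib.ClassMax.SpTwo
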