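import Mathlib
import Cfsg.Prelude.Def_GeometricClasses
import Cfsg.Agent.Lib.ClassMax.Transv
import Cfsg.Agent.Lib.ClassMax.SubfieldCore
import Cfsg.Agent.Lib.Classical.SL

/-! The subfield subgroups of the special linear group are maximal. -/

set_option autoImplicit false

namespace Cfsg.Agent.Lib.ClassMax.SubfieldSL

open Matrix Cfsg.Geo Cfsg.Agent.Lib.ClassMax Cfsg.Agent.Lib.ClassMax.SubfieldCore

variable {F : Type*} [Field F] {ι : Type} [Fintype ι] [DecidableEq ι]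

/-- The transvection `v ↦ v + φ(v) x` lies in the subgroup. -/
def TM (M : Subgroup (GL ι F)) (x φ : ι → F) : Prop := ∃ h : φ ⬝ᵥ x = 0, tv x φ h ∈ M

theorem gl_ext {g h : GL ι F} (e : ∀ v : ι → F, (g : Matrix ι ι F) *ᵥ v = (h : Matrix ι ι F) *ᵥ v) : g = h := by
  apply Units.ext
  apply Matrix.toLin'.injective
  apply LinearMap.ext
  intro v
  rw [Matrix.toLin'_apply, Matrix.toLin'_apply]
  exact e v

theorem comm_tv {a φ u ω : ι → F} (h₁ : φ ⬝ᵥ a = 0) (h₂ : ω ⬝ᵥ u = 0) (h₃ : ω ⬝ᵥ a = 0) (h₄ : ((φ ⬝ᵥ u) • ω) ⬝ᵥ a = 0) :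
    tv a φ h₁ * tv u ω h₂ * (tv a φ h₁)⁻¹ * (tv u ω h₂)⁻¹ = tv a ((φ ⬝ᵥ u) • ω) h₄ := by
  apply gl_ext
  intro v
  simp only [Units.val_mul, ← Matrix.mulVec_mulVec, tv_mulVec, tv_inv_mulVec]
  simp only [dotProduct_add, dotProduct_sub, dotProduct_smul, smul_eq_mul, h₁, h₂, h₃, mul_zero, sub_zero, add_zero, smul_dotProduct]
  module

/-- The commutator of two transvections if the functional of the second one vanishes on the vector of the first one. -/
theorem TM.comm {M : Subgroup (GL ι F)} {a φ u ω : ι → F} (ha : TM M a φ) (hu : TM M u ω) (h₃ : ω ⬝ᵥ a = 0) :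
    TM M a ((φ ⬝ᵥ u) • ω) := by
  obtain ⟨h₁, ha⟩ := ha
  obtain ⟨h₂, hu⟩ := hu
  have h₄ : ((φ ⬝ᵥ u) • ω) ⬝ᵥ a = 0 := by
    rw [smul_dotProduct, h₃, smul_zero]
  refine ⟨h₄, ?_⟩
  rw [← comm_tv h₁ h₂ h₃ h₄]
  exact M.mul_mem (M.mul_mem (M.mul_mem ha hu) (M.inv_mem ha)) (M.inv_mem hu)

theorem TM.congr {M : Subgroup (GL ι F)} {x φ y ψ : ι → F} (h : TM M x φ) (h₁ : x = y) (h₂ : φ = ψ) : TM M y ψ := by
  subst h₁ h₂
  exact h

theorem TM.add {M : Subgroup (GL ι F)} {x φ ψ : ι → F} (h : TM M x φ) (h' : TM M x ψ) : TM M x (φ + ψ) := by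
  obtain ⟨h₁, h⟩ := h
  obtain ⟨h₂, h'⟩ := h'
  have h₃ : (φ + ψ) ⬝ᵥ x = 0 := by
    rw [add_dotProduct, h₁, h₂, add_zero]
  refine ⟨h₃, ?_⟩
  have : tv x (φ + ψ) h₃ = tv x φ h₁ * tv x ψ h₂ := by
    apply Units.ext
    rw [Units.val_mul, tv_val, tv_val, tv_val, tvMat_mul x φ ψ h₁]
  rw [this]
  exact M.mul_mem h h'

theorem TM.neg {M : Subgroup (GL ι F)} {x φ : ι → F} (h : TM M x φ) : TM M x (-φ) := by
  obtain ⟨h₁, h⟩ := h
  have h₃ : (-φ) ⬝ᵥ x = 0 := by
    rw [neg_dotProduct, h₁, neg_zero]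
  refine ⟨h₃, ?_⟩
  have : tv x (-φ) h₃ = (tv x φ h₁)⁻¹ := by
    apply Units.ext
    rw [tv_val, tv_inv_val]
  rw [this]
  exact M.inv_mem h

/-- Conjugation of a transvection by an element of the group. -/
theorem TM.conj {M : Subgroup (GL ι F)} {x φ : ι → F} (h : TM M x φ) {g : GL ι F} (hg : g ∈ M) :
    TM M ((g : Matrix ι ι F) *ᵥ x) (φ ᵥ* ((g⁻¹ : GL ι F) : Matrix ι ι F)) := by
  obtain ⟨h₁, h⟩ := h
  obtain ⟨h', e⟩ := conj_tv g x φ h₁
  refine ⟨h', ?_⟩
  rw [← e]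
  exact M.mul_mem (M.mul_mem hg h) (M.inv_mem hg)

section main

variable {F₀ : Subfield F} {M : Subgroup (GL ι F)}

/-- A rational transvection lies in any subgroup containing the rational elements. -/
theorem tm_rat (hHM : ratScal F₀ ι ⊓ specialLinear ι F ≤ M) {x φ : ι → F} (hx : RatV F₀ x) (hφ : RatV F₀ φ) (h : φ ⬝ᵥ x = 0) :
    TM M x φ := by
  refine ⟨h, hHM ⟨⟨1, one_ne_zero, ?_⟩, tv_mem_specialLinear x φ h⟩⟩
  rw [one_smul, tv_val, tvMat]
  exact ratM_one.add (ratM_vecMulVec hx hφ)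

/-- No rational transvection with an irrational coefficient. -/
def NoIrr (F₀ : Subfield F) (M : Subgroup (GL ι F)) : Prop :=
  ∀ u ω : ι → F, RatV F₀ u → RatV F₀ ω → u ≠ 0 → ω ≠ 0 → ∀ κ : F, TM M u (κ • ω) → κ ∈ F₀

local notation "e" => fun (i : ι) => (Pi.single i 1 : ι → F)

theorem e_dot (i : ι) (v : ι → F) : (Pi.single i 1 : ι → F) ⬝ᵥ v = v i := single_one_dotProduct i v

theorem dot_e (i : ι) (v : ι → F) : v ⬝ᵥ (Pi.single i 1 : ι → F) = v i := dotProduct_single_one v i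

theorem e_e_ne {i j : ι} (h : i ≠ j) : (Pi.single i 1 : ι → F) ⬝ᵥ (Pi.single j 1 : ι → F) = 0 := by
  rw [e_dot, Pi.single_eq_of_ne h]

theorem e_ne_zero (i : ι) : (Pi.single i 1 : ι → F) ≠ 0 := by
  intro h
  have := congrFun h i
  simp at this

/-- Move an element of the elementary group to another position in the same row. -/
theorem el_a (hHM : ratScal F₀ ι ⊓ specialLinear ι F ≤ M) {i j l : ι} {c : F} (h : TM M (Pi.single i 1) (c • (Pi.single j 1 : ι → F)))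
    (hli : l ≠ i) (hlj : l ≠ j) : TM M (Pi.single i 1) (c • (Pi.single l 1 : ι → F)) := by
  have h₁ : TM M (Pi.single j 1 : ι → F) (Pi.single l 1) := tm_rat hHM (ratV_single _) (ratV_single _) (e_e_ne hlj)
  have h₂ := h.comm h₁ (e_e_ne hli)
  refine h₂.congr rfl ?_
  rw [smul_dotProduct, e_dot, Pi.single_eq_same, smul_eq_mul, mul_one]

/-- Move an element of the elementary group to another position in the same column. -/
theorem el_b (hHM : ratScal F₀ ι ⊓ specialLinear ι F ≤ M) {i j k : ι} {c : F} (h : TM M (Pi.single i 1) (c • (Pi.single j 1 : ι → F)))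
    (hki : k ≠ i) (hkj : k ≠ j) : TM M (Pi.single k 1) (c • (Pi.single j 1 : ι → F)) := by
  have h₁ : TM M (Pi.single k 1 : ι → F) (Pi.single i 1) := tm_rat hHM (ratV_single _) (ratV_single _) (e_e_ne hki.symm)
  have h₂ := h₁.comm h (by rw [smul_dotProduct, e_e_ne hkj.symm, smul_zero])
  refine h₂.congr rfl ?_
  rw [e_dot, Pi.single_eq_same, one_smul]

/-- All positions are equivalent. -/
theorem el_move (hn : 5 ≤ Fintype.card ι) (hHM : ratScal F₀ ι ⊓ specialLinear ι F ≤ M) {i j k l : ι} {c : F}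
    (h : TM M (Pi.single i 1) (c • (Pi.single j 1 : ι → F))) (hkl : k ≠ l) : TM M (Pi.single k 1) (c • (Pi.single l 1 : ι → F)) := by
  obtain ⟨m, hm⟩ : ∃ m : ι, m ∉ ({i, j, k, l} : Finset ι) := by
    by_contra hcon
    push Not at hcon
    have h1 : Fintype.card ι ≤ ({i, j, k, l} : Finset ι).card :=
      Finset.card_le_card (fun x _ => hcon x) |>.trans' (by rw [Finset.card_univ])
    have h2 : ({i, j, k, l} : Finset ι).card ≤ 4 := Finset.card_le_four
    omega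
  simp only [Finset.mem_insert, Finset.mem_singleton, not_or] at hm
  obtain ⟨hmi, hmj, hmk, hml⟩ := hm
  have h1 := el_a hHM h hmi hmj
  have h2 : TM M (Pi.single k 1) (c • (Pi.single m 1 : ι → F)) := by
    by_cases hki : k = i
    · rw [hki]
      exact h1
    · exact el_b hHM h1 hki (Ne.symm hmk)
  exact el_a hHM h2 hkl.symm (Ne.symm hml)

/-- The additive and multiplicative closure of the coefficients in a position. -/
theorem el_mul (hn : 5 ≤ Fintype.card ι) (hHM : ratScal F₀ ι ⊓ specialLinear ι F ≤ M) {i j : ι} (hij : i ≠ j) {c d : F}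
    (hc : TM M (Pi.single i 1) (c • (Pi.single j 1 : ι → F))) (hd : TM M (Pi.single i 1) (d • (Pi.single j 1 : ι → F))) :
    TM M (Pi.single i 1) ((c * d) • (Pi.single j 1 : ι → F)) := by
  obtain ⟨l, hl⟩ : ∃ l : ι, l ∉ ({i, j} : Finset ι) := by
    by_contra hcon
    push Not at hcon
    have h1 : Fintype.card ι ≤ ({i, j} : Finset ι).card :=
      Finset.card_le_card (fun x _ => hcon x) |>.trans' (by rw [Finset.card_univ])
    have h2 : ({i, j} : Finset ι).card ≤ 2 := Finset.card_le_two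
    omega
  simp only [Finset.mem_insert, Finset.mem_singleton, not_or] at hl
  obtain ⟨hli, hlj⟩ := hl
  have h1 : TM M (Pi.single j 1) (d • (Pi.single l 1 : ι → F)) := el_move hn hHM hd (Ne.symm hlj)
  have h2 := hc.comm h1 (by rw [smul_dotProduct, e_e_ne hli, smul_zero])
  have h3 : TM M (Pi.single i 1) ((c * d) • (Pi.single l 1 : ι → F)) := by
    refine h2.congr rfl ?_
    rw [smul_dotProduct, e_dot, Pi.single_eq_same, smul_eq_mul, mul_one, smul_smul]
  exact el_move hn hHM h3 hij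

/-- If all elementary transvections lie in the group, then the group contains the special linear group. -/
theorem specialLinear_le_of_el (h : ∀ (i j : ι) (a : F), i ≠ j → TM M (Pi.single i 1) (a • (Pi.single j 1 : ι → F))) :
    specialLinear ι F ≤ M := by
  intro g hg
  have hdet : (g : Matrix ι ι F).det = 1 := by
    have h1 : Matrix.GeneralLinearGroup.det g = 1 := hg
    have := congrArg Units.val h1
    simpa [Matrix.GeneralLinearGroup.val_det_apply] using this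
  let A : Matrix.SpecialLinearGroup ι F := ⟨(g : Matrix ι ι F), hdet⟩
  have hP : ∃ g' ∈ M, (g' : Matrix ι ι F) = A.1 := by
    refine Cfsg.Agent.Lib.Classical.sl_transvection_induction
      (fun A => ∃ g' ∈ M, (g' : Matrix ι ι F) = A.1) ?_ ?_ ?_ A
    · intro i j hij a
      obtain ⟨hφ, hm⟩ := h i j a hij
      refine ⟨_, hm, ?_⟩
      simp only [tv_val, tvMat, Matrix.SpecialLinearGroup.transvection_coe]
      congr 1
      ext k l
      simp only [vecMulVec_apply, Pi.smul_apply, smul_eq_mul, Matrix.single_apply, Pi.single_apply]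
      by_cases hk : k = i <;> by_cases hl : l = j <;> simp [hk, hl, Ne.symm]
    · exact ⟨1, M.one_mem, by simp⟩
    · rintro A B ⟨a, ha, ha'⟩ ⟨b, hb, hb'⟩
      exact ⟨a * b, M.mul_mem ha hb, by simp [ha', hb']⟩
  obtain ⟨g', hg', hgg'⟩ := hP
  have : g = g' := Units.ext hgg'.symm
  rwa [this]

/-- An irrational coefficient at some position gives everything. -/
theorem sl_le_of_el [Fintype F] (hn : 5 ≤ Fintype.card ι) (hHM : ratScal F₀ ι ⊓ specialLinear ι F ≤ M) {r : ℕ} (hr : r.Prime)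
    (hcard : Fintype.card F = Nat.card F₀ ^ r) {i j : ι} (hij : i ≠ j) {c : F} (hc : c ∉ F₀)
    (h : TM M (Pi.single i 1) (c • (Pi.single j 1 : ι → F))) : specialLinear ι F ≤ M := by
  have hrat : ∀ a ∈ F₀, TM M (Pi.single i 1) (a • (Pi.single j 1 : ι → F)) := fun a ha =>
    tm_rat hHM (ratV_single _) ((ratV_single _).smul ha) (by rw [smul_dotProduct, e_e_ne hij.symm, smul_zero])
  have hpow : ∀ (x : F) (k : ℕ), TM M (Pi.single i 1) (x • (Pi.single j 1 : ι → F)) → TM M (Pi.single i 1) ((x ^ k) • (Pi.single j 1 : ι → F)) := by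
    intro x k hx
    induction k with
    | zero =>
      rw [pow_zero]
      exact hrat 1 F₀.one_mem
    | succ k ih =>
      rw [pow_succ]
      exact el_mul hn hHM hij ih hx
  let K : Subfield F :=
    { carrier := {x | TM M (Pi.single i 1) (x • (Pi.single j 1 : ι → F))}
      mul_mem' := fun {a b} ha hb => el_mul hn hHM hij ha hb
      one_mem' := hrat 1 F₀.one_mem
      add_mem' := fun {a b} ha hb => by
        have := TM.add ha hb
        refine this.congr rfl ?_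
        rw [add_smul]
      zero_mem' := hrat 0 F₀.zero_mem
      neg_mem' := fun {a} ha => by
        have := TM.neg ha
        refine this.congr rfl ?_
        rw [neg_smul]
      inv_mem' := fun x hx => by
        by_cases hx0 : x = 0
        · rw [hx0, _root_.inv_zero]
          exact hrat 0 F₀.zero_mem
        · have h2 : x⁻¹ = x ^ (Fintype.card F - 2) := by
            have h3 := FiniteField.pow_card_sub_one_eq_one x hx0
            have h4 : 2 ≤ Fintype.card F := Fintype.one_lt_card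
            have h5 : Fintype.card F - 1 = (Fintype.card F - 2) + 1 := by omega
            rw [h5, pow_succ] at h3
            exact (eq_inv_of_mul_eq_one_left h3).symm
          rw [h2]
          exact hpow x _ hx }
  have hK : F₀ ≤ K := fun a ha => hrat a ha
  have hmem : ∀ a, a ∈ K ↔ TM M (Pi.single i 1) (a • (Pi.single j 1 : ι → F)) := fun a => Iff.rfl
  rcases eq_or_top_of_prime F₀ hr hcard K hK with hK1 | hK1
  · exfalso
    apply hc
    rw [← hK1]
    exact h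
  · apply specialLinear_le_of_el
    intro k l a hkl
    have : a ∈ K := by
      rw [hK1]
      trivial
    exact el_move hn hHM this hkl

/-- An irrational rational transvection gives everything. -/
theorem sl_le_of_not_noIrr [Fintype F] (hn : 5 ≤ Fintype.card ι) (hHM : ratScal F₀ ι ⊓ specialLinear ι F ≤ M) {r : ℕ} (hr : r.Prime)
    (hcard : Fintype.card F = Nat.card F₀ ^ r) (h : ¬ NoIrr F₀ M) : specialLinear ι F ≤ M := by
  unfold NoIrr at h
  push Not at h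
  obtain ⟨u, ω, hu, hω, hu0, hω0, κ, hT, hκ⟩ := h
  have hκ0 : κ ≠ 0 := fun h0 => hκ (h0 ▸ F₀.zero_mem)
  obtain ⟨i, hi⟩ : ∃ i, u i ≠ 0 := by
    by_contra hcon
    push Not at hcon
    exact hu0 (funext hcon)
  obtain ⟨j₀, hj₀⟩ : ∃ i, ω i ≠ 0 := by
    by_contra hcon
    push Not at hcon
    exact hω0 (funext hcon)
  have hcard2 : 1 < Fintype.card ι := by omega
  haveI : Nontrivial ι := Fintype.one_lt_card_iff_nontrivial.mp hcard2
  obtain ⟨c, hc⟩ := exists_ne j₀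
  obtain ⟨u₁, hu₁, hu₁0, hu₁p⟩ := exists_rat_perp (F₀ := F₀) (k := 3) (by omega)
    ![ω, Pi.single i 1, Pi.single c 1] (by
      intro a
      fin_cases a
      · exact hω
      · exact ratV_single i
      · exact ratV_single c)
  have hp0 : ω ⬝ᵥ u₁ = 0 := hu₁p 0
  have hp1 : u₁ i = 0 := by
    have := hu₁p 1
    simpa [e_dot] using this
  have hp2 : u₁ c = 0 := by
    have := hu₁p 2
    simpa [e_dot] using this
  have s1 : TM M u₁ (Pi.single i 1) := tm_rat hHM hu₁ (ratV_single i) (by rw [e_dot, hp1])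
  have s2 := s1.comm hT (by rw [smul_dotProduct, hp0, smul_zero])
  rw [e_dot] at s2
  have s3 : TM M u₁ ((u i * κ) • ω) := by
    refine s2.congr rfl ?_
    rw [smul_smul]
  have s4 : TM M (Pi.single j₀ 1 : ι → F) (Pi.single c 1) :=
    tm_rat hHM (ratV_single _) (ratV_single _) (e_e_ne hc)
  have s5 := s3.comm s4 (by rw [e_dot, hp2])
  have s6 : TM M u₁ ((u i * κ * ω j₀) • (Pi.single c 1 : ι → F)) := by
    refine s5.congr rfl ?_
    rw [smul_dotProduct, dot_e, smul_eq_mul]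
  obtain ⟨i₁, hi₁⟩ : ∃ i, u₁ i ≠ 0 := by
    by_contra hcon
    push Not at hcon
    exact hu₁0 (funext hcon)
  have hi₁c : i₁ ≠ c := fun h0 => hi₁ (h0 ▸ hp2)
  obtain ⟨d, hd⟩ : ∃ d : ι, d ∉ ({c, i₁} : Finset ι) := by
    by_contra hcon
    push Not at hcon
    have h1 : Fintype.card ι ≤ ({c, i₁} : Finset ι).card :=
      Finset.card_le_card (fun x _ => hcon x) |>.trans' (by rw [Finset.card_univ])
    have h2 : ({c, i₁} : Finset ι).card ≤ 2 := Finset.card_le_two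
    omega
  simp only [Finset.mem_insert, Finset.mem_singleton, not_or] at hd
  obtain ⟨hdc, hdi⟩ := hd
  have s7 : TM M (Pi.single d 1 : ι → F) (Pi.single i₁ 1) :=
    tm_rat hHM (ratV_single _) (ratV_single _) (e_e_ne (Ne.symm hdi))
  have s8 := s7.comm s6 (by rw [smul_dotProduct, e_e_ne (Ne.symm hdc), smul_zero])
  have s9 : TM M (Pi.single d 1 : ι → F) ((u₁ i₁ * (u i * κ * ω j₀)) • (Pi.single c 1 : ι → F)) := by
    refine s8.congr rfl ?_
    rw [e_dot, smul_smul]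
  refine sl_le_of_el hn hHM hr hcard hdc ?_ s9
  intro hcon
  apply hκ
  have h1 : κ = (u₁ i₁ * (u i * κ * ω j₀)) * (u₁ i₁ * u i * ω j₀)⁻¹ := by
    field_simp
  rw [h1]
  exact F₀.mul_mem hcon (F₀.inv_mem (F₀.mul_mem (F₀.mul_mem (hu₁ i₁) (hu i)) (hω j₀)))

section key

variable {a φ : ι → F}

theorem key_dagger (hn : 4 ≤ Fintype.card ι) (hHM : ratScal F₀ ι ⊓ specialLinear ι F ≤ M) (hB : NoIrr F₀ M) (hs : TM M a φ)
    {ω₀ : ι → F} (hω₀ : RatV F₀ ω₀) (hω₀0 : ω₀ ≠ 0) (ha : ω₀ ⬝ᵥ a = 0) {u : ι → F} (hu : RatV F₀ u) (huω : ω₀ ⬝ᵥ u = 0)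
    {ω' : ι → F} (hω' : RatV F₀ ω') : (φ ⬝ᵥ u) * (ω' ⬝ᵥ a) ∈ F₀ := by
  have s1 : TM M u ω₀ := tm_rat hHM hu hω₀ huω
  have s2 : TM M a ((φ ⬝ᵥ u) • ω₀) := hs.comm s1 ha
  obtain ⟨u', hu', hu'0, hp⟩ := exists_rat_perp (F₀ := F₀) (k := 2) (by omega) ![ω₀, ω'] (by
    intro i
    fin_cases i
    · exact hω₀
    · exact hω')
  have hp0 : ω₀ ⬝ᵥ u' = 0 := hp 0
  have hp1 : ω' ⬝ᵥ u' = 0 := hp 1
  have s3 : TM M u' ω' := tm_rat hHM hu' hω' hp1
  have s4 := s3.comm s2 (by rw [smul_dotProduct, hp0, smul_zero])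
  exact hB u' ω₀ hu' hω₀ hu'0 hω₀0 _ (s4.congr rfl (by rw [smul_smul, mul_comm]))

theorem key_ddagger (hn : 4 ≤ Fintype.card ι) (hHM : ratScal F₀ ι ⊓ specialLinear ι F ≤ M) (hB : NoIrr F₀ M) (hs : TM M a φ)
    {u₀ : ι → F} (hu₀ : RatV F₀ u₀) (hu₀0 : u₀ ≠ 0) (hφ : φ ⬝ᵥ u₀ = 0) {ω : ι → F} (hω : RatV F₀ ω) (hωu : ω ⬝ᵥ u₀ = 0)
    {u : ι → F} (hu : RatV F₀ u) : (ω ⬝ᵥ a) * (φ ⬝ᵥ u) ∈ F₀ := by
  have s1 : TM M u₀ ω := tm_rat hHM hu₀ hω hωu
  have s2 : TM M u₀ ((ω ⬝ᵥ a) • φ) := s1.comm hs hφ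
  obtain ⟨ω'', hω'', hω''0, hp⟩ := exists_rat_perp (F₀ := F₀) (k := 2) (by omega) ![u₀, u] (by
    intro i
    fin_cases i
    · exact hu₀
    · exact hu)
  have hp0 : ω'' ⬝ᵥ u₀ = 0 := by rw [dotProduct_comm]; exact hp 0
  have hp1 : ω'' ⬝ᵥ u = 0 := by rw [dotProduct_comm]; exact hp 1
  have s3 : TM M u ω'' := tm_rat hHM hu hω'' hp1
  have s4 := s2.comm s3 hp0
  exact hB u₀ ω'' hu₀ hω'' hu₀0 hω''0 _ (s4.congr rfl (by rw [smul_dotProduct, smul_eq_mul]))

/-- The key lemma: a transvection of the group whose vector and functional are killed by a rational functional and a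
rational vector is rational. -/
theorem key_lemma (hn : 4 ≤ Fintype.card ι) (hHM : ratScal F₀ ι ⊓ specialLinear ι F ≤ M) (hB : NoIrr F₀ M) (hs : TM M a φ)
    {u₀ ω₀ : ι → F} (hu₀ : RatV F₀ u₀) (hω₀ : RatV F₀ ω₀) (hu₀0 : u₀ ≠ 0) (hω₀0 : ω₀ ≠ 0) (ha : ω₀ ⬝ᵥ a = 0) (hφ : φ ⬝ᵥ u₀ = 0) :
    RatM F₀ (vecMulVec a φ) := by
  by_cases h1 : ∃ u₁, RatV F₀ u₁ ∧ ω₀ ⬝ᵥ u₁ = 0 ∧ φ ⬝ᵥ u₁ ≠ 0
  · by_cases h2 : ∃ ω₁, RatV F₀ ω₁ ∧ ω₁ ⬝ᵥ u₀ = 0 ∧ ω₁ ⬝ᵥ a ≠ 0
    · obtain ⟨u₁, hu₁, hu₁0, hc₂⟩ := h1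
      obtain ⟨ω₁, hω₁, hω₁0, hc₁⟩ := h2
      intro i j
      have hA := key_dagger hn hHM hB hs hω₀ hω₀0 ha hu₁ hu₁0 (ratV_single (F₀ := F₀) i)
      have hB' := key_ddagger hn hHM hB hs hu₀ hu₀0 hφ hω₁ hω₁0 (ratV_single (F₀ := F₀) j)
      have hC := key_dagger hn hHM hB hs hω₀ hω₀0 ha hu₁ hu₁0 hω₁
      rw [e_dot] at hA
      rw [dot_e] at hB'
      rw [vecMulVec_apply]
      have e1 : a i * φ j = ((φ ⬝ᵥ u₁) * a i) * ((ω₁ ⬝ᵥ a) * φ j) * ((φ ⬝ᵥ u₁) * (ω₁ ⬝ᵥ a))⁻¹ := by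
        field_simp
      rw [e1]
      exact F₀.mul_mem (F₀.mul_mem hA hB') (F₀.inv_mem hC)
    · -- the vector is rational up to a scalar
      push Not at h2
      obtain ⟨i₀, hi₀⟩ : ∃ i, u₀ i ≠ 0 := by
        by_contra hcon
        push Not at hcon
        exact hu₀0 (funext hcon)
      obtain ⟨c, hc⟩ : ∃ c, c = a i₀ / u₀ i₀ := ⟨_, rfl⟩
      have hac : a = c • u₀ := by
        funext i
        have hr : u₀ i / u₀ i₀ ∈ F₀ := F₀.div_mem (hu₀ i) (hu₀ i₀)
        have h3 := h2 (Pi.single i 1 - (u₀ i / u₀ i₀) • Pi.single i₀ 1)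
          ((ratV_single i).sub ((ratV_single i₀).smul hr))
          (by
            rw [sub_dotProduct, smul_dotProduct, e_dot, e_dot, smul_eq_mul]
            field_simp
            ring)
        rw [sub_dotProduct, smul_dotProduct, e_dot, e_dot, smul_eq_mul, sub_eq_zero] at h3
        rw [Pi.smul_apply, smul_eq_mul, hc, h3]
        field_simp
      have hT : TM M u₀ (c • φ) := by
        obtain ⟨h₁, hm⟩ := hs
        have h₂ : (c • φ) ⬝ᵥ u₀ = 0 := by rw [smul_dotProduct, hφ, smul_zero]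
        refine ⟨h₂, ?_⟩
        rw [← tv_eq_of_vecMulVec_eq h₁ h₂ ?_]
        · exact hm
        · ext i j
          rw [hac]
          simp only [vecMulVec_apply, Pi.smul_apply, smul_eq_mul]
          ring
      have hφ' : ∀ j, c * φ j ∈ F₀ := by
        intro j
        obtain ⟨ω'', hω'', hω''0, hp⟩ := exists_rat_perp (F₀ := F₀) (k := 2) (by omega) ![u₀, Pi.single j 1] (by
          intro i
          fin_cases i
          · exact hu₀
          · exact ratV_single j)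
        have hp0 : ω'' ⬝ᵥ u₀ = 0 := by rw [dotProduct_comm]; exact hp 0
        have hp1 : ω'' ⬝ᵥ (Pi.single j 1 : ι → F) = 0 := by rw [dotProduct_comm]; exact hp 1
        have s3 : TM M (Pi.single j 1 : ι → F) ω'' := tm_rat hHM (ratV_single j) hω'' hp1
        have s4 := hT.comm s3 hp0
        have := hB u₀ ω'' hu₀ hω'' hu₀0 hω''0 _ s4
        rwa [smul_dotProduct, dot_e, smul_eq_mul] at this
      intro i j
      rw [vecMulVec_apply, hac, Pi.smul_apply, smul_eq_mul]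
      have : c * u₀ i * φ j = u₀ i * (c * φ j) := by ring
      rw [this]
      exact F₀.mul_mem (hu₀ i) (hφ' j)
  · -- the functional is rational up to a scalar
    push Not at h1
    obtain ⟨j₀, hj₀⟩ : ∃ i, ω₀ i ≠ 0 := by
      by_contra hcon
      push Not at hcon
      exact hω₀0 (funext hcon)
    obtain ⟨d, hd⟩ : ∃ d, d = φ j₀ / ω₀ j₀ := ⟨_, rfl⟩
    have hφd : φ = d • ω₀ := by
      funext j
      have hr : ω₀ j / ω₀ j₀ ∈ F₀ := F₀.div_mem (hω₀ j) (hω₀ j₀)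
      have h3 := h1 (Pi.single j 1 - (ω₀ j / ω₀ j₀) • Pi.single j₀ 1)
        ((ratV_single j).sub ((ratV_single j₀).smul hr))
        (by
          rw [dotProduct_sub, dotProduct_smul, dot_e, dot_e, smul_eq_mul]
          field_simp
          ring)
      rw [dotProduct_sub, dotProduct_smul, dot_e, dot_e, smul_eq_mul, sub_eq_zero] at h3
      rw [Pi.smul_apply, smul_eq_mul, hd, h3]
      field_simp
    have hT : TM M (d • a) ω₀ := by
      obtain ⟨h₁, hm⟩ := hs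
      have h₂ : ω₀ ⬝ᵥ (d • a) = 0 := by rw [dotProduct_smul, ha, smul_zero]
      refine ⟨h₂, ?_⟩
      rw [← tv_eq_of_vecMulVec_eq h₁ h₂ ?_]
      · exact hm
      · ext i j
        rw [hφd]
        simp only [vecMulVec_apply, Pi.smul_apply, smul_eq_mul]
        ring
    have ha' : ∀ i, d * a i ∈ F₀ := by
      intro i
      obtain ⟨u', hu', hu'0, hp⟩ := exists_rat_perp (F₀ := F₀) (k := 2) (by omega) ![ω₀, Pi.single i 1] (by
        intro i
        fin_cases i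
        · exact hω₀
        · exact ratV_single i)
      have hp0 : ω₀ ⬝ᵥ u' = 0 := hp 0
      have hp1 : (Pi.single i 1 : ι → F) ⬝ᵥ u' = 0 := hp 1
      have s3 : TM M u' (Pi.single i 1) := tm_rat hHM hu' (ratV_single i) hp1
      have s4 := s3.comm hT hp0
      have := hB u' ω₀ hu' hω₀ hu'0 hω₀0 _ s4
      rwa [e_dot, Pi.smul_apply, smul_eq_mul] at this
    intro i j
    rw [vecMulVec_apply, hφd, Pi.smul_apply, smul_eq_mul]
    have : a i * (d * ω₀ j) = (d * a i) * ω₀ j := by ring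
    rw [this]
    exact F₀.mul_mem (ha' i) (hω₀ j)

end key

section prop

variable {x : GL ι F}

theorem conj_dot (x : GL ι F) (ω u : ι → F) :
    (ω ᵥ* ((x⁻¹ : GL ι F) : Matrix ι ι F)) ⬝ᵥ ((x : Matrix ι ι F) *ᵥ u) = ω ⬝ᵥ u := by
  rw [← dotProduct_mulVec, Matrix.mulVec_mulVec, ← Units.val_mul, inv_mul_cancel, Units.val_one, Matrix.one_mulVec]

theorem mulVec_ne_zero (x : GL ι F) {u : ι → F} (hu : u ≠ 0) : (x : Matrix ι ι F) *ᵥ u ≠ 0 := by
  intro h
  apply hu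
  have h1 : ((x⁻¹ : GL ι F) : Matrix ι ι F) *ᵥ ((x : Matrix ι ι F) *ᵥ u) = u := by
    rw [Matrix.mulVec_mulVec, ← Units.val_mul, inv_mul_cancel, Units.val_one, Matrix.one_mulVec]
  rw [← h1, h, Matrix.mulVec_zero]

theorem vecMul_ne_zero (x : GL ι F) {u : ι → F} (hu : u ≠ 0) : u ᵥ* (x : Matrix ι ι F) ≠ 0 := by
  intro h
  apply hu
  have h1 : (u ᵥ* (x : Matrix ι ι F)) ᵥ* ((x⁻¹ : GL ι F) : Matrix ι ι F) = u := by
    rw [Matrix.vecMul_vecMul, ← Units.val_mul, mul_inv_cancel, Units.val_one, Matrix.vecMul_one]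
  rw [← h1, h, Matrix.zero_vecMul]

/-- Rationality of the image of one rational transvection gives the rationality of the images of those commuting with it. -/
theorem prop_step (hn : 4 ≤ Fintype.card ι) (hHM : ratScal F₀ ι ⊓ specialLinear ι F ≤ M) (hB : NoIrr F₀ M) (hx : x ∈ M)
    {u₀ ω₀ u₁ ω₁ : ι → F} (hu₁ : RatV F₀ u₁) (hω₁ : RatV F₀ ω₁) (hu₀0 : u₀ ≠ 0) (hω₀0 : ω₀ ≠ 0)
    (h₀ : RatM F₀ (vecMulVec ((x : Matrix ι ι F) *ᵥ u₀) (ω₀ ᵥ* ((x⁻¹ : GL ι F) : Matrix ι ι F))))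
    (h01 : ω₀ ⬝ᵥ u₁ = 0) (h10 : ω₁ ⬝ᵥ u₀ = 0) (h11 : ω₁ ⬝ᵥ u₁ = 0) :
    RatM F₀ (vecMulVec ((x : Matrix ι ι F) *ᵥ u₁) (ω₁ ᵥ* ((x⁻¹ : GL ι F) : Matrix ι ι F))) := by
  obtain ⟨a₀, ha₀⟩ : ∃ a₀, a₀ = (x : Matrix ι ι F) *ᵥ u₀ := ⟨_, rfl⟩
  obtain ⟨φ₀, hφ₀⟩ : ∃ φ₀, φ₀ = ω₀ ᵥ* ((x⁻¹ : GL ι F) : Matrix ι ι F) := ⟨_, rfl⟩
  rw [← ha₀, ← hφ₀] at h₀
  have ha₀0 : a₀ ≠ 0 := ha₀ ▸ mulVec_ne_zero x hu₀0
  have hφ₀0 : φ₀ ≠ 0 := hφ₀ ▸ vecMul_ne_zero x⁻¹ hω₀0
  obtain ⟨i, hi⟩ : ∃ i, a₀ i ≠ 0 := by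
    by_contra hcon
    push Not at hcon
    exact ha₀0 (funext hcon)
  obtain ⟨j, hj⟩ : ∃ i, φ₀ i ≠ 0 := by
    by_contra hcon
    push Not at hcon
    exact hφ₀0 (funext hcon)
  have hs : TM M u₁ ω₁ := tm_rat hHM hu₁ hω₁ h11
  have hs' := hs.conj hx
  refine key_lemma hn hHM hB hs' (u₀ := φ₀ j • a₀) (ω₀ := a₀ i • φ₀) ?_ ?_ (smul_ne_zero hj ha₀0) (smul_ne_zero hi hφ₀0) ?_ ?_
  · intro k
    rw [Pi.smul_apply, smul_eq_mul, mul_comm]
    have := h₀ k j
    rwa [vecMulVec_apply] at this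
  · intro k
    rw [Pi.smul_apply, smul_eq_mul]
    have := h₀ i k
    rwa [vecMulVec_apply] at this
  · rw [smul_dotProduct, hφ₀, conj_dot, h01, smul_zero]
  · rw [dotProduct_smul, ha₀, conj_dot, h10, smul_zero]

/-- Rationality of the image of one rational transvection gives the rationality of the images of all of them. -/
theorem prop_all (hn : 4 ≤ Fintype.card ι) (hHM : ratScal F₀ ι ⊓ specialLinear ι F ≤ M) (hB : NoIrr F₀ M) (hx : x ∈ M)
    {u₀ ω₀ u₂ ω₂ : ι → F} (hu₀ : RatV F₀ u₀) (hω₀ : RatV F₀ ω₀) (hu₂ : RatV F₀ u₂) (hω₂ : RatV F₀ ω₂) (hu₀0 : u₀ ≠ 0) (hω₀0 : ω₀ ≠ 0)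
    (h₀ : RatM F₀ (vecMulVec ((x : Matrix ι ι F) *ᵥ u₀) (ω₀ ᵥ* ((x⁻¹ : GL ι F) : Matrix ι ι F))))
    (h22 : ω₂ ⬝ᵥ u₂ = 0) :
    RatM F₀ (vecMulVec ((x : Matrix ι ι F) *ᵥ u₂) (ω₂ ᵥ* ((x⁻¹ : GL ι F) : Matrix ι ι F))) := by
  obtain ⟨u₁, hu₁, hu₁0, hp⟩ := exists_rat_perp (F₀ := F₀) (k := 2) (by omega) ![ω₀, ω₂] (by
    intro i
    fin_cases i
    · exact hω₀
    · exact hω₂)
  have hp0 : ω₀ ⬝ᵥ u₁ = 0 := hp 0
  have hp1 : ω₂ ⬝ᵥ u₁ = 0 := hp 1
  obtain ⟨ω₁, hω₁, hω₁0, hq⟩ := exists_rat_perp (F₀ := F₀) (k := 3) (by omega) ![u₀, u₂, u₁] (by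
    intro i
    fin_cases i
    · exact hu₀
    · exact hu₂
    · exact hu₁)
  have hq0 : ω₁ ⬝ᵥ u₀ = 0 := by rw [dotProduct_comm]; exact hq 0
  have hq1 : ω₁ ⬝ᵥ u₂ = 0 := by rw [dotProduct_comm]; exact hq 1
  have hq2 : ω₁ ⬝ᵥ u₁ = 0 := by rw [dotProduct_comm]; exact hq 2
  have h1 := prop_step hn hHM hB hx hu₁ hω₁ hu₀0 hω₀0 h₀ hp0 hq0 hq2
  exact prop_step hn hHM hB hx hu₂ hω₂ hu₁0 hω₁0 h1 hq1 hp1 h22

/-- An element normalising the set of rational transvections is a scalar multiple of a rational matrix. -/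
theorem ratScal_of_all (hn : 3 ≤ Fintype.card ι)
    (h : ∀ i j : ι, i ≠ j → RatM F₀ (vecMulVec ((x : Matrix ι ι F) *ᵥ (Pi.single i 1)) ((Pi.single j 1 : ι → F) ᵥ* ((x⁻¹ : GL ι F) : Matrix ι ι F)))) :
    x ∈ ratScal F₀ ι := by
  obtain ⟨X, hX⟩ : ∃ X, X = (x : Matrix ι ι F) := ⟨_, rfl⟩
  obtain ⟨Y, hY⟩ : ∃ Y, Y = ((x⁻¹ : GL ι F) : Matrix ι ι F) := ⟨_, rfl⟩
  have hent : ∀ a i j b, i ≠ j → X a i * Y j b ∈ F₀ := by
    intro a i j b hij
    have := h i j hij a b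
    rw [vecMulVec_apply, Matrix.mulVec_single_one, Matrix.single_one_vecMul] at this
    rw [hX, hY]
    exact this
  have hrow : ∀ j, ∃ b, Y j b ≠ 0 := by
    intro j
    by_contra hcon
    push Not at hcon
    have h1 := vecMul_ne_zero x⁻¹ (e_ne_zero (F := F) j)
    apply h1
    rw [Matrix.single_one_vecMul]
    funext b
    rw [← hY]
    exact hcon b
  have hcol : ∀ i, ∃ a, X a i ≠ 0 := by
    intro i
    by_contra hcon
    push Not at hcon
    have h1 := mulVec_ne_zero x (e_ne_zero (F := F) i)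
    apply h1
    rw [Matrix.mulVec_single_one]
    funext a
    rw [← hX]
    exact hcon a
  haveI : Nonempty ι := Fintype.card_pos_iff.mp (by omega)
  obtain ⟨j₀⟩ := ‹Nonempty ι›
  haveI : Nontrivial ι := Fintype.one_lt_card_iff_nontrivial.mp (by omega)
  obtain ⟨j₁, hj₁⟩ := exists_ne j₀
  obtain ⟨i₀, hi₀⟩ : ∃ i₀ : ι, i₀ ∉ ({j₀, j₁} : Finset ι) := by
    by_contra hcon
    push Not at hcon
    have h1 : Fintype.card ι ≤ ({j₀, j₁} : Finset ι).card :=
      Finset.card_le_card (fun x _ => hcon x) |>.trans' (by rw [Finset.card_univ])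
    have h2 : ({j₀, j₁} : Finset ι).card ≤ 2 := Finset.card_le_two
    omega
  simp only [Finset.mem_insert, Finset.mem_singleton, not_or] at hi₀
  obtain ⟨hi₀0, hi₀1⟩ := hi₀
  obtain ⟨b₀, hb₀⟩ := hrow j₀
  obtain ⟨b₁, hb₁⟩ := hrow j₁
  obtain ⟨a₀, ha₀⟩ := hcol i₀
  refine ⟨Y j₀ b₀, hb₀, ?_⟩
  intro a i
  rw [Matrix.smul_apply, smul_eq_mul, ← hX]
  by_cases hi : i = j₀
  · subst hi
    have h3 := hent a i j₁ b₁ (Ne.symm hj₁)
    have h4 := hent a₀ i₀ i b₀ hi₀0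
    have h5 := hent a₀ i₀ j₁ b₁ hi₀1
    have e1 : Y i b₀ * X a i = (X a₀ i₀ * Y i b₀) * (X a i * Y j₁ b₁) * (X a₀ i₀ * Y j₁ b₁)⁻¹ := by
      field_simp
    rw [e1]
    exact F₀.mul_mem (F₀.mul_mem h4 h3) (F₀.inv_mem h5)
  · have := hent a i j₀ b₀ hi
    rwa [mul_comm]

end prop

section final

variable {x : GL ι F}

/-- An element conjugating a rational matrix to a rational matrix is a scalar multiple of a rational matrix, provided
that the matrices allow the key lemma to be applied. -/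
theorem ratScal_of_conj (hn : 4 ≤ Fintype.card ι) (hHM : ratScal F₀ ι ⊓ specialLinear ι F ≤ M) (hB : NoIrr F₀ M) (hx : x ∈ M)
    {A B : Matrix ι ι F} (hA : RatM F₀ A) (hcomm : (x : Matrix ι ι F) * B = A * (x : Matrix ι ι F)) (hA0 : A ≠ 0)
    {a ω : ι → F} (ha : RatV F₀ a) (hω : RatV F₀ ω) (ha0 : a ≠ 0) (hω0 : ω ≠ 0) (hBa : B *ᵥ a = 0) (hωB : ω ᵥ* B = 0)
    (hωa : ω ⬝ᵥ a = 0) : x ∈ ratScal F₀ ι := by
  obtain ⟨k, j, hkj⟩ : ∃ k j, A k j ≠ 0 := by
    by_contra hcon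
    push Not at hcon
    exact hA0 (Matrix.ext hcon)
  have hcomm' : ((x⁻¹ : GL ι F) : Matrix ι ι F) * A = B * ((x⁻¹ : GL ι F) : Matrix ι ι F) := by
    have h1 : ((x⁻¹ : GL ι F) : Matrix ι ι F) * (x : Matrix ι ι F) = 1 := by
      rw [← Units.val_mul, inv_mul_cancel, Units.val_one]
    have h2 : (x : Matrix ι ι F) * ((x⁻¹ : GL ι F) : Matrix ι ι F) = 1 := by
      rw [← Units.val_mul, mul_inv_cancel, Units.val_one]
    calc ((x⁻¹ : GL ι F) : Matrix ι ι F) * A = ((x⁻¹ : GL ι F) : Matrix ι ι F) * (A * ((x : Matrix ι ι F) * ((x⁻¹ : GL ι F) : Matrix ι ι F))) := by rw [h2, Matrix.mul_one]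
      _ = ((x⁻¹ : GL ι F) : Matrix ι ι F) * (A * (x : Matrix ι ι F)) * ((x⁻¹ : GL ι F) : Matrix ι ι F) := by simp only [Matrix.mul_assoc]
      _ = B * ((x⁻¹ : GL ι F) : Matrix ι ι F) := by rw [← hcomm, ← Matrix.mul_assoc, h1, Matrix.one_mul]
  have hs : TM M a ω := tm_rat hHM ha hω hωa
  have hs' := hs.conj hx
  have hu : RatV F₀ (A *ᵥ Pi.single j 1) := hA.mulVec (ratV_single j)
  have hw : RatV F₀ ((Pi.single k 1 : ι → F) ᵥ* A) := hA.vecMul (ratV_single k)
  have hu0 : A *ᵥ Pi.single j 1 ≠ 0 := by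
    intro h
    apply hkj
    have := congrFun h k
    rwa [Matrix.mulVec_single_one] at this
  have hw0 : (Pi.single k 1 : ι → F) ᵥ* A ≠ 0 := by
    intro h
    apply hkj
    have := congrFun h j
    rwa [Matrix.single_one_vecMul] at this
  have h₀ := key_lemma hn hHM hB hs' hu hw hu0 hw0
    (by
      rw [← dotProduct_mulVec, Matrix.mulVec_mulVec, ← hcomm, ← Matrix.mulVec_mulVec, hBa, Matrix.mulVec_zero, dotProduct_zero])
    (by
      rw [← dotProduct_mulVec, Matrix.mulVec_mulVec, hcomm', ← Matrix.mulVec_mulVec, dotProduct_mulVec, hωB, zero_dotProduct])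
  apply ratScal_of_all (by omega)
  intro i l hil
  exact prop_all hn hHM hB hx ha hω (ratV_single i) (ratV_single l) ha0 hω0 h₀ (e_e_ne hil.symm)

omit [DecidableEq ι] in
/-- The kernels of two matrices intersect in a large subspace. -/
theorem finrank_inf_ker (A B : Matrix ι ι F) :
    Fintype.card ι ≤ Module.finrank F ↥(LinearMap.ker A.mulVecLin ⊓ LinearMap.ker B.mulVecLin) + A.rank + B.rank := by
  have h1 := LinearMap.finrank_range_add_finrank_ker A.mulVecLin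
  have h2 := LinearMap.finrank_range_add_finrank_ker B.mulVecLin
  rw [Module.finrank_fintype_fun_eq_card] at h1 h2
  have h3 : A.rank = Module.finrank F (LinearMap.range A.mulVecLin) := rfl
  have h4 : B.rank = Module.finrank F (LinearMap.range B.mulVecLin) := rfl
  have h5 := Submodule.finrank_sup_add_finrank_inf_eq (LinearMap.ker A.mulVecLin) (LinearMap.ker B.mulVecLin)
  have h6 : Module.finrank F ↥(LinearMap.ker A.mulVecLin ⊔ LinearMap.ker B.mulVecLin) ≤ Fintype.card ι := by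
    have := Submodule.finrank_le (LinearMap.ker A.mulVecLin ⊔ LinearMap.ker B.mulVecLin)
    rwa [Module.finrank_fintype_fun_eq_card] at this
  omega

omit [DecidableEq ι] in
theorem rank_add_le' (A B : Matrix ι ι F) : (A + B).rank ≤ A.rank + B.rank := by
  have h1 : LinearMap.range (A + B).mulVecLin ≤ LinearMap.range A.mulVecLin ⊔ LinearMap.range B.mulVecLin := by
    rintro _ ⟨v, rfl⟩
    rw [Matrix.mulVecLin_apply, Matrix.add_mulVec]
    exact Submodule.add_mem_sup ⟨v, rfl⟩ ⟨v, rfl⟩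
  have h2 := Submodule.finrank_mono h1
  have h3 := Submodule.finrank_add_le_finrank_add_finrank (LinearMap.range A.mulVecLin) (LinearMap.range B.mulVecLin)
  exact h2.trans h3

theorem rank_conj (w : GL ι F) (A : Matrix ι ι F) :
    ((w : Matrix ι ι F) * A * ((w⁻¹ : GL ι F) : Matrix ι ι F)).rank = A.rank := by
  rw [Matrix.rank_mul_eq_left_of_isUnit_det _ _ (Matrix.isUnits_det_units w⁻¹), Matrix.rank_mul_eq_right_of_isUnit_det _ _ (Matrix.isUnits_det_units w)]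

/-- The diagonal involution with eigenvalue `-1` on a set of coordinates. -/
def dgw (S : Finset ι) (k : ι) : F := if k ∈ S then -1 else 1

theorem dgw_sq (S : Finset ι) (k : ι) : (dgw S k : F) * dgw S k = 1 := by
  unfold dgw
  split_ifs <;> simp

/-- The diagonal involution with eigenvalue `-1` on a set of coordinates. -/
def dg (S : Finset ι) : GL ι F :=
  ⟨diagonal (dgw S), diagonal (dgw S), by
    rw [Matrix.diagonal_mul_diagonal, ← Matrix.diagonal_one]
    congr 1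
    funext k
    exact dgw_sq S k, by
    rw [Matrix.diagonal_mul_diagonal, ← Matrix.diagonal_one]
    congr 1
    funext k
    exact dgw_sq S k⟩

theorem dg_val (S : Finset ι) : ((dg S : GL ι F) : Matrix ι ι F) = diagonal (dgw S) := rfl

theorem dg_sub_one (S : Finset ι) : ((dg S : GL ι F) : Matrix ι ι F) - 1 = diagonal (fun k => dgw S k - 1) := by
  rw [dg_val]
  ext i j
  by_cases h : i = j
  · subst h
    simp
  · simp [h]

theorem dg_rank [DecidableEq F] (h2 : (2 : F) ≠ 0) (S : Finset ι) : (((dg S : GL ι F) : Matrix ι ι F) - 1).rank = S.card := by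
  rw [dg_sub_one, Matrix.rank_diagonal, Fintype.card_subtype]
  congr 1
  ext k
  have h5 : (-1 : F) - 1 ≠ 0 := fun h3 => h2 (by linear_combination -h3)
  rw [Finset.mem_filter]
  by_cases h : k ∈ S <;> simp [dgw, h, h5]

theorem dg_det {S : Finset ι} (hS : Even S.card) : ((dg S : GL ι F) : Matrix ι ι F).det = 1 := by
  rw [dg_val, Matrix.det_diagonal]
  unfold dgw
  rw [Finset.prod_ite_mem, Finset.univ_inter, Finset.prod_const, hS.neg_one_pow]

theorem dg_rat (F₀ : Subfield F) (S : Finset ι) : RatM F₀ ((dg S : GL ι F) : Matrix ι ι F) := by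
  intro i j
  rw [dg_val, Matrix.diagonal_apply]
  split_ifs
  · unfold dgw
    split_ifs
    · exact F₀.neg_mem F₀.one_mem
    · exact F₀.one_mem
  · exact F₀.zero_mem

/-- Two involutions for the application of the dihedral argument. -/
theorem exists_invols (hn : 6 ≤ Fintype.card ι) (F₀ : Subfield F) :
    ∃ (t₁ t₂ : GL ι F) (a ω : ι → F), RatM F₀ (t₁ : Matrix ι ι F) ∧ RatM F₀ (t₂ : Matrix ι ι F) ∧
      t₁ ∈ specialLinear ι F ∧ t₂ ∈ specialLinear ι F ∧ t₁ * t₁ = 1 ∧ t₂ * t₂ = 1 ∧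
      ((t₁ : Matrix ι ι F) - 1) ≠ 0 ∧ ((t₂ : Matrix ι ι F) - 1) ≠ 0 ∧ (¬ IsConj t₁ t₂) ∧
      ((t₁ : Matrix ι ι F) - 1).rank + ((t₂ : Matrix ι ι F) - 1).rank ≤ 6 ∧
      RatV F₀ a ∧ RatV F₀ ω ∧ a ≠ 0 ∧ ω ≠ 0 ∧ ω ⬝ᵥ a = 0 ∧
      ((t₁ : Matrix ι ι F) - 1) *ᵥ a = 0 ∧ ((t₂ : Matrix ι ι F) - 1) *ᵥ a = 0 ∧
      ω ᵥ* ((t₁ : Matrix ι ι F) - 1) = 0 ∧ ω ᵥ* ((t₂ : Matrix ι ι F) - 1) = 0 := by
  classical
  obtain ⟨f⟩ : Nonempty (Fin 6 ↪ ι) := Function.Embedding.nonempty_of_card_le (by simpa using hn)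
  have hf : ∀ i j : Fin 6, i ≠ j → f i ≠ f j := fun i j h h' => h (f.injective h')
  obtain ⟨i₁, hi₁⟩ : ∃ i, i = f 0 := ⟨_, rfl⟩
  obtain ⟨i₂, hi₂⟩ : ∃ i, i = f 1 := ⟨_, rfl⟩
  obtain ⟨i₃, hi₃⟩ : ∃ i, i = f 2 := ⟨_, rfl⟩
  obtain ⟨i₄, hi₄⟩ : ∃ i, i = f 3 := ⟨_, rfl⟩
  obtain ⟨i₅, hi₅⟩ : ∃ i, i = f 4 := ⟨_, rfl⟩
  obtain ⟨i₆, hi₆⟩ : ∃ i, i = f 5 := ⟨_, rfl⟩
  have h12 : i₁ ≠ i₂ := by rw [hi₁, hi₂]; exact hf _ _ (by decide)
  have h13 : i₁ ≠ i₃ := by rw [hi₁, hi₃]; exact hf _ _ (by decide)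
  have h14 : i₁ ≠ i₄ := by rw [hi₁, hi₄]; exact hf _ _ (by decide)
  have h15 : i₁ ≠ i₅ := by rw [hi₁, hi₅]; exact hf _ _ (by decide)
  have h16 : i₁ ≠ i₆ := by rw [hi₁, hi₆]; exact hf _ _ (by decide)
  have h23 : i₂ ≠ i₃ := by rw [hi₂, hi₃]; exact hf _ _ (by decide)
  have h24 : i₂ ≠ i₄ := by rw [hi₂, hi₄]; exact hf _ _ (by decide)
  have h25 : i₂ ≠ i₅ := by rw [hi₂, hi₅]; exact hf _ _ (by decide)
  have h26 : i₂ ≠ i₆ := by rw [hi₂, hi₆]; exact hf _ _ (by decide)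
  have h34 : i₃ ≠ i₄ := by rw [hi₃, hi₄]; exact hf _ _ (by decide)
  have h35 : i₃ ≠ i₅ := by rw [hi₃, hi₅]; exact hf _ _ (by decide)
  have h36 : i₃ ≠ i₆ := by rw [hi₃, hi₆]; exact hf _ _ (by decide)
  have h45 : i₄ ≠ i₅ := by rw [hi₄, hi₅]; exact hf _ _ (by decide)
  have h46 : i₄ ≠ i₆ := by rw [hi₄, hi₆]; exact hf _ _ (by decide)
  have h56 : i₅ ≠ i₆ := by rw [hi₅, hi₆]; exact hf _ _ (by decide)
  by_cases h2 : (2 : F) = 0
  · -- characteristic two
    have hadd : ∀ x : F, x + x = 0 := fun x => by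
      have : x + x = 2 * x := by ring
      rw [this, h2, zero_mul]
    obtain ⟨N₁, hN₁⟩ : ∃ N₁ : Matrix ι ι F, N₁ = vecMulVec (Pi.single i₁ 1) (Pi.single i₂ 1) := ⟨_, rfl⟩
    obtain ⟨N₂, hN₂⟩ : ∃ N₂ : Matrix ι ι F, N₂ = vecMulVec (Pi.single i₃ 1) (Pi.single i₄ 1) := ⟨_, rfl⟩
    have hNadd : ∀ X : Matrix ι ι F, X + X = 0 := fun X => by
      ext i j
      simp [hadd]
    have h11 : N₁ * N₁ = 0 := by
      rw [hN₁, vecMulVec_mul_vecMulVec, e_e_ne h12.symm]
      simp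
    have h22 : N₂ * N₂ = 0 := by
      rw [hN₂, vecMulVec_mul_vecMulVec, e_e_ne h34.symm]
      simp
    have h1' : N₁ * N₂ = 0 := by
      rw [hN₁, hN₂, vecMulVec_mul_vecMulVec, e_e_ne h23]
      simp
    have h2' : N₂ * N₁ = 0 := by
      rw [hN₁, hN₂, vecMulVec_mul_vecMulVec, e_e_ne h14.symm]
      simp
    have hsq : ∀ N : Matrix ι ι F, N * N = 0 → (1 + N) * (1 + N) = 1 := by
      intro N hN
      simp only [add_mul, mul_add, one_mul, mul_one, hN, add_zero]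
      rw [add_assoc, hNadd, add_zero]
    have hT₁ : (1 + N₁) * (1 + N₁) = 1 := hsq _ h11
    have hT₂ : (1 + (N₁ + N₂)) * (1 + (N₁ + N₂)) = 1 := by
      apply hsq
      simp only [add_mul, mul_add, h11, h22, h1', h2', add_zero]
    let t₁ : GL ι F := ⟨1 + N₁, 1 + N₁, hT₁, hT₁⟩
    let t₂ : GL ι F := ⟨1 + (N₁ + N₂), 1 + (N₁ + N₂), hT₂, hT₂⟩
    have hv₁ : (t₁ : Matrix ι ι F) = 1 + N₁ := rfl
    have hv₂ : (t₂ : Matrix ι ι F) = 1 + (N₁ + N₂) := rfl
    have hdet₁ : (1 + N₁).det = 1 := by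
      rw [hN₁, vecMulVec_eq Unit, det_one_add_replicateCol_mul_replicateRow, e_e_ne h12.symm, add_zero]
    have hdet₂ : (1 + (N₁ + N₂)).det = 1 := by
      have h3 : 1 + (N₁ + N₂) = (1 + N₁) * (1 + N₂) := by
        simp only [add_mul, mul_add, one_mul, mul_one, h1', add_zero]
        abel
      rw [h3, Matrix.det_mul, hdet₁, one_mul, hN₂, vecMulVec_eq Unit, det_one_add_replicateCol_mul_replicateRow, e_e_ne h34.symm, add_zero]
    have hrat₁ : RatM F₀ N₁ := hN₁ ▸ ratM_vecMulVec (ratV_single _) (ratV_single _)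
    have hrat₂ : RatM F₀ N₂ := hN₂ ▸ ratM_vecMulVec (ratV_single _) (ratV_single _)
    have hent₁ : ∀ i j, N₁ i j = if i = i₁ ∧ j = i₂ then 1 else 0 := by
      intro i j
      rw [hN₁, vecMulVec_apply, Pi.single_apply, Pi.single_apply]
      by_cases h3 : i = i₁ <;> by_cases h4 : j = i₂ <;> simp [h3, h4]
    have hent₂ : ∀ i j, N₂ i j = if i = i₃ ∧ j = i₄ then 1 else 0 := by
      intro i j
      rw [hN₂, vecMulVec_apply, Pi.single_apply, Pi.single_apply]
      by_cases h3 : i = i₃ <;> by_cases h4 : j = i₄ <;> simp [h3, h4]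
    have hs₁ : (t₁ : Matrix ι ι F) - 1 = N₁ := by rw [hv₁, add_sub_cancel_left]
    have hs₂ : (t₂ : Matrix ι ι F) - 1 = N₁ + N₂ := by rw [hv₂, add_sub_cancel_left]
    refine ⟨t₁, t₂, Pi.single i₅ 1, Pi.single i₆ 1, ?_, ?_, ?_, ?_, ?_, ?_, ?_, ?_, ?_, ?_, ratV_single _, ratV_single _, e_ne_zero _, e_ne_zero _, e_e_ne h56.symm, ?_, ?_, ?_, ?_⟩
    · rw [hv₁]
      exact ratM_one.add hrat₁
    · rw [hv₂]
      exact ratM_one.add (hrat₁.add hrat₂)
    · show Matrix.GeneralLinearGroup.det t₁ = 1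
      apply Units.ext
      simp only [Matrix.GeneralLinearGroup.val_det_apply, Units.val_one]
      exact hdet₁
    · show Matrix.GeneralLinearGroup.det t₂ = 1
      apply Units.ext
      simp only [Matrix.GeneralLinearGroup.val_det_apply, Units.val_one]
      exact hdet₂
    · apply Units.ext
      rw [Units.val_mul, Units.val_one, hv₁, hT₁]
    · apply Units.ext
      rw [Units.val_mul, Units.val_one, hv₂, hT₂]
    · rw [hs₁]
      intro h
      have := congrFun (congrFun h i₁) i₂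
      rw [hent₁] at this
      simp at this
    · rw [hs₂]
      intro h
      have := congrFun (congrFun h i₁) i₂
      rw [Matrix.add_apply, hent₁, hent₂] at this
      simp [h13] at this
    · -- the ranks differ
      rw [isConj_iff]
      rintro ⟨w, hw⟩
      have h3 : N₁ + N₂ = (w : Matrix ι ι F) * N₁ * ((w⁻¹ : GL ι F) : Matrix ι ι F) := by
        have h4 : (t₂ : Matrix ι ι F) = (w : Matrix ι ι F) * (1 + N₁) * ((w⁻¹ : GL ι F) : Matrix ι ι F) := by
          rw [← hw, Units.val_mul, Units.val_mul, hv₁]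
        rw [← hs₂, h4, Matrix.mul_add, Matrix.add_mul, Matrix.mul_one, ← Units.val_mul, mul_inv_cancel, Units.val_one, add_sub_cancel_left]
      obtain ⟨y, hy⟩ : ∃ y, y = (w : Matrix ι ι F) *ᵥ Pi.single i₁ 1 := ⟨_, rfl⟩
      obtain ⟨ψ, hψ⟩ : ∃ ψ, ψ = (Pi.single i₂ 1 : ι → F) ᵥ* ((w⁻¹ : GL ι F) : Matrix ι ι F) := ⟨_, rfl⟩
      have h5 : (w : Matrix ι ι F) * N₁ * ((w⁻¹ : GL ι F) : Matrix ι ι F) = vecMulVec y ψ := by
        rw [hN₁, mul_vecMulVec, vecMulVec_mul, hy, hψ]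
      rw [h5] at h3
      have e1 := congrFun (congrFun h3 i₁) i₂
      have e2 := congrFun (congrFun h3 i₃) i₄
      have e3 := congrFun (congrFun h3 i₁) i₄
      rw [Matrix.add_apply, hent₁, hent₂, vecMulVec_apply] at e1 e2 e3
      simp [h13, h13.symm, h24, h24.symm, h12, h12.symm, h14, h14.symm, h34, h34.symm, h23, h23.symm] at e1 e2 e3
      rcases e3 with e3 | e3
      · rw [e3, zero_mul] at e1
        exact one_ne_zero e1
      · rw [e3, mul_zero] at e2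
        exact one_ne_zero e2
    · rw [hs₁, hs₂]
      have h3 := rank_add_le' N₁ N₂
      have h4 : N₁.rank ≤ 1 := hN₁ ▸ Matrix.rank_vecMulVec_le _ _
      have h5 : N₂.rank ≤ 1 := hN₂ ▸ Matrix.rank_vecMulVec_le _ _
      omega
    · rw [hs₁, hN₁, vecMulVec_mulVec, e_e_ne h25]
      simp
    · rw [hs₂, hN₁, hN₂, Matrix.add_mulVec, vecMulVec_mulVec, vecMulVec_mulVec, e_e_ne h25, e_e_ne h45]
      simp
    · rw [hs₁, hN₁, vecMul_vecMulVec, dotProduct_comm, e_e_ne h16]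
      simp
    · rw [hs₂, hN₁, hN₂, Matrix.vecMul_add, vecMul_vecMulVec, vecMul_vecMulVec, dotProduct_comm, e_e_ne h16, dotProduct_comm, e_e_ne h36]
      simp
  · -- odd characteristic
    have hS₁ : ({i₁, i₂} : Finset ι).card = 2 := Finset.card_pair h12
    have hS₂ : ({i₁, i₂, i₃, i₄} : Finset ι).card = 4 := by
      rw [Finset.card_insert_of_notMem (by simp [h12, h13, h14]), Finset.card_insert_of_notMem (by simp [h23, h24]), Finset.card_pair h34]
    refine ⟨dg {i₁, i₂}, dg {i₁, i₂, i₃, i₄}, Pi.single i₅ 1, Pi.single i₆ 1, dg_rat F₀ _, dg_rat F₀ _, ?_, ?_, ?_, ?_, ?_, ?_, ?_, ?_, ratV_single _, ratV_single _, e_ne_zero _, e_ne_zero _, e_e_ne h56.symm, ?_, ?_, ?_, ?_⟩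
    · show Matrix.GeneralLinearGroup.det _ = 1
      apply Units.ext
      simp only [Matrix.GeneralLinearGroup.val_det_apply, Units.val_one]
      exact dg_det (by rw [hS₁]; decide)
    · show Matrix.GeneralLinearGroup.det _ = 1
      apply Units.ext
      simp only [Matrix.GeneralLinearGroup.val_det_apply, Units.val_one]
      exact dg_det (by rw [hS₂]; decide)
    · apply Units.ext
      rw [Units.val_mul, Units.val_one, dg_val, Matrix.diagonal_mul_diagonal, ← Matrix.diagonal_one]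
      congr 1
      funext k
      exact dgw_sq _ k
    · apply Units.ext
      rw [Units.val_mul, Units.val_one, dg_val, Matrix.diagonal_mul_diagonal, ← Matrix.diagonal_one]
      congr 1
      funext k
      exact dgw_sq _ k
    · intro h
      have := dg_rank h2 ({i₁, i₂} : Finset ι)
      rw [h, hS₁, Matrix.rank_zero] at this
      omega
    · intro h
      have := dg_rank h2 ({i₁, i₂, i₃, i₄} : Finset ι)
      rw [h, hS₂, Matrix.rank_zero] at this
      omega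
    · rw [isConj_iff]
      rintro ⟨w, hw⟩
      have h3 : ((dg {i₁, i₂, i₃, i₄} : GL ι F) : Matrix ι ι F) - 1 =
          (w : Matrix ι ι F) * (((dg {i₁, i₂} : GL ι F) : Matrix ι ι F) - 1) * ((w⁻¹ : GL ι F) : Matrix ι ι F) := by
        have h6 : (w : Matrix ι ι F) * ((w⁻¹ : GL ι F) : Matrix ι ι F) = 1 := by
          rw [← Units.val_mul, mul_inv_cancel, Units.val_one]
        rw [← hw]
        simp only [Units.val_mul]
        rw [Matrix.mul_sub, Matrix.sub_mul, Matrix.mul_one, h6]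
      have h4 := congrArg Matrix.rank h3
      rw [rank_conj, dg_rank h2, dg_rank h2, hS₁, hS₂] at h4
      omega
    · rw [dg_rank h2, dg_rank h2, hS₁, hS₂]
    · rw [dg_sub_one, Matrix.mulVec_single_one]
      funext k
      simp [Matrix.col_apply, Matrix.diagonal_apply, dgw, h15.symm, h25.symm]
      intro hk
      rw [hk]
      simp [h15.symm, h25.symm]
    · rw [dg_sub_one, Matrix.mulVec_single_one]
      funext k
      simp [Matrix.col_apply, Matrix.diagonal_apply, dgw, h15.symm, h25.symm, h35.symm, h45.symm]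
      intro hk
      rw [hk]
      simp [h15.symm, h25.symm, h35.symm, h45.symm]
    · rw [dg_sub_one, Matrix.single_one_vecMul]
      funext k
      simp [Matrix.row_apply, Matrix.diagonal_apply, dgw, h16.symm, h26.symm]
    · rw [dg_sub_one, Matrix.single_one_vecMul]
      funext k
      simp [Matrix.row_apply, Matrix.diagonal_apply, dgw, h16.symm, h26.symm, h36.symm, h46.symm]

/-- The main argument: without irrational rational transvections, the whole group consists of scalar multiples of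
rational matrices. -/
theorem le_ratScal [Fintype F] (hn : 13 ≤ Fintype.card ι) (hHM : ratScal F₀ ι ⊓ specialLinear ι F ≤ M) (hB : NoIrr F₀ M) :
    M ≤ ratScal F₀ ι := by
  intro x hx
  by_contra hnot
  obtain ⟨t₁, t₂, a, ω, hr₁, hr₂, hs₁, hs₂, ht₁, ht₂, h10, h20, hnc, hrk, ha, hω, ha0, hω0, hωa, h1a, h2a, h1ω, h2ω⟩ := exists_invols (ι := ι) (F := F) (by omega) F₀
  have ht₁M : t₁ ∈ M := hHM ⟨⟨1, one_ne_zero, by rwa [one_smul]⟩, hs₁⟩
  have ht₂M : t₂ ∈ M := hHM ⟨⟨1, one_ne_zero, by rwa [one_smul]⟩, hs₂⟩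
  obtain ⟨s, hs⟩ : ∃ s, s = x * t₁ * x⁻¹ := ⟨_, rfl⟩
  have hss : s * s = 1 := by
    rw [hs]
    calc x * t₁ * x⁻¹ * (x * t₁ * x⁻¹) = x * (t₁ * t₁) * x⁻¹ := by group
      _ = 1 := by rw [ht₁]; group
  have hsM : s ∈ M := hs ▸ M.mul_mem (M.mul_mem hx ht₁M) (M.inv_mem hx)
  have hx1 : (x : Matrix ι ι F) * ((x⁻¹ : GL ι F) : Matrix ι ι F) = 1 := by
    rw [← Units.val_mul, mul_inv_cancel, Units.val_one]
  have hx2 : ((x⁻¹ : GL ι F) : Matrix ι ι F) * (x : Matrix ι ι F) = 1 := by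
    rw [← Units.val_mul, inv_mul_cancel, Units.val_one]
  rcases dihedral_dichotomy ht₂ hss with ⟨w, -, hw⟩ | ⟨z, hzc, hz1, hzz, hzt, hzs⟩
  · apply hnc
    rw [isConj_iff]
    refine ⟨w⁻¹ * x, ?_⟩
    rw [hs] at hw
    calc w⁻¹ * x * t₁ * (w⁻¹ * x)⁻¹ = w⁻¹ * (x * t₁ * x⁻¹) * w := by group
      _ = w⁻¹ * (w * t₂ * w⁻¹) * w := by rw [hw]
      _ = t₂ := by group
  · have hzM : z ∈ M := by
      have : Subgroup.closure {t₂, s} ≤ M := by
        rw [Subgroup.closure_le]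
        intro y hy
        rcases hy with rfl | hy
        · exact ht₂M
        · rw [Set.mem_singleton_iff] at hy
          rw [hy]
          exact hsM
      exact this hzc
    -- centralisers
    have hzC : (z : Matrix ι ι F) * ((t₂ : Matrix ι ι F) - 1) = ((t₂ : Matrix ι ι F) - 1) * (z : Matrix ι ι F) := by
      rw [Matrix.mul_sub, Matrix.sub_mul, Matrix.mul_one, Matrix.one_mul, ← Units.val_mul, ← Units.val_mul, hzt]
    have hzR : z ∈ ratScal F₀ ι := ratScal_of_conj (by omega) hHM hB hzM (hr₂.sub ratM_one) hzC h20 ha hω ha0 hω0 h2a h2ω hωa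
    obtain ⟨y, hy⟩ : ∃ y, y = x⁻¹ * z * x := ⟨_, rfl⟩
    have hyM : y ∈ M := hy ▸ M.mul_mem (M.mul_mem (M.inv_mem hx) hzM) hx
    have hyt : y * t₁ = t₁ * y := by
      have h1 : x * t₁ = s * x := by
        rw [hs]
        group
      have h2 : t₁ * x⁻¹ = x⁻¹ * s := by
        rw [hs]
        group
      rw [hy]
      calc x⁻¹ * z * x * t₁ = x⁻¹ * z * (x * t₁) := by group
        _ = x⁻¹ * (z * s) * x := by rw [h1]; group
        _ = x⁻¹ * (s * z) * x := by rw [hzs]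
        _ = (x⁻¹ * s) * z * x := by group
        _ = t₁ * (x⁻¹ * z * x) := by rw [← h2]; group
    have hyC : (y : Matrix ι ι F) * ((t₁ : Matrix ι ι F) - 1) = ((t₁ : Matrix ι ι F) - 1) * (y : Matrix ι ι F) := by
      rw [Matrix.mul_sub, Matrix.sub_mul, Matrix.mul_one, Matrix.one_mul, ← Units.val_mul, ← Units.val_mul, hyt]
    have hyR : y ∈ ratScal F₀ ι := ratScal_of_conj (by omega) hHM hB hyM (hr₁.sub ratM_one) hyC h10 ha hω ha0 hω0 h1a h1ω hωa
    -- big fixed spaces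
    have hsv : (s : Matrix ι ι F) - 1 = (x : Matrix ι ι F) * ((t₁ : Matrix ι ι F) - 1) * ((x⁻¹ : GL ι F) : Matrix ι ι F) := by
      rw [hs]
      simp only [Units.val_mul]
      rw [Matrix.mul_sub, Matrix.sub_mul, Matrix.mul_one, hx1]
    have hsr : ((s : Matrix ι ι F) - 1).rank = ((t₁ : Matrix ι ι F) - 1).rank := by
      rw [hsv, rank_conj]
    -- the group generated by two elements fixes their common fixed vectors
    have hfix : ∀ g ∈ Subgroup.closure {t₂, s}, ∀ v : ι → F, ((t₂ : Matrix ι ι F) - 1) *ᵥ v = 0 → ((s : Matrix ι ι F) - 1) *ᵥ v = 0 →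
        (g : Matrix ι ι F) *ᵥ v = v := by
      intro g hg v hv₁ hv₂
      rw [Matrix.sub_mulVec, Matrix.one_mulVec, sub_eq_zero] at hv₁ hv₂
      induction hg using Subgroup.closure_induction with
      | mem y hy =>
        rcases hy with rfl | hy
        · exact hv₁
        · rw [Set.mem_singleton_iff] at hy
          rw [hy]
          exact hv₂
      | one => simp
      | mul a b _ _ ha hb => rw [Units.val_mul, ← Matrix.mulVec_mulVec, hb, ha]
      | inv a _ ha =>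
        conv_lhs => rw [← ha]
        rw [Matrix.mulVec_mulVec, ← Units.val_mul, inv_mul_cancel, Units.val_one, Matrix.one_mulVec]
    have hbig₁ : Fintype.card ι - 6 ≤ Module.finrank F (LinearMap.ker ((z : Matrix ι ι F) - 1).mulVecLin) := by
      have h1 := finrank_inf_ker ((t₂ : Matrix ι ι F) - 1) ((s : Matrix ι ι F) - 1)
      have h2 : LinearMap.ker ((t₂ : Matrix ι ι F) - 1).mulVecLin ⊓ LinearMap.ker ((s : Matrix ι ι F) - 1).mulVecLin ≤
          LinearMap.ker ((z : Matrix ι ι F) - 1).mulVecLin := by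
        rintro v ⟨hv₁, hv₂⟩
        have h3 := hfix z hzc v hv₁ hv₂
        show ((z : Matrix ι ι F) - 1).mulVecLin v = 0
        rw [Matrix.mulVecLin_apply, Matrix.sub_mulVec, Matrix.one_mulVec, h3, sub_self]
      have h3 := Submodule.finrank_mono h2
      omega
    have hbig₂ : Fintype.card ι - 6 ≤ Module.finrank F (LinearMap.ker ((y : Matrix ι ι F) - 1).mulVecLin) := by
      have hk : (x : Matrix ι ι F) * ((y : Matrix ι ι F) - 1) = ((z : Matrix ι ι F) - 1) * (x : Matrix ι ι F) := by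
        rw [hy, Matrix.mul_sub, Matrix.sub_mul, Matrix.mul_one, Matrix.one_mul]
        simp only [Units.val_mul]
        rw [← Matrix.mul_assoc, ← Matrix.mul_assoc, hx1, Matrix.one_mul]
      have h1 := finrank_inf_ker ((t₁ : Matrix ι ι F) - 1) (((x⁻¹ : GL ι F) : Matrix ι ι F) * ((t₂ : Matrix ι ι F) - 1) * (x : Matrix ι ι F))
      have h4 : (((x⁻¹ : GL ι F) : Matrix ι ι F) * ((t₂ : Matrix ι ι F) - 1) * (x : Matrix ι ι F)).rank = ((t₂ : Matrix ι ι F) - 1).rank := by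
        have := rank_conj x⁻¹ ((t₂ : Matrix ι ι F) - 1)
        rwa [inv_inv] at this
      have h2 : LinearMap.ker ((t₁ : Matrix ι ι F) - 1).mulVecLin ⊓ LinearMap.ker (((x⁻¹ : GL ι F) : Matrix ι ι F) * ((t₂ : Matrix ι ι F) - 1) * (x : Matrix ι ι F)).mulVecLin ≤
          LinearMap.ker ((y : Matrix ι ι F) - 1).mulVecLin := by
        rintro v ⟨hv₁, hv₂⟩
        have hv₁' : ((t₁ : Matrix ι ι F) - 1) *ᵥ v = 0 := hv₁
        have hv₂' : (((x⁻¹ : GL ι F) : Matrix ι ι F) * ((t₂ : Matrix ι ι F) - 1) * (x : Matrix ι ι F)) *ᵥ v = 0 := hv₂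
        have h5 : ((t₂ : Matrix ι ι F) - 1) *ᵥ ((x : Matrix ι ι F) *ᵥ v) = 0 := by
          have h6 := congrArg (fun u => (x : Matrix ι ι F) *ᵥ u) hv₂'
          simp only [Matrix.mulVec_zero, Matrix.mulVec_mulVec] at h6
          rwa [← Matrix.mul_assoc, ← Matrix.mul_assoc, hx1, Matrix.one_mul, ← Matrix.mulVec_mulVec] at h6
        have h7 : ((s : Matrix ι ι F) - 1) *ᵥ ((x : Matrix ι ι F) *ᵥ v) = 0 := by
          rw [hsv, Matrix.mulVec_mulVec, Matrix.mul_assoc, Matrix.mul_assoc, hx2, Matrix.mul_one, ← Matrix.mulVec_mulVec, hv₁', Matrix.mulVec_zero]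
        have h8 := hfix z hzc _ h5 h7
        show ((y : Matrix ι ι F) - 1).mulVecLin v = 0
        rw [Matrix.mulVecLin_apply]
        have h9 : (x : Matrix ι ι F) *ᵥ (((y : Matrix ι ι F) - 1) *ᵥ v) = 0 := by
          rw [Matrix.mulVec_mulVec, hk, ← Matrix.mulVec_mulVec, Matrix.sub_mulVec, Matrix.one_mulVec, h8, sub_self]
        have h10 := congrArg (fun u => ((x⁻¹ : GL ι F) : Matrix ι ι F) *ᵥ u) h9
        simp only [Matrix.mulVec_zero, Matrix.mulVec_mulVec] at h10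
        rwa [← Matrix.mul_assoc, hx2, Matrix.one_mul] at h10
      have h3 := Submodule.finrank_mono h2
      omega
    obtain ⟨c, hc, hcz⟩ := hzR
    obtain ⟨d, hd, hdy⟩ := hyR
    have hzr : RatM F₀ (z : Matrix ι ι F) := rat_of_big_fix hc hcz (by omega)
    have hyr : RatM F₀ (y : Matrix ι ι F) := rat_of_big_fix hd hdy (by omega)
    obtain ⟨a', ω', ha', hω', ha'0, hω'0, hBa', hωB', hωa'⟩ := exists_good (hyr.sub ratM_one) (by omega)
    have hA0 : (z : Matrix ι ι F) - 1 ≠ 0 := by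
      intro h
      apply hz1
      apply Units.ext
      rw [Units.val_one]
      exact sub_eq_zero.mp h
    have hk : (x : Matrix ι ι F) * ((y : Matrix ι ι F) - 1) = ((z : Matrix ι ι F) - 1) * (x : Matrix ι ι F) := by
      rw [hy, Matrix.mul_sub, Matrix.sub_mul, Matrix.mul_one, Matrix.one_mul]
      simp only [Units.val_mul]
      rw [← Matrix.mul_assoc, ← Matrix.mul_assoc, hx1, Matrix.one_mul]
    exact hnot (ratScal_of_conj (by omega) hHM hB hx (hzr.sub ratM_one) hk hA0 ha' hω' ha'0 hω'0 hBa' hωB' hωa')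

/-- The subgroup of scalar multiples of rational matrices meets the special linear group in a proper subgroup. -/
theorem exists_not_ratScal [Fintype F] (hn : 2 ≤ Fintype.card ι) {r : ℕ} (hr : r.Prime) (hcard : Fintype.card F = Nat.card F₀ ^ r) :
    ∃ g ∈ specialLinear ι F, g ∉ ratScal F₀ ι := by
  classical
  haveI : Nontrivial ι := Fintype.one_lt_card_iff_nontrivial.mp hn
  obtain ⟨i, j, hij⟩ := exists_pair_ne ι
  obtain ⟨c, hc⟩ : ∃ c : F, c ∉ F₀ := by
    by_contra hcon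
    push Not at hcon
    have h1 : Function.Bijective (Subtype.val : F₀ → F) := ⟨Subtype.val_injective, fun y => ⟨⟨y, hcon y⟩, rfl⟩⟩
    have h2 := Nat.card_congr (Equiv.ofBijective _ h1)
    rw [Nat.card_eq_fintype_card (α := F)] at h2
    rw [h2] at hcard
    have h3 : 1 < Fintype.card F := Fintype.one_lt_card
    have h4 : Fintype.card F ^ 1 < Fintype.card F ^ r := Nat.pow_lt_pow_right h3 hr.one_lt
    rw [pow_one, ← hcard] at h4
    exact lt_irrefl _ h4
  have h0 : (c • (Pi.single j 1 : ι → F)) ⬝ᵥ (Pi.single i 1 : ι → F) = 0 := by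
    rw [smul_dotProduct, e_e_ne hij.symm, smul_zero]
  refine ⟨tv _ _ h0, tv_mem_specialLinear _ _ h0, ?_⟩
  rintro ⟨d, hd, hrat⟩
  have e1 := hrat i j
  have e2 := hrat i i
  have e1' : (tvMat (Pi.single i 1) (c • (Pi.single j 1 : ι → F))) i j = c := by
    simp [tvMat, Matrix.one_apply, hij, vecMulVec_apply]
  have e2' : (tvMat (Pi.single i 1) (c • (Pi.single j 1 : ι → F))) i i = 1 := by
    simp [tvMat, Matrix.one_apply, hij.symm, vecMulVec_apply]
  rw [Matrix.smul_apply, tv_val, e1', smul_eq_mul] at e1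
  rw [Matrix.smul_apply, tv_val, e2', smul_eq_mul, mul_one] at e2
  apply hc
  have : c = d * c * d⁻¹ := by field_simp
  rw [this]
  exact F₀.mul_mem e1 (F₀.inv_mem e2)

/-- The subgroup of scalar multiples of rational matrices meets the special linear group in a maximal subgroup. -/
theorem isMaximal_std [Fintype F] (hn : 13 ≤ Fintype.card ι) {r : ℕ} (hr : r.Prime) (hcard : Fintype.card F = Nat.card F₀ ^ r) :
    IsMaximalIn (specialLinear ι F) (ratScal F₀ ι ⊓ specialLinear ι F) := by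
  constructor
  · refine lt_of_le_of_ne inf_le_right ?_
    intro h
    obtain ⟨g, hg, hg'⟩ := exists_not_ratScal (F₀ := F₀) (ι := ι) (by omega) hr hcard
    rw [← h] at hg
    exact hg' hg.1
  · intro M hHM hMS
    by_cases hB : NoIrr F₀ M
    · left
      exact le_antisymm (le_inf (le_ratScal hn hHM hB) hMS) hHM
    · right
      exact le_antisymm hMS (sl_le_of_not_noIrr (by omega) hHM hr hcard hB)

/-- The general statement by conjugation. -/
theorem isMaximal [Fintype F] (hn : 13 ≤ Fintype.card ι) {r : ℕ} (hr : r.Prime) (hcard : Fintype.card F = Nat.card F₀ ^ r) (P : GL ι F) :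
    IsMaximalIn (specialLinear ι F) (subfieldSubgroup F₀ P ⊓ specialLinear ι F) := by
  haveI hN : (specialLinear ι F).Normal := by
    unfold specialLinear
    infer_instance
  have hSL : (specialLinear ι F).map (MulAut.conj P).toMonoidHom = specialLinear ι F := Subgroup.Normal.map_conj_eq (specialLinear ι F) P
  have hH : subfieldSubgroup F₀ P ⊓ specialLinear ι F = (ratScal F₀ ι ⊓ specialLinear ι F).map (MulAut.conj P).toMonoidHom := by
    rw [Subgroup.map_inf_eq _ _ _ (MulAut.conj P).injective, hSL, subfieldSubgroup, sup_eq_ratScal]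
  rw [hH]
  conv_lhs => rw [← hSL]
  exact isMaximalIn_map_conj P (isMaximal_std hn hr hcard)

end final

end main

end Cfsg.Agent.Lib.ClassMax.SubfieldSL
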