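import Mathlib
import Cfsg.Agent.Lib.ClassMax.SubfieldSL

/-! The dihedral argument for subfield subgroups of classical groups, in a form independent of the group. -/

set_option autoImplicit false

namespace Cfsg.Agent.Lib.ClassMax.SubfieldDih

open Matrix Cfsg.Geo Cfsg.Agent.Lib.ClassMax Cfsg.Agent.Lib.ClassMax.SubfieldCore Cfsg.Agent.Lib.ClassMax.SubfieldSL

variable {F : Type*} [Field F] {ι : Type} [Fintype ι] [DecidableEq ι]

theorem finrank_ker_add_rank (A : Matrix ι ι F) :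
    Module.finrank F (LinearMap.ker A.mulVecLin) + A.rank = Fintype.card ι := by
  have h1 := LinearMap.finrank_range_add_finrank_ker A.mulVecLin
  rw [Module.finrank_fintype_fun_eq_card] at h1
  have h3 : A.rank = Module.finrank F (LinearMap.range A.mulVecLin) := rfl
  omega

/-- The dihedral argument: an overgroup of two rational involutions of different types, in which any element conjugating
a rational involution with a large fixed space to a rational involution is a scalar multiple of a rational matrix,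
consists of scalar multiples of rational matrices. -/
theorem dihedral_main [Fintype F] {F₀ : Subfield F} {M : Subgroup (GL ι F)} {s₀ : ℕ} (hn : 2 * s₀ < Fintype.card ι)
    {t₁ t₂ : GL ι F} (ht₁M : t₁ ∈ M) (ht₂M : t₂ ∈ M) (hr₁ : RatM F₀ (t₁ : Matrix ι ι F)) (hr₂ : RatM F₀ (t₂ : Matrix ι ι F))
    (ht₁ : t₁ * t₁ = 1) (ht₂ : t₂ * t₂ = 1) (h10 : t₁ ≠ 1) (h20 : t₂ ≠ 1)
    (hne : ((t₁ : Matrix ι ι F) - 1).rank ≠ ((t₂ : Matrix ι ι F) - 1).rank)
    (hrk : ((t₁ : Matrix ι ι F) - 1).rank + ((t₂ : Matrix ι ι F) - 1).rank ≤ s₀)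
    (hZ : ∀ x ∈ M, ∀ z y : GL ι F, z ∈ M → y ∈ M → z * z = 1 → y * y = 1 → RatM F₀ (z : Matrix ι ι F) → RatM F₀ (y : Matrix ι ι F) →
      z ≠ 1 → y ≠ 1 → x * y = z * x → Fintype.card ι < 2 * Module.finrank F (LinearMap.ker ((y : Matrix ι ι F) - 1).mulVecLin) →
      x ∈ ratScal F₀ ι) :
    M ≤ ratScal F₀ ι := by
  intro x hx
  by_contra hnot
  have hk₁ := finrank_ker_add_rank ((t₁ : Matrix ι ι F) - 1)
  have hk₂ := finrank_ker_add_rank ((t₂ : Matrix ι ι F) - 1)
  obtain ⟨s, hs⟩ : ∃ s, s = x * t₁ * x⁻¹ := ⟨_, rfl⟩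
  have hss : s * s = 1 := by
    rw [hs]
    calc x * t₁ * x⁻¹ * (x * t₁ * x⁻¹) = x * (t₁ * t₁) * x⁻¹ := by group
      _ = 1 := by rw [ht₁]; group
  have hsM : s ∈ M := hs ▸ M.mul_mem (M.mul_mem hx ht₁M) (M.inv_mem hx)
  have hx1 : (x : Matrix ι ι F) * ((x⁻¹ : GL ι F) : Matrix ι ι F) = 1 := by
    rw [← Units.val_mul, mul_inv_cancel, Units.val_one]
  have hx2 : ((x⁻¹ : GL ι F) : Matrix ι ι F) * (x : Matrix ι ι F) = 1 := by
    rw [← Units.val_mul, inv_mul_cancel, Units.val_one]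
  have hsv : (s : Matrix ι ι F) - 1 = (x : Matrix ι ι F) * ((t₁ : Matrix ι ι F) - 1) * ((x⁻¹ : GL ι F) : Matrix ι ι F) := by
    rw [hs]
    simp only [Units.val_mul]
    rw [Matrix.mul_sub, Matrix.sub_mul, Matrix.mul_one, hx1]
  have hsr : ((s : Matrix ι ι F) - 1).rank = ((t₁ : Matrix ι ι F) - 1).rank := by
    rw [hsv, rank_conj]
  rcases dihedral_dichotomy ht₂ hss with ⟨w, -, hw⟩ | ⟨z, hzc, hz1, hzz, hzt, hzs⟩
  · apply hne
    rw [← hsr, ← hw]
    have h1 : ((w * t₂ * w⁻¹ : GL ι F) : Matrix ι ι F) - 1 = (w : Matrix ι ι F) * ((t₂ : Matrix ι ι F) - 1) * ((w⁻¹ : GL ι F) : Matrix ι ι F) := by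
      have h6 : (w : Matrix ι ι F) * ((w⁻¹ : GL ι F) : Matrix ι ι F) = 1 := by
        rw [← Units.val_mul, mul_inv_cancel, Units.val_one]
      simp only [Units.val_mul]
      rw [Matrix.mul_sub, Matrix.sub_mul, Matrix.mul_one, h6]
    rw [h1, rank_conj]
  · have hzM : z ∈ M := by
      have : Subgroup.closure {t₂, s} ≤ M := by
        rw [Subgroup.closure_le]
        intro y hy
        rcases hy with rfl | hy
        · exact ht₂M
        · rw [Set.mem_singleton_iff] at hy
          rw [hy]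
          exact hsM
      exact this hzc
    -- centralisers
    have hzR : z ∈ ratScal F₀ ι := hZ z hzM t₂ t₂ ht₂M ht₂M ht₂ ht₂ hr₂ hr₂ h20 h20 hzt (by omega)
    obtain ⟨y, hy⟩ : ∃ y, y = x⁻¹ * z * x := ⟨_, rfl⟩
    have hyM : y ∈ M := hy ▸ M.mul_mem (M.mul_mem (M.inv_mem hx) hzM) hx
    have hyt : y * t₁ = t₁ * y := by
      have h1 : x * t₁ = s * x := by
        rw [hs]
        group
      have h2 : t₁ * x⁻¹ = x⁻¹ * s := by
        rw [hs]
        group
      rw [hy]
      calc x⁻¹ * z * x * t₁ = x⁻¹ * z * (x * t₁) := by group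
        _ = x⁻¹ * (z * s) * x := by rw [h1]; group
        _ = x⁻¹ * (s * z) * x := by rw [hzs]
        _ = (x⁻¹ * s) * z * x := by group
        _ = t₁ * (x⁻¹ * z * x) := by rw [← h2]; group
    have hyR : y ∈ ratScal F₀ ι := hZ y hyM t₁ t₁ ht₁M ht₁M ht₁ ht₁ hr₁ hr₁ h10 h10 hyt (by omega)
    -- the group generated by two elements fixes their common fixed vectors
    have hfix : ∀ g ∈ Subgroup.closure {t₂, s}, ∀ v : ι → F, ((t₂ : Matrix ι ι F) - 1) *ᵥ v = 0 → ((s : Matrix ι ι F) - 1) *ᵥ v = 0 →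
        (g : Matrix ι ι F) *ᵥ v = v := by
      intro g hg v hv₁ hv₂
      rw [Matrix.sub_mulVec, Matrix.one_mulVec, sub_eq_zero] at hv₁ hv₂
      induction hg using Subgroup.closure_induction with
      | mem y hy =>
        rcases hy with rfl | hy
        · exact hv₁
        · rw [Set.mem_singleton_iff] at hy
          rw [hy]
          exact hv₂
      | one => simp
      | mul a b _ _ ha hb => rw [Units.val_mul, ← Matrix.mulVec_mulVec, hb, ha]
      | inv a _ ha =>
        conv_lhs => rw [← ha]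
        rw [Matrix.mulVec_mulVec, ← Units.val_mul, inv_mul_cancel, Units.val_one, Matrix.one_mulVec]
    have hbig₁ : Fintype.card ι - s₀ ≤ Module.finrank F (LinearMap.ker ((z : Matrix ι ι F) - 1).mulVecLin) := by
      have h1 := finrank_inf_ker ((t₂ : Matrix ι ι F) - 1) ((s : Matrix ι ι F) - 1)
      have h2 : LinearMap.ker ((t₂ : Matrix ι ι F) - 1).mulVecLin ⊓ LinearMap.ker ((s : Matrix ι ι F) - 1).mulVecLin ≤
          LinearMap.ker ((z : Matrix ι ι F) - 1).mulVecLin := by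
        rintro v ⟨hv₁, hv₂⟩
        have h3 := hfix z hzc v hv₁ hv₂
        show ((z : Matrix ι ι F) - 1).mulVecLin v = 0
        rw [Matrix.mulVecLin_apply, Matrix.sub_mulVec, Matrix.one_mulVec, h3, sub_self]
      have h3 := Submodule.finrank_mono h2
      omega
    have hbig₂ : Fintype.card ι - s₀ ≤ Module.finrank F (LinearMap.ker ((y : Matrix ι ι F) - 1).mulVecLin) := by
      have hk : (x : Matrix ι ι F) * ((y : Matrix ι ι F) - 1) = ((z : Matrix ι ι F) - 1) * (x : Matrix ι ι F) := by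
        rw [hy, Matrix.mul_sub, Matrix.sub_mul, Matrix.mul_one, Matrix.one_mul]
        simp only [Units.val_mul]
        rw [← Matrix.mul_assoc, ← Matrix.mul_assoc, hx1, Matrix.one_mul]
      have h1 := finrank_inf_ker ((t₁ : Matrix ι ι F) - 1) (((x⁻¹ : GL ι F) : Matrix ι ι F) * ((t₂ : Matrix ι ι F) - 1) * (x : Matrix ι ι F))
      have h4 : (((x⁻¹ : GL ι F) : Matrix ι ι F) * ((t₂ : Matrix ι ι F) - 1) * (x : Matrix ι ι F)).rank = ((t₂ : Matrix ι ι F) - 1).rank := by
        have := rank_conj x⁻¹ ((t₂ : Matrix ι ι F) - 1)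
        rwa [inv_inv] at this
      have h2 : LinearMap.ker ((t₁ : Matrix ι ι F) - 1).mulVecLin ⊓ LinearMap.ker (((x⁻¹ : GL ι F) : Matrix ι ι F) * ((t₂ : Matrix ι ι F) - 1) * (x : Matrix ι ι F)).mulVecLin ≤
          LinearMap.ker ((y : Matrix ι ι F) - 1).mulVecLin := by
        rintro v ⟨hv₁, hv₂⟩
        have hv₁' : ((t₁ : Matrix ι ι F) - 1) *ᵥ v = 0 := hv₁
        have hv₂' : (((x⁻¹ : GL ι F) : Matrix ι ι F) * ((t₂ : Matrix ι ι F) - 1) * (x : Matrix ι ι F)) *ᵥ v = 0 := hv₂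
        have h5 : ((t₂ : Matrix ι ι F) - 1) *ᵥ ((x : Matrix ι ι F) *ᵥ v) = 0 := by
          have h6 := congrArg (fun u => (x : Matrix ι ι F) *ᵥ u) hv₂'
          simp only [Matrix.mulVec_zero, Matrix.mulVec_mulVec] at h6
          rwa [← Matrix.mul_assoc, ← Matrix.mul_assoc, hx1, Matrix.one_mul, ← Matrix.mulVec_mulVec] at h6
        have h7 : ((s : Matrix ι ι F) - 1) *ᵥ ((x : Matrix ι ι F) *ᵥ v) = 0 := by
          rw [hsv, Matrix.mulVec_mulVec, Matrix.mul_assoc, Matrix.mul_assoc, hx2, Matrix.mul_one, ← Matrix.mulVec_mulVec, hv₁', Matrix.mulVec_zero]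
        have h8 := hfix z hzc _ h5 h7
        show ((y : Matrix ι ι F) - 1).mulVecLin v = 0
        rw [Matrix.mulVecLin_apply]
        have h9 : (x : Matrix ι ι F) *ᵥ (((y : Matrix ι ι F) - 1) *ᵥ v) = 0 := by
          rw [Matrix.mulVec_mulVec, hk, ← Matrix.mulVec_mulVec, Matrix.sub_mulVec, Matrix.one_mulVec, h8, sub_self]
        have h10 := congrArg (fun u => ((x⁻¹ : GL ι F) : Matrix ι ι F) *ᵥ u) h9
        simp only [Matrix.mulVec_zero, Matrix.mulVec_mulVec] at h10
        rwa [← Matrix.mul_assoc, hx2, Matrix.one_mul] at h10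
      have h3 := Submodule.finrank_mono h2
      omega
    obtain ⟨c, hc, hcz⟩ := hzR
    obtain ⟨d, hd, hdy⟩ := hyR
    have hzr : RatM F₀ (z : Matrix ι ι F) := rat_of_big_fix hc hcz (by omega)
    have hyr : RatM F₀ (y : Matrix ι ι F) := rat_of_big_fix hd hdy (by omega)
    have hyy : y * y = 1 := by
      rw [hy]
      calc x⁻¹ * z * x * (x⁻¹ * z * x) = x⁻¹ * (z * z) * x := by group
        _ = 1 := by rw [hzz]; group
    have hy1 : y ≠ 1 := by
      intro h
      apply hz1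
      rw [hy] at h
      calc z = x * (x⁻¹ * z * x) * x⁻¹ := by group
        _ = 1 := by rw [h]; group
    have hxy : x * y = z * x := by
      rw [hy]; group
    exact hnot (hZ x hx z y hzM hyM hzz hyy hzr hyr hz1 hy1 hxy (by omega))

/-- A rational matrix with a large kernel has a rational vector in the kernel. -/
theorem exists_rat_ker {F₀ : Subfield F} {B : Matrix ι ι F} (hB : RatM F₀ B) (h : 2 ≤ Module.finrank F (LinearMap.ker B.mulVecLin)) :
    ∃ a : ι → F, RatV F₀ a ∧ a ≠ 0 ∧ B *ᵥ a = 0 := by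
  obtain ⟨a', -, ha', -, ha0, -, hBa, -, -⟩ := exists_good hB h
  exact ⟨a', ha', ha0, hBa⟩

/-- A vector which is a scalar multiple of a rational vector. -/
def Pt (F₀ : Subfield F) (a : ι → F) : Prop := ∃ d : F, d ≠ 0 ∧ RatV F₀ (d • a)

theorem Pt_zero (F₀ : Subfield F) : Pt F₀ (0 : ι → F) := ⟨1, one_ne_zero, by rw [smul_zero]; exact ratV_zero⟩

/-- Two independent rational vectors are separated by a rational functional. -/
theorem exists_sep {F₀ : Subfield F} {r s : ι → F} (hr : RatV F₀ r) (hs : RatV F₀ s) (hs0 : s ≠ 0) (hind : ∀ c : F, r ≠ c • s) :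
    ∃ ω : ι → F, RatV F₀ ω ∧ ω ⬝ᵥ s = 0 ∧ ω ⬝ᵥ r ≠ 0 := by
  obtain ⟨k, hk⟩ : ∃ k, s k ≠ 0 := by
    by_contra hcon
    push Not at hcon
    exact hs0 (funext hcon)
  by_contra hcon
  push Not at hcon
  apply hind (r k / s k)
  funext l
  have h1 := hcon (s k • Pi.single l 1 - s l • Pi.single k 1)
    (((ratV_single l).smul (hs k)).sub ((ratV_single k).smul (hs l)))
    (by
      rw [sub_dotProduct, smul_dotProduct, smul_dotProduct, single_one_dotProduct, single_one_dotProduct, smul_eq_mul, smul_eq_mul]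
      ring)
  rw [sub_dotProduct, smul_dotProduct, smul_dotProduct, single_one_dotProduct, single_one_dotProduct, smul_eq_mul, smul_eq_mul, sub_eq_zero] at h1
  rw [Pi.smul_apply, smul_eq_mul]
  field_simp
  linear_combination h1

/-- An element mapping rational vectors to scalar multiples of rational vectors is a scalar multiple of a rational matrix. -/
theorem ratScal_of_pt {F₀ : Subfield F} {x : GL ι F} (h : ∀ u : ι → F, RatV F₀ u → u ≠ 0 → Pt F₀ ((x : Matrix ι ι F) *ᵥ u)) :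
    x ∈ ratScal F₀ ι := by
  by_cases hι : Nonempty ι
  · obtain ⟨i₀⟩ := hι
    choose d hd hr using fun i : ι => h (Pi.single i 1) (ratV_single i) (e_ne_zero i)
    have hratio : ∀ i, d i₀ * (d i)⁻¹ ∈ F₀ := by
      intro i
      by_cases hi : i = i₀
      · rw [hi, mul_inv_cancel₀ (hd i₀)]
        exact F₀.one_mem
      have hu0 : (Pi.single i₀ 1 + Pi.single i 1 : ι → F) ≠ 0 := by
        intro h0
        have := congrFun h0 i₀
        simp [Pi.single_eq_of_ne (Ne.symm hi)] at this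
      obtain ⟨d', hd', ht⟩ := h _ ((ratV_single i₀).add (ratV_single i)) hu0
      obtain ⟨r, hrd⟩ : ∃ r, r = d i₀ • ((x : Matrix ι ι F) *ᵥ Pi.single i₀ 1) := ⟨_, rfl⟩
      obtain ⟨s, hsd⟩ : ∃ s, s = d i • ((x : Matrix ι ι F) *ᵥ Pi.single i 1) := ⟨_, rfl⟩
      have hrr : RatV F₀ r := hrd ▸ hr i₀
      have hsr : RatV F₀ s := hsd ▸ hr i
      have hxi : ((x : Matrix ι ι F) *ᵥ Pi.single i₀ 1) = (d i₀)⁻¹ • r := by
        rw [hrd, smul_smul, inv_mul_cancel₀ (hd i₀), one_smul]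
      have hxj : ((x : Matrix ι ι F) *ᵥ Pi.single i 1) = (d i)⁻¹ • s := by
        rw [hsd, smul_smul, inv_mul_cancel₀ (hd i), one_smul]
      have hteq : d' • ((x : Matrix ι ι F) *ᵥ (Pi.single i₀ 1 + Pi.single i 1)) = (d' * (d i₀)⁻¹) • r + (d' * (d i)⁻¹) • s := by
        rw [Matrix.mulVec_add, hxi, hxj, smul_add, smul_smul, smul_smul]
      have hs0 : s ≠ 0 := by
        rw [hsd]
        exact smul_ne_zero (hd i) (mulVec_ne_zero x (e_ne_zero i))
      have hr0 : r ≠ 0 := by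
        rw [hrd]
        exact smul_ne_zero (hd i₀) (mulVec_ne_zero x (e_ne_zero i₀))
      have hind : ∀ c : F, r ≠ c • s := by
        intro c he
        have h1 : (x : Matrix ι ι F) *ᵥ (d i₀ • Pi.single i₀ 1 - (c * d i) • Pi.single i 1) = 0 := by
          rw [Matrix.mulVec_sub, Matrix.mulVec_smul, Matrix.mulVec_smul, ← hrd, he, hsd, smul_smul, sub_self]
        by_cases h2 : d i₀ • (Pi.single i₀ 1 : ι → F) - (c * d i) • Pi.single i 1 = 0
        · have := congrFun h2 i₀
          simp [Pi.single_eq_of_ne (Ne.symm hi), hd i₀] at this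
        · exact mulVec_ne_zero x h2 h1
      have hind' : ∀ c : F, s ≠ c • r := by
        intro c he
        have hc : c ≠ 0 := by
          rintro rfl
          rw [zero_smul] at he
          exact hs0 he
        apply hind c⁻¹
        rw [he, smul_smul, inv_mul_cancel₀ hc, one_smul]
      obtain ⟨ω, hω, hωs, hωr⟩ := exists_sep hrr hsr hs0 hind
      obtain ⟨ω', hω', hωr', hωs'⟩ := exists_sep hsr hrr hr0 hind'
      have h1 : (d' * (d i₀)⁻¹) * (ω ⬝ᵥ r) ∈ F₀ := by
        have := hω.dot ht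
        rw [hteq, dotProduct_add, dotProduct_smul, dotProduct_smul, hωs, smul_zero, add_zero, smul_eq_mul] at this
        exact this
      have h2 : (d' * (d i)⁻¹) * (ω' ⬝ᵥ s) ∈ F₀ := by
        have := hω'.dot ht
        rw [hteq, dotProduct_add, dotProduct_smul, dotProduct_smul, hωr', smul_zero, zero_add, smul_eq_mul] at this
        exact this
      have h3 : d' * (d i₀)⁻¹ ∈ F₀ := by
        have e : d' * (d i₀)⁻¹ = ((d' * (d i₀)⁻¹) * (ω ⬝ᵥ r)) * (ω ⬝ᵥ r)⁻¹ := by
          field_simp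
        rw [e]
        exact F₀.mul_mem h1 (F₀.inv_mem (hω.dot hrr))
      have h4 : d' * (d i)⁻¹ ∈ F₀ := by
        have e : d' * (d i)⁻¹ = ((d' * (d i)⁻¹) * (ω' ⬝ᵥ s)) * (ω' ⬝ᵥ s)⁻¹ := by
          field_simp
        rw [e]
        exact F₀.mul_mem h2 (F₀.inv_mem (hω'.dot hsr))
      have e : d i₀ * (d i)⁻¹ = (d' * (d i)⁻¹) * (d' * (d i₀)⁻¹)⁻¹ := by
        have := hd i₀
        have := hd i
        field_simp
      rw [e]
      exact F₀.mul_mem h4 (F₀.inv_mem h3)
    refine ⟨d i₀, hd i₀, ?_⟩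
    intro a i
    have h1 := hr i a
    rw [Pi.smul_apply, Matrix.mulVec_single_one, smul_eq_mul, Matrix.col_apply] at h1
    rw [Matrix.smul_apply, smul_eq_mul]
    have e : d i₀ * (x : Matrix ι ι F) a i = (d i₀ * (d i)⁻¹) * (d i * (x : Matrix ι ι F) a i) := by
      have := hd i
      field_simp
    rw [e]
    exact F₀.mul_mem (hratio i) h1
  · rw [not_nonempty_iff] at hι
    exact ⟨1, one_ne_zero, fun i => hι.elim i⟩

end Cfsg.Agent.Lib.ClassMax.SubfieldDih
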