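import Mathlib
import Cfsg.Prelude.Def_GeometricClasses
import Cfsg.Agent.Lib.ClassMax.SubfieldDih

/-! General lemmas for subfield subgroups: ratios of scales, rational kernels, ranks from spanning families. -/

set_option autoImplicit false

namespace Cfsg.Agent.Lib.ClassMax.SubfieldGen

open Matrix Cfsg.Geo Cfsg.Agent.Lib.ClassMax Cfsg.Agent.Lib.ClassMax.SubfieldCore Cfsg.Agent.Lib.ClassMax.SubfieldSL
open Cfsg.Agent.Lib.ClassMax.SubfieldDih

variable {F : Type*} [Field F] {ι : Type} [Fintype ι] [DecidableEq ι] {F₀ : Subfield F}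

/-- Scales of two independent vectors whose sum has a scale too have rational ratio. -/
theorem ratio_of_rat {A B : ι → F} {d₁ d₂ d' : F} (hd₁ : d₁ ≠ 0) (hd₂ : d₂ ≠ 0) (hd' : d' ≠ 0) (h₁ : RatV F₀ (d₁ • A)) (h₂ : RatV F₀ (d₂ • B))
    (h₃ : RatV F₀ (d' • (A + B))) (hA0 : A ≠ 0) (hB0 : B ≠ 0) (hind : ∀ c : F, A ≠ c • B) : d₁ * d₂⁻¹ ∈ F₀ := by
  obtain ⟨r, hrd⟩ : ∃ r, r = d₁ • A := ⟨_, rfl⟩
  obtain ⟨s, hsd⟩ : ∃ s, s = d₂ • B := ⟨_, rfl⟩
  rw [← hrd] at h₁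
  rw [← hsd] at h₂
  have hA : A = d₁⁻¹ • r := by rw [hrd, smul_smul, inv_mul_cancel₀ hd₁, one_smul]
  have hB : B = d₂⁻¹ • s := by rw [hsd, smul_smul, inv_mul_cancel₀ hd₂, one_smul]
  have hteq : d' • (A + B) = (d' * d₁⁻¹) • r + (d' * d₂⁻¹) • s := by
    rw [hA, hB, smul_add, smul_smul, smul_smul]
  have hs0 : s ≠ 0 := hsd ▸ smul_ne_zero hd₂ hB0
  have hr0 : r ≠ 0 := hrd ▸ smul_ne_zero hd₁ hA0
  have hind₁ : ∀ c : F, r ≠ c • s := by
    intro c he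
    apply hind (d₁⁻¹ * c * d₂)
    rw [hA, he, hsd, smul_smul, smul_smul]
  have hind₂ : ∀ c : F, s ≠ c • r := by
    intro c he
    have hc : c ≠ 0 := by
      rintro rfl
      rw [zero_smul] at he
      exact hs0 he
    apply hind₁ c⁻¹
    rw [he, smul_smul, inv_mul_cancel₀ hc, one_smul]
  obtain ⟨ω, hω, hωs, hωr⟩ := exists_sep h₁ h₂ hs0 hind₁
  obtain ⟨ω', hω', hωr', hωs'⟩ := exists_sep h₂ h₁ hr0 hind₂
  have h1 : (d' * d₁⁻¹) * (ω ⬝ᵥ r) ∈ F₀ := by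
    have := hω.dot h₃
    rw [hteq, dotProduct_add, dotProduct_smul, dotProduct_smul, hωs, smul_zero, add_zero, smul_eq_mul] at this
    exact this
  have h2 : (d' * d₂⁻¹) * (ω' ⬝ᵥ s) ∈ F₀ := by
    have := hω'.dot h₃
    rw [hteq, dotProduct_add, dotProduct_smul, dotProduct_smul, hωr', smul_zero, zero_add, smul_eq_mul] at this
    exact this
  have h3 : d' * d₁⁻¹ ∈ F₀ := by
    have e : d' * d₁⁻¹ = ((d' * d₁⁻¹) * (ω ⬝ᵥ r)) * (ω ⬝ᵥ r)⁻¹ := by
      field_simp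
    rw [e]
    exact F₀.mul_mem h1 (F₀.inv_mem (hω.dot h₁))
  have h4 : d' * d₂⁻¹ ∈ F₀ := by
    have e : d' * d₂⁻¹ = ((d' * d₂⁻¹) * (ω' ⬝ᵥ s)) * (ω' ⬝ᵥ s)⁻¹ := by
      field_simp
    rw [e]
    exact F₀.mul_mem h2 (F₀.inv_mem (hω'.dot h₂))
  have e : d₁ * d₂⁻¹ = (d' * d₂⁻¹) * (d' * d₁⁻¹)⁻¹ := by
    field_simp
  rw [e]
  exact F₀.mul_mem h4 (F₀.inv_mem h3)

/-- A rational matrix with a kernel of dimension at least two has two independent rational vectors in the kernel. -/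
theorem exists_rat_ker₂ [Fintype F] {B : Matrix ι ι F} (hB : RatM F₀ B) (h : 2 ≤ Module.finrank F (LinearMap.ker B.mulVecLin)) :
    ∃ v₁ v₂ : ι → F, RatV F₀ v₁ ∧ RatV F₀ v₂ ∧ B *ᵥ v₁ = 0 ∧ B *ᵥ v₂ = 0 ∧ v₁ ≠ 0 ∧ ∀ c : F, v₂ ≠ c • v₁ := by
  classical
  letI : Fintype F₀ := Fintype.ofFinite _
  obtain ⟨B₀, hB₀⟩ : ∃ B₀ : Matrix ι ι F₀, B₀.map F₀.subtype = B := ⟨liftM B hB, map_liftM B hB⟩
  have hr : B₀.rank = B.rank := by
    rw [← hB₀, rank_map_subtype]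
  have hk₁ := finrank_ker_add_rank B
  have hk₂ : Module.finrank F₀ (LinearMap.ker B₀.mulVecLin) + B₀.rank = Fintype.card ι := finrank_ker_add_rank B₀
  have hk : 2 ≤ Module.finrank F₀ (LinearMap.ker B₀.mulVecLin) := by omega
  have hcv : ∀ a : ι → F₀, B₀ *ᵥ a = 0 → B *ᵥ (fun i => (a i : F)) = 0 := by
    intro a ha
    rw [← hB₀]
    funext i
    have h3 : (B₀ *ᵥ a) i = 0 := congrFun ha i
    have h4 := congrArg Subtype.val h3
    simpa [Matrix.mulVec, dotProduct] using h4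
  haveI : Nontrivial ↥(LinearMap.ker B₀.mulVecLin) := by
    apply Module.nontrivial_of_finrank_pos (R := F₀)
    omega
  obtain ⟨⟨a₁, ha₁⟩, ha₁0⟩ := exists_ne (0 : ↥(LinearMap.ker B₀.mulVecLin))
  have ha₁0' : a₁ ≠ 0 := fun h => ha₁0 (Subtype.ext h)
  have hlt : Submodule.span F₀ {a₁} < LinearMap.ker B₀.mulVecLin := by
    refine lt_of_le_of_ne ?_ ?_
    · rw [Submodule.span_singleton_le_iff_mem]
      exact ha₁
    · intro he
      have h1 := finrank_span_singleton (K := F₀) ha₁0'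
      rw [he] at h1
      omega
  obtain ⟨a₂, ha₂, ha₂n⟩ := SetLike.exists_of_lt hlt
  have ha₁' : B₀ *ᵥ a₁ = 0 := ha₁
  have ha₂' : B₀ *ᵥ a₂ = 0 := ha₂
  refine ⟨fun i => (a₁ i : F), fun i => (a₂ i : F), fun i => (a₁ i).2, fun i => (a₂ i).2, hcv _ ha₁', hcv _ ha₂', ?_, ?_⟩
  · intro h0
    exact ha₁0' (funext fun j => Subtype.ext (congrFun h0 j))
  · intro c he
    apply ha₂n
    obtain ⟨i, hi⟩ : ∃ i, a₁ i ≠ 0 := by
      by_contra hcon
      push Not at hcon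
      exact ha₁0' (funext hcon)
    have hi' : (a₁ i : F) ≠ 0 := fun h => hi (Subtype.ext h)
    have hc : c ∈ F₀ := by
      have h1 := congrFun he i
      simp only [Pi.smul_apply, smul_eq_mul] at h1
      have h2 : c = (a₂ i : F) * (a₁ i : F)⁻¹ := by
        rw [h1]
        field_simp
      rw [h2]
      exact F₀.mul_mem (a₂ i).2 (F₀.inv_mem (a₁ i).2)
    rw [Submodule.mem_span_singleton]
    refine ⟨⟨c, hc⟩, ?_⟩
    funext j
    apply Subtype.ext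
    have h1 := congrFun he j
    simp only [Pi.smul_apply, smul_eq_mul] at h1
    simp only [Pi.smul_apply, smul_eq_mul, Subfield.coe_mul]
    exact h1.symm

/-- The rank of a matrix whose image is spanned by an independent family. -/
theorem rank_of_family {k : ℕ} {A : Matrix ι ι F} (a : Fin k → ι → F) (hli : LinearIndependent F a)
    (h1 : ∀ v, A *ᵥ v ∈ Submodule.span F (Set.range a)) (h2 : ∀ i, ∃ v, A *ᵥ v = a i) : A.rank = k := by
  have h3 : LinearMap.range A.mulVecLin = Submodule.span F (Set.range a) := by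
    apply le_antisymm
    · rintro _ ⟨v, rfl⟩
      exact h1 v
    · rw [Submodule.span_le]
      rintro _ ⟨i, rfl⟩
      obtain ⟨v, hv⟩ := h2 i
      exact ⟨v, hv⟩
  show Module.finrank F (LinearMap.range A.mulVecLin) = k
  rw [h3, finrank_span_eq_card hli]
  simp

end Cfsg.Agent.Lib.ClassMax.SubfieldGen
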