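import Mathlib
import Cfsg.Prelude.Def_GeometricClasses
import Cfsg.Agent.Lib.ClassMax.SubfieldDih
import Cfsg.Agent.Lib.ClassMax.SpPair

/-! The subfield subgroups of the symplectic group are maximal. -/

set_option autoImplicit false

namespace Cfsg.Agent.Lib.ClassMax.SubfieldSp

open Matrix Cfsg.Geo Cfsg.Agent.Lib.ClassMax Cfsg.Agent.Lib.KnownSimple Cfsg.Agent.Lib.Classical
open Cfsg.Agent.Lib.ClassMax.SubfieldCore Cfsg.Agent.Lib.ClassMax.SubfieldDih Cfsg.Agent.Lib.ClassMax.SpPair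

variable {m : ℕ} {F : Type*} [Field F]

local notation "VV" => (Fin m ⊕ Fin m → F)
local notation "MM" => Matrix (Fin m ⊕ Fin m) (Fin m ⊕ Fin m) F
local notation "GG" => GL (Fin m ⊕ Fin m) F
local notation "ff" => Cfsg.sympForm m F

section coord

theorem e_ne_zero' (s : Fin m ⊕ Fin m) : (Pi.single s 1 : Fin m ⊕ Fin m → F) ≠ 0 := SubfieldSL.e_ne_zero s

/-- The sign in the standard form. -/
def sg (s : Fin m ⊕ Fin m) : F := Sum.elim (fun _ => 1) (fun _ => -1) s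

/-- The hyperbolic plane of a coordinate. -/
def pl (s : Fin m ⊕ Fin m) : Fin m := Sum.elim id id s

theorem pl_swap (s : Fin m ⊕ Fin m) : pl s.swap = pl s := by
  rcases s with i | i <;> rfl

theorem swap_ne (s : Fin m ⊕ Fin m) : s.swap ≠ s := by
  rcases s with i | i <;> simp

theorem sg_mul_self (s : Fin m ⊕ Fin m) : (sg s : F) * sg s = 1 := by
  rcases s with i | i <;> simp [sg]

theorem sg_ne_zero (s : Fin m ⊕ Fin m) : (sg s : F) ≠ 0 := by
  rcases s with i | i <;> simp [sg]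

theorem sg_mem (F₀ : Subfield F) (s : Fin m ⊕ Fin m) : (sg s : F) ∈ F₀ := by
  rcases s with i | i
  · exact F₀.one_mem
  · exact F₀.neg_mem F₀.one_mem

theorem ff_e_right (u : Fin m ⊕ Fin m → F) (s : Fin m ⊕ Fin m) : ff u (Pi.single s 1) = sg s * u s.swap := by
  rcases s with i | i
  · rw [sympForm_right_single_inl]; simp [sg]
  · rw [sympForm_right_single_inr]; simp [sg]

theorem ff_e_left (v : Fin m ⊕ Fin m → F) (s : Fin m ⊕ Fin m) : ff (Pi.single s 1) v = - (sg s * v s.swap) := by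
  rw [sympForm_swap, ff_e_right]

theorem ff_ee_ne {s t : Fin m ⊕ Fin m} (h : pl s ≠ pl t) : ff (Pi.single s 1) (Pi.single t 1) = 0 := by
  rw [ff_e_right, Pi.single_eq_of_ne, mul_zero]
  intro h'
  apply h
  rw [← h', pl_swap]

/-- A vector pairing to one with a coordinate vector. -/
theorem ff_partner (t : Fin m ⊕ Fin m) : ff ((sg t : F) • Pi.single t.swap 1) (Pi.single t 1) = 1 := by
  rw [ff_e_right, Pi.smul_apply, Pi.single_eq_same, smul_eq_mul, mul_one, sg_mul_self]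

theorem ff_partner' (t : Fin m ⊕ Fin m) : ff (Pi.single t 1) (-((sg t : F) • Pi.single t.swap 1)) = 1 := by
  have h : (-((sg t : F) • Pi.single t.swap 1) : Fin m ⊕ Fin m → F) = ((-1 : F)) • ((sg t : F) • Pi.single t.swap 1) := by
    simp
  rw [h, sympForm_smul_right, sympForm_swap, ff_partner]
  ring

theorem ff_rat {F₀ : Subfield F} {u v : Fin m ⊕ Fin m → F} (hu : RatV F₀ u) (hv : RatV F₀ v) : ff u v ∈ F₀ := by
  rw [sympForm_apply]
  exact F₀.sum_mem fun i _ => F₀.sub_mem (F₀.mul_mem (hu _) (hv _)) (F₀.mul_mem (hu _) (hv _))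

theorem ratM_of_mulVec {ι : Type} [Fintype ι] [DecidableEq ι] {F₀ : Subfield F} {A : Matrix ι ι F} (h : ∀ j, RatV F₀ (A *ᵥ Pi.single j 1)) : RatM F₀ A := by
  intro i j
  have := h j i
  rwa [Matrix.mulVec_single_one] at this

theorem stv_rat {F₀ : Subfield F} {x : Fin m ⊕ Fin m → F} {c : F} (hx : RatV F₀ x) (hc : c ∈ F₀) : RatM F₀ ((stv x c : GG) : MM) := by
  apply ratM_of_mulVec
  intro j
  rw [stv_apply]
  exact (ratV_single j).add (hx.smul (F₀.mul_mem hc (ff_rat (ratV_single j) hx)))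

theorem EE_rat {F₀ : Subfield F} {a b : Fin m ⊕ Fin m → F} (ha : RatV F₀ a) (hb : RatV F₀ b) : RatM F₀ ((EE a b : GG) : MM) := by
  unfold EE
  rw [Units.val_mul, Units.val_mul]
  exact ((stv_rat (ha.add hb) F₀.one_mem).mul (stv_rat ha (F₀.neg_mem F₀.one_mem))).mul (stv_rat hb (F₀.neg_mem F₀.one_mem))

theorem mem_of_rat {F₀ : Subfield F} {M : Subgroup GG} (hHM : ratScal F₀ (Fin m ⊕ Fin m) ⊓ Cfsg.spGL m F ≤ M) {g : GG} (hg : RatM F₀ (g : MM))
    (hs : g ∈ Cfsg.spGL m F) : g ∈ M :=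
  hHM ⟨⟨1, one_ne_zero, by rwa [one_smul]⟩, hs⟩

theorem EE_symm {a b : Fin m ⊕ Fin m → F} (h : ff a b = 0) : EE a b = EE b a := by
  apply gl_ext_mulVec
  intro v
  rw [EE_apply h, EE_apply (by rw [sympForm_swap, h, neg_zero])]
  abel

theorem EE_smul_move {a b : Fin m ⊕ Fin m → F} (h : ff a b = 0) (c : F) : EE (c • a) b = EE a (c • b) := by
  apply gl_ext_mulVec
  intro v
  rw [EE_apply (by rw [sympForm_smul_left, h, mul_zero]), EE_apply (by rw [sympForm_smul_right, h, mul_zero]),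
    sympForm_smul_right, sympForm_smul_right]
  module

end coord

section heis

/-- An element of the unipotent radical of the stabiliser of a point. -/
noncomputable def QQ (b x : Fin m ⊕ Fin m → F) (τ : F) : GG := EE x b * stv b τ

theorem QQ_apply {b x : Fin m ⊕ Fin m → F} (h : ff x b = 0) (τ : F) (v : Fin m ⊕ Fin m → F) :
    ((QQ b x τ : GG) : MM) *ᵥ v = v + (ff v b) • x + (ff v x + τ * ff v b) • b := by
  unfold QQ
  have h' : ff b x = 0 := by rw [sympForm_swap, h, neg_zero]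
  rw [Units.val_mul, ← Matrix.mulVec_mulVec, EE_apply h, stv_apply]
  simp only [sympForm_add_left, sympForm_smul_left, sympForm_self, h', mul_zero, add_zero]
  module

theorem QQ_mem (b x : Fin m ⊕ Fin m → F) (τ : F) : QQ b x τ ∈ Cfsg.spGL m F :=
  mul_mem (EE_mem _ _) (stv_mem_spGL _ _)

theorem QQ_mul {b x x' : Fin m ⊕ Fin m → F} (h : ff x b = 0) (h' : ff x' b = 0) (τ τ' : F) :
    QQ b x τ * QQ b x' τ' = QQ b (x + x') (τ + τ' + ff x' x) := by
  have hb : ff b x = 0 := by rw [sympForm_swap, h, neg_zero]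
  have hb' : ff b x' = 0 := by rw [sympForm_swap, h', neg_zero]
  apply gl_ext_mulVec
  intro v
  rw [Units.val_mul, ← Matrix.mulVec_mulVec, QQ_apply h', QQ_apply h, QQ_apply (by rw [sympForm_add_left, h, h', add_zero])]
  simp only [sympForm_add_left, sympForm_add_right, sympForm_smul_left, sympForm_self, h, h', hb, hb', mul_zero, add_zero, zero_add]
  module

theorem QQ_zero_zero (b : Fin m ⊕ Fin m → F) : QQ b 0 0 = 1 := by
  apply gl_ext_mulVec
  intro v
  rw [QQ_apply (symp_zero_left sympForm_isSymplectic b)]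
  simp [symp_zero_right sympForm_isSymplectic]

theorem QQ_inv {b x : Fin m ⊕ Fin m → F} (h : ff x b = 0) (τ : F) : (QQ b x τ)⁻¹ = QQ b (-x) (-τ) := by
  have hn : ff (-x) b = 0 := by
    have : (-x : Fin m ⊕ Fin m → F) = (-1 : F) • x := by simp
    rw [this, sympForm_smul_left, h, mul_zero]
  rw [inv_eq_iff_mul_eq_one, QQ_mul h hn]
  have : ff (-x) x = 0 := by
    have : (-x : Fin m ⊕ Fin m → F) = (-1 : F) • x := by simp
    rw [this, sympForm_smul_left, sympForm_self, mul_zero]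
  rw [this, add_neg_cancel, add_zero, add_neg_cancel, QQ_zero_zero]

theorem QQ_conj (g : GG) (hg : g ∈ Cfsg.spGL m F) (b x : Fin m ⊕ Fin m → F) (τ : F) :
    g * QQ b x τ * g⁻¹ = QQ ((g : MM) *ᵥ b) ((g : MM) *ᵥ x) τ := by
  have e : g * QQ b x τ * g⁻¹ = (g * EE x b * g⁻¹) * (g * stv b τ * g⁻¹) := by
    unfold QQ; group
  rw [e, EE_conj g hg, stv_conj g hg]
  rfl

theorem QQ_zero_right (b x : Fin m ⊕ Fin m → F) : QQ b x 0 = EE x b := by
  unfold QQ
  rw [stv_zero_right, mul_one]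

/-- Decomposition of a transvection. -/
theorem stv_add_decomp {a b : Fin m ⊕ Fin m → F} (h : ff a b = 0) (c β : F) :
    stv (a + β • b) c = stv a c * QQ b ((c * β) • a) (c * β ^ 2) := by
  have hb : ff b a = 0 := by rw [sympForm_swap, h, neg_zero]
  apply gl_ext_mulVec
  intro v
  rw [Units.val_mul, ← Matrix.mulVec_mulVec, QQ_apply (by rw [sympForm_smul_left, h, mul_zero]), stv_apply, stv_apply]
  simp only [sympForm_add_left, sympForm_add_right, sympForm_smul_left, sympForm_smul_right, sympForm_self, h, hb, mul_zero, add_zero, zero_add]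
  module

/-- The commutator with an element fixing the centre. -/
theorem QQ_comm {b x : Fin m ⊕ Fin m → F} (h : ff x b = 0) (τ : F) {g : GG} (hg : g ∈ Cfsg.spGL m F) (hgb : (g : MM) *ᵥ b = b) :
    g * QQ b x τ * g⁻¹ * (QQ b x τ)⁻¹ = QQ b ((g : MM) *ᵥ x - x) (ff (-x) ((g : MM) *ᵥ x)) := by
  have h1 : ff ((g : MM) *ᵥ x) b = 0 := by
    have := (mem_spGL_iff g).mp hg x b
    rw [hgb] at this
    rw [this, h]
  have hn : ff (-x) b = 0 := by
    have : (-x : Fin m ⊕ Fin m → F) = (-1 : F) • x := by simp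
    rw [this, sympForm_smul_left, h, mul_zero]
  rw [QQ_conj g hg, hgb, QQ_inv h, QQ_mul h1 hn, add_neg_cancel, zero_add, sub_eq_add_neg]

end heis

section closure

variable {F₀ : Subfield F} {M : Subgroup (GL (Fin m ⊕ Fin m) F)}

/-- A short root element with a coefficient. -/
def Sh (M : Subgroup (GL (Fin m ⊕ Fin m) F)) (κ : F) (s t : Fin m ⊕ Fin m) : Prop :=
  EE (κ • (Pi.single s 1 : Fin m ⊕ Fin m → F)) (Pi.single t 1) ∈ M

theorem ff_smul_ee {s t : Fin m ⊕ Fin m} (h : pl s ≠ pl t) (κ : F) : ff (κ • Pi.single s 1) (Pi.single t 1) = 0 := by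
  rw [sympForm_smul_left, ff_ee_ne h, mul_zero]

theorem Sh_rat (hHM : ratScal F₀ (Fin m ⊕ Fin m) ⊓ Cfsg.spGL m F ≤ M) {c : F} (hc : c ∈ F₀) (s t : Fin m ⊕ Fin m) : Sh M c s t :=
  mem_of_rat hHM (EE_rat ((ratV_single s).smul hc) (ratV_single t)) (EE_mem _ _)

theorem Sh_symm {κ : F} {s t : Fin m ⊕ Fin m} (h : pl s ≠ pl t) (hS : Sh M κ s t) : Sh M κ t s := by
  unfold Sh at hS ⊢
  rw [EE_smul_move (ff_ee_ne h), EE_symm (by rw [sympForm_smul_right, ff_ee_ne h, mul_zero])] at hS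
  exact hS

/-- Coefficients multiply. -/
theorem Sh_mul {κ l : F} {s t u : Fin m ⊕ Fin m} (hst : pl s ≠ pl t) (hus : pl u ≠ pl s) (hut : pl u ≠ pl t)
    (h₁ : Sh M κ s t) (h₂ : Sh M l t.swap u) : Sh M (sg t * l * κ) s u := by
  have htu : pl t.swap ≠ pl u := by rw [pl_swap]; exact hut.symm
  have h₃ : EE (Pi.single u 1) (l • Pi.single t.swap 1) ∈ M := by
    have := Sh_symm (M := M) htu h₂
    unfold Sh at this
    rwa [EE_smul_move (ff_ee_ne htu.symm)] at this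
  have h₄ := EE_comm (a := κ • (Pi.single s 1 : Fin m ⊕ Fin m → F)) (b := Pi.single t 1) (x := Pi.single u 1) (y := l • Pi.single t.swap 1)
    (ff_smul_ee hst κ) (by rw [sympForm_smul_right, ff_ee_ne (by rw [pl_swap]; exact hut), mul_zero]) (ff_smul_ee hus.symm κ)
    (ff_ee_ne hut.symm) (by
      rw [sympForm_smul_left, sympForm_smul_right, ff_ee_ne (by rw [pl_swap]; exact hst), mul_zero, mul_zero])
  have h₅ : EE ((ff (l • Pi.single t.swap 1) (Pi.single t 1)) • κ • (Pi.single s 1 : Fin m ⊕ Fin m → F)) (Pi.single u 1) ∈ M := by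
    rw [← h₄]
    exact M.mul_mem (M.mul_mem (M.mul_mem h₁ h₃) (M.inv_mem h₁)) (M.inv_mem h₃)
  unfold Sh
  convert h₅ using 2
  rw [sympForm_smul_left, ff_e_right, Pi.single_eq_same, mul_one, smul_smul]
  ring_nf

/-- Moving the second coordinate. -/
theorem Sh_move (hHM : ratScal F₀ (Fin m ⊕ Fin m) ⊓ Cfsg.spGL m F ≤ M) {κ : F} {s t u : Fin m ⊕ Fin m} (hst : pl s ≠ pl t) (hus : pl u ≠ pl s) (hut : pl u ≠ pl t)
    (h₁ : Sh M κ s t) : Sh M κ s u := by
  have := Sh_mul hst hus hut h₁ (Sh_rat hHM (sg_mem F₀ t) t.swap u)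
  rwa [sg_mul_self, one_mul] at this

theorem Sh_add {κ l : F} {s t : Fin m ⊕ Fin m} (hst : pl s ≠ pl t) (h₁ : Sh M κ s t) (h₂ : Sh M l s t) : Sh M (κ + l) s t := by
  unfold Sh at h₁ h₂ ⊢
  have h₃ := M.mul_mem h₁ h₂
  rw [← QQ_zero_right, ← QQ_zero_right, QQ_mul (ff_smul_ee hst κ) (ff_smul_ee hst l), sympForm_smul_left, sympForm_smul_right, sympForm_self] at h₃
  simp only [mul_zero, add_zero] at h₃
  rw [← QQ_zero_right, add_smul]
  exact h₃

theorem Sh_neg {κ : F} {s t : Fin m ⊕ Fin m} (hst : pl s ≠ pl t) (h₁ : Sh M κ s t) : Sh M (-κ) s t := by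
  unfold Sh at h₁ ⊢
  have h₃ := M.inv_mem h₁
  rw [← QQ_zero_right, QQ_inv (ff_smul_ee hst κ), neg_zero] at h₃
  rw [← QQ_zero_right, neg_smul]
  exact h₃

theorem exists_pl {S : Finset (Fin m)} (h : S.card < m) : ∃ s : Fin m ⊕ Fin m, pl s ∉ S := by
  have : ∃ i : Fin m, i ∉ S := by
    by_contra hcon
    push Not at hcon
    have h1 : Fintype.card (Fin m) ≤ S.card := Finset.card_le_card (fun x _ => hcon x) |>.trans' (by rw [Finset.card_univ])
    rw [Fintype.card_fin] at h1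
    omega
  obtain ⟨i, hi⟩ := this
  exact ⟨Sum.inl i, hi⟩

theorem Sh_move₂ (hm : 4 ≤ m) (hHM : ratScal F₀ (Fin m ⊕ Fin m) ⊓ Cfsg.spGL m F ≤ M) {κ : F} {s t u : Fin m ⊕ Fin m} (hst : pl s ≠ pl t) (hus : pl u ≠ pl s)
    (h₁ : Sh M κ s t) : Sh M κ s u := by
  obtain ⟨v, hv⟩ := exists_pl (m := m) (S := {pl s, pl t, pl u}) (by
    have := Finset.card_le_three (a := pl s) (b := pl t) (c := pl u)
    omega)
  simp only [Finset.mem_insert, Finset.mem_singleton, not_or] at hv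
  obtain ⟨hv₁, hv₂, hv₃⟩ := hv
  have h₂ := Sh_move hHM hst hv₁ hv₂ h₁
  exact Sh_move hHM (Ne.symm hv₁) hus (Ne.symm hv₃) h₂

theorem Sh_move₃ (hm : 5 ≤ m) (hHM : ratScal F₀ (Fin m ⊕ Fin m) ⊓ Cfsg.spGL m F ≤ M) {κ : F} {s t s' t' : Fin m ⊕ Fin m} (hst : pl s ≠ pl t) (hst' : pl s' ≠ pl t')
    (h₁ : Sh M κ s t) : Sh M κ s' t' := by
  obtain ⟨w, hw⟩ := exists_pl (m := m) (S := {pl s, pl t, pl s', pl t'}) (by
    have := Finset.card_le_four (a := pl s) (b := pl t) (c := pl s') (d := pl t')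
    omega)
  simp only [Finset.mem_insert, Finset.mem_singleton, not_or] at hw
  obtain ⟨hw₁, hw₂, hw₃, hw₄⟩ := hw
  have h₂ := Sh_move hHM hst hw₁ hw₂ h₁
  have h₃ := Sh_symm (Ne.symm hw₁) h₂
  have h₄ := Sh_move₂ (by omega) hHM hw₁ (Ne.symm hw₃) h₃
  have h₅ := Sh_symm hw₃ h₄
  exact Sh_move₂ (by omega) hHM (Ne.symm hw₃) hst'.symm h₅

theorem Sh_sg {κ : F} {s t : Fin m ⊕ Fin m} (hst : pl s ≠ pl t) (r : Fin m ⊕ Fin m) (h₁ : Sh M κ s t) : Sh M (sg r * κ) s t := by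
  rcases r with i | i
  · simpa [sg] using h₁
  · simpa [sg] using Sh_neg hst h₁

/-- An irrational short root coefficient forces all coefficients. -/
theorem Sh_all [Fintype F] (hm : 5 ≤ m) (hHM : ratScal F₀ (Fin m ⊕ Fin m) ⊓ Cfsg.spGL m F ≤ M) {r : ℕ} (hr : r.Prime)
    (hcard : Fintype.card F = Nat.card F₀ ^ r) {s t : Fin m ⊕ Fin m} (hst : pl s ≠ pl t) {κ : F} (hκ : κ ∉ F₀) (hS : Sh M κ s t) :
    ∀ (l : F) (s' t' : Fin m ⊕ Fin m), pl s' ≠ pl t' → Sh M l s' t' := by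
  have hrat : ∀ a ∈ F₀, Sh M a s t := fun a ha => Sh_rat hHM ha s t
  have hmul : ∀ {a b : F}, Sh M a s t → Sh M b s t → Sh M (a * b) s t := by
    intro a b ha hb
    obtain ⟨u, hu⟩ := exists_pl (m := m) (S := {pl s, pl t}) (by
      have := Finset.card_le_two (a := pl s) (b := pl t)
      omega)
    simp only [Finset.mem_insert, Finset.mem_singleton, not_or] at hu
    obtain ⟨hu₁, hu₂⟩ := hu
    have h1 : Sh M (sg t * b) t.swap u := Sh_sg (by rw [pl_swap]; exact (Ne.symm hu₂)) t (Sh_move₃ hm hHM hst (by rw [pl_swap]; exact Ne.symm hu₂) hb)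
    have h2 := Sh_mul hst hu₁ hu₂ ha h1
    have h3 : Sh M (a * b) s u := by
      have e : sg t * (sg t * b) * a = a * b := by
        rw [← mul_assoc, sg_mul_self]
        ring
      rwa [e] at h2
    exact Sh_move₂ (by omega) hHM (Ne.symm hu₁) hst.symm h3
  have hpow : ∀ (x : F) (k : ℕ), Sh M x s t → Sh M (x ^ k) s t := by
    intro x k hx
    induction k with
    | zero =>
      rw [pow_zero]
      exact hrat 1 F₀.one_mem
    | succ k ih =>
      rw [pow_succ]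
      exact hmul ih hx
  let K : Subfield F :=
    { carrier := {x | Sh M x s t}
      mul_mem' := fun {a b} ha hb => hmul ha hb
      one_mem' := hrat 1 F₀.one_mem
      add_mem' := fun {a b} ha hb => Sh_add hst ha hb
      zero_mem' := hrat 0 F₀.zero_mem
      neg_mem' := fun {a} ha => Sh_neg hst ha
      inv_mem' := fun x hx => by
        by_cases hx0 : x = 0
        · rw [hx0, _root_.inv_zero]
          exact hrat 0 F₀.zero_mem
        · have h2 : x⁻¹ = x ^ (Fintype.card F - 2) := by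
            have h3 := FiniteField.pow_card_sub_one_eq_one x hx0
            have h4 : 2 ≤ Fintype.card F := Fintype.one_lt_card
            have h5 : Fintype.card F - 1 = (Fintype.card F - 2) + 1 := by omega
            rw [h5, pow_succ] at h3
            exact (eq_inv_of_mul_eq_one_left h3).symm
          rw [h2]
          exact hpow x _ hx }
  have hK : F₀ ≤ K := fun a ha => hrat a ha
  rcases eq_or_top_of_prime F₀ hr hcard K hK with hK1 | hK1
  · exfalso
    apply hκ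
    rw [← hK1]
    exact hS
  · intro l s' t' hst'
    have : l ∈ K := by
      rw [hK1]
      trivial
    exact Sh_move₃ hm hHM hst hst' this

theorem exists_two_sq [Fintype F] (κ : F) : ∃ μ ν : F, μ ^ 2 + ν ^ 2 = κ := by
  classical
  by_cases hodd : Odd (Fintype.card F)
  · obtain ⟨x, y, h⟩ := QuadOver.exists_sq_sum hodd (-κ) (one_ne_zero (α := F)) (one_ne_zero (α := F))
    exact ⟨x, y, by linear_combination h⟩
  · have h1 : Fintype.card F % 2 = 0 := by
      rcases Nat.even_or_odd (Fintype.card F) with h | h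
      · exact Nat.even_iff.mp h
      · exact absurd h hodd
    obtain ⟨a, ha⟩ := FiniteField.isSquare_of_char_two (FiniteField.even_card_iff_char_two.mpr h1) κ
    exact ⟨a, 0, by rw [ha]; ring⟩

/-- All short root elements force all coordinate long root elements. -/
theorem centre_of_all [Fintype F] (hm : 2 ≤ m) (hHM : ratScal F₀ (Fin m ⊕ Fin m) ⊓ Cfsg.spGL m F ≤ M)
    (hall : ∀ (l : F) (s' t' : Fin m ⊕ Fin m), pl s' ≠ pl t' → Sh M l s' t') (s : Fin m ⊕ Fin m) :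
    IsCentre M (Pi.single s 1) := by
  obtain ⟨t, ht⟩ := exists_pl (m := m) (S := {pl s}) (by simp; omega)
  simp only [Finset.mem_singleton] at ht
  have hsq : ∀ μ : F, stv (Pi.single s 1) (μ ^ 2) ∈ M := by
    intro μ
    obtain ⟨u, hu⟩ : ∃ u : Fin m ⊕ Fin m → F, u = (sg t : F) • Pi.single t.swap 1 := ⟨_, rfl⟩
    have hurat : RatV F₀ u := hu ▸ (ratV_single _).smul (sg_mem F₀ t)
    have hu1 : ff u (Pi.single t 1) = 1 := hu ▸ ff_partner t
    have hu0 : ff u (Pi.single s 1) = 0 := by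
      rw [hu, sympForm_smul_left, ff_ee_ne (by rw [pl_swap]; exact ht), mul_zero]
    have hR := hall μ s t (Ne.symm ht)
    unfold Sh at hR
    have hRu : ((EE (μ • Pi.single s 1) (Pi.single t 1) : GG) : MM) *ᵥ u = u + μ • Pi.single s 1 := by
      rw [EE_apply (ff_smul_ee (Ne.symm ht) μ), hu1, sympForm_smul_right, hu0, mul_zero, zero_smul, add_zero, one_smul]
    have h1 : stv u 1 ∈ M := mem_of_rat hHM (stv_rat hurat F₀.one_mem) (stv_mem_spGL _ _)
    have h2 := M.mul_mem (M.mul_mem hR h1) (M.inv_mem hR)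
    rw [stv_conj _ (EE_mem _ _), hRu, stv_add_decomp hu0] at h2
    have h3 := M.mul_mem (M.inv_mem h1) h2
    rw [inv_mul_cancel_left] at h3
    unfold QQ at h3
    have h4 : EE ((1 * μ) • u) (Pi.single s 1) ∈ M := by
      have e : (1 * μ) • u = (μ * sg t) • Pi.single t.swap 1 := by
        rw [hu, smul_smul, one_mul]
      rw [e]
      exact hall _ _ _ (by rw [pl_swap]; exact ht)
    have h5 := M.mul_mem (M.inv_mem h4) h3
    rw [inv_mul_cancel_left, one_mul] at h5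
    exact h5
  intro κ
  obtain ⟨μ, ν, h⟩ := exists_two_sq κ
  rw [← h, ← stv_mul]
  exact M.mul_mem (hsq μ) (hsq ν)

/-- An irrational short root coefficient forces the whole symplectic group. -/
theorem sp_le_of_irr [Fintype F] (hm : 5 ≤ m) (hHM : ratScal F₀ (Fin m ⊕ Fin m) ⊓ Cfsg.spGL m F ≤ M) {r : ℕ} (hr : r.Prime)
    (hcard : Fintype.card F = Nat.card F₀ ^ r) {s t : Fin m ⊕ Fin m} (hst : pl s ≠ pl t) {κ : F} (hκ : κ ∉ F₀) (hS : Sh M κ s t) :
    Cfsg.spGL m F ≤ M := by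
  classical
  have hall := Sh_all hm hHM hr hcard hst hκ hS
  have hc := centre_of_all (by omega) hHM hall
  have hC : ∀ (S : Finset (Fin m ⊕ Fin m)) (x : Fin m ⊕ Fin m → F), (∀ i, i ∉ S → x i = 0) → IsCentre M x := by
    intro S
    induction S using Finset.induction_on with
    | empty =>
      intro x hx
      have : x = 0 := funext fun i => hx i (by simp)
      rw [this]
      exact isCentre_zero M
    | insert a S ha ih =>
      intro x hx
      obtain ⟨x', hx'⟩ : ∃ x', x' = x - (x a) • (Pi.single a 1 : Fin m ⊕ Fin m → F) := ⟨_, rfl⟩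
      have hxe : x = x' + (x a) • (Pi.single a 1 : Fin m ⊕ Fin m → F) := by
        rw [hx', sub_add_cancel]
      have hx'a : x' a = 0 := by
        rw [hx']
        simp
      have hx'S : ∀ i, i ∉ S → x' i = 0 := by
        intro i hi
        by_cases hia : i = a
        · rw [hia]
          exact hx'a
        · rw [hx']
          have h1 : x i = 0 := hx i (by simp [hi, hia])
          simp [h1, Pi.single_eq_of_ne hia]
      have hc' := ih x' hx'S
      rw [hxe]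
      by_cases h0 : ff x' (Pi.single a 1) = 0
      · by_cases hz : x' = 0
        · rw [hz, zero_add]
          exact (hc a).smul _
        · obtain ⟨i, hi⟩ : ∃ i, x' i ≠ 0 := by
            by_contra hcon
            push Not at hcon
            exact hz (funext hcon)
          have hia : i ≠ a := fun h => hi (h ▸ hx'a)
          have hia' : i ≠ a.swap := by
            intro h
            apply hi
            rw [h]
            rw [ff_e_right] at h0
            exact (mul_eq_zero.mp h0).resolve_left (sg_ne_zero a)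
          have hpl : pl a ≠ pl i.swap := by
            rw [pl_swap]
            intro hp
            rcases a with a' | a' <;> rcases i with i' | i' <;> simp only [pl, Sum.elim_inl, Sum.elim_inr, id] at hp <;> subst hp
            · exact hia rfl
            · exact hia' rfl
            · exact hia' rfl
            · exact hia rfl
          have hd : ff x' (Pi.single i.swap 1) ≠ 0 := by
            rw [ff_e_right, Sum.swap_swap]
            exact mul_ne_zero (sg_ne_zero _) hi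
          have hR := hall ((x a) * (ff x' (Pi.single i.swap 1))⁻¹) a i.swap hpl
          unfold Sh at hR
          have := hc'.map (EE_mem _ _) hR
          rw [EE_apply (ff_smul_ee hpl _), sympForm_smul_right, h0, mul_zero, zero_smul, add_zero, smul_smul,
            mul_left_comm, mul_inv_cancel₀ hd, mul_one] at this
          exact this
      · exact hc'.add_smul (hc a) h0 _
  apply spGL_le_of_stv
  intro x c
  exact hC Finset.univ x (fun i hi => absurd (Finset.mem_univ i) hi) c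

end closure

section key

variable {F₀ : Subfield F} {M : Subgroup (GL (Fin m ⊕ Fin m) F)}

/-- No irrational short root element. -/
def NoIrr (F₀ : Subfield F) (M : Subgroup (GL (Fin m ⊕ Fin m) F)) : Prop :=
  ∀ (κ : F) (s t : Fin m ⊕ Fin m), pl s ≠ pl t → Sh M κ s t → κ ∈ F₀

/-- The image of the group in the unipotent radical of the stabiliser of a point, modulo its centre. -/
def AA (M : Subgroup (GL (Fin m ⊕ Fin m) F)) (b x : Fin m ⊕ Fin m → F) : Prop := ff x b = 0 ∧ ∃ τ : F, QQ b x τ ∈ M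

theorem pl_eq_cases {i s : Fin m ⊕ Fin m} (h : pl i = pl s) : i = s ∨ i = s.swap := by
  rcases i with i | i <;> rcases s with s | s <;> simp only [pl, Sum.elim_inl, Sum.elim_inr, id] at h <;> subst h <;> simp

theorem EE_fix {p q b : Fin m ⊕ Fin m → F} (hpq : ff p q = 0) (hp : ff p b = 0) (hq : ff q b = 0) :
    ((EE p q : GG) : MM) *ᵥ b = b := by
  rw [EE_apply hpq, sympForm_swap b q, hq, sympForm_swap b p, hp]
  simp

/-- A commutator with a rational short root element. -/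
theorem QQ_step (hHM : ratScal F₀ (Fin m ⊕ Fin m) ⊓ Cfsg.spGL m F ≤ M) {b x : Fin m ⊕ Fin m → F} (hx : ff x b = 0) {τ : F} (hQ : QQ b x τ ∈ M)
    {p q : Fin m ⊕ Fin m → F} (hpr : RatV F₀ p) (hqr : RatV F₀ q) (hpq : ff p q = 0) (hp : ff p b = 0) (hq : ff q b = 0) :
    QQ b ((ff x q) • p + (ff x p) • q) (ff (-x) (x + (ff x q) • p + (ff x p) • q)) ∈ M := by
  have hg : EE p q ∈ M := mem_of_rat hHM (EE_rat hpr hqr) (EE_mem _ _)
  have h1 := QQ_comm hx τ (EE_mem p q) (EE_fix hpq hp hq)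
  have h2 : EE p q * QQ b x τ * (EE p q)⁻¹ * (QQ b x τ)⁻¹ ∈ M :=
    M.mul_mem (M.mul_mem (M.mul_mem hg hQ) (M.inv_mem hg)) (M.inv_mem hQ)
  rw [h1, EE_apply hpq] at h2
  convert h2 using 2
  abel

theorem AA_step (hHM : ratScal F₀ (Fin m ⊕ Fin m) ⊓ Cfsg.spGL m F ≤ M) {b x : Fin m ⊕ Fin m → F} (hx : AA M b x)
    {p q : Fin m ⊕ Fin m → F} (hpr : RatV F₀ p) (hqr : RatV F₀ q) (hpq : ff p q = 0) (hp : ff p b = 0) (hq : ff q b = 0) :
    AA M b ((ff x q) • p + (ff x p) • q) := by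
  obtain ⟨hx0, τ, hQ⟩ := hx
  refine ⟨?_, _, QQ_step hHM hx0 hQ hpr hqr hpq hp hq⟩
  rw [sympForm_add_left, sympForm_smul_left, sympForm_smul_left, hp, hq, mul_zero, mul_zero, add_zero]

/-- A rational vector with an irrational scalar is not in the image. -/
theorem AA_rat (hm : 3 ≤ m) (hHM : ratScal F₀ (Fin m ⊕ Fin m) ⊓ Cfsg.spGL m F ≤ M) (hB : NoIrr F₀ M) {s₀ s₁ : Fin m ⊕ Fin m} (h10 : pl s₁ ≠ pl s₀) {κ : F}
    (hA : AA M (Pi.single s₀ 1) (κ • Pi.single s₁ 1)) : κ ∈ F₀ := by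
  obtain ⟨s₂, hs₂⟩ := exists_pl (m := m) (S := {pl s₀, pl s₁}) (by
    have := Finset.card_le_two (a := pl s₀) (b := pl s₁)
    omega)
  simp only [Finset.mem_insert, Finset.mem_singleton, not_or] at hs₂
  obtain ⟨h20, h21⟩ := hs₂
  obtain ⟨hx0, τ, hQ⟩ := hA
  obtain ⟨q, hq⟩ : ∃ q : Fin m ⊕ Fin m → F, q = -((sg s₁ : F) • Pi.single s₁.swap 1) := ⟨_, rfl⟩
  have hqr : RatV F₀ q := by
    rw [hq, show (-((sg s₁ : F) • Pi.single s₁.swap 1) : Fin m ⊕ Fin m → F) = ((-1 : F) * sg s₁) • Pi.single s₁.swap 1 by simp]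
    exact (ratV_single _).smul (F₀.mul_mem (F₀.neg_mem F₀.one_mem) (sg_mem F₀ s₁))
  have hq' : q = ((-1 : F) * sg s₁) • Pi.single s₁.swap 1 := by
    rw [hq]; simp
  have hq1 : ff (Pi.single s₁ 1) q = 1 := hq ▸ ff_partner' s₁
  have h2q : ff (Pi.single s₂ 1) q = 0 := by
    rw [hq', sympForm_smul_right, ff_ee_ne (by rw [pl_swap]; exact h21), mul_zero]
  have hq0 : ff q (Pi.single s₀ 1) = 0 := by
    rw [hq', sympForm_smul_left, ff_ee_ne (by rw [pl_swap]; exact h10), mul_zero]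
  have hst := QQ_step hHM hx0 hQ (ratV_single s₂) hqr h2q (ff_ee_ne h20) hq0
  have e1 : ff (κ • Pi.single s₁ 1) q = κ := by
    rw [sympForm_smul_left, hq1, mul_one]
  have e2 : ff (κ • Pi.single s₁ 1) (Pi.single s₂ 1) = 0 := by
    rw [sympForm_smul_left, ff_ee_ne (Ne.symm h21), mul_zero]
  rw [e1, e2, zero_smul, add_zero, add_zero] at hst
  have e3 : ff (-(κ • Pi.single s₁ 1)) (κ • Pi.single s₁ 1 + κ • Pi.single s₂ 1) = 0 := by
    have : (-(κ • Pi.single s₁ 1) : Fin m ⊕ Fin m → F) = (-κ) • Pi.single s₁ 1 := by simp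
    rw [this]
    simp only [sympForm_add_right, sympForm_smul_left, sympForm_smul_right, sympForm_self, ff_ee_ne (Ne.symm h21)]
    ring
  rw [e3, QQ_zero_right] at hst
  exact hB κ s₂ s₀ h20 hst

/-- The coordinates of an element of the image outside the plane of the centre are rational. -/
theorem AA_coord (hm : 4 ≤ m) (hHM : ratScal F₀ (Fin m ⊕ Fin m) ⊓ Cfsg.spGL m F ≤ M) (hB : NoIrr F₀ M) {s₀ : Fin m ⊕ Fin m} {y : Fin m ⊕ Fin m → F}
    (hy : AA M (Pi.single s₀ 1) y) {i : Fin m ⊕ Fin m} (hi : pl i ≠ pl s₀) : y i ∈ F₀ := by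
  obtain ⟨t, ht⟩ : ∃ t, t = i.swap := ⟨_, rfl⟩
  have ht0 : pl t ≠ pl s₀ := by rw [ht, pl_swap]; exact hi
  obtain ⟨j, hj⟩ := exists_pl (m := m) (S := {pl s₀, pl t}) (by
    have := Finset.card_le_two (a := pl s₀) (b := pl t)
    omega)
  simp only [Finset.mem_insert, Finset.mem_singleton, not_or] at hj
  obtain ⟨hj0, hjt⟩ := hj
  obtain ⟨k, hk⟩ := exists_pl (m := m) (S := {pl s₀, pl t, pl j}) (by
    have := Finset.card_le_three (a := pl s₀) (b := pl t) (c := pl j)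
    omega)
  simp only [Finset.mem_insert, Finset.mem_singleton, not_or] at hk
  obtain ⟨hk0, hkt, hkj⟩ := hk
  obtain ⟨q, hq⟩ : ∃ q : Fin m ⊕ Fin m → F, q = ((-1 : F) * sg j) • Pi.single j.swap 1 := ⟨_, rfl⟩
  have hqr : RatV F₀ q := hq ▸ (ratV_single _).smul (F₀.mul_mem (F₀.neg_mem F₀.one_mem) (sg_mem F₀ j))
  have hq1 : ff (Pi.single j 1) q = 1 := by
    have := ff_partner' (F := F) j
    rwa [show (-((sg j : F) • Pi.single j.swap 1) : Fin m ⊕ Fin m → F) = ((-1 : F) * sg j) • Pi.single j.swap 1 by simp, ← hq] at this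
  have hq0 : ff q (Pi.single s₀ 1) = 0 := by
    rw [hq, sympForm_smul_left, ff_ee_ne (by rw [pl_swap]; exact hj0), mul_zero]
  have hkq : ff (Pi.single k 1) q = 0 := by
    rw [hq, sympForm_smul_right, ff_ee_ne (by rw [pl_swap]; exact hkj), mul_zero]
  have htq : ff (Pi.single t 1) q = 0 := by
    rw [hq, sympForm_smul_right, ff_ee_ne (by rw [pl_swap]; exact Ne.symm hjt), mul_zero]
  have s1 := AA_step hHM hy (ratV_single t) (ratV_single j) (ff_ee_ne (Ne.symm hjt)) (ff_ee_ne ht0) (ff_ee_ne hj0)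
  have s2 := AA_step hHM s1 (ratV_single k) hqr hkq (ff_ee_ne hk0) hq0
  have e1 : ff (ff y (Pi.single j 1) • Pi.single t 1 + ff y (Pi.single t 1) • Pi.single j 1) q = ff y (Pi.single t 1) := by
    rw [sympForm_add_left, sympForm_smul_left, sympForm_smul_left, htq, hq1]
    ring
  have e2 : ff (ff y (Pi.single j 1) • Pi.single t 1 + ff y (Pi.single t 1) • Pi.single j 1) (Pi.single k 1) = 0 := by
    rw [sympForm_add_left, sympForm_smul_left, sympForm_smul_left, ff_ee_ne (Ne.symm hkt), ff_ee_ne (Ne.symm hkj)]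
    ring
  rw [e1, e2, zero_smul, add_zero] at s2
  have h3 := AA_rat (by omega) hHM hB hk0 s2
  rw [ff_e_right, ht, Sum.swap_swap] at h3
  have e3 : y i = sg i.swap * (sg i.swap * y i) := by
    rw [← mul_assoc, sg_mul_self, one_mul]
  rw [e3]
  exact F₀.mul_mem (sg_mem F₀ _) h3

/-- A transvection of the group whose centre is orthogonal to the centre of the rational point contributes to the image. -/
theorem AA_of_stv (hHM : ratScal F₀ (Fin m ⊕ Fin m) ⊓ Cfsg.spGL m F ≤ M) {a b v : Fin m ⊕ Fin m → F} {c : F} (hT : stv a c ∈ M) (hab : ff a b = 0)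
    (hb : RatV F₀ b) (hv : RatV F₀ v) (hvb : ff v b = 0) : AA M b ((c * ff a v) • a) := by
  have hR : EE b v ∈ M := mem_of_rat hHM (EE_rat hb hv) (EE_mem _ _)
  have hbv : ff b v = 0 := by rw [sympForm_swap, hvb, neg_zero]
  have h1 := M.mul_mem (M.mul_mem hR hT) (M.inv_mem hR)
  rw [stv_conj _ (EE_mem _ _), EE_apply hbv, hab, zero_smul, add_zero, stv_add_decomp hab] at h1
  refine ⟨by rw [sympForm_smul_left, hab, mul_zero], c * (ff a v) ^ 2, ?_⟩
  have h2 : stv a c * (QQ b ((c * ff a v) • a) (c * (ff a v) ^ 2)) ∈ M := h1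
  have h3 := M.mul_mem (M.inv_mem hT) h2
  rwa [inv_mul_cancel_left] at h3

/-- The key lemma for a coordinate point. -/
theorem key_std (hm : 4 ≤ m) (hHM : ratScal F₀ (Fin m ⊕ Fin m) ⊓ Cfsg.spGL m F ≤ M) (hB : NoIrr F₀ M) (s₀ : Fin m ⊕ Fin m) {a : Fin m ⊕ Fin m → F} {c : F} (hc : c ≠ 0)
    (ha : ff a (Pi.single s₀ 1) = 0) (hT : stv a c ∈ M) : Pt F₀ a := by
  have ha₁ : a s₀.swap = 0 := by
    rw [ff_e_right] at ha
    exact (mul_eq_zero.mp ha).resolve_left (sg_ne_zero s₀)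
  by_cases h : ∃ j, pl j ≠ pl s₀ ∧ a j ≠ 0
  · obtain ⟨j, hj, hja⟩ := h
    obtain ⟨t, ht⟩ : ∃ t, t = j.swap := ⟨_, rfl⟩
    have ht0 : pl t ≠ pl s₀ := by rw [ht, pl_swap]; exact hj
    have hβ : ff a (Pi.single t 1) ≠ 0 := by
      rw [ff_e_right, ht, Sum.swap_swap]
      exact mul_ne_zero (sg_ne_zero _) hja
    obtain ⟨d, hd⟩ : ∃ d, d = c * ff a (Pi.single t 1) := ⟨_, rfl⟩
    have hd0 : d ≠ 0 := hd ▸ mul_ne_zero hc hβ
    have hA : AA M (Pi.single s₀ 1) (d • a) := by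
      rw [hd]
      exact AA_of_stv hHM hT ha (ratV_single s₀) (ratV_single t) (ff_ee_ne ht0)
    have hcoord : ∀ i, pl i ≠ pl s₀ → d * a i ∈ F₀ := by
      intro i hi
      have := AA_coord hm hHM hB hA hi
      rwa [Pi.smul_apply, smul_eq_mul] at this
    obtain ⟨e₀, he₀⟩ : ∃ e₀, e₀ = d * a s₀ := ⟨_, rfl⟩
    obtain ⟨a₀, ha₀⟩ : ∃ a₀, a₀ = d • a - e₀ • (Pi.single s₀ 1 : Fin m ⊕ Fin m → F) := ⟨_, rfl⟩
    have hda : d • a = a₀ + e₀ • (Pi.single s₀ 1 : Fin m ⊕ Fin m → F) := by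
      rw [ha₀, sub_add_cancel]
    have hs₀ne : s₀.swap ≠ s₀ := swap_ne s₀
    have hrat : RatV F₀ a₀ := by
      intro i
      rw [ha₀, Pi.sub_apply, Pi.smul_apply, Pi.smul_apply, smul_eq_mul, smul_eq_mul]
      by_cases hi : pl i = pl s₀
      · rcases pl_eq_cases hi with rfl | rfl
        · rw [Pi.single_eq_same, mul_one, he₀, sub_self]
          exact F₀.zero_mem
        · rw [ha₁, Pi.single_eq_of_ne hs₀ne]
          simp [F₀.zero_mem]
      · have hne : i ≠ s₀ := fun h => hi (by rw [h])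
        rw [Pi.single_eq_of_ne hne, mul_zero, sub_zero]
        exact hcoord i hi
    have hjne : j ≠ s₀ := fun h => hj (by rw [h])
    have ha₀j : a₀ j = d * a j := by
      rw [ha₀, Pi.sub_apply, Pi.smul_apply, Pi.smul_apply, smul_eq_mul, smul_eq_mul, Pi.single_eq_of_ne hjne, mul_zero, sub_zero]
    have ha₀j0 : a₀ j ≠ 0 := by
      rw [ha₀j]
      exact mul_ne_zero hd0 hja
    have ha₀perp : ff a₀ (Pi.single s₀ 1) = 0 := by
      rw [ha₀, ff_e_right, Pi.sub_apply, Pi.smul_apply, Pi.smul_apply, smul_eq_mul, smul_eq_mul, ha₁, Pi.single_eq_of_ne hs₀ne]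
      ring
    have ha₀t : ff a₀ (Pi.single t 1) = d * ff a (Pi.single t 1) := by
      have h1 := congrArg (fun w => ff w (Pi.single t 1)) hda
      simp only [sympForm_smul_left, sympForm_add_left] at h1
      rw [h1, ff_ee_ne (Ne.symm ht0)]
      ring
    obtain ⟨c', hc'⟩ : ∃ c', c' = c * (d⁻¹) ^ 2 := ⟨_, rfl⟩
    have hc'0 : c' ≠ 0 := hc' ▸ mul_ne_zero hc (pow_ne_zero _ (inv_ne_zero hd0))
    have hc'r : c' ∈ F₀ := by
      have e : c' = (ff a₀ (Pi.single t 1))⁻¹ := by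
        rw [ha₀t, hc']
        have e' : c * (d⁻¹) ^ 2 = (d * ff a (Pi.single t 1))⁻¹ := by
          rw [hd] at *
          field_simp
        exact e'
      rw [e]
      exact F₀.inv_mem (ff_rat hrat (ratV_single t))
    have hT' : stv (a₀ + e₀ • Pi.single s₀ 1) c' ∈ M := by
      have e : a = d⁻¹ • (a₀ + e₀ • (Pi.single s₀ 1 : Fin m ⊕ Fin m → F)) := by
        rw [← hda, smul_smul, inv_mul_cancel₀ hd0, one_smul]
      rw [e, stv_smul, ← hc'] at hT
      exact hT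
    rw [stv_add_decomp ha₀perp] at hT'
    have hT₀ : stv a₀ c' ∈ M := mem_of_rat hHM (stv_rat hrat hc'r) (stv_mem_spGL _ _)
    have h3 := M.mul_mem (M.inv_mem hT₀) hT'
    rw [inv_mul_cancel_left] at h3
    have hA' : AA M (Pi.single s₀ 1) ((c' * e₀) • a₀) := ⟨by rw [sympForm_smul_left, ha₀perp, mul_zero], _, h3⟩
    have h4 := AA_coord hm hHM hB hA' hj
    rw [Pi.smul_apply, smul_eq_mul] at h4
    have he₀r : e₀ ∈ F₀ := by
      have e : e₀ = (c' * e₀ * a₀ j) * (c' * a₀ j)⁻¹ := by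
        field_simp
      rw [e]
      exact F₀.mul_mem h4 (F₀.inv_mem (F₀.mul_mem hc'r (hrat j)))
    refine ⟨d, hd0, ?_⟩
    rw [hda]
    exact hrat.add ((ratV_single s₀).smul he₀r)
  · push Not at h
    by_cases h0 : a s₀ = 0
    · have : a = 0 := by
        funext i
        by_cases hi : pl i = pl s₀
        · rcases pl_eq_cases hi with rfl | rfl
          · exact h0
          · exact ha₁
        · exact h i hi
      rw [this]
      exact Pt_zero F₀
    · refine ⟨(a s₀)⁻¹, inv_ne_zero h0, ?_⟩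
      intro i
      rw [Pi.smul_apply, smul_eq_mul]
      by_cases hi : pl i = pl s₀
      · rcases pl_eq_cases hi with rfl | rfl
        · rw [inv_mul_cancel₀ h0]
          exact F₀.one_mem
        · rw [ha₁, mul_zero]
          exact F₀.zero_mem
      · rw [h i hi, mul_zero]
        exact F₀.zero_mem

theorem exists_rat_nonorth {a : Fin m ⊕ Fin m → F} (ha : a ≠ 0) : ∃ z : Fin m ⊕ Fin m → F, RatV F₀ z ∧ ff a z ≠ 0 := by
  obtain ⟨i, hi⟩ : ∃ i, a i ≠ 0 := by
    by_contra hcon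
    push Not at hcon
    exact ha (funext hcon)
  refine ⟨Pi.single i.swap 1, ratV_single _, ?_⟩
  rw [ff_e_right, Sum.swap_swap]
  exact mul_ne_zero (sg_ne_zero _) hi

theorem exists_rat_z {a b : Fin m ⊕ Fin m → F} (ha : a ≠ 0) (hb : b ≠ 0) :
    ∃ z : Fin m ⊕ Fin m → F, RatV F₀ z ∧ ff a z ≠ 0 ∧ ff b z ≠ 0 := by
  obtain ⟨z₁, hz₁, h₁⟩ := exists_rat_nonorth (F₀ := F₀) ha
  obtain ⟨z₂, hz₂, h₂⟩ := exists_rat_nonorth (F₀ := F₀) hb
  by_cases h3 : ff a z₂ = 0
  · by_cases h4 : ff b z₁ = 0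
    · refine ⟨z₁ + z₂, hz₁.add hz₂, ?_, ?_⟩
      · rw [sympForm_add_right, h3, add_zero]
        exact h₁
      · rw [sympForm_add_right, h4, zero_add]
        exact h₂
    · exact ⟨z₁, hz₁, h₁, h4⟩
  · exact ⟨z₂, hz₂, h3, h₂⟩

theorem exists_rat_move {a b : Fin m ⊕ Fin m → F} (ha : RatV F₀ a) (hb : RatV F₀ b) (h : ff a b ≠ 0) :
    ∃ g : GL (Fin m ⊕ Fin m) F, g ∈ Cfsg.spGL m F ∧ RatM F₀ (g : Matrix (Fin m ⊕ Fin m) (Fin m ⊕ Fin m) F) ∧
      (g : Matrix (Fin m ⊕ Fin m) (Fin m ⊕ Fin m) F) *ᵥ a = b := by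
  refine ⟨stv (a - b) (ff a b)⁻¹, stv_mem_spGL _ _, stv_rat (ha.sub hb) (F₀.inv_mem (ff_rat ha hb)), ?_⟩
  rw [stv_apply]
  have h1 : ff a (a - b) = - ff a b := by
    rw [sub_eq_add_neg, sympForm_add_right, sympForm_self, zero_add]
    have : (-b : Fin m ⊕ Fin m → F) = (-1 : F) • b := by simp
    rw [this, sympForm_smul_right]
    ring
  rw [h1]
  have : (ff a b)⁻¹ * - ff a b = -1 := by
    field_simp
  rw [this]
  simp

theorem exists_rat_trans {a b : Fin m ⊕ Fin m → F} (ha : RatV F₀ a) (hb : RatV F₀ b) (ha0 : a ≠ 0) (hb0 : b ≠ 0) :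
    ∃ g : GL (Fin m ⊕ Fin m) F, g ∈ Cfsg.spGL m F ∧ RatM F₀ (g : Matrix (Fin m ⊕ Fin m) (Fin m ⊕ Fin m) F) ∧
      (g : Matrix (Fin m ⊕ Fin m) (Fin m ⊕ Fin m) F) *ᵥ a = b := by
  obtain ⟨z, hz, h₁, h₂⟩ := exists_rat_z (F₀ := F₀) ha0 hb0
  obtain ⟨g₁, hg₁, hr₁, he₁⟩ := exists_rat_move ha hz h₁
  obtain ⟨g₂, hg₂, hr₂, he₂⟩ := exists_rat_move hz hb (by rw [sympForm_swap]; exact neg_ne_zero.mpr h₂)
  refine ⟨g₂ * g₁, mul_mem hg₂ hg₁, ?_, ?_⟩
  · rw [Units.val_mul]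
    exact hr₂.mul hr₁
  · rw [Units.val_mul, ← Matrix.mulVec_mulVec, he₁, he₂]

/-- The key lemma. -/
theorem key_gen (hm : 4 ≤ m) (hHM : ratScal F₀ (Fin m ⊕ Fin m) ⊓ Cfsg.spGL m F ≤ M) (hB : NoIrr F₀ M) {u₀ a : Fin m ⊕ Fin m → F} {c : F} (hc : c ≠ 0)
    (hu₀ : RatV F₀ u₀) (hu₀0 : u₀ ≠ 0) (ha : ff a u₀ = 0) (hT : stv a c ∈ M) : Pt F₀ a := by
  obtain ⟨s₀⟩ : Nonempty (Fin m ⊕ Fin m) := ⟨Sum.inl ⟨0, by omega⟩⟩
  obtain ⟨g, hg, hgr, hge⟩ := exists_rat_trans hu₀ (ratV_single s₀) hu₀0 (e_ne_zero' s₀)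
  have hgM : g ∈ M := mem_of_rat hHM hgr hg
  have h1 := M.mul_mem (M.mul_mem hgM hT) (M.inv_mem hgM)
  rw [stv_conj g hg] at h1
  have h2 : ff ((g : MM) *ᵥ a) (Pi.single s₀ 1) = 0 := by
    rw [← hge, (mem_spGL_iff g).mp hg, ha]
  obtain ⟨d, hd, hr⟩ := key_std hm hHM hB s₀ hc h2 h1
  refine ⟨d, hd, ?_⟩
  have hinv : RatM F₀ ((g⁻¹ : GG) : MM) := by
    rw [Matrix.coe_units_inv]
    exact hgr.inv
  have h3 := hinv.mulVec hr
  rw [Matrix.mulVec_smul, Matrix.mulVec_mulVec, ← Units.val_mul, inv_mul_cancel, Units.val_one, Matrix.one_mulVec] at h3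
  exact h3

end key

section main

variable {F₀ : Subfield F} {M : Subgroup (GL (Fin m ⊕ Fin m) F)} {x : GL (Fin m ⊕ Fin m) F}

theorem ff_dot (u v : Fin m ⊕ Fin m → F) : (fun s => ff u (Pi.single s 1)) ⬝ᵥ v = ff u v := by
  rw [sympForm_apply, dotProduct, Fintype.sum_sum_type, ← Finset.sum_add_distrib]
  apply Finset.sum_congr rfl
  intro i _
  simp only [ff_e_right, sg, Sum.elim_inl, Sum.elim_inr, Sum.swap_inl, Sum.swap_inr]
  ring

theorem ff_dot_rat {u : Fin m ⊕ Fin m → F} (hu : RatV F₀ u) : RatV F₀ (fun s => ff u (Pi.single s 1)) :=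
  fun s => ff_rat hu (ratV_single s)

theorem Pt_step (hm : 4 ≤ m) (hHM : ratScal F₀ (Fin m ⊕ Fin m) ⊓ Cfsg.spGL m F ≤ M) (hB : NoIrr F₀ M) (hMS : M ≤ Cfsg.spGL m F) (hx : x ∈ M)
    {u₀ u₁ : Fin m ⊕ Fin m → F} (hu₀0 : u₀ ≠ 0) (h : Pt F₀ ((x : Matrix (Fin m ⊕ Fin m) (Fin m ⊕ Fin m) F) *ᵥ u₀)) (hu₁ : RatV F₀ u₁) (hf : ff u₁ u₀ = 0) :
    Pt F₀ ((x : Matrix (Fin m ⊕ Fin m) (Fin m ⊕ Fin m) F) *ᵥ u₁) := by
  obtain ⟨d, hd, hr⟩ := h
  have h1 : stv ((x : MM) *ᵥ u₁) 1 ∈ M := by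
    have hs : stv u₁ 1 ∈ M := mem_of_rat hHM (stv_rat hu₁ F₀.one_mem) (stv_mem_spGL _ _)
    have := M.mul_mem (M.mul_mem hx hs) (M.inv_mem hx)
    rwa [stv_conj x (hMS hx)] at this
  refine key_gen hm hHM hB one_ne_zero hr (smul_ne_zero hd (SubfieldSL.mulVec_ne_zero x hu₀0)) ?_ h1
  rw [sympForm_smul_right, (mem_spGL_iff x).mp (hMS hx), hf, mul_zero]

theorem Pt_all (hm : 4 ≤ m) (hHM : ratScal F₀ (Fin m ⊕ Fin m) ⊓ Cfsg.spGL m F ≤ M) (hB : NoIrr F₀ M) (hMS : M ≤ Cfsg.spGL m F) (hx : x ∈ M)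
    {u₀ u₂ : Fin m ⊕ Fin m → F} (hu₀ : RatV F₀ u₀) (hu₀0 : u₀ ≠ 0) (h : Pt F₀ ((x : Matrix (Fin m ⊕ Fin m) (Fin m ⊕ Fin m) F) *ᵥ u₀)) (hu₂ : RatV F₀ u₂) :
    Pt F₀ ((x : Matrix (Fin m ⊕ Fin m) (Fin m ⊕ Fin m) F) *ᵥ u₂) := by
  obtain ⟨u₁, hu₁, hu₁0, hp⟩ := exists_rat_perp (F₀ := F₀) (k := 2) (by simp; omega)
    ![fun s => ff u₀ (Pi.single s 1), fun s => ff u₂ (Pi.single s 1)] (by
      intro i
      fin_cases i
      · exact ff_dot_rat hu₀
      · exact ff_dot_rat hu₂)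
  have hp0 : ff u₀ u₁ = 0 := by
    have := hp 0
    rwa [show (![fun s => ff u₀ (Pi.single s 1), fun s => ff u₂ (Pi.single s 1)] : Fin 2 → _) 0 = fun s => ff u₀ (Pi.single s 1) from rfl, ff_dot] at this
  have hp1 : ff u₂ u₁ = 0 := by
    have := hp 1
    rwa [show (![fun s => ff u₀ (Pi.single s 1), fun s => ff u₂ (Pi.single s 1)] : Fin 2 → _) 1 = fun s => ff u₂ (Pi.single s 1) from rfl, ff_dot] at this
  have h1 := Pt_step hm hHM hB hMS hx hu₀0 h hu₁ (by rw [sympForm_swap, hp0, neg_zero])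
  exact Pt_step hm hHM hB hMS hx hu₁0 h1 hu₂ hp1

/-- An element intertwining two rational elements, one with a rational fixed vector and the other one not trivial, is a
scalar multiple of a rational matrix. -/
theorem ratScal_of_comm (hm : 4 ≤ m) (hHM : ratScal F₀ (Fin m ⊕ Fin m) ⊓ Cfsg.spGL m F ≤ M) (hB : NoIrr F₀ M) (hMS : M ≤ Cfsg.spGL m F) (hx : x ∈ M)
    {z y : GL (Fin m ⊕ Fin m) F} (hzr : RatM F₀ (z : Matrix (Fin m ⊕ Fin m) (Fin m ⊕ Fin m) F)) (hzS : z ∈ Cfsg.spGL m F) (hz1 : z ≠ 1)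
    (hxy : x * y = z * x) {v : Fin m ⊕ Fin m → F} (hv : RatV F₀ v) (hv0 : v ≠ 0)
    (hyv : (y : Matrix (Fin m ⊕ Fin m) (Fin m ⊕ Fin m) F) *ᵥ v = v) : x ∈ ratScal F₀ (Fin m ⊕ Fin m) := by
  have hfix : (z : MM) *ᵥ ((x : MM) *ᵥ v) = (x : MM) *ᵥ v := by
    have h1 : (z : MM) * (x : MM) = (x : MM) * (y : MM) := by
      rw [← Units.val_mul, ← Units.val_mul, hxy]
    rw [Matrix.mulVec_mulVec, h1, ← Matrix.mulVec_mulVec, hyv]
  obtain ⟨j, hj⟩ : ∃ j : Fin m ⊕ Fin m, (z : MM) *ᵥ Pi.single j 1 - Pi.single j 1 ≠ 0 := by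
    by_contra hcon
    push Not at hcon
    apply hz1
    apply Units.ext
    rw [Units.val_one]
    ext a b
    have := congrFun (hcon b) a
    rw [Pi.sub_apply, Matrix.mulVec_single_one, Matrix.col_apply, Pi.zero_apply, sub_eq_zero] at this
    rw [this, Matrix.one_apply, Pi.single_apply]
  have hu₀ : RatV F₀ ((z : MM) *ᵥ Pi.single j 1 - Pi.single j 1) := (hzr.mulVec (ratV_single j)).sub (ratV_single j)
  have hperp : ff ((x : MM) *ᵥ v) ((z : MM) *ᵥ Pi.single j 1 - Pi.single j 1) = 0 := by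
    have h1 := (mem_spGL_iff z).mp hzS ((x : MM) *ᵥ v) (Pi.single j 1)
    rw [hfix] at h1
    rw [sub_eq_add_neg, sympForm_add_right, h1]
    have : (-Pi.single j 1 : Fin m ⊕ Fin m → F) = (-1 : F) • Pi.single j 1 := by simp
    rw [this, sympForm_smul_right]
    ring
  have hT : stv ((x : MM) *ᵥ v) 1 ∈ M := by
    have hs : stv v 1 ∈ M := mem_of_rat hHM (stv_rat hv F₀.one_mem) (stv_mem_spGL _ _)
    have := M.mul_mem (M.mul_mem hx hs) (M.inv_mem hx)
    rwa [stv_conj x (hMS hx)] at this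
  have hP := key_gen hm hHM hB one_ne_zero hu₀ hj hperp hT
  apply ratScal_of_pt
  intro u hu _
  exact Pt_all hm hHM hB hMS hx hv hv0 hP hu

theorem dg_mem_sp (S : Finset (Fin m ⊕ Fin m)) (hS : ∀ i, Sum.inl i ∈ S ↔ Sum.inr i ∈ S) : (SubfieldSL.dg S : GG) ∈ Cfsg.spGL m F := by
  rw [mem_spGL_iff]
  intro u v
  rw [SubfieldSL.dg_val, sympForm_apply, sympForm_apply]
  apply Finset.sum_congr rfl
  intro i _
  simp only [Matrix.mulVec_diagonal]
  have h1 : (SubfieldSL.dgw S (Sum.inr i) : F) = SubfieldSL.dgw S (Sum.inl i) := by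
    unfold SubfieldSL.dgw
    simp only [hS]
  rw [h1]
  have h2 := SubfieldSL.dgw_sq (F := F) S (Sum.inl i)
  linear_combination (u (Sum.inr i) * v (Sum.inl i) - u (Sum.inl i) * v (Sum.inr i)) * h2

theorem dg_mul_self (S : Finset (Fin m ⊕ Fin m)) : (SubfieldSL.dg S : GG) * SubfieldSL.dg S = 1 := by
  apply Units.ext
  rw [Units.val_mul, Units.val_one, SubfieldSL.dg_val, Matrix.diagonal_mul_diagonal, ← Matrix.diagonal_one]
  congr 1
  funext k
  exact SubfieldSL.dgw_sq _ k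

/-- The two involutions. -/
theorem exists_invols_sp (hm : 2 ≤ m) (F₀ : Subfield F) :
    ∃ t₁ t₂ : GL (Fin m ⊕ Fin m) F, t₁ ∈ Cfsg.spGL m F ∧ t₂ ∈ Cfsg.spGL m F ∧
      RatM F₀ (t₁ : Matrix (Fin m ⊕ Fin m) (Fin m ⊕ Fin m) F) ∧ RatM F₀ (t₂ : Matrix (Fin m ⊕ Fin m) (Fin m ⊕ Fin m) F) ∧
      t₁ * t₁ = 1 ∧ t₂ * t₂ = 1 ∧ t₁ ≠ 1 ∧ t₂ ≠ 1 ∧
      ((t₁ : Matrix (Fin m ⊕ Fin m) (Fin m ⊕ Fin m) F) - 1).rank ≠ ((t₂ : Matrix (Fin m ⊕ Fin m) (Fin m ⊕ Fin m) F) - 1).rank ∧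
      ((t₁ : Matrix (Fin m ⊕ Fin m) (Fin m ⊕ Fin m) F) - 1).rank + ((t₂ : Matrix (Fin m ⊕ Fin m) (Fin m ⊕ Fin m) F) - 1).rank ≤ 6 := by
  classical
  obtain ⟨i₀, hi₀⟩ : ∃ i₀ : Fin m, i₀ = ⟨0, by omega⟩ := ⟨_, rfl⟩
  obtain ⟨i₁, hi₁⟩ : ∃ i₁ : Fin m, i₁ = ⟨1, by omega⟩ := ⟨_, rfl⟩
  have h01 : i₀ ≠ i₁ := by
    rw [hi₀, hi₁]
    simp
  by_cases h2 : (2 : F) = 0
  · -- characteristic two
    obtain ⟨a, ha⟩ : ∃ a : Fin m ⊕ Fin m → F, a = Pi.single (Sum.inl i₀) 1 := ⟨_, rfl⟩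
    obtain ⟨b, hb⟩ : ∃ b : Fin m ⊕ Fin m → F, b = Pi.single (Sum.inl i₁) 1 := ⟨_, rfl⟩
    have hpl : pl (Sum.inl i₀) ≠ pl (Sum.inl i₁) := by simpa [pl] using h01
    have hab : ff a b = 0 := by
      rw [ha, hb]
      exact ff_ee_ne hpl
    have hba : ff b a = 0 := by rw [sympForm_swap, hab, neg_zero]
    have ha0 : a ≠ 0 := ha ▸ e_ne_zero' _
    have hb0 : b ≠ 0 := hb ▸ e_ne_zero' _
    have hsq : ∀ w : Fin m ⊕ Fin m → F, stv w 1 * stv w 1 = 1 := by
      intro w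
      rw [stv_mul, one_add_one_eq_two, h2, stv_zero_right]
    have hcomm : stv a 1 * stv b 1 = stv b 1 * stv a 1 := by
      apply gl_ext_mulVec
      intro v
      simp only [Units.val_mul, ← Matrix.mulVec_mulVec, stv_apply, sympForm_add_left, sympForm_smul_left, hab, hba]
      simp only [mul_zero, add_zero]
      abel
    have hv₁ : ∀ v, (((stv a 1 : GG) : MM) - 1) *ᵥ v = (ff v a) • a := by
      intro v
      rw [Matrix.sub_mulVec, Matrix.one_mulVec, stv_apply, one_mul, add_sub_cancel_left]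
    have hv₂ : ∀ v, (((stv a 1 * stv b 1 : GG) : MM) - 1) *ᵥ v = (ff v a) • a + (ff v b) • b := by
      intro v
      rw [Matrix.sub_mulVec, Matrix.one_mulVec, Units.val_mul, ← Matrix.mulVec_mulVec, stv_apply, stv_apply, one_mul, one_mul,
        sympForm_add_left, sympForm_smul_left, hba, mul_zero, add_zero]
      abel
    have hne₁ : stv a 1 ≠ (1 : GG) := by
      obtain ⟨z, -, hz⟩ := exists_rat_nonorth (F := F) (F₀ := F₀) ha0
      intro h
      have h3 := hv₁ z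
      rw [h, Units.val_one, sub_self, Matrix.zero_mulVec] at h3
      rcases smul_eq_zero.mp h3.symm with h4 | h4
      · exact hz (by rw [sympForm_swap, h4, neg_zero])
      · exact ha0 h4
    have hrk₁ : (((stv a 1 : GG) : MM) - 1).rank ≤ 1 := by
      have h3 : LinearMap.range (((stv a 1 : GG) : MM) - 1).mulVecLin ≤ Submodule.span F {a} := by
        rintro _ ⟨v, rfl⟩
        rw [Matrix.mulVecLin_apply, hv₁]
        exact Submodule.smul_mem _ _ (Submodule.subset_span rfl)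
      have h4 := Submodule.finrank_mono h3
      rw [finrank_span_singleton ha0] at h4
      exact h4
    have hrk₂ : (((stv a 1 * stv b 1 : GG) : MM) - 1).rank = 2 := by
      have hli : LinearIndependent F ![a, b] := by
        rw [LinearIndependent.pair_iff]
        intro s t hst
        have e1 := congrFun hst (Sum.inl i₀)
        have e2 := congrFun hst (Sum.inl i₁)
        rw [ha, hb] at e1 e2
        simp [h01, h01.symm] at e1 e2
        exact ⟨e1, e2⟩
      have hfin : Module.finrank F (Submodule.span F (Set.range ![a, b])) = 2 := by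
        rw [finrank_span_eq_card hli]
        simp
      have h3 : LinearMap.range (((stv a 1 * stv b 1 : GG) : MM) - 1).mulVecLin = Submodule.span F (Set.range ![a, b]) := by
        apply le_antisymm
        · rintro _ ⟨v, rfl⟩
          rw [Matrix.mulVecLin_apply, hv₂]
          exact add_mem (Submodule.smul_mem _ _ (Submodule.subset_span ⟨0, rfl⟩)) (Submodule.smul_mem _ _ (Submodule.subset_span ⟨1, rfl⟩))
        · rw [Submodule.span_le]
          rintro _ ⟨i, rfl⟩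
          fin_cases i
          · refine ⟨(sg (Sum.inl i₀) : F) • Pi.single (Sum.inl i₀ : Fin m ⊕ Fin m).swap 1, ?_⟩
            rw [Matrix.mulVecLin_apply, hv₂]
            have e1 : ff ((sg (Sum.inl i₀) : F) • Pi.single (Sum.inl i₀ : Fin m ⊕ Fin m).swap 1) a = 1 := ha ▸ ff_partner _
            have e2 : ff ((sg (Sum.inl i₀) : F) • Pi.single (Sum.inl i₀ : Fin m ⊕ Fin m).swap 1) b = 0 := by
              rw [hb, sympForm_smul_left, ff_ee_ne (by rw [pl_swap]; exact hpl), mul_zero]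
            rw [e1, e2, zero_smul, add_zero, one_smul]
            rfl
          · refine ⟨(sg (Sum.inl i₁) : F) • Pi.single (Sum.inl i₁ : Fin m ⊕ Fin m).swap 1, ?_⟩
            rw [Matrix.mulVecLin_apply, hv₂]
            have e1 : ff ((sg (Sum.inl i₁) : F) • Pi.single (Sum.inl i₁ : Fin m ⊕ Fin m).swap 1) b = 1 := hb ▸ ff_partner _
            have e2 : ff ((sg (Sum.inl i₁) : F) • Pi.single (Sum.inl i₁ : Fin m ⊕ Fin m).swap 1) a = 0 := by
              rw [ha, sympForm_smul_left, ff_ee_ne (by rw [pl_swap]; exact Ne.symm hpl), mul_zero]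
            rw [e1, e2, zero_smul, zero_add, one_smul]
            rfl
      show Module.finrank F (LinearMap.range (((stv a 1 * stv b 1 : GG) : MM) - 1).mulVecLin) = 2
      rw [h3, hfin]
    refine ⟨stv a 1, stv a 1 * stv b 1, stv_mem_spGL _ _, mul_mem (stv_mem_spGL _ _) (stv_mem_spGL _ _), ?_, ?_, hsq a, ?_, hne₁, ?_, ?_, ?_⟩
    · exact stv_rat (ha ▸ ratV_single _) F₀.one_mem
    · rw [Units.val_mul]
      exact (stv_rat (ha ▸ ratV_single _) F₀.one_mem).mul (stv_rat (hb ▸ ratV_single _) F₀.one_mem)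
    · calc stv a 1 * stv b 1 * (stv a 1 * stv b 1) = stv a 1 * (stv b 1 * stv a 1) * stv b 1 := by group
        _ = stv a 1 * (stv a 1 * stv b 1) * stv b 1 := by rw [hcomm]
        _ = (stv a 1 * stv a 1) * (stv b 1 * stv b 1) := by group
        _ = 1 := by rw [hsq, hsq, one_mul]
    · intro h
      rw [h, Units.val_one, sub_self, Matrix.rank_zero] at hrk₂
      omega
    · rw [hrk₂]
      omega
    · rw [hrk₂]
      omega
  · have hS₁ : ({Sum.inl i₀, Sum.inr i₀} : Finset (Fin m ⊕ Fin m)).card = 2 := Finset.card_pair (by simp)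
    have hS₂ : ({Sum.inl i₀, Sum.inr i₀, Sum.inl i₁, Sum.inr i₁} : Finset (Fin m ⊕ Fin m)).card = 4 := by
      rw [Finset.card_insert_of_notMem (by simp [h01]), Finset.card_insert_of_notMem (by simp [h01]), Finset.card_pair (by simp)]
    have hr₁ := SubfieldSL.dg_rank (F := F) h2 ({Sum.inl i₀, Sum.inr i₀} : Finset (Fin m ⊕ Fin m))
    have hr₂ := SubfieldSL.dg_rank (F := F) h2 ({Sum.inl i₀, Sum.inr i₀, Sum.inl i₁, Sum.inr i₁} : Finset (Fin m ⊕ Fin m))
    rw [hS₁] at hr₁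
    rw [hS₂] at hr₂
    refine ⟨SubfieldSL.dg {Sum.inl i₀, Sum.inr i₀}, SubfieldSL.dg {Sum.inl i₀, Sum.inr i₀, Sum.inl i₁, Sum.inr i₁},
      dg_mem_sp _ (by intro i; simp), dg_mem_sp _ (by intro i; simp), SubfieldSL.dg_rat F₀ _, SubfieldSL.dg_rat F₀ _, dg_mul_self _, dg_mul_self _, ?_, ?_, ?_, ?_⟩
    · intro h
      rw [h, Units.val_one, sub_self, Matrix.rank_zero] at hr₁
      omega
    · intro h
      rw [h, Units.val_one, sub_self, Matrix.rank_zero] at hr₂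
      omega
    · rw [hr₁, hr₂]
      omega
    · rw [hr₁, hr₂]

/-- The main argument. -/
theorem le_ratScal [Fintype F] (hm : 7 ≤ m) (hHM : ratScal F₀ (Fin m ⊕ Fin m) ⊓ Cfsg.spGL m F ≤ M) (hB : NoIrr F₀ M) (hMS : M ≤ Cfsg.spGL m F) :
    M ≤ ratScal F₀ (Fin m ⊕ Fin m) := by
  obtain ⟨t₁, t₂, hs₁, hs₂, hr₁, hr₂, ht₁, ht₂, h10, h20, hne, hrk⟩ := exists_invols_sp (m := m) (F := F) (by omega) F₀
  have hcard : Fintype.card (Fin m ⊕ Fin m) = m + m := by simp
  refine dihedral_main (s₀ := 6) (by omega) (mem_of_rat hHM hr₁ hs₁) (mem_of_rat hHM hr₂ hs₂) hr₁ hr₂ ht₁ ht₂ h10 h20 hne hrk ?_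
  intro x hx z y hz hy _ _ hzr hyr hz1 _ hxy hbig
  obtain ⟨v, hv, hv0, hyv⟩ := exists_rat_ker (hyr.sub ratM_one) (by omega)
  rw [Matrix.sub_mulVec, Matrix.one_mulVec, sub_eq_zero] at hyv
  exact ratScal_of_comm (by omega) hHM hB hMS hx hzr (hMS hz) hz1 hxy hv hv0 hyv

theorem exists_notMem_subfield [Fintype F] {r : ℕ} (hr : r.Prime) (hcard : Fintype.card F = Nat.card F₀ ^ r) : ∃ c : F, c ∉ F₀ := by
  by_contra hcon
  push Not at hcon
  have h1 : Function.Bijective (Subtype.val : F₀ → F) := ⟨Subtype.val_injective, fun y => ⟨⟨y, hcon y⟩, rfl⟩⟩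
  have h2 := Nat.card_congr (Equiv.ofBijective _ h1)
  rw [Nat.card_eq_fintype_card (α := F)] at h2
  rw [h2] at hcard
  have h3 : 1 < Fintype.card F := Fintype.one_lt_card
  have h4 : Fintype.card F ^ 1 < Fintype.card F ^ r := Nat.pow_lt_pow_right h3 hr.one_lt
  rw [pow_one, ← hcard] at h4
  exact lt_irrefl _ h4

/-- The maximality in the standard position. -/
theorem isMaximal_std [Fintype F] (hm : 7 ≤ m) {r : ℕ} (hr : r.Prime) (hcard : Fintype.card F = Nat.card F₀ ^ r) :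
    IsMaximalIn (Cfsg.spGL m F) (ratScal F₀ (Fin m ⊕ Fin m) ⊓ Cfsg.spGL m F) := by
  constructor
  · refine lt_of_le_of_ne inf_le_right ?_
    intro h
    obtain ⟨κ, hκ⟩ := exists_notMem_subfield (F₀ := F₀) hr hcard
    obtain ⟨s, hs⟩ : ∃ s : Fin m ⊕ Fin m, s = Sum.inl ⟨0, by omega⟩ := ⟨_, rfl⟩
    have hg : stv (Pi.single s 1) κ ∈ Cfsg.spGL m F := stv_mem_spGL _ _
    rw [← h] at hg
    obtain ⟨d, hd, hrat⟩ := hg.1
    have hne : s ≠ s.swap := (swap_ne s).symm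
    have e1 : ((stv (Pi.single s 1) κ : GG) : MM) s.swap s.swap = 1 := by
      have h1 := congrFun (stv_apply (Pi.single s 1 : Fin m ⊕ Fin m → F) κ (Pi.single s.swap 1)) s.swap
      rw [Matrix.mulVec_single_one, Matrix.col_apply] at h1
      rw [h1]
      simp [Pi.single_eq_of_ne hne.symm]
    have e2 : ((stv (Pi.single s 1) κ : GG) : MM) s s.swap = κ * sg s := by
      have h1 := congrFun (stv_apply (Pi.single s 1 : Fin m ⊕ Fin m → F) κ (Pi.single s.swap 1)) s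
      rw [Matrix.mulVec_single_one, Matrix.col_apply] at h1
      rw [h1, ff_e_right]
      simp [Pi.single_eq_of_ne hne]
    have h1 := hrat s.swap s.swap
    have h2 := hrat s s.swap
    rw [Matrix.smul_apply, e1, smul_eq_mul, mul_one] at h1
    rw [Matrix.smul_apply, e2, smul_eq_mul] at h2
    apply hκ
    have e3 : κ = (d * (κ * sg s)) * d⁻¹ * sg s := by
      have := sg_mul_self (F := F) s
      field_simp
      linear_combination (-κ) * this
    rw [e3]
    exact F₀.mul_mem (F₀.mul_mem h2 (F₀.inv_mem h1)) (sg_mem F₀ s)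
  · intro M hHM hMS
    by_cases hB : NoIrr F₀ M
    · left
      exact le_antisymm (le_inf (le_ratScal hm hHM hB hMS) hMS) hHM
    · right
      unfold NoIrr at hB
      push Not at hB
      obtain ⟨κ, s, t, hst, hS, hκ⟩ := hB
      exact le_antisymm hMS (sp_le_of_irr (by omega) hHM hr hcard hst hκ hS)

end main

section reduction

variable {F₀ : Subfield F}

/-- The inclusion of rational vectors. -/
def cst (F₀ : Subfield F) {ι : Type} (u : ι → F₀) : ι → F := fun i => (u i : F)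

theorem cst_add {ι : Type} (u v : ι → F₀) : cst F₀ (u + v) = cst F₀ u + cst F₀ v := rfl

theorem cst_smul {ι : Type} (c : F₀) (u : ι → F₀) : cst F₀ (c • u) = (c : F) • cst F₀ u := rfl

theorem cst_rat {ι : Type} (u : ι → F₀) : RatV F₀ (cst F₀ u) := fun i => (u i).2

theorem cst_inj {ι : Type} {u : ι → F₀} (h : cst F₀ u = 0) : u = 0 := funext fun i => Subtype.ext (congrFun h i)

/-- The alternating form over the subfield. -/
noncomputable def B₀ (P : GL (Fin m ⊕ Fin m) F) (ζ : F) (hP : IsFormRationalStructure (Cfsg.sympForm m F) F₀ ζ P) :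
    LinearMap.BilinForm F₀ (Fin m ⊕ Fin m → F₀) :=
  LinearMap.mk₂ F₀ (fun u v => ⟨ζ * ff ((P : MM) *ᵥ cst F₀ u) ((P : MM) *ᵥ cst F₀ v), hP _ _ (cst_rat u) (cst_rat v)⟩)
    (fun a b c => by
      apply Subtype.ext
      simp only [cst_add, Matrix.mulVec_add, sympForm_add_left, mul_add, AddMemClass.mk_add_mk])
    (fun c a b => by
      apply Subtype.ext
      simp only [cst_smul, Matrix.mulVec_smul, sympForm_smul_left, smul_eq_mul, Subfield.coe_mul, MulMemClass.mk_mul_mk]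
      ring)
    (fun a b c => by
      apply Subtype.ext
      simp only [cst_add, Matrix.mulVec_add, sympForm_add_right, mul_add, AddMemClass.mk_add_mk])
    (fun c a b => by
      apply Subtype.ext
      simp only [cst_smul, Matrix.mulVec_smul, sympForm_smul_right, smul_eq_mul, Subfield.coe_mul, MulMemClass.mk_mul_mk]
      ring)

theorem B₀_apply (P : GL (Fin m ⊕ Fin m) F) (ζ : F) (hP : IsFormRationalStructure (Cfsg.sympForm m F) F₀ ζ P) (u v : Fin m ⊕ Fin m → F₀) :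
    ((B₀ P ζ hP u v : F₀) : F) = ζ * ff ((P : MM) *ᵥ cst F₀ u) ((P : MM) *ᵥ cst F₀ v) := rfl

theorem ff_mat (A : Matrix (Fin m ⊕ Fin m) (Fin m ⊕ Fin m) F) (u v : Fin m ⊕ Fin m → F) :
    ff (A *ᵥ u) (A *ᵥ v) = u ⬝ᵥ ((Aᵀ * (Matrix.J (Fin m) F * A)) *ᵥ v) := by
  unfold Cfsg.sympForm
  rw [← Matrix.vecMul_transpose, ← dotProduct_mulVec, Matrix.mulVec_mulVec, Matrix.mulVec_mulVec, Matrix.mul_assoc]

/-- A rational change of basis making the form standard. -/
theorem exists_rat_basis [Fintype F] (P : GL (Fin m ⊕ Fin m) F) (ζ : F) (hζ : ζ ≠ 0) (hP : IsFormRationalStructure (Cfsg.sympForm m F) F₀ ζ P) :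
    ∃ g₀ : GL (Fin m ⊕ Fin m) F, RatM F₀ (g₀ : Matrix (Fin m ⊕ Fin m) (Fin m ⊕ Fin m) F) ∧
      ∀ u v : Fin m ⊕ Fin m → F, ζ * ff ((P * g₀ : GL (Fin m ⊕ Fin m) F) *ᵥ u) ((P * g₀ : GL (Fin m ⊕ Fin m) F) *ᵥ v) = ff u v := by
  classical
  have hfin : Module.finrank F₀ (Fin m ⊕ Fin m → F₀) = m + m := by simp
  obtain ⟨m', k, b, h1, h2, h3, h4⟩ := exists_alt_basis (F := F₀) (m + m) (Fin m ⊕ Fin m → F₀) (B₀ P ζ hP)
    (fun x => by
      apply Subtype.ext
      rw [B₀_apply, sympForm_self, mul_zero]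
      rfl) hfin
  have hk : k = 0 := by
    by_contra hk
    obtain ⟨j⟩ : Nonempty (Fin k) := ⟨⟨0, by omega⟩⟩
    apply b.ne_zero (Sum.inr j)
    obtain ⟨u, hu⟩ : ∃ u, u = b (Sum.inr j) := ⟨_, rfl⟩
    rw [← hu]
    have hz : ∀ v, ff ((P : MM) *ᵥ cst F₀ u) ((P : MM) *ᵥ cst F₀ v) = 0 := by
      intro v
      have h5 := congrArg (Subtype.val) (h4 j v)
      rw [← hu, B₀_apply] at h5
      exact (mul_eq_zero.mp h5).resolve_left hζ
    obtain ⟨w, hw⟩ : ∃ w, w = (P : MM) *ᵥ cst F₀ u := ⟨_, rfl⟩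
    rw [← hw] at hz
    have hψ : w ᵥ* (Matrix.J (Fin m) F * (P : MM)) = 0 := by
      funext s
      have h6 := hz (Pi.single s 1)
      have e : cst F₀ (Pi.single s 1 : Fin m ⊕ Fin m → F₀) = (Pi.single s 1 : Fin m ⊕ Fin m → F) := by
        funext i
        simp only [cst, Pi.single_apply]
        split_ifs <;> rfl
      rw [e] at h6
      unfold Cfsg.sympForm at h6
      rw [Matrix.mulVec_mulVec, dotProduct_mulVec, dotProduct_single_one] at h6
      exact h6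
    have hz' : ∀ z, ff w ((P : MM) *ᵥ z) = 0 := by
      intro z
      unfold Cfsg.sympForm
      rw [Matrix.mulVec_mulVec, dotProduct_mulVec, hψ, zero_dotProduct]
    have hz'' : ∀ z, ff z w = 0 := by
      intro z
      have := hz' (((P⁻¹ : GG) : MM) *ᵥ z)
      rw [Matrix.mulVec_mulVec, ← Units.val_mul, mul_inv_cancel, Units.val_one, Matrix.one_mulVec, sympForm_swap] at this
      rwa [neg_eq_zero] at this
    have hw0 := sympForm_right_eq_zero hz''
    apply cst_inj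
    by_contra hne
    exact SubfieldSL.mulVec_ne_zero P hne (hw ▸ hw0)
  subst hk
  have hm' : m = m' := by
    have h5 := Module.finrank_eq_card_basis b
    rw [hfin] at h5
    simp at h5
    omega
  subst hm'
  obtain ⟨E, hE⟩ : ∃ E : (Fin m ⊕ Fin m) ⊕ Fin 0 ≃ Fin m ⊕ Fin m, E = (Equiv.sumEmpty (Fin m ⊕ Fin m) (Fin 0)).trans (Equiv.sumComm _ _) := ⟨_, rfl⟩
  have hEs : ∀ s, E.symm s = Sum.inl s.swap := by
    intro s
    rw [hE]
    rcases s with i | i <;> rfl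
  obtain ⟨c', hc'⟩ : ∃ c', c' = b.reindex E := ⟨_, rfl⟩
  have hc's : ∀ s, c' s = b (Sum.inl s.swap) := by
    intro s
    rw [hc', Module.Basis.reindex_apply, hEs]
  letI hinv := (Pi.basisFun F₀ (Fin m ⊕ Fin m)).invertibleToMatrix c'
  obtain ⟨r, hr⟩ : ∃ r : GL (Fin m ⊕ Fin m) F₀, (r : Matrix (Fin m ⊕ Fin m) (Fin m ⊕ Fin m) F₀) = (Pi.basisFun F₀ (Fin m ⊕ Fin m)).toMatrix c' :=
    ⟨@unitOfInvertible _ _ _ hinv, rfl⟩
  obtain ⟨g₀, hg₀⟩ : ∃ g₀ : GG, g₀ = Matrix.GeneralLinearGroup.map (F₀.subtype : F₀ →+* F) r := ⟨_, rfl⟩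
  have hent : ∀ a s, (g₀ : MM) a s = (c' s a : F) := by
    intro a s
    rw [hg₀]
    show ((r : Matrix (Fin m ⊕ Fin m) (Fin m ⊕ Fin m) F₀) a s : F) = _
    rw [hr, Module.Basis.toMatrix_apply, Pi.basisFun_repr]
  have hcol : ∀ s, (g₀ : MM) *ᵥ Pi.single s 1 = cst F₀ (c' s) := by
    intro s
    funext a
    rw [Matrix.mulVec_single_one, Matrix.col_apply, hent]
    rfl
  refine ⟨g₀, fun a s => by rw [hent]; exact (c' s a).2, ?_⟩
  have hswap : ∀ x y, B₀ P ζ hP x y = - B₀ P ζ hP y x := by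
    intro x y
    apply Subtype.ext
    rw [B₀_apply, Subfield.coe_neg, B₀_apply, sympForm_swap]
    ring
  have hval : ∀ s t : Fin m ⊕ Fin m, ((B₀ P ζ hP (c' s) (c' t) : F₀) : F) = ff (Pi.single s 1) (Pi.single t 1) := by
    intro s t
    rw [hc's, hc's, ff_e_right]
    rcases s with i | i <;> rcases t with j | j
    · rw [show (Sum.inl i : Fin m ⊕ Fin m).swap = Sum.inr i from rfl, show (Sum.inl j : Fin m ⊕ Fin m).swap = Sum.inr j from rfl, h3]
      simp [sg]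
    · rw [show (Sum.inl i : Fin m ⊕ Fin m).swap = Sum.inr i from rfl, show (Sum.inr j : Fin m ⊕ Fin m).swap = Sum.inl j from rfl, hswap, h1]
      by_cases hij : i = j
      · subst hij
        simp [sg]
      · simp [sg, hij, Ne.symm hij]
    · rw [show (Sum.inr i : Fin m ⊕ Fin m).swap = Sum.inl i from rfl, show (Sum.inl j : Fin m ⊕ Fin m).swap = Sum.inr j from rfl, h1]
      by_cases hij : i = j
      · subst hij
        simp [sg]
      · simp [sg, hij, Ne.symm hij]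
    · rw [show (Sum.inr i : Fin m ⊕ Fin m).swap = Sum.inl i from rfl, show (Sum.inr j : Fin m ⊕ Fin m).swap = Sum.inl j from rfl, h2]
      simp [sg]
  obtain ⟨A, hA⟩ : ∃ A : MM, A = ((P * g₀ : GG) : MM) := ⟨_, rfl⟩
  have hK : ζ • (Aᵀ * (Matrix.J (Fin m) F * A)) = Matrix.J (Fin m) F := by
    ext s t
    have h5 := hval s t
    rw [B₀_apply, ← hcol, ← hcol, Matrix.mulVec_mulVec, Matrix.mulVec_mulVec, ← Units.val_mul, ← hA, ff_mat] at h5
    rw [single_one_dotProduct, Matrix.mulVec_single_one, Matrix.col_apply] at h5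
    have h6 : ff (Pi.single s 1) (Pi.single t 1) = Matrix.J (Fin m) F s t := by
      unfold Cfsg.sympForm
      rw [single_one_dotProduct, Matrix.mulVec_single_one, Matrix.col_apply]
    rw [h6] at h5
    rw [Matrix.smul_apply, smul_eq_mul, h5]
  intro u v
  rw [← hA, ff_mat]
  have h7 : Matrix.J (Fin m) F *ᵥ v = ζ • ((Aᵀ * (Matrix.J (Fin m) F * A)) *ᵥ v) := by
    rw [← Matrix.smul_mulVec, hK]
  unfold Cfsg.sympForm
  rw [h7, dotProduct_smul, smul_eq_mul]

/-- The subfield subgroups of the symplectic group are maximal. -/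
theorem isMaximal [Fintype F] (hm : 7 ≤ m) {r : ℕ} (hr : r.Prime) (hcard : Fintype.card F = Nat.card F₀ ^ r) (P : GL (Fin m ⊕ Fin m) F) (ζ : F) (hζ : ζ ≠ 0)
    (hP : IsFormRationalStructure (Cfsg.sympForm m F) F₀ ζ P) :
    IsMaximalIn (Cfsg.spGL m F) (subfieldSubgroup F₀ P ⊓ Cfsg.spGL m F) := by
  obtain ⟨g₀, hg₀, hsim⟩ := exists_rat_basis P ζ hζ hP
  obtain ⟨P₁, hP₁⟩ : ∃ P₁, P₁ = P * g₀ := ⟨_, rfl⟩
  rw [← hP₁] at hsim
  have hinv : ∀ z : Fin m ⊕ Fin m → F, (P₁ : MM) *ᵥ (((P₁⁻¹ : GG) : MM) *ᵥ z) = z := by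
    intro z
    rw [Matrix.mulVec_mulVec, ← Units.val_mul, mul_inv_cancel, Units.val_one, Matrix.one_mulVec]
  have hinv' : ∀ z : Fin m ⊕ Fin m → F, ((P₁⁻¹ : GG) : MM) *ᵥ ((P₁ : MM) *ᵥ z) = z := by
    intro z
    rw [Matrix.mulVec_mulVec, ← Units.val_mul, inv_mul_cancel, Units.val_one, Matrix.one_mulVec]
  have hSp : (Cfsg.spGL m F).map (MulAut.conj P₁).toMonoidHom = Cfsg.spGL m F := by
    apply le_antisymm
    · rintro _ ⟨g, hg, rfl⟩
      rw [mem_spGL_iff]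
      intro a b
      have h1 := (mem_spGL_iff g).mp hg (((P₁⁻¹ : GG) : MM) *ᵥ a) (((P₁⁻¹ : GG) : MM) *ᵥ b)
      have h2 := hsim ((g : MM) *ᵥ (((P₁⁻¹ : GG) : MM) *ᵥ a)) ((g : MM) *ᵥ (((P₁⁻¹ : GG) : MM) *ᵥ b))
      have h3 := hsim (((P₁⁻¹ : GG) : MM) *ᵥ a) (((P₁⁻¹ : GG) : MM) *ᵥ b)
      rw [hinv, hinv] at h3
      have h4 : ζ * ff (((MulAut.conj P₁).toMonoidHom g : GG) *ᵥ a) (((MulAut.conj P₁).toMonoidHom g : GG) *ᵥ b) = ζ * ff a b := by
        rw [h3, ← h1, ← h2]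
        simp only [MulEquiv.toMonoidHom_eq_coe, MonoidHom.coe_coe, MulAut.conj_apply, Units.val_mul, ← Matrix.mulVec_mulVec]
      exact mul_left_cancel₀ hζ h4
    · intro h hh
      have hmem : P₁⁻¹ * h * P₁ ∈ Cfsg.spGL m F := by
        rw [mem_spGL_iff]
        intro u v
        rw [← hsim (((P₁⁻¹ * h * P₁ : GG) : MM) *ᵥ u) ((((P₁⁻¹ * h * P₁ : GG) : MM)) *ᵥ v), ← hsim u v]
        simp only [Units.val_mul, ← Matrix.mulVec_mulVec, hinv]
        rw [(mem_spGL_iff h).mp hh]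
      exact ⟨_, hmem, by simp [MulAut.conj_apply, mul_assoc]⟩
  have hg₀R : g₀ ∈ ratScal F₀ (Fin m ⊕ Fin m) := ⟨1, one_ne_zero, by rwa [one_smul]⟩
  have hR : (ratScal F₀ (Fin m ⊕ Fin m)).map (MulAut.conj g₀).toMonoidHom = ratScal F₀ (Fin m ⊕ Fin m) := by
    apply le_antisymm
    · rintro _ ⟨g, hg, rfl⟩
      exact mul_mem (mul_mem hg₀R hg) (inv_mem hg₀R)
    · intro h hh
      exact ⟨g₀⁻¹ * h * g₀, mul_mem (mul_mem (inv_mem hg₀R) hh) hg₀R, by simp [MulAut.conj_apply, mul_assoc]⟩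
  have hsub : subfieldSubgroup F₀ P = (ratScal F₀ (Fin m ⊕ Fin m)).map (MulAut.conj P₁).toMonoidHom := by
    rw [subfieldSubgroup, sup_eq_ratScal]
    conv_lhs => rw [← hR]
    rw [Subgroup.map_map, hP₁]
    congr 1
    ext g
    simp [MulAut.conj_apply, mul_assoc]
  have hH : subfieldSubgroup F₀ P ⊓ Cfsg.spGL m F = (ratScal F₀ (Fin m ⊕ Fin m) ⊓ Cfsg.spGL m F).map (MulAut.conj P₁).toMonoidHom := by
    rw [Subgroup.map_inf_eq _ _ _ (MulAut.conj P₁).injective, hSp, hsub]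
  rw [hH]
  conv_lhs => rw [← hSp]
  exact isMaximalIn_map_conj P₁ (isMaximal_std hm hr hcard)

end reduction

end Cfsg.Agent.Lib.ClassMax.SubfieldSp
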