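import Mathlib
import Cfsg.Prelude.Def_GeometricClasses
import Cfsg.Agent.Lib.ClassMax.SubfieldSp
import Cfsg.Agent.Lib.ClassMax.SubfieldGen
import Cfsg.Agent.Lib.ClassMax.OmegaRefl
import Cfsg.Agent.Lib.ClassMax.OmegaStd

/-! The subfield subgroups of the orthogonal groups are maximal in `Ω`. -/

set_option autoImplicit false

namespace Cfsg.Agent.Lib.ClassMax.SubfieldO

open Matrix Cfsg.Geo Cfsg.Agent.Lib.ClassMax Cfsg.Agent.Lib.ClassMax.QuadOver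
open Cfsg.Agent.Lib.ClassMax.OmegaCore
open Cfsg.Agent.Lib.ClassMax.SubfieldCore Cfsg.Agent.Lib.ClassMax.SubfieldDih Cfsg.Agent.Lib.ClassMax.SubfieldGen

variable {ι : Type} [Fintype ι] [DecidableEq ι] {F : Type*} [Field F] {Q : (ι → F) → F} {F₀ : Subfield F}

local notation "BB" => QuadraticMap.polar Q
local notation "VV" => (ι → F)
local notation "MM" => Matrix ι ι F
local notation "GG" => GL ι F

/-- A non-degenerate quadratic form which is rational on rational vectors. -/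
structure RatQ (Q : (ι → F) → F) (F₀ : Subfield F) : Prop where
  nd : IsNondegenerateQuadraticForm Q
  rat : ∀ u : ι → F, RatV F₀ u → Q u ∈ F₀

/-- The form over the subfield. -/
def Q₀ (hR : RatQ Q F₀) (u : ι → F₀) : F₀ :=
  ⟨Q (SubfieldSp.cst F₀ u), hR.rat _ (SubfieldSp.cst_rat u)⟩

theorem polar_Q₀ (hR : RatQ Q F₀) (u v : ι → F₀) :
    ((QuadraticMap.polar (Q₀ hR) u v : F₀) : F) = BB (SubfieldSp.cst F₀ u) (SubfieldSp.cst F₀ v) := by
  simp only [QuadraticMap.polar, Q₀, SubfieldSp.cst_add, Subfield.coe_sub]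

theorem dual_zero (hQ : IsNondegenerateQuadraticForm Q) {y : VV} (h : ∀ j, BB (Pi.single j 1) y = 0) : y = 0 := by
  by_contra hy
  obtain ⟨x, hx⟩ := (hQ.nondegenerate y hy).1
  apply hx
  rw [← pol_dot hQ]
  have : fdual BB y = 0 := funext h
  rw [this, zero_dotProduct]

theorem polar_rat (hR : RatQ Q F₀) {u v : VV} (hu : RatV F₀ u) (hv : RatV F₀ v) : BB u v ∈ F₀ := by
  rw [QuadraticMap.polar]
  exact F₀.sub_mem (F₀.sub_mem (hR.rat _ (hu.add hv)) (hR.rat _ hu)) (hR.rat _ hv)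

theorem hQ₀ (hR : RatQ Q F₀) : IsNondegenerateQuadraticForm (Q₀ hR) where
  smul c v := Subtype.ext (by
    have := hR.nd.smul (c : F) (SubfieldSp.cst F₀ v)
    simpa [Q₀, SubfieldSp.cst_smul] using this)
  polar_bilinear :=
    { add_left := fun x y v => Subtype.ext (by
        simp only [polar_Q₀, Subfield.coe_add, SubfieldSp.cst_add, hR.nd.polar_bilinear.add_left])
      smul_left := fun c x v => Subtype.ext (by
        simp only [polar_Q₀, Subfield.coe_mul, SubfieldSp.cst_smul, hR.nd.polar_bilinear.smul_left])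
      add_right := fun v x y => Subtype.ext (by
        simp only [polar_Q₀, Subfield.coe_add, SubfieldSp.cst_add, hR.nd.polar_bilinear.add_right])
      smul_right := fun c v x => Subtype.ext (by
        simp only [polar_Q₀, Subfield.coe_mul, SubfieldSp.cst_smul, hR.nd.polar_bilinear.smul_right]) }
  nondegenerate := by
    have e1 : ∀ v : ι → F₀, v ≠ 0 → ∃ j, BB (Pi.single j 1) (SubfieldSp.cst F₀ v) ≠ 0 := by
      intro v hv
      by_contra hcon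
      push Not at hcon
      exact hv (SubfieldSp.cst_inj (dual_zero hR.nd hcon))
    have e2 : ∀ j, SubfieldSp.cst F₀ (Pi.single j 1 : ι → F₀) = (Pi.single j 1 : ι → F) := by
      intro j
      funext i
      simp only [SubfieldSp.cst, Pi.single_apply]
      split_ifs <;> rfl
    intro v hv
    obtain ⟨j, hj⟩ := e1 v hv
    refine ⟨⟨Pi.single j 1, fun h0 => hj ?_⟩, ⟨Pi.single j 1, fun h0 => hj ?_⟩⟩
    · have := congrArg Subtype.val h0
      rw [polar_Q₀, e2] at this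
      exact this
    · have h3 := congrArg Subtype.val h0
      rw [polar_Q₀, e2] at h3
      rw [pol_comm]
      exact h3

section rat

variable [Fintype F] (hR : RatQ Q F₀)
include hR

/-- Rational hyperbolic pairs. -/
theorem rat_hyp {k : ℕ} (c : Fin k → ι → F) (hc : ∀ i, RatV F₀ (c i)) (hk : 2 * k + 3 ≤ Fintype.card ι) :
    ∃ b b' : ι → F, RatV F₀ b ∧ RatV F₀ b' ∧ Q b = 0 ∧ Q b' = 0 ∧ BB b b' = 1 ∧ (∀ i, BB (c i) b = 0) ∧ (∀ i, BB (c i) b' = 0) := by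
  classical
  letI : Fintype F₀ := Fintype.ofFinite _
  have hq := hQ₀ hR
  obtain ⟨b, -, b', -, h1, h2, h3, h4, h5⟩ := exists_hyp hq (OrthPair.top hq) (fun i j => (⟨c i j, hc i j⟩ : F₀)) (by simpa using hk)
  refine ⟨SubfieldSp.cst F₀ b, SubfieldSp.cst F₀ b', SubfieldSp.cst_rat b, SubfieldSp.cst_rat b', ?_, ?_, ?_, ?_, ?_⟩
  · exact congrArg Subtype.val h1
  · exact congrArg Subtype.val h2
  · have := congrArg Subtype.val h3
    rwa [polar_Q₀] at this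
  · intro i
    have := congrArg Subtype.val (h4 i)
    rw [polar_Q₀] at this
    exact this
  · intro i
    have := congrArg Subtype.val (h5 i)
    rw [polar_Q₀] at this
    exact this

omit [Fintype F] in
/-- A vector whose values on rational vectors are rational is rational. -/
theorem rat_of_dual {y : VV} (h : ∀ j, BB y (Pi.single j 1) ∈ F₀) : RatV F₀ y := by
  have hQ := hR.nd
  let G : MM := fun j i => BB (Pi.single i 1) (Pi.single j 1)
  have hG : RatM F₀ G := fun j i => polar_rat hR (ratV_single i) (ratV_single j)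
  have hGy : ∀ v : VV, ∀ j, (G *ᵥ v) j = BB v (Pi.single j 1) := by
    intro v j
    rw [← pol_dot hQ (Pi.single j 1) v]
    rfl
  have hinj : Function.Injective G.mulVec := by
    intro a b hab
    apply sub_eq_zero.mp
    apply dual_zero hQ
    intro j
    have h1 : (G *ᵥ (a - b)) j = 0 := by
      have hab' : G *ᵥ a = G *ᵥ b := hab
      rw [Matrix.mulVec_sub, hab', sub_self]
      rfl
    rw [hGy] at h1
    rw [pol_comm, h1]
  have hu : IsUnit G := Matrix.mulVec_injective_iff_isUnit.mp hinj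
  have hy : y = G⁻¹ *ᵥ (G *ᵥ y) := by
    rw [Matrix.mulVec_mulVec, Matrix.nonsing_inv_mul _ ((Matrix.isUnit_iff_isUnit_det _).mp hu), Matrix.one_mulVec]
  rw [hy]
  exact hG.inv.mulVec (fun j => by rw [hGy]; exact h j)

omit [Fintype F] in
/-- A rational partner of a rational singular vector. -/
theorem rat_partner {u₀ : VV} (hu : RatV F₀ u₀) (h0 : Q u₀ = 0) (hne : u₀ ≠ 0) :
    ∃ z, RatV F₀ z ∧ Q z = 0 ∧ BB z u₀ = 1 ∧ BB u₀ z = 1 := by
  have hQ := hR.nd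
  have hb := hQ.polar_bilinear
  obtain ⟨j, hj⟩ : ∃ j, BB (Pi.single j 1) u₀ ≠ 0 := by
    by_contra hcon
    push Not at hcon
    exact hne (dual_zero hQ hcon)
  obtain ⟨c, hc⟩ : ∃ c, c = (BB (Pi.single j 1) u₀)⁻¹ := ⟨_, rfl⟩
  have hcr : c ∈ F₀ := hc ▸ F₀.inv_mem (polar_rat hR (ratV_single j) hu)
  obtain ⟨z', hz'⟩ : ∃ z' : VV, z' = c • Pi.single j 1 := ⟨_, rfl⟩
  have hz'r : RatV F₀ z' := hz' ▸ (ratV_single j).smul hcr
  have h1 : BB z' u₀ = 1 := by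
    rw [hz', hb.smul_left, hc, inv_mul_cancel₀ hj]
  have huu : BB u₀ u₀ = 0 := by rw [pol_self hQ, h0, mul_zero]
  refine ⟨z' - Q z' • u₀, hz'r.sub (hu.smul (hR.rat _ hz'r)), ?_, ?_, ?_⟩
  · rw [sub_eq_add_neg, Q_add' (Q := Q), Q_neg hQ, hQ.smul, h0, pol_neg_right hQ, hb.smul_right, h1]
    ring
  · rw [pol_sub_left hQ, hb.smul_left, h1, huu]
    ring
  · rw [pol_sub_right hQ, hb.smul_right, pol_comm u₀ z', h1, huu]
    ring

/-- A rational vector is a combination of three rational singular vectors. -/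
theorem rat_iso_decomp {u₀ g : VV} (hu : RatV F₀ u₀) (hg : RatV F₀ g) (hn : 7 ≤ Fintype.card ι) :
    ∃ x₁ p p' : VV, ∃ β ∈ F₀, RatV F₀ x₁ ∧ RatV F₀ p ∧ RatV F₀ p' ∧ Q x₁ = 0 ∧ Q p = 0 ∧ Q p' = 0 ∧ g = x₁ - p - β • p' ∧
      BB u₀ p = 0 ∧ BB u₀ p' = 0 ∧ (BB u₀ g = 0 → BB u₀ x₁ = 0) := by
  have hQ := hR.nd
  have hb := hQ.polar_bilinear
  obtain ⟨p, p', hp, hp', h1, h2, h3, h4, h5⟩ := rat_hyp hR ![u₀, g] (by
    intro i
    fin_cases i
    · exact hu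
    · exact hg) (by simp; omega)
  have hup : BB u₀ p = 0 := h4 0
  have hgp : BB g p = 0 := h4 1
  have hup' : BB u₀ p' = 0 := h5 0
  have hgp' : BB g p' = 0 := h5 1
  obtain ⟨β, hβ⟩ : ∃ β, β = - Q g := ⟨_, rfl⟩
  have hβr : β ∈ F₀ := hβ ▸ F₀.neg_mem (hR.rat _ hg)
  have hx : Q (g + p + β • p') = 0 := by
    rw [Q_add' (Q := Q), Q_add' (Q := Q) g, hQ.smul, h1, h2, hb.add_left, hb.smul_right, hb.smul_right, hgp, hgp', h3, hβ]
    ring
  refine ⟨g + p + β • p', p, p', β, hβr, (hg.add hp).add (hp'.smul hβr), hp, hp', hx, h1, h2, ?_, hup, hup', ?_⟩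
  · abel
  · intro h
    rw [hb.add_right, hb.add_right, hb.smul_right, hup, hup', h]
    ring

omit [Fintype F] in
/-- The Siegel transformations with rational parameters are rational. -/
theorem sg_rat {z u : VV} (hz : RatV F₀ z) (hu : RatV F₀ u) (hzz : Q z = 0) (hzu : BB z u = 0) : RatM F₀ (sg Q z u : MM) := by
  apply SubfieldSp.ratM_of_mulVec
  intro j
  rw [sg_apply hR.nd hzz hzu]
  unfold sgFun
  have hj : RatV F₀ (Pi.single j 1 : VV) := ratV_single j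
  exact (((hj.add (hz.smul (polar_rat hR hj hu))).sub (hu.smul (polar_rat hR hj hz))).sub (hz.smul (F₀.mul_mem (hR.rat _ hu) (polar_rat hR hj hz))))

theorem sg_in_M (hn : 9 ≤ Fintype.card ι) {M : Subgroup GG} (hHM : ratScal F₀ ι ⊓ omegaGL Q ≤ M) {z u : VV} (hz : RatV F₀ z)
    (hu : RatV F₀ u) (hzz : Q z = 0) (hzu : BB z u = 0) : sg Q z u ∈ M :=
  hHM ⟨⟨1, one_ne_zero, by rw [one_smul]; exact sg_rat hR hz hu hzz hzu⟩, sg_mem_omega hR.nd hn hzz hzu⟩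

end rat

section closure

variable [Fintype F] (hR : RatQ Q F₀) {M : Subgroup (GL ι F)}
include hR

omit [Fintype F] in
theorem Qs (κ : F) {u : VV} (h : Q u = 0) : Q (κ • u) = 0 := by
  rw [hR.nd.smul, h, mul_zero]

omit [Fintype F] in
theorem perp_smul_right (κ : F) {a u : VV} (h : BB a u = 0) : BB a (κ • u) = 0 := by
  rw [hR.nd.polar_bilinear.smul_right, h, mul_zero]

omit [Fintype F] in
theorem perp_smul_left (κ : F) {a u : VV} (h : BB a u = 0) : BB (κ • a) u = 0 := by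
  rw [hR.nd.polar_bilinear.smul_left, h, mul_zero]

omit [Fintype F] in
theorem sg_symm {z w : VV} (c : F) (hz : Q z = 0) (hw : Q w = 0) (h : BB z w = 0) : sg Q z (c • w) = sg Q w ((-c) • z) := by
  have hQ := hR.nd
  have h1 : BB w z = 0 := by rw [pol_comm]; exact h
  have h2 : BB z (c • w) = 0 := perp_smul_right hR _ h
  have h3 : BB w ((-c) • z) = 0 := perp_smul_right hR _ h1
  apply gl_ext_mulVec
  intro v
  rw [sg_apply hQ hz h2, sg_apply hQ hw h3]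
  unfold sgFun
  simp only [hQ.polar_bilinear.smul_right, hQ.smul, hz, hw]
  module

/-- Moving the second vector of a Siegel transformation. -/
theorem P_mul {z u x y : VV} {κ l : F} (hzz : Q z = 0) (huu : Q u = 0) (hzu : BB z u = 0) (hyy : Q y = 0)
    (hzy : BB z y = 0) (hxx : Q x = 0) (hzx : BB z x = 0) (hux : BB u x = 0) (hyx : BB y x = 0) (huy : BB u y = 1)
    (hP : sg Q z (κ • u) ∈ M) (hQ' : sg Q y (l • x) ∈ M) : sg Q z ((κ * l) • x) ∈ M := by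
  have hQ := hR.nd
  have hb := hQ.polar_bilinear
  have h := sg_comm hQ (u := z) (x := κ • u) (y := y) (w := l • x) hzz (Qs hR _ huu) hyy (Qs hR _ hxx) (perp_smul_right hR _ hzu)
    (perp_smul_right hR _ hyx) hzy (perp_smul_right hR _ hzx) (perp_smul_right hR _ (perp_smul_left hR _ hux))
  have e : BB (κ • u) y = κ := by
    rw [hb.smul_left, huy, mul_one]
  rw [e, sg_smul_left hQ κ hzz (perp_smul_right hR _ hzx), smul_smul] at h
  rw [← h]
  exact M.mul_mem (M.mul_mem (M.mul_mem hP hQ') (M.inv_mem hP)) (M.inv_mem hQ')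

theorem P_move (hn : 9 ≤ Fintype.card ι) (hHM : ratScal F₀ ι ⊓ omegaGL Q ≤ M) {z u u' x : VV} {κ : F} (hzz : Q z = 0) (huu : Q u = 0)
    (hzu : BB z u = 0) (hu'r : RatV F₀ u') (hu'u' : Q u' = 0) (huu' : BB u u' = 1) (hzu' : BB z u' = 0) (hxr : RatV F₀ x) (hxx : Q x = 0) (hzx : BB z x = 0)
    (hux : BB u x = 0) (hu'x : BB u' x = 0) (hP : sg Q z (κ • u) ∈ M) : sg Q z (κ • x) ∈ M := by
  have hQ' : sg Q u' ((1 : F) • x) ∈ M := by
    rw [one_smul]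
    exact sg_in_M hR hn hHM hu'r hxr hu'u' hu'x
  have := P_mul hR hzz huu hzu hu'u' hzu' hxx hzx hux hu'x huu' hP hQ'
  rwa [mul_one] at this

omit [Fintype F] in
theorem P_neg {z u : VV} {κ : F} (hzz : Q z = 0) (hzu : BB z u = 0) (hP : sg Q z (κ • u) ∈ M) : sg Q z ((-κ) • u) ∈ M := by
  have h := M.inv_mem hP
  rw [sg_inv hR.nd hzz (perp_smul_right hR _ hzu), ← neg_smul] at h
  exact h

omit [Fintype F] in
theorem P_add {z u : VV} {κ l : F} (hzz : Q z = 0) (hzu : BB z u = 0) (hP : sg Q z (κ • u) ∈ M) (hQ' : sg Q z (l • u) ∈ M) :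
    sg Q z ((κ + l) • u) ∈ M := by
  have h := M.mul_mem hP hQ'
  rwa [sg_mul hR.nd hzz (perp_smul_right hR _ hzu) (perp_smul_right hR _ hzu), ← add_smul] at h

/-- A rational frame. -/
structure Frame (F₀ : Subfield F) (Q : (ι → F) → F) (z z' u u' : ι → F) : Prop where
  rz : RatV F₀ z
  rz' : RatV F₀ z'
  ru : RatV F₀ u
  ru' : RatV F₀ u'
  zz : Q z = 0
  z'z' : Q z' = 0
  uu : Q u = 0
  u'u' : Q u' = 0
  zz1 : QuadraticMap.polar Q z z' = 1
  uu1 : QuadraticMap.polar Q u u' = 1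
  zu : QuadraticMap.polar Q z u = 0
  zu' : QuadraticMap.polar Q z u' = 0
  z'u : QuadraticMap.polar Q z' u = 0
  z'u' : QuadraticMap.polar Q z' u' = 0

/-- An irrational coefficient gives all coefficients. -/
theorem P_all (hn : 13 ≤ Fintype.card ι) (hHM : ratScal F₀ ι ⊓ omegaGL Q ≤ M) {r : ℕ} (hr : r.Prime)
    (hcard : Fintype.card F = Nat.card F₀ ^ r) {z z' u u' : VV} (hF : Frame F₀ Q z z' u u') {κ : F} (hκ : κ ∉ F₀) (hS : sg Q z (κ • u) ∈ M) (c : F) :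
    sg Q z (c • u) ∈ M := by
  have hQ := hR.nd
  have hn9 : 9 ≤ Fintype.card ι := by omega
  have hrat : ∀ a ∈ F₀, sg Q z (a • u) ∈ M := fun a ha =>
    sg_in_M hR hn9 hHM hF.rz (hF.ru.smul ha) hF.zz (perp_smul_right hR _ hF.zu)
  obtain ⟨w, w', hw, hw', hww, hw'w', hww', hc1, hc2⟩ := rat_hyp hR ![z, z', u, u'] (by
    intro i
    fin_cases i
    · exact hF.rz
    · exact hF.rz'
    · exact hF.ru
    · exact hF.ru') (by simp; omega)
  have hzw : BB z w = 0 := hc1 0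
  have hz'w : BB z' w = 0 := hc1 1
  have huw : BB u w = 0 := hc1 2
  have hu'w : BB u' w = 0 := hc1 3
  have hzw' : BB z w' = 0 := hc2 0
  have huw' : BB u w' = 0 := hc2 2
  obtain ⟨v, v', hv, hv', hvv, hv'v', hvv', hd1, hd2⟩ := rat_hyp hR ![w, z, z', u'] (by
    intro i
    fin_cases i
    · exact hw
    · exact hF.rz
    · exact hF.rz'
    · exact hF.ru') (by simp; omega)
  have hwv : BB w v = 0 := hd1 0
  have hzv : BB z v = 0 := hd1 1
  have hz'v : BB z' v = 0 := hd1 2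
  have hu'v : BB u' v = 0 := hd1 3
  have hwv' : BB w v' = 0 := hd2 0
  have hu'v' : BB u' v' = 0 := hd2 3
  have hcm : ∀ {a b : VV}, BB a b = 0 → BB b a = 0 := fun h => by rw [pol_comm]; exact h
  have hmul : ∀ {a b : F}, sg Q z (a • u) ∈ M → sg Q z (b • u) ∈ M → sg Q z ((a * b) • u) ∈ M := by
    intro a b ha hb
    -- moving `b`
    have s1 : sg Q z (b • w) ∈ M := P_move hR hn9 hHM hF.zz hF.uu hF.zu hF.ru' hF.u'u' hF.uu1 hF.zu' hw hww hzw huw hu'w hb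
    have s2 : sg Q w ((- b) • z) ∈ M := by
      rw [← sg_symm hR b hF.zz hww hzw]
      exact s1
    have s3 : sg Q w ((- b) • v) ∈ M :=
      P_move hR hn9 hHM hww hF.zz (hcm hzw) hF.rz' hF.z'z' hF.zz1 (hcm hz'w) hv hvv hwv hzv hz'v s2
    have s4 : sg Q w ((- b) • u') ∈ M :=
      P_move hR hn9 hHM hww hvv hwv hv' hv'v' hvv' hwv' hF.ru' hF.u'u' (hcm hu'w) (hcm hu'v) (hcm hu'v') s3
    have s5 : sg Q u' (b • w) ∈ M := by
      have := sg_symm hR (-b) hww hF.u'u' (hcm hu'w)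
      rw [this, neg_neg] at s4
      exact s4
    have s6 : sg Q z ((a * b) • w) ∈ M :=
      P_mul hR hF.zz hF.uu hF.zu hF.u'u' hF.zu' hww hzw huw hu'w hF.uu1 ha s5
    exact P_move hR hn9 hHM hF.zz hww hzw hw' hw'w' hww' hzw' hF.ru hF.uu hF.zu (hcm huw) (hcm huw') s6
  have hpow : ∀ (x : F) (k : ℕ), sg Q z (x • u) ∈ M → sg Q z ((x ^ k) • u) ∈ M := by
    intro x k hx
    induction k with
    | zero =>
      rw [pow_zero]
      exact hrat 1 F₀.one_mem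
    | succ k ih =>
      rw [pow_succ]
      exact hmul ih hx
  let K : Subfield F :=
    { carrier := {x | sg Q z (x • u) ∈ M}
      mul_mem' := fun {a b} ha hb => hmul ha hb
      one_mem' := hrat 1 F₀.one_mem
      add_mem' := fun {a b} ha hb => P_add hR hF.zz hF.zu ha hb
      zero_mem' := hrat 0 F₀.zero_mem
      neg_mem' := fun {a} ha => P_neg hR hF.zz hF.zu ha
      inv_mem' := fun x hx => by
        by_cases hx0 : x = 0
        · rw [hx0, _root_.inv_zero]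
          exact hrat 0 F₀.zero_mem
        · have h2 : x⁻¹ = x ^ (Fintype.card F - 2) := by
            have h3 := FiniteField.pow_card_sub_one_eq_one x hx0
            have h4 : 2 ≤ Fintype.card F := Fintype.one_lt_card
            have h5 : Fintype.card F - 1 = (Fintype.card F - 2) + 1 := by omega
            rw [h5, pow_succ] at h3
            exact (eq_inv_of_mul_eq_one_left h3).symm
          rw [h2]
          exact hpow x _ hx }
  have hK : F₀ ≤ K := fun a ha => hrat a ha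
  rcases eq_or_top_of_prime F₀ hr hcard K hK with hK1 | hK1
  · exfalso
    apply hκ
    rw [← hK1]
    exact hS
  · have : c ∈ K := by
      rw [hK1]
      trivial
    exact this

/-- From one direction to all rational directions. -/
theorem P_all_dir (hn : 13 ≤ Fintype.card ι) (hHM : ratScal F₀ ι ⊓ omegaGL Q ≤ M) {z u u' x : VV} (hzr : RatV F₀ z) (hur : RatV F₀ u) (hu'r : RatV F₀ u')
    (hzz : Q z = 0) (huu : Q u = 0) (hu'u' : Q u' = 0) (hzu : BB z u = 0) (huu' : BB u u' = 1) (hzu' : BB z u' = 0)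
    (hall : ∀ c : F, sg Q z (c • u) ∈ M) (hxr : RatV F₀ x) (hxx : Q x = 0) (hzx : BB z x = 0) (c : F) : sg Q z (c • x) ∈ M := by
  have hn9 : 9 ≤ Fintype.card ι := by omega
  have hcm : ∀ {a b : VV}, BB a b = 0 → BB b a = 0 := fun h => by rw [pol_comm]; exact h
  obtain ⟨v, v', hv, hv', hvv, hv'v', hvv', hd1, hd2⟩ := rat_hyp hR ![z, u, u', x] (by
    intro i
    fin_cases i
    · exact hzr
    · exact hur
    · exact hu'r
    · exact hxr) (by simp; omega)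
  have hzv : BB z v = 0 := hd1 0
  have huv : BB u v = 0 := hd1 1
  have hu'v : BB u' v = 0 := hd1 2
  have hxv : BB x v = 0 := hd1 3
  have hzv' : BB z v' = 0 := hd2 0
  have hxv' : BB x v' = 0 := hd2 3
  have s1 : sg Q z (c • v) ∈ M :=
    P_move hR hn9 hHM hzz huu hzu hu'r hu'u' huu' hzu' hv hvv hzv huv hu'v (hall c)
  exact P_move hR hn9 hHM hzz hvv hzv hv' hv'v' hvv' hzv' hxr hxx hzx (hcm hxv) (hcm hxv') s1

/-- All rational directions give the full centre. -/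
theorem full_of_dir (hn : 13 ≤ Fintype.card ι) {z z' : VV} (hzr : RatV F₀ z) (hz'r : RatV F₀ z') (hzz : Q z = 0)
    (hz'z : BB z' z = 1) (hall : ∀ x, RatV F₀ x → Q x = 0 → BB z x = 0 → ∀ c : F, sg Q z (c • x) ∈ M) : FullCentre Q M z := by
  have hQ := hR.nd
  have hb := hQ.polar_bilinear
  obtain ⟨D, hD⟩ : ∃ D : VV → Prop, D = fun w => BB z w = 0 ∧ sg Q z w ∈ M := ⟨_, rfl⟩
  have hadd : ∀ a b, D a → D b → D (a + b) := by
    intro a b ha hb'
    rw [hD] at ha hb' ⊢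
    obtain ⟨h1, hm⟩ := ha
    obtain ⟨h2, hm'⟩ := hb'
    refine ⟨by rw [hb.add_right, h1, h2, add_zero], ?_⟩
    rw [← sg_mul hQ hzz h1 h2]
    exact M.mul_mem hm hm'
  have hzero : D 0 := by
    rw [hD]
    refine ⟨pol_zero_right hQ _, ?_⟩
    rw [sg_zero_right hQ hzz]
    exact M.one_mem
  have hiso : ∀ x, RatV F₀ x → Q x = 0 → BB z x = 0 → ∀ c : F, D (c • x) := by
    intro x hx hxx hzx c
    rw [hD]
    exact ⟨perp_smul_right hR _ hzx, hall x hx hxx hzx c⟩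
  have hrat : ∀ g, RatV F₀ g → BB z g = 0 → ∀ c : F, D (c • g) := by
    intro g hg hzg c
    obtain ⟨x₁, p, p', β, hβ, hx₁, hp, hp', h1, h2, h3, he, h4, h5, h6⟩ := rat_iso_decomp hR hzr hg (by omega)
    have e : c • g = c • x₁ + (-c) • p + (-(c * β)) • p' := by
      rw [he]
      module
    rw [e]
    exact hadd _ _ (hadd _ _ (hiso _ hx₁ h1 (h6 hzg) _) (hiso _ hp h2 h4 _)) (hiso _ hp' h3 h5 _)
  intro w hzw
  have hwz : BB w z = 0 := by rw [pol_comm]; exact hzw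
  have hsum : w = ∑ j, w j • ((Pi.single j 1 : VV) - (BB (Pi.single j 1) z) • z') := by
    have h1 : ∑ j, w j • ((Pi.single j 1 : VV) - (BB (Pi.single j 1) z) • z') = (∑ j, w j • (Pi.single j 1 : VV)) - (∑ j, w j * BB (Pi.single j 1) z) • z' := by
      rw [Finset.sum_smul, ← Finset.sum_sub_distrib]
      apply Finset.sum_congr rfl
      intro j _
      rw [smul_sub, smul_smul]
    have h2 : ∑ j, w j * BB (Pi.single j 1) z = BB w z := by
      rw [← pol_dot hQ z w, dotProduct]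
      apply Finset.sum_congr rfl
      intro j _
      rw [mul_comm]
      rfl
    have h3 : ∑ j, w j • (Pi.single j 1 : VV) = w := by
      funext i
      simp [Finset.sum_apply, Pi.single_apply]
    rw [h1, h2, h3, hwz, zero_smul, sub_zero]
  have hDw : D w := by
    rw [hsum]
    apply Finset.sum_induction _ D hadd hzero
    intro j _
    apply hrat _ ((ratV_single j).sub (hz'r.smul (polar_rat hR (ratV_single j) hzr)))
    rw [pol_comm, pol_sub_left hQ, hb.smul_left, hz'z, mul_one, sub_self]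
  rw [hD] at hDw
  exact hDw.2

/-- An irrational Siegel transformation gives the whole group. -/
theorem omega_le_of_irr (hn : 13 ≤ Fintype.card ι) (hHM : ratScal F₀ ι ⊓ omegaGL Q ≤ M) {r : ℕ} (hr : r.Prime)
    (hcard : Fintype.card F = Nat.card F₀ ^ r) {z z' u u' : VV} (hF : Frame F₀ Q z z' u u') {κ : F} (hκ : κ ∉ F₀) (hS : sg Q z (κ • u) ∈ M) :
    omegaGL Q ≤ M := by
  have hQ := hR.nd
  have hn9 : 9 ≤ Fintype.card ι := by omega
  have hcm : ∀ {a b : VV}, BB a b = 0 → BB b a = 0 := fun h => by rw [pol_comm]; exact h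
  have hall := P_all hR hn hHM hr hcard hF hκ hS
  have hz'z : BB z' z = 1 := by rw [pol_comm]; exact hF.zz1
  have hUz : FullCentre Q M z := full_of_dir hR hn hF.rz hF.rz' hF.zz hz'z
    (fun x hx hxx hzx c => P_all_dir hR hn hHM hF.rz hF.ru hF.ru' hF.zz hF.uu hF.u'u' hF.zu hF.uu1 hF.zu' hall hx hxx hzx c)
  obtain ⟨v, v', hv, hv', hvv, hv'v', hvv', hd1, hd2⟩ := rat_hyp hR ![u, z, z'] (by
    intro i
    fin_cases i
    · exact hF.ru
    · exact hF.rz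
    · exact hF.rz') (by simp; omega)
  have huv : BB u v = 0 := hd1 0
  have hzv : BB z v = 0 := hd1 1
  have hz'v : BB z' v = 0 := hd1 2
  have huv' : BB u v' = 0 := hd2 0
  have hz'v' : BB z' v' = 0 := hd2 2
  have hallu : ∀ c : F, sg Q u (c • z) ∈ M := by
    intro c
    have := hall (- c)
    rwa [sg_symm hR _ hF.zz hF.uu hF.zu, neg_neg] at this
  have hall' : ∀ c : F, sg Q z' (c • u) ∈ M := by
    intro c
    have s1 : sg Q u ((- c) • v) ∈ M :=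
      P_move hR hn9 hHM hF.uu hF.zz (hcm hF.zu) hF.rz' hF.z'z' hF.zz1 (hcm hF.z'u) hv hvv huv hzv hz'v (hallu _)
    have s2 : sg Q u ((- c) • z') ∈ M :=
      P_move hR hn9 hHM hF.uu hvv huv hv' hv'v' hvv' huv' hF.rz' hF.z'z' (hcm hF.z'u) (hcm hz'v) (hcm hz'v') s1
    have := (sg_symm hR (- c) hF.uu hF.z'z' (hcm hF.z'u))
    rw [this, neg_neg] at s2
    exact s2
  have hUz' : FullCentre Q M z' := full_of_dir hR hn hF.rz' hF.rz hF.z'z' hF.zz1
    (fun x hx hxx hzx c => P_all_dir hR hn hHM hF.rz' hF.ru hF.ru' hF.z'z' hF.uu hF.u'u' hF.z'u hF.uu1 hF.z'u' hall' hx hxx hzx c)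
  exact omega_le_of_centres hQ hn hF.zz hF.z'z' hUz hUz' (by rw [hF.zz1]; exact one_ne_zero)

end closure

section key

/-- The image of the group in the unipotent radical of the stabiliser of a point. -/
def AA (Q : (ι → F) → F) (M : Subgroup (GL ι F)) (u₀ x : ι → F) : Prop :=
  QuadraticMap.polar Q u₀ x = 0 ∧ sg Q u₀ x ∈ M

/-- No irrational root element. -/
def NoIrr (F₀ : Subfield F) (Q : (ι → F) → F) (M : Subgroup (GL ι F)) : Prop :=
  ∀ z z' u u' : ι → F, Frame F₀ Q z z' u u' → ∀ κ : F, sg Q z (κ • u) ∈ M → κ ∈ F₀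

variable (hR : RatQ Q F₀) {M : Subgroup (GL ι F)}
include hR

theorem sg_ts_apply {z a : VV} (hzz : Q z = 0) (hza : BB z a = 0) (haa : Q a = 0) (v : VV) :
    (sg Q z a : MM) *ᵥ v = v + (BB v a • z - BB v z • a) := by
  rw [sg_apply hR.nd hzz hza]
  unfold sgFun
  rw [haa]
  module

theorem sg_self {u : VV} (e : F) (hu : Q u = 0) : sg Q u (e • u) = 1 := by
  have hQ := hR.nd
  have huu : BB u u = 0 := by rw [pol_self hQ, hu, mul_zero]
  apply gl_ext_mulVec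
  intro v
  rw [sg_ts_apply hR hu (perp_smul_right hR _ huu) (Qs hR _ hu), hQ.polar_bilinear.smul_right, Units.val_one, Matrix.one_mulVec]
  module

/-- Conjugating by an element fixing `u₀`. -/
theorem AA_of_fix {g : GG} (hgM : g ∈ M) (hg : ∀ v, Q ((g : MM) *ᵥ v) = Q v) {u₀ x : VV} (hu₀₀ : Q u₀ = 0)
    (hfix : (g : MM) *ᵥ u₀ = u₀) (hA : AA Q M u₀ x) : AA Q M u₀ ((g : MM) *ᵥ x - x) := by
  have hQ := hR.nd
  obtain ⟨hx, hm⟩ := hA
  have h1 := sg_conj hQ hg hu₀₀ hx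
  rw [hfix] at h1
  have h2 : BB u₀ ((g : MM) *ᵥ x) = 0 := by
    conv_lhs => rw [← hfix]
    rw [pol_iso' g hg, hx]
  have h3 : BB u₀ (-x) = 0 := by rw [pol_neg_right hQ, hx, neg_zero]
  have h4 : sg Q u₀ ((g : MM) *ᵥ x - x) = sg Q u₀ ((g : MM) *ᵥ x) * (sg Q u₀ x)⁻¹ := by
    rw [sg_inv hQ hu₀₀ hx, sg_mul hQ hu₀₀ h2 h3, sub_eq_add_neg]
  refine ⟨by rw [pol_sub_right hQ, h2, hx, sub_zero], ?_⟩
  rw [h4, ← h1]
  exact M.mul_mem (M.mul_mem (M.mul_mem hgM hm) (M.inv_mem hgM)) (M.inv_mem hm)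

variable [Fintype F]

theorem AA_step (hn : 9 ≤ Fintype.card ι) (hHM : ratScal F₀ ι ⊓ omegaGL Q ≤ M) {u₀ x p q : VV} (hu₀₀ : Q u₀ = 0) (hA : AA Q M u₀ x)
    (hpr : RatV F₀ p) (hqr : RatV F₀ q) (hpp : Q p = 0) (hqq : Q q = 0) (hpq : BB p q = 0) (hp0 : BB u₀ p = 0) (hq0 : BB u₀ q = 0) :
    AA Q M u₀ (BB x q • p - BB x p • q) := by
  have hQ := hR.nd
  have hRM : sg Q p q ∈ M := sg_in_M hR hn hHM hpr hqr hpp hpq
  have h1 := AA_of_fix hR hRM (sg_iso hQ hpp hpq) hu₀₀ (sg_fix hQ hpp hpq hp0 hq0) hA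
  rwa [sg_ts_apply hR hpp hpq hqq, add_sub_cancel_left] at h1

/-- A rational vector with an irrational scalar is not in the image. -/
theorem AA_rat (hn : 13 ≤ Fintype.card ι) (hHM : ratScal F₀ ι ⊓ omegaGL Q ≤ M) (hB : NoIrr F₀ Q M) {u₀ w w' : VV} (hu₀ : RatV F₀ u₀) (hu₀₀ : Q u₀ = 0)
    (hu₀0 : u₀ ≠ 0) (hw : RatV F₀ w) (hw' : RatV F₀ w') (hww : Q w = 0) (hw'w' : Q w' = 0) (hww' : BB w w' = 1) (hu₀w : BB u₀ w = 0) (hu₀w' : BB u₀ w' = 0) {κ : F}
    (hA : AA Q M u₀ (κ • w)) : κ ∈ F₀ := by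
  have hQ := hR.nd
  have hb := hQ.polar_bilinear
  have hn9 : 9 ≤ Fintype.card ι := by omega
  obtain ⟨z, hz, hzz, hzu, huz⟩ := rat_partner hR hu₀ hu₀₀ hu₀0
  obtain ⟨p, p', hp, hp', hpp, hp'p', hpp', hc1, hc2⟩ := rat_hyp hR ![u₀, z, w, w'] (by
    intro i
    fin_cases i
    · exact hu₀
    · exact hz
    · exact hw
    · exact hw') (by simp; omega)
  have hu₀p : BB u₀ p = 0 := hc1 0
  have hzp : BB z p = 0 := hc1 1
  have hwp : BB w p = 0 := hc1 2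
  have hw'p : BB w' p = 0 := hc1 3
  have hu₀p' : BB u₀ p' = 0 := hc2 0
  have hzp' : BB z p' = 0 := hc2 1
  have hF : Frame F₀ Q u₀ z p p' :=
    ⟨hu₀, hz, hp, hp', hu₀₀, hzz, hpp, hp'p', huz, hpp', hu₀p, hu₀p', hzp, hzp'⟩
  have h1 := AA_step hR hn9 hHM hu₀₀ hA hp hw' hpp hw'w' (by rw [pol_comm]; exact hw'p) hu₀p hu₀w'
  rw [hb.smul_left, hb.smul_left, hww', hwp, mul_one, mul_zero, zero_smul, sub_zero] at h1
  exact hB _ _ _ _ hF κ h1.2

/-- Values of an element of the image on rational singular vectors orthogonal to the centre are rational. -/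
theorem AA_iso (hn : 13 ≤ Fintype.card ι) (hHM : ratScal F₀ ι ⊓ omegaGL Q ≤ M) (hB : NoIrr F₀ Q M) {u₀ y w : VV} (hu₀ : RatV F₀ u₀) (hu₀₀ : Q u₀ = 0)
    (hu₀0 : u₀ ≠ 0) (hy : AA Q M u₀ y) (hw : RatV F₀ w) (hww : Q w = 0) (hu₀w : BB u₀ w = 0) : BB y w ∈ F₀ := by
  have hQ := hR.nd
  have hb := hQ.polar_bilinear
  have hn9 : 9 ≤ Fintype.card ι := by omega
  obtain ⟨w₂, w₄, hw₂, hw₄, h22, h44, h24, hc1, hc2⟩ := rat_hyp hR ![u₀, w] (by
    intro i
    fin_cases i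
    · exact hu₀
    · exact hw) (by simp; omega)
  have hu₂ : BB u₀ w₂ = 0 := hc1 0
  have hw2 : BB w w₂ = 0 := hc1 1
  have hu₄ : BB u₀ w₄ = 0 := hc2 0
  have hw4 : BB w w₄ = 0 := hc2 1
  obtain ⟨w₃, w₃', hw₃, hw₃', h33, h3'3', h33', hd1, hd2⟩ := rat_hyp hR ![u₀, w, w₂, w₄] (by
    intro i
    fin_cases i
    · exact hu₀
    · exact hw
    · exact hw₂
    · exact hw₄) (by simp; omega)
  have hu₃ : BB u₀ w₃ = 0 := hd1 0
  have hw3 : BB w w₃ = 0 := hd1 1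
  have h23 : BB w₂ w₃ = 0 := hd1 2
  have h43 : BB w₄ w₃ = 0 := hd1 3
  have hu₃' : BB u₀ w₃' = 0 := hd2 0
  have s1 := AA_step hR hn9 hHM hu₀₀ hy hw₂ hw h22 hww (by rw [pol_comm]; exact hw2) hu₂ hu₀w
  have s2 := AA_step hR hn9 hHM hu₀₀ s1 hw₃ hw₄ h33 h44 (by rw [pol_comm]; exact h43) hu₃ hu₄
  have e1 : BB (BB y w • w₂ - BB y w₂ • w) w₃ = 0 := by
    rw [pol_sub_left hQ, hb.smul_left, hb.smul_left, h23, hw3]
    ring
  have e2 : BB (BB y w • w₂ - BB y w₂ • w) w₄ = BB y w := by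
    rw [pol_sub_left hQ, hb.smul_left, hb.smul_left, h24, hw4]
    ring
  rw [e1, e2, zero_smul, sub_zero] at s2
  exact AA_rat hR hn hHM hB hu₀ hu₀₀ hu₀0 hw₃ hw₃' h33 h3'3' h33' hu₃ hu₃' s2

theorem AA_gen (hn : 13 ≤ Fintype.card ι) (hHM : ratScal F₀ ι ⊓ omegaGL Q ≤ M) (hB : NoIrr F₀ Q M) {u₀ y g : VV} (hu₀ : RatV F₀ u₀) (hu₀₀ : Q u₀ = 0)
    (hu₀0 : u₀ ≠ 0) (hy : AA Q M u₀ y) (hg : RatV F₀ g) (hu₀g : BB u₀ g = 0) : BB y g ∈ F₀ := by
  have hQ := hR.nd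
  have hb := hQ.polar_bilinear
  obtain ⟨x₁, p, p', β, hβ, hx₁, hp, hp', h1, h2, h3, he, h4, h5, h6⟩ := rat_iso_decomp hR hu₀ hg (by omega)
  rw [he, pol_sub_right hQ, pol_sub_right hQ, hb.smul_right]
  exact F₀.sub_mem (F₀.sub_mem (AA_iso hR hn hHM hB hu₀ hu₀₀ hu₀0 hy hx₁ h1 (h6 hu₀g)) (AA_iso hR hn hHM hB hu₀ hu₀₀ hu₀0 hy hp h2 h4))
    (F₀.mul_mem hβ (AA_iso hR hn hHM hB hu₀ hu₀₀ hu₀0 hy hp' h3 h5))

omit [Fintype F] in
/-- A vector with rational values on rational vectors orthogonal to a rational singular vector is rational modulo this vector. -/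
theorem rat_mod {u₀ y : VV} (hu₀ : RatV F₀ u₀) (hu₀₀ : Q u₀ = 0) (hu₀0 : u₀ ≠ 0) (hy : BB u₀ y = 0)
    (h : ∀ g, RatV F₀ g → BB u₀ g = 0 → BB y g ∈ F₀) : ∃ y₀ : VV, ∃ e : F, RatV F₀ y₀ ∧ y = y₀ + e • u₀ ∧ BB u₀ y₀ = 0 := by
  have hQ := hR.nd
  have hb := hQ.polar_bilinear
  have huu : BB u₀ u₀ = 0 := by rw [pol_self hQ, hu₀₀, mul_zero]
  obtain ⟨z, hz, hzz, hzu, huz⟩ := rat_partner hR hu₀ hu₀₀ hu₀0
  refine ⟨y - BB y z • u₀, BB y z, ?_, by abel, ?_⟩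
  · apply rat_of_dual hR
    intro j
    obtain ⟨g, hg⟩ : ∃ g : VV, g = Pi.single j 1 - (BB (Pi.single j 1) u₀) • z := ⟨_, rfl⟩
    have hgr : RatV F₀ g := hg ▸ (ratV_single j).sub (hz.smul (polar_rat hR (ratV_single j) hu₀))
    have hgu : BB g u₀ = 0 := by
      rw [hg, pol_sub_left hQ, hb.smul_left, hzu, mul_one, sub_self]
    have hug : BB u₀ g = 0 := by rw [pol_comm]; exact hgu
    have e1 : (Pi.single j 1 : VV) = g + (BB (Pi.single j 1) u₀) • z := by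
      rw [hg]; abel
    have e2 : BB (y - BB y z • u₀) z = 0 := by
      rw [pol_sub_left hQ, hb.smul_left, huz]
      ring
    rw [e1, hb.add_right, hb.smul_right, e2, mul_zero, add_zero, pol_sub_left hQ, hb.smul_left, hug, mul_zero, sub_zero]
    exact h g hgr hug
  · rw [pol_sub_right hQ, hb.smul_right, hy, huu]
    ring

omit [Fintype F] in
/-- A vector orthogonal to the rational vectors orthogonal to a rational singular vector is a multiple of it. -/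
theorem eq_smul_of_perp {u₀ y : VV} (hu₀ : RatV F₀ u₀) (hu₀₀ : Q u₀ = 0) (hu₀0 : u₀ ≠ 0)
    (h : ∀ g, RatV F₀ g → BB u₀ g = 0 → BB g y = 0) : ∃ μ : F, y = μ • u₀ := by
  have hQ := hR.nd
  have hb := hQ.polar_bilinear
  obtain ⟨z, hz, hzz, hzu, huz⟩ := rat_partner hR hu₀ hu₀₀ hu₀0
  refine ⟨BB z y, ?_⟩
  apply sub_eq_zero.mp
  apply dual_zero hQ
  intro j
  obtain ⟨g, hg⟩ : ∃ g : VV, g = Pi.single j 1 - (BB (Pi.single j 1) u₀) • z := ⟨_, rfl⟩
  have hgr : RatV F₀ g := hg ▸ (ratV_single j).sub (hz.smul (polar_rat hR (ratV_single j) hu₀))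
  have hgu : BB g u₀ = 0 := by
    rw [hg, pol_sub_left hQ, hb.smul_left, hzu, mul_one, sub_self]
  have hug : BB u₀ g = 0 := by rw [pol_comm]; exact hgu
  have e1 : (Pi.single j 1 : VV) = g + (BB (Pi.single j 1) u₀) • z := by
    rw [hg]; abel
  rw [e1, pol_sub_right hQ, hb.smul_right, hb.add_left, hb.add_left, hb.smul_left, hb.smul_left, hgu, hzu, h g hgr hug]
  ring

theorem rat_of_root (hn : 13 ≤ Fintype.card ι) (hHM : ratScal F₀ ι ⊓ omegaGL Q ≤ M) (hB : NoIrr F₀ Q M) {u₀ y : VV} (hu₀ : RatV F₀ u₀) (hu₀₀ : Q u₀ = 0)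
    (hu₀0 : u₀ ≠ 0) (hy : AA Q M u₀ y) : RatM F₀ (sg Q u₀ y : MM) := by
  have hQ := hR.nd
  have huu : BB u₀ u₀ = 0 := by rw [pol_self hQ, hu₀₀, mul_zero]
  obtain ⟨y₀, e, hy₀, he, hu₀y₀⟩ := rat_mod hR hu₀ hu₀₀ hu₀0 hy.1 (fun g hg hg0 => AA_gen hR hn hHM hB hu₀ hu₀₀ hu₀0 hy hg hg0)
  rw [he, ← sg_mul hQ hu₀₀ hu₀y₀ (perp_smul_right hR _ huu), sg_self hR e hu₀₀, mul_one]
  exact sg_rat hR hu₀ hy₀ hu₀₀ hu₀y₀

omit [Fintype F] in
/-- Decomposition of a Siegel transformation. -/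
theorem sg_decomp {a₀ b₀ u₀ : VV} (e₁ e₂ : F) (ha : Q a₀ = 0) (hb : Q b₀ = 0) (hu : Q u₀ = 0) (hab : BB a₀ b₀ = 0) (hau : BB a₀ u₀ = 0) (hbu : BB b₀ u₀ = 0) :
    sg Q (a₀ + e₁ • u₀) (b₀ + e₂ • u₀) = sg Q a₀ b₀ * sg Q u₀ (e₁ • b₀ - e₂ • a₀) := by
  have hQ := hR.nd
  have hB := hQ.polar_bilinear
  have huu : BB u₀ u₀ = 0 := by rw [pol_self hQ, hu, mul_zero]
  have haa : BB a₀ a₀ = 0 := by rw [pol_self hQ, ha, mul_zero]
  have hbb : BB b₀ b₀ = 0 := by rw [pol_self hQ, hb, mul_zero]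
  have hba : BB b₀ a₀ = 0 := by rw [pol_comm]; exact hab
  have hua : BB u₀ a₀ = 0 := by rw [pol_comm]; exact hau
  have hub : BB u₀ b₀ = 0 := by rw [pol_comm]; exact hbu
  have h1 : Q (a₀ + e₁ • u₀) = 0 := by
    rw [Q_add' (Q := Q), Qs hR _ hu, ha, hB.smul_right, hau]
    ring
  have h2 : Q (b₀ + e₂ • u₀) = 0 := by
    rw [Q_add' (Q := Q), Qs hR _ hu, hb, hB.smul_right, hbu]
    ring
  have h3 : BB (a₀ + e₁ • u₀) (b₀ + e₂ • u₀) = 0 := by
    simp only [hB.add_left, hB.add_right, hB.smul_left, hB.smul_right, hab, hau, hub, huu]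
    ring
  have h4 : BB u₀ (e₁ • b₀ - e₂ • a₀) = 0 := by
    rw [pol_sub_right hQ, hB.smul_right, hB.smul_right, hub, hua]
    ring
  have h5 : Q (e₁ • b₀ - e₂ • a₀) = 0 := by
    rw [sub_eq_add_neg, Q_add' (Q := Q), Q_neg hQ, Qs hR _ hb, Qs hR _ ha, pol_neg_right hQ, hB.smul_left, hB.smul_right, hba]
    ring
  apply gl_ext_mulVec
  intro v
  rw [Units.val_mul, ← Matrix.mulVec_mulVec, sg_ts_apply hR h1 h3 h2, sg_ts_apply hR hu h4 h5, sg_ts_apply hR ha hab hb]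
  simp only [hB.add_left, hB.add_right, hB.smul_left, hB.smul_right, pol_sub_left hQ, pol_sub_right hQ, hab, hau, hub, hbu, hua, hba, huu, haa, hbb]
  module

/-- The key lemma: a root element of the group orthogonal to a rational singular vector is rational. -/
theorem key (hn : 13 ≤ Fintype.card ι) (hHM : ratScal F₀ ι ⊓ omegaGL Q ≤ M) (hB : NoIrr F₀ Q M) {u₀ a b : VV} (hu₀ : RatV F₀ u₀) (hu₀₀ : Q u₀ = 0)
    (hu₀0 : u₀ ≠ 0) (haa : Q a = 0) (hbb : Q b = 0) (hab : BB a b = 0) (hu₀a : BB u₀ a = 0) (hu₀b : BB u₀ b = 0) (hg : sg Q a b ∈ M) :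
    RatM F₀ (sg Q a b : MM) := by
  have hQ := hR.nd
  have hb' := hQ.polar_bilinear
  have hn9 : 9 ≤ Fintype.card ι := by omega
  have hiso := sg_iso hQ haa hab
  have hfix : (sg Q a b : MM) *ᵥ u₀ = u₀ := sg_fix hQ haa hab hu₀a hu₀b
  have huu : BB u₀ u₀ = 0 := by rw [pol_self hQ, hu₀₀, mul_zero]
  have hba : BB b a = 0 := by rw [pol_comm]; exact hab
  have haaP : BB a a = 0 := by rw [pol_self hQ, haa, mul_zero]
  have hbbP : BB b b = 0 := by rw [pol_self hQ, hbb, mul_zero]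
  -- the image of rational vectors
  have hA : ∀ p, RatV F₀ p → BB u₀ p = 0 → AA Q M u₀ (BB p b • a - BB p a • b) := by
    intro p hp hup
    have h1 := AA_of_fix hR hg hiso hu₀₀ hfix (x := p) ⟨hup, sg_in_M hR hn9 hHM hu₀ hp hu₀₀ hup⟩
    rwa [sg_ts_apply hR haa hab hbb, add_sub_cancel_left] at h1
  by_cases hcaseA : ∀ p, RatV F₀ p → BB u₀ p = 0 → BB p a = 0
  · obtain ⟨μ, hμ⟩ := eq_smul_of_perp hR hu₀ hu₀₀ hu₀0 hcaseA
    have e : sg Q a b = sg Q u₀ (μ • b) := by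
      rw [hμ, sg_smul_left hQ μ hu₀₀ hu₀b]
    rw [e]
    exact rat_of_root hR hn hHM hB hu₀ hu₀₀ hu₀0 ⟨perp_smul_right hR _ hu₀b, e ▸ hg⟩
  push Not at hcaseA
  obtain ⟨p₁, hp₁, hup₁, hα⟩ := hcaseA
  obtain ⟨α, hαd⟩ : ∃ α, α = BB p₁ a := ⟨_, rfl⟩
  obtain ⟨β, hβd⟩ : ∃ β, β = BB p₁ b := ⟨_, rfl⟩
  rw [← hαd] at hα
  by_cases hcaseB : ∀ p, RatV F₀ p → BB u₀ p = 0 → α * BB p b - β * BB p a = 0
  · obtain ⟨μ, hμ⟩ := eq_smul_of_perp hR (y := α • b - β • a) hu₀ hu₀₀ hu₀0 (fun g hg hg0 => by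
      rw [pol_sub_right hQ, hb'.smul_right, hb'.smul_right]
      exact hcaseB g hg hg0)
    have e0 : b = (β / α) • a + (μ / α) • u₀ := by
      have e1 : α • b = β • a + μ • u₀ := by
        rw [← hμ]
        abel
      have e2 : b = α⁻¹ • (α • b) := by rw [smul_smul, inv_mul_cancel₀ hα, one_smul]
      rw [e2, e1, smul_add, smul_smul, smul_smul, div_eq_inv_mul, div_eq_inv_mul]
    have h1 : BB a ((μ / α) • u₀) = 0 := perp_smul_right hR _ (by rw [pol_comm]; exact hu₀a)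
    have e : sg Q a b = sg Q u₀ ((-(μ / α)) • a) := by
      rw [e0, ← sg_mul hQ haa (perp_smul_right hR _ haaP) h1, sg_self hR _ haa, one_mul, sg_symm hR _ haa hu₀₀ (by rw [pol_comm]; exact hu₀a)]
    rw [e]
    exact rat_of_root hR hn hHM hB hu₀ hu₀₀ hu₀0 ⟨perp_smul_right hR _ hu₀a, e ▸ hg⟩
  push Not at hcaseB
  obtain ⟨p₂, hp₂, hup₂, hΔ⟩ := hcaseB
  obtain ⟨γ, hγd⟩ : ∃ γ, γ = BB p₂ a := ⟨_, rfl⟩
  obtain ⟨δ, hδd⟩ : ∃ δ, δ = BB p₂ b := ⟨_, rfl⟩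
  rw [← hγd, ← hδd] at hΔ
  obtain ⟨Δ, hΔd⟩ : ∃ Δ, Δ = α * δ - β * γ := ⟨_, rfl⟩
  rw [mul_comm α δ, mul_comm β γ, mul_comm δ α, mul_comm γ β] at hΔ
  rw [← hΔd] at hΔ
  have hA₁ := hA p₁ hp₁ hup₁
  have hA₂ := hA p₂ hp₂ hup₂
  rw [← hαd, ← hβd] at hA₁
  rw [← hγd, ← hδd] at hA₂
  obtain ⟨A', hA'⟩ : ∃ A', A' = β • a - α • b := ⟨_, rfl⟩
  obtain ⟨B', hB'⟩ : ∃ B', B' = δ • a - γ • b := ⟨_, rfl⟩
  rw [← hA'] at hA₁
  rw [← hB'] at hA₂
  obtain ⟨a₀, e₁, ha₀, hae, hua₀⟩ := rat_mod hR hu₀ hu₀₀ hu₀0 hA₁.1 (fun g hg hg0 => AA_gen hR hn hHM hB hu₀ hu₀₀ hu₀0 hA₁ hg hg0)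
  obtain ⟨b₀, e₂, hb₀, hbe, hub₀⟩ := rat_mod hR hu₀ hu₀₀ hu₀0 hA₂.1 (fun g hg hg0 => AA_gen hR hn hHM hB hu₀ hu₀₀ hu₀0 hA₂ hg hg0)
  have hp1u : BB p₁ u₀ = 0 := by rw [pol_comm]; exact hup₁
  have hp2u : BB p₂ u₀ = 0 := by rw [pol_comm]; exact hup₂
  have hau₀ : BB a₀ u₀ = 0 := by rw [pol_comm]; exact hua₀
  have hbu₀ : BB b₀ u₀ = 0 := by rw [pol_comm]; exact hub₀
  -- the pairings
  have v1 : ∀ p, BB p A' = β * BB p a - α * BB p b := by
    intro p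
    rw [hA', pol_sub_right hQ, hb'.smul_right, hb'.smul_right]
  have v2 : ∀ p, BB p B' = δ * BB p a - γ * BB p b := by
    intro p
    rw [hB', pol_sub_right hQ, hb'.smul_right, hb'.smul_right]
  have w1 : ∀ p, BB p u₀ = 0 → BB p A' = BB p a₀ := by
    intro p hp
    rw [hae, hb'.add_right, hb'.smul_right, hp]
    ring
  have w2 : ∀ p, BB p u₀ = 0 → BB p B' = BB p b₀ := by
    intro p hp
    rw [hbe, hb'.add_right, hb'.smul_right, hp]
    ring
  have p11 : BB p₁ a₀ = 0 := by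
    rw [← w1 _ hp1u, v1, ← hαd, ← hβd]
    ring
  have p21 : BB p₂ a₀ = - Δ := by
    rw [← w1 _ hp2u, v1, ← hγd, ← hδd, hΔd]
    ring
  have p12 : BB p₁ b₀ = Δ := by
    rw [← w2 _ hp1u, v2, ← hαd, ← hβd, hΔd]
    ring
  have p22 : BB p₂ b₀ = 0 := by
    rw [← w2 _ hp2u, v2, ← hγd, ← hδd]
    ring
  have hΔr : Δ ∈ F₀ := by
    rw [← p12]
    exact polar_rat hR hp₁ hb₀
  -- singular vectors
  have hA'Q : Q A' = 0 := by
    rw [hA', sub_eq_add_neg, Q_add' (Q := Q), Q_neg hQ, Qs hR _ haa, Qs hR _ hbb, pol_neg_right hQ, hb'.smul_left, hb'.smul_right, hab]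
    ring
  have hB'Q : Q B' = 0 := by
    rw [hB', sub_eq_add_neg, Q_add' (Q := Q), Q_neg hQ, Qs hR _ haa, Qs hR _ hbb, pol_neg_right hQ, hb'.smul_left, hb'.smul_right, hab]
    ring
  have hA'B' : BB A' B' = 0 := by
    rw [hA', hB']
    simp only [pol_sub_left hQ, pol_sub_right hQ, hb'.smul_left, hb'.smul_right, haaP, hbbP, hab, hba]
    ring
  have ha₀Q : Q a₀ = 0 := by
    have h1 := hA'Q
    rw [hae, Q_add' (Q := Q), Qs hR _ hu₀₀, hb'.smul_right, hau₀] at h1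
    simpa using h1
  have hb₀Q : Q b₀ = 0 := by
    have h1 := hB'Q
    rw [hbe, Q_add' (Q := Q), Qs hR _ hu₀₀, hb'.smul_right, hbu₀] at h1
    simpa using h1
  have ha₀b₀ : BB a₀ b₀ = 0 := by
    have h1 := hA'B'
    rw [hae, hbe, hb'.add_left, hb'.add_right, hb'.add_right, hb'.smul_left, hb'.smul_left, hb'.smul_right, hb'.smul_right, hau₀, hub₀, huu] at h1
    simpa using h1
  obtain ⟨κ, hκ⟩ : ∃ κ, κ = Δ⁻¹ := ⟨_, rfl⟩
  have hκΔ : κ * Δ = 1 := by rw [hκ, inv_mul_cancel₀ hΔ]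
  have hκr : κ ∈ F₀ := hκ ▸ F₀.inv_mem hΔr
  -- the wedge
  have hκA'Q : Q (κ • A') = 0 := Qs hR _ hA'Q
  have hκA'B' : BB (κ • A') B' = 0 := perp_smul_left hR _ hA'B'
  have hwedge : sg Q a b = sg Q (κ • A') B' := by
    apply gl_ext_mulVec
    intro v
    rw [sg_ts_apply hR haa hab hbb, sg_ts_apply hR hκA'Q hκA'B' hB'Q, hb'.smul_right, v2]
    congr 1
    rw [v1, hA', hB']
    have e3 : ∀ s t : F, t • a - s • b = (κ * Δ) • (t • a - s • b) := by
      intro s t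
      rw [hκΔ, one_smul]
    rw [e3 (BB v a) (BB v b), hΔd]
    module
  have hdec : sg Q (κ • A') B' = sg Q (κ • a₀) b₀ * sg Q u₀ ((κ * e₁) • b₀ - e₂ • (κ • a₀)) := by
    have e4 : κ • A' = κ • a₀ + (κ * e₁) • u₀ := by
      rw [hae, smul_add, smul_smul]
    rw [e4, hbe]
    exact sg_decomp hR _ _ (Qs hR _ ha₀Q) hb₀Q hu₀₀ (perp_smul_left hR _ ha₀b₀) (perp_smul_left hR _ hau₀) hbu₀
  obtain ⟨y, hy⟩ : ∃ y, y = (κ * e₁) • b₀ - e₂ • (κ • a₀) := ⟨_, rfl⟩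
  rw [← hy] at hdec
  have hκa₀ : RatV F₀ (κ • a₀) := ha₀.smul hκr
  have hR₀ : sg Q (κ • a₀) b₀ ∈ M := sg_in_M hR hn9 hHM hκa₀ hb₀ (Qs hR _ ha₀Q) (perp_smul_left hR _ ha₀b₀)
  have huy : BB u₀ y = 0 := by
    rw [hy, pol_sub_right hQ, hb'.smul_right, hb'.smul_right, hb'.smul_right, hub₀, hua₀]
    ring
  have hyM : AA Q M u₀ y := by
    refine ⟨huy, ?_⟩
    have hg' : sg Q (κ • a₀) b₀ * sg Q u₀ y ∈ M := by
      rw [← hdec, ← hwedge]
      exact hg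
    have h1 := M.mul_mem (M.inv_mem hR₀) hg'
    rwa [inv_mul_cancel_left] at h1
  have he₁ : e₁ ∈ F₀ := by
    have h1 := AA_gen hR hn hHM hB hu₀ hu₀₀ hu₀0 hyM hp₁ hup₁
    rw [pol_comm, hy, pol_sub_right hQ, hb'.smul_right, hb'.smul_right, hb'.smul_right, p11, p12] at h1
    have e : κ * e₁ * Δ - e₂ * (κ * 0) = e₁ := by
      linear_combination e₁ * hκΔ
    rwa [e] at h1
  have he₂ : e₂ ∈ F₀ := by
    have h1 := AA_gen hR hn hHM hB hu₀ hu₀₀ hu₀0 hyM hp₂ hup₂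
    rw [pol_comm, hy, pol_sub_right hQ, hb'.smul_right, hb'.smul_right, hb'.smul_right, p21, p22] at h1
    have e : κ * e₁ * 0 - e₂ * (κ * -Δ) = e₂ := by
      linear_combination e₂ * hκΔ
    rwa [e] at h1
  rw [hwedge]
  apply sg_rat hR _ _ hκA'Q hκA'B'
  · rw [hae]
    exact (ha₀.add (hu₀.smul he₁)).smul hκr
  · rw [hbe]
    exact hb₀.add (hu₀.smul he₂)

end key

end Cfsg.Agent.Lib.ClassMax.SubfieldO
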