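import Mathlib
import Cfsg.Agent.Lib.ClassMax.SubfieldO

/-! Root elements orthogonal to a rational vector are rational. -/

set_option autoImplicit false

namespace Cfsg.Agent.Lib.ClassMax.SubfieldO

open Matrix Cfsg.Geo Cfsg.Agent.Lib.ClassMax Cfsg.Agent.Lib.ClassMax.QuadOver
open Cfsg.Agent.Lib.ClassMax.OmegaCore
open Cfsg.Agent.Lib.ClassMax.SubfieldCore Cfsg.Agent.Lib.ClassMax.SubfieldDih Cfsg.Agent.Lib.ClassMax.SubfieldGen

variable {ι : Type} [Fintype ι] [DecidableEq ι] {F : Type*} [Field F] {Q : (ι → F) → F} {F₀ : Subfield F}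

local notation "BB" => QuadraticMap.polar Q
local notation "VV" => (ι → F)
local notation "MM" => Matrix ι ι F
local notation "GG" => GL ι F

section

/-- Square roots in characteristic two. -/
theorem mem_of_sq_mem [Fintype F] (h2 : (2 : F) = 0) {β : F} (h : β ^ 2 ∈ F₀) : β ∈ F₀ := by
  classical
  letI : Fintype F₀ := Fintype.ofFinite _
  let f : F₀ → F₀ := fun x => x ^ 2
  have hinj : Function.Injective f := by
    intro x y hxy
    have h1 : ((x : F)) ^ 2 = (y : F) ^ 2 := by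
      have := congrArg Subtype.val hxy
      simpa [f] using this
    have h3 : ((x : F) - y) ^ 2 = 0 := by
      have e : ((x : F) - y) ^ 2 = (x : F) ^ 2 - (y : F) ^ 2 + (y : F) * (y - x) * 2 := by ring
      rw [e, h1, h2]
      ring
    have h4 : (x : F) - y = 0 := by
      exact pow_eq_zero_iff (two_ne_zero) |>.mp h3
    exact Subtype.ext (sub_eq_zero.mp h4)
  obtain ⟨γ, hγ⟩ := (Finite.injective_iff_surjective.mp hinj) ⟨β ^ 2, h⟩
  have h1 : ((γ : F)) ^ 2 = β ^ 2 := by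
    have := congrArg Subtype.val hγ
    simpa [f] using this
  have h3 : (β - γ) ^ 2 = 0 := by
    have e : (β - γ) ^ 2 = β ^ 2 - (γ : F) ^ 2 + (γ : F) * (γ - β) * 2 := by ring
    rw [e, h1, h2]
    ring
  have h4 : β - γ = 0 := pow_eq_zero_iff (two_ne_zero) |>.mp h3
  rw [sub_eq_zero.mp h4]
  exact γ.2

theorem coef_rat {u₁ u₂ : VV} (h1 : RatV F₀ u₁) (h2 : RatV F₀ u₂) (h20 : u₂ ≠ 0) (hind : ∀ c : F, u₁ ≠ c • u₂) {α β : F}
    (h : RatV F₀ (α • u₁ + β • u₂)) : α ∈ F₀ := by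
  obtain ⟨ω, hω, hω2, hω1⟩ := SubfieldDih.exists_sep h1 h2 h20 hind
  have h3 := hω.dot h
  rw [dotProduct_add, dotProduct_smul, dotProduct_smul, hω2, smul_zero, add_zero, smul_eq_mul] at h3
  have e : α = (α * (ω ⬝ᵥ u₁)) * (ω ⬝ᵥ u₁)⁻¹ := by
    field_simp
  rw [e]
  exact F₀.mul_mem h3 (F₀.inv_mem (hω.dot h1))

theorem ratio_rat {t r : VV} (ht : RatV F₀ t) (hr : RatV F₀ r) (ht0 : t ≠ 0) {c : F} (h : r = c • t) : c ∈ F₀ := by
  obtain ⟨i, hi⟩ : ∃ i, t i ≠ 0 := by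
    by_contra hcon
    push Not at hcon
    exact ht0 (funext hcon)
  have h1 := congrFun h i
  simp only [Pi.smul_apply, smul_eq_mul] at h1
  have e : c = r i * (t i)⁻¹ := by
    rw [h1]
    field_simp
  rw [e]
  exact F₀.mul_mem (hr i) (F₀.inv_mem (ht i))

variable [Fintype F] (hR : RatQ Q F₀) {M : Subgroup (GL ι F)}
include hR

/-- The basic computation: `Y⁻¹ g Y g⁻¹`. -/
theorem kl_val (hn : 13 ≤ Fintype.card ι) (hHM : ratScal F₀ ι ⊓ omegaGL Q ≤ M) (hB : NoIrr F₀ Q M) {a b w u : VV} (haa : Q a = 0) (hbb : Q b = 0) (hab : BB a b = 0)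
    (hw : RatV F₀ w) (haw : BB a w = 0) (hbw : BB b w = 0) (hg : sg Q a b ∈ M) (hu : RatV F₀ u) (huu : Q u = 0) (hu0 : u ≠ 0) (huw : BB u w = 0) {p : VV} (hp : RatV F₀ p) (hup : BB u p = 0) :
    ∃ (r₀ : VV) (e₀ : F), RatV F₀ r₀ ∧ BB u r₀ = 0 ∧ (BB p w - Q w * BB p (BB u b • a - BB u a • b)) • (BB u b • a - BB u a • b) - BB p (BB u b • a - BB u a • b) • w = r₀ + e₀ • u := by
  have hQ := hR.nd
  have hb' := hQ.polar_bilinear
  have hn9 : 9 ≤ Fintype.card ι := by omega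
  obtain ⟨c, hc⟩ : ∃ c, c = BB u b • a - BB u a • b := ⟨_, rfl⟩
  rw [← hc]
  have huuP : BB u u = 0 := by rw [pol_self hQ, huu, mul_zero]
  have hgu : (sg Q a b : MM) *ᵥ u = u + c := by
    rw [sg_ts_apply hR haa hab hbb, hc]
  have hgw : (sg Q a b : MM) *ᵥ w = w := sg_fix hQ haa hab (by rw [pol_comm]; exact haw) (by rw [pol_comm]; exact hbw)
  have hiso := sg_iso hQ haa hab
  have huc : BB u c = 0 := by
    rw [hc, pol_sub_right hQ, hb'.smul_right, hb'.smul_right]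
    ring
  have hcw : BB c w = 0 := by
    rw [hc, pol_sub_left hQ, hb'.smul_left, hb'.smul_left, haw, hbw]
    ring
  have hucQ : Q (u + c) = 0 := by
    rw [← hgu, hiso, huu]
  have hucw : BB (u + c) w = 0 := by
    rw [hb'.add_left, huw, hcw, add_zero]
  have hYM : sg Q u w ∈ M := sg_in_M hR hn9 hHM hu hw huu huw
  have hconj : sg Q a b * sg Q u w * (sg Q a b)⁻¹ = sg Q (u + c) w := by
    rw [sg_conj hQ hiso huu huw, hgu, hgw]
  obtain ⟨h, hh⟩ : ∃ h, h = (sg Q u w)⁻¹ * sg Q (u + c) w := ⟨_, rfl⟩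
  have hhM : h ∈ M := by
    rw [hh, ← hconj]
    exact M.mul_mem (M.inv_mem hYM) (M.mul_mem (M.mul_mem hg hYM) (M.inv_mem hg))
  have hwu : BB u (-w) = 0 := by rw [pol_neg_right hQ, huw, neg_zero]
  have hinv : (sg Q u w)⁻¹ = sg Q u (-w) := sg_inv hQ huu huw
  have hhiso : ∀ v, Q ((h : MM) *ᵥ v) = Q v := by
    intro v
    rw [hh, hinv, Units.val_mul, ← Matrix.mulVec_mulVec, sg_iso hQ huu hwu, sg_iso hQ hucQ hucw]
  have huc' : BB u (u + c) = 0 := by rw [hb'.add_right, huuP, huc, add_zero]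
  have hhfix : (h : MM) *ᵥ u = u := by
    rw [hh, hinv, Units.val_mul, ← Matrix.mulVec_mulVec, sg_fix hQ hucQ hucw huc' huw, sg_fix hQ huu hwu huuP hwu]
  have hA := AA_of_fix hR hhM hhiso huu hhfix (x := p) ⟨hup, sg_in_M hR hn9 hHM hu hp huu hup⟩
  obtain ⟨r₀, e₀, hr₀, he, hur₀⟩ := rat_mod hR hu huu hu0 hA.1 (fun g hg hg0 => AA_gen hR hn hHM hB hu huu hu0 hA hg hg0)
  obtain ⟨s, hs⟩ : ∃ s, s = BB p c := ⟨_, rfl⟩
  rw [← hs]
  have hpu : BB p u = 0 := by rw [pol_comm]; exact hup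
  have hcu : BB c u = 0 := by rw [pol_comm]; exact huc
  have hpuc : BB p (u + c) = s := by rw [hb'.add_right, hpu, zero_add, hs]
  have hcalc : (sg Q (u + c) w : MM) *ᵥ p = p + BB p w • (u + c) - s • w - (Q w * s) • (u + c) := by
    rw [sg_apply hQ hucQ hucw]
    unfold sgFun
    rw [hpuc]
  obtain ⟨t, ht⟩ : ∃ t, t = p + BB p w • (u + c) - s • w - (Q w * s) • (u + c) := ⟨_, rfl⟩
  rw [← ht] at hcalc
  have htu : BB t u = 0 := by
    have hu'' : BB (u + c) u = 0 := by rw [pol_comm]; exact huc'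
    have hwu' : BB w u = 0 := by rw [pol_comm]; exact huw
    rw [ht, pol_sub_left hQ, pol_sub_left hQ, hb'.add_left, hb'.smul_left, hb'.smul_left, hb'.smul_left, hu'', hwu', hpu]
    ring
  have hhp : (h : MM) *ᵥ p = t + (BB t (-w)) • u := by
    rw [hh, hinv, Units.val_mul, ← Matrix.mulVec_mulVec, hcalc, sg_apply hQ huu hwu]
    unfold sgFun
    rw [htu]
    simp
  rw [hhp, ht] at he
  refine ⟨r₀, e₀ - (BB p w - Q w * s) - BB t (-w), hr₀, hur₀, ?_⟩
  have e5 : (BB p w - Q w * s) • c - s • w = (p + BB p w • (u + c) - s • w - (Q w * s) • (u + c) + BB t (-w) • u - p) - ((BB p w - Q w * s) + BB t (-w)) • u := by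
    module
  rw [← ht] at e5 he
  rw [e5, he]
  module

end

/-- The nilpotent part of a root element. -/
def Gv (Q : (ι → F) → F) (a b v : ι → F) : ι → F := QuadraticMap.polar Q v b • a - QuadraticMap.polar Q v a • b

section

theorem Gv_add (hQ : IsNondegenerateQuadraticForm Q) (a b v v' : VV) : Gv Q a b (v + v') = Gv Q a b v + Gv Q a b v' := by
  unfold Gv
  rw [hQ.polar_bilinear.add_left, hQ.polar_bilinear.add_left]
  module

theorem Gv_smul (hQ : IsNondegenerateQuadraticForm Q) (a b : VV) (c : F) (v : VV) : Gv Q a b (c • v) = c • Gv Q a b v := by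
  unfold Gv
  rw [hQ.polar_bilinear.smul_left, hQ.polar_bilinear.smul_left]
  module

theorem Gv_sub (hQ : IsNondegenerateQuadraticForm Q) (a b v v' : VV) : Gv Q a b (v - v') = Gv Q a b v - Gv Q a b v' := by
  unfold Gv
  rw [pol_sub_left hQ, pol_sub_left hQ]
  module

theorem Gv_Gv (hQ : IsNondegenerateQuadraticForm Q) {a b : VV} (haa : Q a = 0) (hbb : Q b = 0) (hab : BB a b = 0) (v : VV) : Gv Q a b (Gv Q a b v) = 0 := by
  have hb := hQ.polar_bilinear
  have haaP : BB a a = 0 := by rw [pol_self hQ, haa, mul_zero]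
  have hbbP : BB b b = 0 := by rw [pol_self hQ, hbb, mul_zero]
  have hba : BB b a = 0 := by rw [pol_comm]; exact hab
  unfold Gv
  simp only [pol_sub_left hQ, hb.smul_left, haaP, hbbP, hab, hba]
  simp

theorem Gv_skew (hQ : IsNondegenerateQuadraticForm Q) (a b x y : VV) : BB (Gv Q a b x) y = - BB x (Gv Q a b y) := by
  have hb := hQ.polar_bilinear
  unfold Gv
  rw [pol_sub_left hQ, hb.smul_left, hb.smul_left, pol_sub_right hQ, hb.smul_right, hb.smul_right, pol_comm a y, pol_comm b y]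
  ring

variable [Fintype F] (hR : RatQ Q F₀) {M : Subgroup (GL ι F)}
include hR

theorem kl_step (hn : 13 ≤ Fintype.card ι) (hHM : ratScal F₀ ι ⊓ omegaGL Q ≤ M) (hB : NoIrr F₀ Q M) {a b w u : VV} (haa : Q a = 0) (hbb : Q b = 0) (hab : BB a b = 0)
    (hw : RatV F₀ w) (hw0 : Q w ≠ 0) (haw : BB a w = 0) (hbw : BB b w = 0) (hg : sg Q a b ∈ M) (hu : RatV F₀ u) (huu : Q u = 0) (huw : BB u w = 0) :
    ∃ (r : VV) (e : F), RatV F₀ r ∧ Gv Q a b u = r + e • u := by
  have hQ := hR.nd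
  have hb' := hQ.polar_bilinear
  by_cases hu0 : u = 0
  · refine ⟨0, 0, ratV_zero, ?_⟩
    rw [hu0]
    unfold Gv
    rw [pol_zero_left hQ, pol_zero_left hQ]
    simp
  obtain ⟨c, hc⟩ : ∃ c, c = Gv Q a b u := ⟨_, rfl⟩
  rw [← hc]
  have hval : ∀ p, RatV F₀ p → BB u p = 0 → ∃ (r₀ : VV) (e₀ : F), RatV F₀ r₀ ∧ BB u r₀ = 0 ∧ (BB p w - Q w * BB p c) • c - BB p c • w = r₀ + e₀ • u := by
    intro p hp hup
    have := kl_val hR hn hHM hB haa hbb hab hw haw hbw hg hu huu hu0 huw hp hup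
    rw [hc]
    exact this
  have hcw : BB c w = 0 := by
    rw [hc]
    unfold Gv
    rw [pol_sub_left hQ, hb'.smul_left, hb'.smul_left, haw, hbw]
    ring
  have hwc : BB w c = 0 := by rw [pol_comm]; exact hcw
  have hcQ : Q c = 0 := by
    rw [hc]
    unfold Gv
    rw [sub_eq_add_neg, Q_add' (Q := Q), Q_neg hQ, Qs hR _ haa, Qs hR _ hbb, pol_neg_right hQ, hb'.smul_left, hb'.smul_right, hab]
    ring
  have hwu : BB w u = 0 := by rw [pol_comm]; exact huw
  have hQwr : Q w ∈ F₀ := hR.rat _ hw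
  by_cases h2 : (2 : F) = 0
  · by_cases hex : ∃ p, RatV F₀ p ∧ BB u p = 0 ∧ BB p w = 0 ∧ BB p c ≠ 0
    · obtain ⟨p, hp, hup, hpw, hβ⟩ := hex
      obtain ⟨r₀, e₀, hr₀, hur₀, he⟩ := hval p hp hup
      rw [hpw] at he
      obtain ⟨β, hβd⟩ : ∃ β, β = BB p c := ⟨_, rfl⟩
      rw [← hβd] at he hβ
      have hτ : β • (w + Q w • c) = - (r₀ + e₀ • u) := by
        rw [← he]
        module
      have hQτ : Q (w + Q w • c) = Q w := by
        rw [Q_add' (Q := Q), Qs hR _ hcQ, hb'.smul_right, hwc]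
        ring
      have hr₀u : BB r₀ u = 0 := by rw [pol_comm]; exact hur₀
      have hQ3 : Q (- (r₀ + e₀ • u)) = Q r₀ := by
        rw [Q_neg hQ, Q_add' (Q := Q), Qs hR _ huu, hb'.smul_right, hr₀u]
        ring
      have hQ4 : β ^ 2 * Q w = Q r₀ := by
        rw [← hQ3, ← hτ, hQ.smul, hQτ]
      have hβ2 : β ^ 2 ∈ F₀ := by
        have e : β ^ 2 = Q r₀ * (Q w)⁻¹ := by
          rw [← hQ4]
          field_simp
        rw [e]
        exact F₀.mul_mem (hR.rat _ hr₀) (F₀.inv_mem hQwr)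
      have hβr := mem_of_sq_mem h2 hβ2
      refine ⟨(Q w)⁻¹ • (β⁻¹ • (-r₀) - w), (Q w)⁻¹ * (-β⁻¹ * e₀), ((hr₀.smul (F₀.neg_mem F₀.one_mem) |> fun h => by simpa using h : RatV F₀ (-r₀)).smul (F₀.inv_mem hβr) |>.sub hw).smul (F₀.inv_mem hQwr), ?_⟩
      have e1 : w + Q w • c = β⁻¹ • (β • (w + Q w • c)) := by
        rw [smul_smul, inv_mul_cancel₀ hβ, one_smul]
      rw [hτ] at e1
      have e2 : Q w • c = (w + Q w • c) - w := by abel
      rw [e1] at e2
      have e3 : c = (Q w)⁻¹ • (Q w • c) := by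
        rw [smul_smul, inv_mul_cancel₀ hw0, one_smul]
      rw [e3, e2]
      module
    · push Not at hex
      have hp₀ : ∃ p, RatV F₀ p ∧ BB u p = 0 ∧ BB p w ≠ 0 := by
        by_contra hcon
        push Not at hcon
        obtain ⟨μ, hμ⟩ := eq_smul_of_perp hR hu huu hu0 hcon
        apply hw0
        rw [hμ]
        exact Qs hR _ huu
      obtain ⟨p₀, hp₀r, hup₀, hν⟩ := hp₀
      obtain ⟨ν, hνd⟩ : ∃ ν, ν = BB p₀ w := ⟨_, rfl⟩
      rw [← hνd] at hν
      have hνr : ν ∈ F₀ := hνd ▸ polar_rat hR hp₀r hw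
      obtain ⟨μ, hμd⟩ : ∃ μ, μ = BB p₀ c * ν⁻¹ := ⟨_, rfl⟩
      have hperp : ∀ p, RatV F₀ p → BB u p = 0 → BB p (c - μ • w) = 0 := by
        intro p hp hup
        have h3 : BB (p - (BB p w * ν⁻¹) • p₀) c = 0 := by
          apply hex
          · exact hp.sub (hp₀r.smul (F₀.mul_mem (polar_rat hR hp hw) (F₀.inv_mem hνr)))
          · rw [pol_sub_right hQ, hb'.smul_right, hup₀, hup]
            ring
          · rw [pol_sub_left hQ, hb'.smul_left, ← hνd]
            field_simp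
            ring
        rw [pol_sub_left hQ, hb'.smul_left] at h3
        rw [pol_sub_right hQ, hb'.smul_right, hμd]
        linear_combination h3
      obtain ⟨α, hα⟩ := eq_smul_of_perp hR hu huu hu0 hperp
      have hce : c = μ • w + α • u := by
        rw [← hα]
        abel
      have hμ0 : μ = 0 := by
        have h4 := hcQ
        rw [hce, Q_add' (Q := Q), hQ.smul, Qs hR _ huu, hb'.smul_left, hb'.smul_right, hwu] at h4
        have h5 : μ ^ 2 * Q w = 0 := by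
          rw [← h4]
          ring
        exact pow_eq_zero_iff two_ne_zero |>.mp ((mul_eq_zero.mp h5).resolve_right hw0)
      refine ⟨0, α, ratV_zero, ?_⟩
      rw [hce, hμ0, zero_smul, zero_add]
  · obtain ⟨r₀, e₀, hr₀, hur₀, he⟩ := hval w hw huw
    rw [pol_self hQ, hwc, mul_zero, sub_zero, zero_smul, sub_zero] at he
    have hd : 2 * Q w ≠ 0 := mul_ne_zero h2 hw0
    have h2r : (2 : F) ∈ F₀ := by simpa using F₀.natCast_mem 2
    refine ⟨(2 * Q w)⁻¹ • r₀, (2 * Q w)⁻¹ * e₀, hr₀.smul (F₀.inv_mem (F₀.mul_mem h2r hQwr)), ?_⟩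
    have e3 : c = (2 * Q w)⁻¹ • ((2 * Q w) • c) := by
      rw [smul_smul, inv_mul_cancel₀ hd, one_smul]
    rw [e3, he]
    module

/-- A root element of the group orthogonal to a rational non-singular vector is rational. -/
theorem kl_main (hn : 13 ≤ Fintype.card ι) (hHM : ratScal F₀ ι ⊓ omegaGL Q ≤ M) (hB : NoIrr F₀ Q M) {a b w : VV} (haa : Q a = 0) (hbb : Q b = 0) (hab : BB a b = 0)
    (hw : RatV F₀ w) (hw0 : Q w ≠ 0) (haw : BB a w = 0) (hbw : BB b w = 0) (hg : sg Q a b ∈ M) : RatM F₀ (sg Q a b : MM) := by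
  have hQ := hR.nd
  have hb' := hQ.polar_bilinear
  have hk : ∀ u, RatV F₀ u → Q u = 0 → BB u w = 0 → ∃ (r : VV) (e : F), RatV F₀ r ∧ Gv Q a b u = r + e • u :=
    fun u hu huu huw => kl_step hR hn hHM hB haa hbb hab hw hw0 haw hbw hg hu huu huw
  have hshift : ∀ {u₁ u₂ r₁ r₂ : VV} {e₁ e₂ : F}, RatV F₀ u₁ → RatV F₀ u₂ → Q u₁ = 0 → Q u₂ = 0 → BB u₁ w = 0 → BB u₂ w = 0 → BB u₁ u₂ = 0 → u₂ ≠ 0 →
      (∀ c : F, u₁ ≠ c • u₂) → RatV F₀ r₁ → RatV F₀ r₂ → Gv Q a b u₁ = r₁ + e₁ • u₁ → Gv Q a b u₂ = r₂ + e₂ • u₂ → e₁ - e₂ ∈ F₀ := by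
    intro u₁ u₂ r₁ r₂ e₁ e₂ h1 h2 h3 h4 h5 h6 h7 h8 hind hr₁ hr₂ he₁ he₂
    have hsum : Q (u₁ + u₂) = 0 := by rw [Q_add' (Q := Q), h3, h4, h7]; ring
    obtain ⟨r₃, e₃, hr₃, he₃⟩ := hk _ (h1.add h2) hsum (by rw [hb'.add_left, h5, h6, add_zero])
    rw [Gv_add hQ, he₁, he₂] at he₃
    have hrel : (e₁ - e₃) • u₁ + (e₂ - e₃) • u₂ = r₃ - r₁ - r₂ := by
      have e : (e₁ - e₃) • u₁ + (e₂ - e₃) • u₂ = (r₁ + e₁ • u₁ + (r₂ + e₂ • u₂)) - r₁ - r₂ - e₃ • (u₁ + u₂) := by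
        module
      rw [e, he₃]
      module
    have hrr : RatV F₀ ((e₁ - e₃) • u₁ + (e₂ - e₃) • u₂) := by
      rw [hrel]
      exact (hr₃.sub hr₁).sub hr₂
    have h10 : u₁ ≠ 0 := by
      intro h0
      apply hind 0
      rw [h0, zero_smul]
    have hind' : ∀ c : F, u₂ ≠ c • u₁ := by
      intro c he
      have hc : c ≠ 0 := by
        rintro rfl
        rw [zero_smul] at he
        exact h8 he
      apply hind c⁻¹
      rw [he, smul_smul, inv_mul_cancel₀ hc, one_smul]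
    have c1 := coef_rat h1 h2 h8 hind hrr
    have c2 := coef_rat (α := e₂ - e₃) (β := e₁ - e₃) h2 h1 h10 hind' (by rw [add_comm]; exact hrr)
    have e : e₁ - e₂ = (e₁ - e₃) - (e₂ - e₃) := by ring
    rw [e]
    exact F₀.sub_mem c1 c2
  obtain ⟨u₀, u₀', hu₀, hu₀', h00, h0'0', h00', hc1, hc2⟩ := rat_hyp hR ![w] (by
    intro i
    fin_cases i
    exact hw) (by simp; omega)
  have hu₀w : BB u₀ w = 0 := by rw [pol_comm]; exact hc1 0
  have hu₀0 : u₀ ≠ 0 := by
    rintro rfl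
    rw [pol_zero_left hQ] at h00'
    exact zero_ne_one h00'
  obtain ⟨r₀, e₀, hr₀, he₀⟩ := hk u₀ hu₀ h00 hu₀w
  have hsing : ∀ u, RatV F₀ u → Q u = 0 → BB u w = 0 → RatV F₀ (Gv Q a b u - e₀ • u) := by
    intro u hu huu huw
    by_cases hu0 : u = 0
    · rw [hu0]
      unfold Gv
      rw [pol_zero_left hQ, pol_zero_left hQ]
      simp only [zero_smul, sub_zero, smul_zero]
      exact ratV_zero
    obtain ⟨v, v', hv, hv', hvv, hv'v', hvv', hd1, hd2⟩ := rat_hyp hR ![w, u, u₀] (by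
      intro i
      fin_cases i
      · exact hw
      · exact hu
      · exact hu₀) (by simp; omega)
    have hvw : BB v w = 0 := by rw [pol_comm]; exact hd1 0
    have huv : BB u v = 0 := hd1 1
    have hu₀v : BB u₀ v = 0 := hd1 2
    have huv' : BB u v' = 0 := hd2 1
    have hu₀v' : BB u₀ v' = 0 := hd2 2
    have hv0 : v ≠ 0 := by
      rintro rfl
      rw [pol_zero_left hQ] at hvv'
      exact zero_ne_one hvv'
    obtain ⟨r, e, hr, he⟩ := hk u hu huu huw
    obtain ⟨r', e', hr', he'⟩ := hk v hv hvv hvw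
    have c1 : e - e' ∈ F₀ := hshift hu hv huu hvv huw hvw huv hv0 (by
      intro c hc
      apply hu0
      rw [hc, hb'.smul_left, hvv', mul_one] at huv'
      rw [hc, huv', zero_smul]) hr hr' he he'
    have c2 : e' - e₀ ∈ F₀ := hshift hv hu₀ hvv h00 hvw hu₀w (by rw [pol_comm]; exact hu₀v) hu₀0 (by
      intro c hc
      rw [hc, hb'.smul_left, hu₀v', mul_zero] at hvv'
      exact zero_ne_one hvv') hr' hr₀ he' he₀
    have e3 : Gv Q a b u - e₀ • u = r + ((e - e') + (e' - e₀)) • u := by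
      rw [he]
      module
    rw [e3]
    exact hr.add (hu.smul (F₀.add_mem c1 c2))
  have hperp : ∀ g, RatV F₀ g → BB g w = 0 → RatV F₀ (Gv Q a b g - e₀ • g) := by
    intro g hg hgw
    obtain ⟨x₁, p, p', β, hβ, hx₁, hp, hp', h1, h2, h3, he, h4, h5, h6⟩ := rat_iso_decomp hR hw hg (by omega)
    have hx₁w : BB x₁ w = 0 := by
      rw [pol_comm]
      exact h6 (by rw [pol_comm]; exact hgw)
    have e : Gv Q a b g - e₀ • g = (Gv Q a b x₁ - e₀ • x₁) - (Gv Q a b p - e₀ • p) - β • (Gv Q a b p' - e₀ • p') := by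
      rw [he, Gv_sub hQ, Gv_sub hQ, Gv_smul hQ]
      module
    rw [e]
    exact ((hsing _ hx₁ h1 hx₁w).sub (hsing _ hp h2 (by rw [pol_comm]; exact h4))).sub ((hsing _ hp' h3 (by rw [pol_comm]; exact h5)).smul hβ)
  have hGw : ∀ v, BB (Gv Q a b v) w = 0 := by
    intro v
    unfold Gv
    rw [pol_sub_left hQ, hb'.smul_left, hb'.smul_left, haw, hbw]
    ring
  have h2r : (2 : F) ∈ F₀ := by simpa using F₀.natCast_mem 2
  -- the shift is rational
  have he₀r : e₀ ∈ F₀ := by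
    have hr₀w : BB r₀ w = 0 := by
      have e : r₀ = Gv Q a b u₀ - e₀ • u₀ := by
        rw [he₀]
        abel
      rw [e, pol_sub_left hQ, hb'.smul_left, hGw, hu₀w]
      ring
    have hr' := hperp r₀ hr₀ hr₀w
    have hGG : Gv Q a b r₀ = - (e₀ • (r₀ + e₀ • u₀)) := by
      have e : r₀ = Gv Q a b u₀ - e₀ • u₀ := by
        rw [he₀]
        abel
      have h1 : Gv Q a b r₀ = Gv Q a b (Gv Q a b u₀) - e₀ • Gv Q a b u₀ := by
        conv_lhs => rw [e]
        rw [Gv_sub hQ, Gv_smul hQ]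
      rw [h1, Gv_Gv hQ haa hbb hab, he₀]
      abel
    have hrel : Gv Q a b r₀ - e₀ • r₀ = (-(2 * e₀)) • r₀ + (-(e₀ ^ 2)) • u₀ := by
      rw [hGG]
      module
    rw [hrel] at hr'
    by_cases h2 : (2 : F) = 0
    · rw [h2, zero_mul, neg_zero, zero_smul, zero_add] at hr'
      have h3 := ratio_rat hu₀ hr' hu₀0 rfl
      have h4 := F₀.neg_mem h3
      rw [neg_neg] at h4
      exact mem_of_sq_mem h2 h4
    · by_cases hind : ∀ c : F, r₀ ≠ c • u₀
      · have h3 := coef_rat hr₀ hu₀ hu₀0 hind hr'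
        have h4 := F₀.neg_mem h3
        rw [neg_neg] at h4
        have e : e₀ = (2 * e₀) * 2⁻¹ := by
          field_simp
        rw [e]
        exact F₀.mul_mem h4 (F₀.inv_mem h2r)
      · push Not at hind
        obtain ⟨c, hc⟩ := hind
        have hcr := ratio_rat hu₀ hr₀ hu₀0 hc
        have h5 : Gv Q a b u₀ = (c + e₀) • u₀ := by
          rw [he₀, hc]
          module
        have h6 := Gv_Gv hQ haa hbb hab u₀
        rw [h5, Gv_smul hQ, h5, smul_smul] at h6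
        have h7 : (c + e₀) * (c + e₀) = 0 := (smul_eq_zero.mp h6).resolve_right hu₀0
        have h8 : c + e₀ = 0 := mul_self_eq_zero.mp h7
        have e : e₀ = -c := by linear_combination h8
        rw [e]
        exact F₀.neg_mem hcr
  have hG : ∀ g, RatV F₀ g → BB g w = 0 → RatV F₀ (Gv Q a b g) := by
    intro g hg hgw
    have e : Gv Q a b g = (Gv Q a b g - e₀ • g) + e₀ • g := by abel
    rw [e]
    exact (hperp g hg hgw).add (hg.smul he₀r)
  -- a rational vector with value one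
  have hw00 : w ≠ 0 := by
    rintro rfl
    exact hw0 (Q_zero hQ)
  obtain ⟨j₀, hj₀⟩ : ∃ j, BB (Pi.single j 1) w ≠ 0 := by
    by_contra hcon
    push Not at hcon
    exact hw00 (dual_zero hQ hcon)
  obtain ⟨d, hd⟩ : ∃ d : VV, d = (BB (Pi.single j₀ 1) w)⁻¹ • Pi.single j₀ 1 := ⟨_, rfl⟩
  have hdr : RatV F₀ d := hd ▸ (ratV_single j₀).smul (F₀.inv_mem (polar_rat hR (ratV_single j₀) hw))
  have hdw : BB d w = 1 := by
    rw [hd, hb'.smul_left, inv_mul_cancel₀ hj₀]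
  have hGd : RatV F₀ (Gv Q a b d) := by
    apply rat_of_dual hR
    intro j
    obtain ⟨g, hg⟩ : ∃ g : VV, g = Pi.single j 1 - (BB (Pi.single j 1) w) • d := ⟨_, rfl⟩
    have hgr : RatV F₀ g := hg ▸ (ratV_single j).sub (hdr.smul (polar_rat hR (ratV_single j) hw))
    have hgw : BB g w = 0 := by
      rw [hg, pol_sub_left hQ, hb'.smul_left, hdw, mul_one, sub_self]
    have e1 : (Pi.single j 1 : VV) = g + (BB (Pi.single j 1) w) • d := by
      rw [hg]; abel
    have e2 : BB (Gv Q a b d) d = 0 := by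
      rw [Gv_skew hQ]
      unfold Gv
      rw [pol_sub_right hQ, hb'.smul_right, hb'.smul_right]
      ring
    rw [e1, hb'.add_right, hb'.smul_right, e2, mul_zero, add_zero, Gv_skew hQ]
    exact F₀.neg_mem (polar_rat hR hdr (hG g hgr hgw))
  have hGall : ∀ v, RatV F₀ v → RatV F₀ (Gv Q a b v) := by
    intro v hv
    have e : v = (v - BB v w • d) + BB v w • d := by abel
    rw [e, Gv_add hQ, Gv_smul hQ]
    exact (hG _ (hv.sub (hdr.smul (polar_rat hR hv hw))) (by rw [pol_sub_left hQ, hb'.smul_left, hdw, mul_one, sub_self])).add (hGd.smul (polar_rat hR hv hw))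
  apply SubfieldSp.ratM_of_mulVec
  intro j
  rw [sg_ts_apply hR haa hab hbb]
  exact (ratV_single j).add (hGall _ (ratV_single j))

/-- A root element of the group orthogonal to a non-zero rational vector is rational. -/
theorem rat_root (hn : 13 ≤ Fintype.card ι) (hHM : ratScal F₀ ι ⊓ omegaGL Q ≤ M) (hB : NoIrr F₀ Q M) {a b w : VV} (haa : Q a = 0) (hbb : Q b = 0) (hab : BB a b = 0)
    (hw : RatV F₀ w) (hw0 : w ≠ 0) (haw : BB a w = 0) (hbw : BB b w = 0) (hg : sg Q a b ∈ M) : RatM F₀ (sg Q a b : MM) := by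
  by_cases hq : Q w = 0
  · exact key hR hn hHM hB hw hq hw0 haa hbb hab (by rw [pol_comm]; exact haw) (by rw [pol_comm]; exact hbw) hg
  · exact kl_main hR hn hHM hB haa hbb hab hw hq haw hbw hg

end

end Cfsg.Agent.Lib.ClassMax.SubfieldO
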