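import Mathlib
import Cfsg.Agent.Lib.ClassMax.SubfieldO2

/-! Propagation of rational points. -/

set_option autoImplicit false

namespace Cfsg.Agent.Lib.ClassMax.SubfieldO

open Matrix Cfsg.Geo Cfsg.Agent.Lib.ClassMax Cfsg.Agent.Lib.ClassMax.QuadOver
open Cfsg.Agent.Lib.ClassMax.OmegaCore
open Cfsg.Agent.Lib.ClassMax.SubfieldCore Cfsg.Agent.Lib.ClassMax.SubfieldDih Cfsg.Agent.Lib.ClassMax.SubfieldGen

variable {ι : Type} [Fintype ι] [DecidableEq ι] {F : Type*} [Field F] {Q : (ι → F) → F} {F₀ : Subfield F}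

local notation "BB" => QuadraticMap.polar Q
local notation "VV" => (ι → F)
local notation "MM" => Matrix ι ι F
local notation "GG" => GL ι F

/-- Separating a rational vector from two rational vectors by a rational functional. -/
theorem exists_sep2 {r s₁ s₂ : VV} (hr : RatV F₀ r) (h1 : RatV F₀ s₁) (h2 : RatV F₀ s₂) (h10 : s₁ ≠ 0) (h20 : ∀ c : F, s₂ ≠ c • s₁)
    (hind : ∀ c₁ c₂ : F, r ≠ c₁ • s₁ + c₂ • s₂) : ∃ ω : VV, RatV F₀ ω ∧ ω ⬝ᵥ s₁ = 0 ∧ ω ⬝ᵥ s₂ = 0 ∧ ω ⬝ᵥ r ≠ 0 := by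
  obtain ⟨k, hk⟩ : ∃ k, s₁ k ≠ 0 := by
    by_contra hcon
    push Not at hcon
    exact h10 (funext hcon)
  obtain ⟨t₂, ht₂⟩ : ∃ t₂, t₂ = s₂ k / s₁ k := ⟨_, rfl⟩
  obtain ⟨t, ht⟩ : ∃ t, t = r k / s₁ k := ⟨_, rfl⟩
  have ht₂r : t₂ ∈ F₀ := ht₂ ▸ F₀.div_mem (h2 k) (h1 k)
  have htr : t ∈ F₀ := ht ▸ F₀.div_mem (hr k) (h1 k)
  obtain ⟨s', hs'⟩ : ∃ s', s' = s₂ - t₂ • s₁ := ⟨_, rfl⟩
  obtain ⟨r', hr'⟩ : ∃ r', r' = r - t • s₁ := ⟨_, rfl⟩
  have hs'k : s' k = 0 := by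
    rw [hs', Pi.sub_apply, Pi.smul_apply, smul_eq_mul, ht₂]
    field_simp
    ring
  have hr'k : r' k = 0 := by
    rw [hr', Pi.sub_apply, Pi.smul_apply, smul_eq_mul, ht]
    field_simp
    ring
  have hs'0 : s' ≠ 0 := by
    intro h0
    apply h20 t₂
    rw [hs'] at h0
    exact sub_eq_zero.mp h0
  have hind' : ∀ c : F, r' ≠ c • s' := by
    intro c he
    apply hind (t - c * t₂) c
    rw [hr', hs', sub_eq_iff_eq_add] at he
    rw [he]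
    module
  obtain ⟨ω₀, hω₀, hω₀s, hω₀r⟩ := SubfieldDih.exists_sep (hr.sub (h1.smul htr) |> fun h => (hr' ▸ h)) (h2.sub (h1.smul ht₂r) |> fun h => (hs' ▸ h)) hs'0 hind'
  obtain ⟨c, hc⟩ : ∃ c, c = (ω₀ ⬝ᵥ s₁) / s₁ k := ⟨_, rfl⟩
  have hcr : c ∈ F₀ := hc ▸ F₀.div_mem (hω₀.dot h1) (h1 k)
  refine ⟨ω₀ - c • Pi.single k 1, hω₀.sub ((ratV_single k).smul hcr), ?_, ?_, ?_⟩
  · rw [sub_dotProduct, smul_dotProduct, single_one_dotProduct, smul_eq_mul, hc]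
    field_simp
    ring
  · have e1 : s₂ = s' + t₂ • s₁ := by rw [hs']; abel
    have e2 : (ω₀ - c • Pi.single k 1) ⬝ᵥ s₁ = 0 := by
      rw [sub_dotProduct, smul_dotProduct, single_one_dotProduct, smul_eq_mul, hc]
      field_simp
      ring
    rw [e1, dotProduct_add, dotProduct_smul, e2, sub_dotProduct, smul_dotProduct, single_one_dotProduct, hs'k, hω₀s]
    simp
  · have e1 : r = r' + t • s₁ := by rw [hr']; abel
    have e2 : (ω₀ - c • Pi.single k 1) ⬝ᵥ s₁ = 0 := by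
      rw [sub_dotProduct, smul_dotProduct, single_one_dotProduct, smul_eq_mul, hc]
      field_simp
      ring
    rw [e1, dotProduct_add, dotProduct_smul, e2, sub_dotProduct, smul_dotProduct, single_one_dotProduct, hr'k]
    simpa using hω₀r

section

variable [Fintype F] (hR : RatQ Q F₀) {M : Subgroup (GL ι F)}
include hR

omit [Fintype F] in
theorem Gv_rat {a b : VV} (haa : Q a = 0) (hbb : Q b = 0) (hab : BB a b = 0) (h : RatM F₀ (sg Q a b : MM)) {v : VV} (hv : RatV F₀ v) : RatV F₀ (Gv Q a b v) := by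
  have h1 := h.mulVec hv
  rw [sg_ts_apply hR haa hab hbb] at h1
  have e : Gv Q a b v = v + (BB v b • a - BB v a • b) - v := by
    unfold Gv
    abel
  rw [e]
  exact h1.sub hv

omit [Fintype F] in
/-- Two rational root elements with a common centre give a rational point. -/
theorem pt_of_two {A B₁ B₂ : VV} (hA : Q A = 0) (hB₁ : Q B₁ = 0) (hB₂ : Q B₂ = 0) (h1 : BB A B₁ = 0) (h2 : BB A B₂ = 0)
    (hind : ∀ α β γ : F, α • A + β • B₁ + γ • B₂ = 0 → α = 0 ∧ β = 0 ∧ γ = 0) (hr₁ : RatM F₀ (sg Q A B₁ : MM)) (hr₂ : RatM F₀ (sg Q A B₂ : MM)) :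
    Pt F₀ A := by
  have hQ := hR.nd
  have hb := hQ.polar_bilinear
  have hG₁ : ∀ v, RatV F₀ v → RatV F₀ (Gv Q A B₁ v) := fun v hv => Gv_rat hR hA hB₁ h1 hr₁ hv
  have hG₂ : ∀ v, RatV F₀ v → RatV F₀ (Gv Q A B₂ v) := fun v hv => Gv_rat hR hA hB₂ h2 hr₂ hv
  have hA0 : A ≠ 0 := by
    intro h0
    have := (hind 1 0 0 (by rw [h0]; simp)).1
    exact one_ne_zero this
  obtain ⟨j, hj⟩ : ∃ j, BB (Pi.single j 1) A ≠ 0 := by
    by_contra hcon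
    push Not at hcon
    exact hA0 (dual_zero hQ hcon)
  obtain ⟨a, ha⟩ : ∃ a, a = BB (Pi.single j 1) A := ⟨_, rfl⟩
  rw [← ha] at hj
  obtain ⟨b₁, hb₁⟩ : ∃ b₁, b₁ = BB (Pi.single j 1) B₁ := ⟨_, rfl⟩
  obtain ⟨b₂, hb₂⟩ : ∃ b₂, b₂ = BB (Pi.single j 1) B₂ := ⟨_, rfl⟩
  have hk : ∀ B : VV, ∀ b, b = BB (Pi.single j 1) B → (∀ β : F, ∀ γ : F, γ • A + β • B = 0 → β = 0) → ∃ k, a * BB (Pi.single k 1) B - BB (Pi.single k 1) A * b ≠ 0 := by
    intro B b hb3 hindB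
    by_contra hcon
    push Not at hcon
    have h3 : a • B - b • A = 0 := by
      apply dual_zero hQ
      intro k
      rw [pol_sub_right hQ, hb.smul_right, hb.smul_right]
      linear_combination hcon k
    have h4 := hindB a (-b) (by rw [← h3]; module)
    exact hj h4
  obtain ⟨k₁, hk₁⟩ := hk B₁ b₁ hb₁ (fun β γ h => (hind γ β 0 (by simpa using h)).2.1)
  obtain ⟨k₂, hk₂⟩ := hk B₂ b₂ hb₂ (fun β γ h => (hind γ 0 β (by simpa using h)).2.2)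
  obtain ⟨a', ha'⟩ : ∃ a', a' = BB (Pi.single k₁ 1) A := ⟨_, rfl⟩
  obtain ⟨b₁', hb₁'⟩ : ∃ b₁', b₁' = BB (Pi.single k₁ 1) B₁ := ⟨_, rfl⟩
  obtain ⟨a'', ha''⟩ : ∃ a'', a'' = BB (Pi.single k₂ 1) A := ⟨_, rfl⟩
  obtain ⟨b₂'', hb₂''⟩ : ∃ b₂'', b₂'' = BB (Pi.single k₂ 1) B₂ := ⟨_, rfl⟩
  rw [← ha', ← hb₁'] at hk₁
  rw [← ha'', ← hb₂''] at hk₂
  have hr : RatV F₀ (b₁ • A - a • B₁) := by
    have := hG₁ _ (ratV_single j)
    unfold Gv at this
    rwa [← hb₁, ← ha] at this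
  have hrt : RatV F₀ (b₁' • A - a' • B₁) := by
    have := hG₁ _ (ratV_single k₁)
    unfold Gv at this
    rwa [← hb₁', ← ha'] at this
  have hs₁ : RatV F₀ (b₂ • A - a • B₂) := by
    have := hG₂ _ (ratV_single j)
    unfold Gv at this
    rwa [← hb₂, ← ha] at this
  have hs₂ : RatV F₀ (b₂'' • A - a'' • B₂) := by
    have := hG₂ _ (ratV_single k₂)
    unfold Gv at this
    rwa [← hb₂'', ← ha''] at this
  obtain ⟨ω, hω, hω₁, hω₂, hωr⟩ := exists_sep2 hr hs₁ hs₂ (by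
    intro h0
    have := (hind b₂ 0 (-a) (by rw [← h0]; module)).2.2
    exact hj (neg_eq_zero.mp this)) (by
    intro c hc
    have h3 := hind (b₂'' - c * b₂) 0 (c * a - a'') (by
      have e : (b₂'' - c * b₂) • A + (0 : F) • B₁ + (c * a - a'') • B₂ = (b₂'' • A - a'' • B₂) - c • (b₂ • A - a • B₂) := by module
      rw [e, hc, sub_self])
    apply hk₂
    have e1 : b₂'' = c * b₂ := by linear_combination h3.1
    have e2 : a'' = c * a := by linear_combination - h3.2.2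
    rw [e1, e2]
    ring) (by
    intro c₁ c₂ hc
    have h3 := hind (b₁ - c₁ * b₂ - c₂ * b₂'') (-a) (c₁ * a + c₂ * a'') (by
      have e : (b₁ - c₁ * b₂ - c₂ * b₂'') • A + (-a) • B₁ + (c₁ * a + c₂ * a'') • B₂ = (b₁ • A - a • B₁) - (c₁ • (b₂ • A - a • B₂) + c₂ • (b₂'' • A - a'' • B₂)) := by module
      rw [e, hc, sub_self])
    exact hj (neg_eq_zero.mp h3.2.1))
  have hωA : ω ⬝ᵥ A = 0 := by
    have e : (a'' * b₂ - a * b₂'') • A = a'' • (b₂ • A - a • B₂) - a • (b₂'' • A - a'' • B₂) := by module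
    have h3 : (a'' * b₂ - a * b₂'') * (ω ⬝ᵥ A) = 0 := by
      have := congrArg (fun x => ω ⬝ᵥ x) e
      simp only [dotProduct_sub, dotProduct_smul, hω₁, hω₂, smul_eq_mul, mul_zero, sub_zero] at this
      exact this
    refine (mul_eq_zero.mp h3).resolve_left ?_
    intro h0
    apply hk₂
    linear_combination - h0
  obtain ⟨Ω, hΩ⟩ : ∃ Ω, Ω = ω ⬝ᵥ B₁ := ⟨_, rfl⟩
  have e1 : ω ⬝ᵥ (b₁ • A - a • B₁) = - (a * Ω) := by
    rw [dotProduct_sub, dotProduct_smul, dotProduct_smul, hωA, ← hΩ]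
    simp
  have e2 : ω ⬝ᵥ (b₁' • A - a' • B₁) = - (a' * Ω) := by
    rw [dotProduct_sub, dotProduct_smul, dotProduct_smul, hωA, ← hΩ]
    simp
  rw [e1] at hωr
  have hΩ0 : Ω ≠ 0 := by
    rintro h0
    apply hωr
    rw [h0]
    simp
  have e3 := hω.dot hr
  have e4 := hω.dot hrt
  rw [e1] at e3
  rw [e2] at e4
  refine ⟨Ω * (a * b₁' - a' * b₁), mul_ne_zero hΩ0 hk₁, ?_⟩
  have e5 : (Ω * (a * b₁' - a' * b₁)) • A = (- (a' * Ω)) • (b₁ • A - a • B₁) - (- (a * Ω)) • (b₁' • A - a' • B₁) := by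
    module
  rw [e5]
  exact (hr.smul e4).sub (hrt.smul e3)

variable {x : GL ι F}

theorem mem_iso_of_le (hMS : M ≤ omegaGL Q) (hx : x ∈ M) : ∀ v, Q ((x : MM) *ᵥ v) = Q v :=
  (mem_iso_iff x).mp (omegaGL_le_iso (hMS hx))

/-- Propagating a rational point. -/
theorem pt_step (hn : 13 ≤ Fintype.card ι) (hHM : ratScal F₀ ι ⊓ omegaGL Q ≤ M) (hB : NoIrr F₀ Q M) (hMS : M ≤ omegaGL Q) (hx : x ∈ M)
    {u₀ u₁ : VV} (huu₀ : Q u₀ = 0) (hu₀0 : u₀ ≠ 0) (h : Pt F₀ ((x : MM) *ᵥ u₀)) (hu₁ : RatV F₀ u₁) (hu₁₁ : Q u₁ = 0) (h01 : BB u₀ u₁ = 0) (hu₀r : RatV F₀ u₀) :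
    Pt F₀ ((x : MM) *ᵥ u₁) := by
  have hQ := hR.nd
  have hb := hQ.polar_bilinear
  have hiso := mem_iso_of_le hR hMS hx
  have hpol : ∀ v w, BB ((x : MM) *ᵥ v) ((x : MM) *ᵥ w) = BB v w := pol_iso' x hiso
  have hn9 : 9 ≤ Fintype.card ι := by omega
  by_cases hu₁0 : u₁ = 0
  · rw [hu₁0, Matrix.mulVec_zero]
    exact Pt_zero F₀
  obtain ⟨d, hd, hr⟩ := h
  obtain ⟨v, v', hv, hv', hvv, hv'v', hvv', hd1, hd2⟩ := rat_hyp hR ![u₀, u₁] (by
    intro i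
    fin_cases i
    · exact hu₀r
    · exact hu₁) (by simp; omega)
  have h0v : BB u₀ v = 0 := hd1 0
  have h1v : BB u₁ v = 0 := hd1 1
  have h0v' : BB u₀ v' = 0 := hd2 0
  have h1v' : BB u₁ v' = 0 := hd2 1
  have hw0 : d • ((x : MM) *ᵥ u₀) ≠ 0 := smul_ne_zero hd (SubfieldSL.mulVec_ne_zero x hu₀0)
  have hperp : ∀ t, BB u₀ t = 0 → BB ((x : MM) *ᵥ t) (d • ((x : MM) *ᵥ u₀)) = 0 := by
    intro t ht
    rw [hb.smul_right, hpol, pol_comm, ht, mul_zero]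
  have hconj : ∀ {a b : VV}, Q a = 0 → BB a b = 0 → RatV F₀ a → RatV F₀ b → sg Q ((x : MM) *ᵥ a) ((x : MM) *ᵥ b) ∈ M := by
    intro a b ha hab har hbr
    rw [← sg_conj hQ hiso ha hab]
    exact M.mul_mem (M.mul_mem hx (sg_in_M hR hn9 hHM har hbr ha hab)) (M.inv_mem hx)
  have hQx : ∀ a : VV, Q a = 0 → Q ((x : MM) *ᵥ a) = 0 := fun a ha => by rw [hiso, ha]
  have hg₁ := rat_root hR hn hHM hB (hQx _ hu₁₁) (hQx _ hvv) (by rw [hpol, h1v]) hr hw0 (hperp _ h01) (hperp _ h0v) (hconj hu₁₁ h1v hu₁ hv)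
  have hg₂ := rat_root hR hn hHM hB (hQx _ hu₁₁) (hQx _ hv'v') (by rw [hpol, h1v']) hr hw0 (hperp _ h01) (hperp _ h0v') (hconj hu₁₁ h1v' hu₁ hv')
  refine pt_of_two hR (hQx _ hu₁₁) (hQx _ hvv) (hQx _ hv'v') (by rw [hpol, h1v]) (by rw [hpol, h1v']) ?_ hg₁ hg₂
  intro α β γ he
  have h3 : (x : MM) *ᵥ (α • u₁ + β • v + γ • v') = 0 := by
    rw [Matrix.mulVec_add, Matrix.mulVec_add, Matrix.mulVec_smul, Matrix.mulVec_smul, Matrix.mulVec_smul]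
    exact he
  have h4 : α • u₁ + β • v + γ • v' = 0 := by
    by_contra h5
    exact SubfieldSL.mulVec_ne_zero x h5 h3
  have hvvP : BB v v = 0 := by rw [pol_self hQ, hvv, mul_zero]
  have hv'v'P : BB v' v' = 0 := by rw [pol_self hQ, hv'v', mul_zero]
  have hβ : β = 0 := by
    have := congrArg (fun t => BB t v') h4
    simp only [hb.add_left, hb.smul_left, h1v', hvv', hv'v'P, pol_zero_left hQ] at this
    simpa using this
  have hγ : γ = 0 := by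
    have := congrArg (fun t => BB v t) h4
    simp only [hb.add_right, hb.smul_right, pol_comm v u₁, h1v, hvv', hvvP, pol_zero_right hQ] at this
    simpa using this
  have hα : α = 0 := by
    rw [hβ, hγ, zero_smul, zero_smul, add_zero, add_zero] at h4
    exact (smul_eq_zero.mp h4).resolve_right hu₁0
  exact ⟨hα, hβ, hγ⟩

theorem pt_all (hn : 13 ≤ Fintype.card ι) (hHM : ratScal F₀ ι ⊓ omegaGL Q ≤ M) (hB : NoIrr F₀ Q M) (hMS : M ≤ omegaGL Q) (hx : x ∈ M)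
    {u₀ u₂ : VV} (hu₀ : RatV F₀ u₀) (hu₀₀ : Q u₀ = 0) (hu₀0 : u₀ ≠ 0) (h : Pt F₀ ((x : MM) *ᵥ u₀)) (hu₂ : RatV F₀ u₂) (hu₂₂ : Q u₂ = 0) :
    Pt F₀ ((x : MM) *ᵥ u₂) := by
  have hQ := hR.nd
  obtain ⟨v, v', hv, hv', hvv, hv'v', hvv', hd1, hd2⟩ := rat_hyp hR ![u₀, u₂] (by
    intro i
    fin_cases i
    · exact hu₀
    · exact hu₂) (by simp; omega)
  have h0v : BB u₀ v = 0 := hd1 0
  have h2v : BB u₂ v = 0 := hd1 1
  have hv0 : v ≠ 0 := by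
    rintro rfl
    rw [pol_zero_left hQ] at hvv'
    exact zero_ne_one hvv'
  have s1 := pt_step hR hn hHM hB hMS hx hu₀₀ hu₀0 h hv hvv h0v hu₀
  exact pt_step hR hn hHM hB hMS hx hvv hv0 s1 hu₂ hu₂₂ (by rw [pol_comm]; exact h2v) hv

omit [Fintype F] in
/-- Scales. -/
theorem hstep_aux {c : F} {a b : VV} (h : ∀ u : VV, RatV F₀ u → Q u = 0 → u ≠ 0 → Pt F₀ ((x : MM) *ᵥ u)) (hc : c ≠ 0) (h1 : RatV F₀ ((c • ((x : MM) *ᵥ a)))) (ha : RatV F₀ a) (hb : RatV F₀ b)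
    (haa : Q a = 0) (hbb : Q b = 0) (hab : BB a b = 0) (ha0 : a ≠ 0) (hb0 : b ≠ 0) (hind : ∀ s : F, a ≠ s • b) : RatV F₀ (c • ((x : MM) *ᵥ b)) := by
  obtain ⟨d₂, hd₂, hr₂⟩ := h b hb hbb hb0
  have hsum : Q (a + b) = 0 := by
    rw [Q_add' (Q := Q), haa, hbb, hab]
    ring
  have hne : a + b ≠ 0 := by
    intro h0
    apply hind (-1)
    rw [neg_smul, one_smul]
    exact eq_neg_of_add_eq_zero_left h0
  obtain ⟨d', hd', hr'⟩ := h (a + b) (ha.add hb) hsum hne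
  rw [Matrix.mulVec_add] at hr'
  have hxind : ∀ s : F, (x : MM) *ᵥ a ≠ s • ((x : MM) *ᵥ b) := by
    intro s he
    apply hind s
    have h2 : (x : MM) *ᵥ (a - s • b) = 0 := by
      rw [Matrix.mulVec_sub, Matrix.mulVec_smul, he, sub_self]
    by_contra hcon
    exact SubfieldSL.mulVec_ne_zero x (sub_ne_zero.mpr hcon) h2
  have hratio := ratio_of_rat hc hd₂ hd' h1 hr₂ hr' (SubfieldSL.mulVec_ne_zero x ha0) (SubfieldSL.mulVec_ne_zero x hb0) hxind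
  have e : c • ((x : MM) *ᵥ b) = (c * d₂⁻¹) • (d₂ • ((x : MM) *ᵥ b)) := by
    rw [smul_smul, mul_assoc, inv_mul_cancel₀ hd₂, mul_one]
  rw [e]
  exact hr₂.smul hratio

/-- An element mapping rational singular vectors to scalar multiples of rational vectors is a scalar multiple of a
rational matrix. -/
theorem ratScal_of_sing_pt (hn : 13 ≤ Fintype.card ι) (h : ∀ u : VV, RatV F₀ u → Q u = 0 → u ≠ 0 → Pt F₀ ((x : MM) *ᵥ u)) : x ∈ ratScal F₀ ι := by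
  have hQ := hR.nd
  have hb := hQ.polar_bilinear
  obtain ⟨p, p', hp, hp', hpp, hp'p', hpp', -, -⟩ := rat_hyp hR ![] (fun i => i.elim0) (by simp; omega)
  have hp0 : p ≠ 0 := by
    rintro rfl
    rw [pol_zero_left hQ] at hpp'
    exact zero_ne_one hpp'
  obtain ⟨d₀, hd₀, hr₀⟩ := h p hp hpp hp0
  have hiso : ∀ u, RatV F₀ u → Q u = 0 → RatV F₀ (d₀ • ((x : MM) *ᵥ u)) := by
    intro u hu huu
    by_cases hu0 : u = 0
    · rw [hu0, Matrix.mulVec_zero, smul_zero]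
      exact ratV_zero
    obtain ⟨v, v', hv, hv', hvv, hv'v', hvv', hd1, hd2⟩ := rat_hyp hR ![p, u] (by
      intro i
      fin_cases i
      · exact hp
      · exact hu) (by simp; omega)
    have hpv : BB p v = 0 := hd1 0
    have huv : BB u v = 0 := hd1 1
    have hpv' : BB p v' = 0 := hd2 0
    have huv' : BB u v' = 0 := hd2 1
    have hv0 : v ≠ 0 := by
      rintro rfl
      rw [pol_zero_left hQ] at hvv'
      exact zero_ne_one hvv'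
    have h1 : RatV F₀ (d₀ • ((x : MM) *ᵥ v)) := by
      refine hstep_aux hR h hd₀ hr₀ hp hv hpp hvv hpv hp0 hv0 ?_
      intro s he
      rw [he, hb.smul_left, hvv', mul_one] at hpv'
      rw [hpv', zero_smul] at he
      exact hp0 he
    refine hstep_aux hR h hd₀ h1 hv hu hvv huu (by rw [pol_comm]; exact huv) hv0 hu0 ?_
    intro s he
    rw [he, hb.smul_left, huv', mul_zero] at hvv'
    exact zero_ne_one hvv'
  have hrat : ∀ g, RatV F₀ g → RatV F₀ (d₀ • ((x : MM) *ᵥ g)) := by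
    intro g hg
    obtain ⟨x₁, a, a', β, hβ, hx₁, ha, ha', h1, h2, h3, he, -, -, -⟩ := rat_iso_decomp hR hp hg (by omega)
    have e : d₀ • ((x : MM) *ᵥ g) = d₀ • ((x : MM) *ᵥ x₁) - d₀ • ((x : MM) *ᵥ a) - β • (d₀ • ((x : MM) *ᵥ a')) := by
      rw [he, Matrix.mulVec_sub, Matrix.mulVec_sub, Matrix.mulVec_smul]
      module
    rw [e]
    exact ((hiso _ hx₁ h1).sub (hiso _ ha h2)).sub ((hiso _ ha' h3).smul hβ)
  refine ⟨d₀, hd₀, ?_⟩
  intro i j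
  have := hrat (Pi.single j 1) (ratV_single j) i
  rwa [Pi.smul_apply, Matrix.mulVec_single_one, Matrix.col_apply] at this

end

end Cfsg.Agent.Lib.ClassMax.SubfieldO
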