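import Mathlib
import Cfsg.Agent.Lib.ClassMax.SubfieldO3

/-! The subfield subgroups of the orthogonal groups are maximal: the end of the argument. -/

set_option autoImplicit false

namespace Cfsg.Agent.Lib.ClassMax.SubfieldO

open Matrix Cfsg.Geo Cfsg.Agent.Lib.ClassMax Cfsg.Agent.Lib.ClassMax.QuadOver
open Cfsg.Agent.Lib.ClassMax.OmegaCore
open Cfsg.Agent.Lib.ClassMax.SubfieldCore Cfsg.Agent.Lib.ClassMax.SubfieldDih Cfsg.Agent.Lib.ClassMax.SubfieldGen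

variable {ι : Type} [Fintype ι] [DecidableEq ι]

section generic

variable {K : Type*} [Field K] {Q₁ : (ι → K) → K}

local notation "BB₁" => QuadraticMap.polar Q₁

theorem finrank_inf_ker_ge (W : Submodule K (ι → K)) (φ : (ι → K) →ₗ[K] K) :
    Module.finrank K W ≤ Module.finrank K (W ⊓ LinearMap.ker φ : Submodule K (ι → K)) + 1 := by
  have h1 := Submodule.finrank_sup_add_finrank_inf_eq W (LinearMap.ker φ)
  have h2 := LinearMap.finrank_range_add_finrank_ker φ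
  have h3 : Module.finrank K (LinearMap.range φ) ≤ 1 := by
    have := Submodule.finrank_le (LinearMap.range φ)
    simpa using this
  have h4 : Module.finrank K (W ⊔ LinearMap.ker φ : Submodule K (ι → K)) ≤ Fintype.card ι := by
    have := Submodule.finrank_le (W ⊔ LinearMap.ker φ)
    simpa using this
  simp only [Module.finrank_fintype_fun_eq_card] at h2
  omega

variable [Fintype K] (hQ : IsNondegenerateQuadraticForm Q₁)
include hQ

theorem exists_sing_in (W T : Submodule K (ι → K)) (h : Module.finrank K T + 3 ≤ Module.finrank K W) : ∃ z ∈ W, Q₁ z = 0 ∧ z ∉ T := by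
  have hmem : ∀ T' : Submodule K (ι → K), Module.finrank K T' < Module.finrank K W → ∃ v ∈ W, v ∉ T' := by
    intro T' hT'
    by_contra hcon
    push Not at hcon
    have := Submodule.finrank_mono (show W ≤ T' from hcon)
    omega
  obtain ⟨v₁, hv₁, hn₁⟩ := hmem T (by omega)
  have ht₂ := finrank_sup_span_le hQ T v₁
  obtain ⟨v₂, hv₂, hn₂⟩ := hmem (T ⊔ Submodule.span K {v₁}) (by omega)
  have ht₃ := finrank_sup_span_le hQ (T ⊔ Submodule.span K {v₁}) v₂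
  obtain ⟨v₃, hv₃, hn₃⟩ := hmem (T ⊔ Submodule.span K {v₁} ⊔ Submodule.span K {v₂}) (by omega)
  let Φ : (Fin 3 → K) →ₗ[K] (ι → K) :=
    { toFun := fun x => x 0 • v₁ + x 1 • v₂ + x 2 • v₃
      map_add' := fun x y => by
        simp only [Pi.add_apply]
        module
      map_smul' := fun c x => by
        simp only [Pi.smul_apply, smul_eq_mul, RingHom.id_apply]
        module }
  obtain ⟨x, hx0, hxQ⟩ := Cfsg.Agent.Lib.Quad.exists_isotropic ((quadOf Q₁ hQ).comp Φ) (by simp)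
  have hz : Q₁ (Φ x) = 0 := hxQ
  have hΦ : Φ x = x 0 • v₁ + x 1 • v₂ + x 2 • v₃ := rfl
  refine ⟨Φ x, ?_, hz, fun hin => ?_⟩
  · rw [hΦ]
    exact W.add_mem (W.add_mem (W.smul_mem _ hv₁) (W.smul_mem _ hv₂)) (W.smul_mem _ hv₃)
  · have h2 : x 2 = 0 := by
      by_contra h0
      apply hn₃
      have e : v₃ = (x 2)⁻¹ • (Φ x) + (-(x 2)⁻¹ * x 0) • v₁ + (-(x 2)⁻¹ * x 1) • v₂ := by
        rw [hΦ, smul_add, smul_add, smul_smul, smul_smul, smul_smul, inv_mul_cancel₀ h0]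
        module
      rw [e]
      exact Submodule.add_mem _ (Submodule.add_mem _ (Submodule.mem_sup_left (Submodule.mem_sup_left (T.smul_mem _ hin)))
        (Submodule.mem_sup_left (Submodule.mem_sup_right (Submodule.smul_mem _ _ (Submodule.mem_span_singleton_self _)))))
        (Submodule.mem_sup_right (Submodule.smul_mem _ _ (Submodule.mem_span_singleton_self _)))
    have h1 : x 1 = 0 := by
      by_contra h0
      apply hn₂
      have e : v₂ = (x 1)⁻¹ • (Φ x) + (-(x 1)⁻¹ * x 0) • v₁ := by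
        rw [hΦ, h2, zero_smul, add_zero, smul_add, smul_smul, smul_smul, inv_mul_cancel₀ h0]
        module
      rw [e]
      exact Submodule.add_mem _ (Submodule.mem_sup_left (T.smul_mem _ hin))
        (Submodule.mem_sup_right (Submodule.smul_mem _ _ (Submodule.mem_span_singleton_self _)))
    have h0' : x 0 = 0 := by
      by_contra h0
      apply hn₁
      have e : v₁ = (x 0)⁻¹ • (Φ x) := by
        rw [hΦ, h2, h1, zero_smul, zero_smul, add_zero, add_zero, smul_smul, inv_mul_cancel₀ h0, one_smul]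
      rw [e]
      exact T.smul_mem _ hin
    apply hx0
    funext i
    fin_cases i
    · exact h0'
    · exact h1
    · exact h2

theorem exists_triple_K (W : Submodule K (ι → K)) (hW : 7 ≤ Module.finrank K W) :
    ∃ v₁ ∈ W, ∃ v₂ ∈ W, ∃ v₃ ∈ W, ∃ τ₁ τ₂ τ₃ : ι → K, Q₁ v₁ = 0 ∧ Q₁ v₂ = 0 ∧ Q₁ v₃ = 0 ∧ BB₁ v₁ v₂ = 0 ∧ BB₁ v₁ v₃ = 0 ∧ BB₁ v₂ v₃ = 0 ∧
      BB₁ v₁ τ₁ = 1 ∧ BB₁ v₁ τ₂ = 0 ∧ BB₁ v₂ τ₂ = 1 ∧ BB₁ v₁ τ₃ = 0 ∧ BB₁ v₂ τ₃ = 0 ∧ BB₁ v₃ τ₃ = 1 := by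
  have hb := hQ.polar_bilinear
  obtain ⟨v₁, hv₁W, hv₁, hv₁0⟩ := exists_sing_in hQ W ⊥ (by simp; omega)
  obtain ⟨W₁, hW₁⟩ : ∃ W₁, W₁ = W ⊓ LinearMap.ker (bilinOf BB₁ hb v₁) := ⟨_, rfl⟩
  have h1 : Module.finrank K W ≤ Module.finrank K W₁ + 1 := hW₁ ▸ finrank_inf_ker_ge W _
  have hs1 : Module.finrank K (Submodule.span K {v₁}) ≤ 1 := by
    have := finrank_span_le_card (R := K) ({v₁} : Set (ι → K))
    simpa using this
  obtain ⟨v₂, hv₂W₁, hv₂, hv₂n⟩ := exists_sing_in hQ W₁ (Submodule.span K {v₁}) (by omega)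
  obtain ⟨W₂, hW₂⟩ : ∃ W₂, W₂ = W₁ ⊓ LinearMap.ker (bilinOf BB₁ hb v₂) := ⟨_, rfl⟩
  have h2 : Module.finrank K W₁ ≤ Module.finrank K W₂ + 1 := hW₂ ▸ finrank_inf_ker_ge W₁ _
  have hs2 := finrank_sup_span_le hQ (Submodule.span K {v₁}) v₂
  obtain ⟨v₃, hv₃W₂, hv₃, hv₃n⟩ := exists_sing_in hQ W₂ (Submodule.span K {v₁} ⊔ Submodule.span K {v₂}) (by omega)
  have hv₂W : v₂ ∈ W := by
    rw [hW₁] at hv₂W₁
    exact hv₂W₁.1
  have hv₃W₁ : v₃ ∈ W₁ := by
    rw [hW₂] at hv₃W₂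
    exact hv₃W₂.1
  have hv₃W : v₃ ∈ W := by
    rw [hW₁] at hv₃W₁
    exact hv₃W₁.1
  have h12 : BB₁ v₁ v₂ = 0 := by
    rw [hW₁] at hv₂W₁
    exact hv₂W₁.2
  have h13 : BB₁ v₁ v₃ = 0 := by
    rw [hW₁] at hv₃W₁
    exact hv₃W₁.2
  have h23 : BB₁ v₂ v₃ = 0 := by
    rw [hW₂] at hv₃W₂
    exact hv₃W₂.2
  obtain ⟨τ₁, -, ht₁⟩ := QuadOver.exists_sep hQ (S := ⊥) (y := v₁) hv₁0
  obtain ⟨τ₂, ht₂, ht₂'⟩ := QuadOver.exists_sep hQ hv₂n
  obtain ⟨τ₃, ht₃, ht₃'⟩ := QuadOver.exists_sep hQ hv₃n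
  exact ⟨v₁, hv₁W, v₂, hv₂W, v₃, hv₃W, τ₁, τ₂, τ₃, hv₁, hv₂, hv₃, h12, h13, h23, ht₁, ht₂ _ (Submodule.mem_span_singleton_self _), ht₂',
    ht₃ _ (Submodule.mem_sup_left (Submodule.mem_span_singleton_self _)), ht₃ _ (Submodule.mem_sup_right (Submodule.mem_span_singleton_self _)), ht₃'⟩

end generic

variable {F : Type*} [Field F] {Q : (ι → F) → F} {F₀ : Subfield F}

local notation "BB" => QuadraticMap.polar Q
local notation "VV" => (ι → F)
local notation "MM" => Matrix ι ι F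
local notation "GG" => GL ι F

section

variable [Fintype F] (hR : RatQ Q F₀) {M : Subgroup (GL ι F)}
include hR

/-- Three independent orthogonal rational singular vectors in a large rational kernel. -/
theorem exists_triple {B : MM} (hB : RatM F₀ B) (h : 7 ≤ Module.finrank F (LinearMap.ker B.mulVecLin)) :
    ∃ v₁ v₂ v₃ : VV, RatV F₀ v₁ ∧ RatV F₀ v₂ ∧ RatV F₀ v₃ ∧ B *ᵥ v₁ = 0 ∧ B *ᵥ v₂ = 0 ∧ B *ᵥ v₃ = 0 ∧ Q v₁ = 0 ∧ Q v₂ = 0 ∧ Q v₃ = 0 ∧
      BB v₁ v₂ = 0 ∧ BB v₁ v₃ = 0 ∧ BB v₂ v₃ = 0 ∧ ∀ α β γ : F, α • v₁ + β • v₂ + γ • v₃ = 0 → α = 0 ∧ β = 0 ∧ γ = 0 := by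
  classical
  letI : Fintype F₀ := Fintype.ofFinite _
  obtain ⟨B₀, hB₀⟩ : ∃ B₀ : Matrix ι ι F₀, B₀.map F₀.subtype = B := ⟨liftM B hB, map_liftM B hB⟩
  have hr : B₀.rank = B.rank := by
    rw [← hB₀, rank_map_subtype]
  have hk₁ := finrank_ker_add_rank B
  have hk₂ : Module.finrank F₀ (LinearMap.ker B₀.mulVecLin) + B₀.rank = Fintype.card ι := finrank_ker_add_rank B₀
  have hk : 7 ≤ Module.finrank F₀ (LinearMap.ker B₀.mulVecLin) := by omega
  have hcv : ∀ a : ι → F₀, a ∈ LinearMap.ker B₀.mulVecLin → B *ᵥ (SubfieldSp.cst F₀ a) = 0 := by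
    intro a ha
    have ha' : B₀ *ᵥ a = 0 := ha
    rw [← hB₀]
    funext i
    have h3 : (B₀ *ᵥ a) i = 0 := congrFun ha' i
    have h4 := congrArg Subtype.val h3
    simpa [Matrix.mulVec, dotProduct, SubfieldSp.cst] using h4
  have hq := hQ₀ hR
  obtain ⟨v₁, hv₁, v₂, hv₂, v₃, hv₃, τ₁, τ₂, τ₃, h1, h2, h3, h12, h13, h23, t11, t12, t22, t13, t23, t33⟩ := exists_triple_K hq _ hk
  have hval : ∀ {u v : ι → F₀} {c : F₀}, QuadraticMap.polar (Q₀ hR) u v = c → BB (SubfieldSp.cst F₀ u) (SubfieldSp.cst F₀ v) = c := by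
    intro u v c h
    have := congrArg Subtype.val h
    rwa [polar_Q₀] at this
  have hb := hR.nd.polar_bilinear
  have s11 := hval t11
  have s12 := hval t12
  have s22 := hval t22
  have s13 := hval t13
  have s23 := hval t23
  have s33 := hval t33
  refine ⟨_, _, _, SubfieldSp.cst_rat v₁, SubfieldSp.cst_rat v₂, SubfieldSp.cst_rat v₃, hcv _ hv₁, hcv _ hv₂, hcv _ hv₃, congrArg Subtype.val h1, congrArg Subtype.val h2,
    congrArg Subtype.val h3, hval h12, hval h13, hval h23, ?_⟩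
  intro α β γ he
  have hγ : γ = 0 := by
    have := congrArg (fun t => BB t (SubfieldSp.cst F₀ τ₃)) he
    simp only [hb.add_left, hb.smul_left, s13, s23, s33, pol_zero_left hR.nd] at this
    simpa using this
  have hβ : β = 0 := by
    have := congrArg (fun t => BB t (SubfieldSp.cst F₀ τ₂)) he
    simp only [hb.add_left, hb.smul_left, s12, s22, hγ, pol_zero_left hR.nd] at this
    simpa using this
  have hα : α = 0 := by
    have := congrArg (fun t => BB t (SubfieldSp.cst F₀ τ₁)) he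
    simp only [hb.add_left, hb.smul_left, s11, hβ, hγ, pol_zero_left hR.nd] at this
    simpa using this
  exact ⟨hα, hβ, hγ⟩

variable {x : GL ι F}

/-- An element intertwining two rational involutions is a scalar multiple of a rational matrix. -/
theorem ratScal_of_comm (hn : 13 ≤ Fintype.card ι) (hHM : ratScal F₀ ι ⊓ omegaGL Q ≤ M) (hB : NoIrr F₀ Q M) (hMS : M ≤ omegaGL Q) (hx : x ∈ M)
    {z y : GL ι F} (hzr : RatM F₀ (z : MM)) (hzS : z ∈ omegaGL Q) (hz1 : z ≠ 1) (hyr : RatM F₀ (y : MM)) (hxy : x * y = z * x)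
    (hbig : Fintype.card ι < 2 * Module.finrank F (LinearMap.ker ((y : MM) - 1).mulVecLin)) : x ∈ ratScal F₀ ι := by
  have hQ := hR.nd
  have hb := hQ.polar_bilinear
  have hn9 : 9 ≤ Fintype.card ι := by omega
  have hiso := mem_iso_of_le hR hMS hx
  have hpol : ∀ v w, BB ((x : MM) *ᵥ v) ((x : MM) *ᵥ w) = BB v w := pol_iso' x hiso
  have hzpol : ∀ v w, BB ((z : MM) *ᵥ v) ((z : MM) *ᵥ w) = BB v w := pol_iso' z ((mem_iso_iff z).mp (omegaGL_le_iso hzS))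
  -- a rational vector orthogonal to the fixed space of `z`
  obtain ⟨j, hj⟩ : ∃ j : ι, (z : MM) *ᵥ Pi.single j 1 - Pi.single j 1 ≠ 0 := by
    by_contra hcon
    push Not at hcon
    apply hz1
    apply Units.ext
    rw [Units.val_one]
    ext a b
    have := congrFun (hcon b) a
    simp only [Pi.sub_apply, Matrix.mulVec_single_one, Matrix.col_apply, Pi.zero_apply, sub_eq_zero] at this
    rw [this, Matrix.one_apply, Pi.single_apply]
  obtain ⟨w, hw⟩ : ∃ w, w = (z : MM) *ᵥ Pi.single j 1 - Pi.single j 1 := ⟨_, rfl⟩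
  rw [← hw] at hj
  have hwr : RatV F₀ w := hw ▸ (hzr.mulVec (ratV_single j)).sub (ratV_single j)
  have hwperp : ∀ f : VV, (z : MM) *ᵥ f = f → BB f w = 0 := by
    intro f hf
    rw [hw, pol_sub_right hQ]
    conv_lhs => rw [← hf]
    rw [hzpol, hf, sub_self]
  -- the singular vectors
  obtain ⟨v₁, v₂, v₃, hv₁, hv₂, hv₃, hk₁, hk₂, hk₃, h1, h2, h3, h12, h13, h23, hind⟩ := exists_triple hR (hyr.sub ratM_one) (by omega)
  have hfix : ∀ v : VV, ((y : MM) - 1) *ᵥ v = 0 → (z : MM) *ᵥ ((x : MM) *ᵥ v) = (x : MM) *ᵥ v := by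
    intro v hv
    rw [Matrix.sub_mulVec, Matrix.one_mulVec, sub_eq_zero] at hv
    have h5 : (z : MM) * (x : MM) = (x : MM) * (y : MM) := by
      rw [← Units.val_mul, ← Units.val_mul, hxy]
    rw [Matrix.mulVec_mulVec, h5, ← Matrix.mulVec_mulVec, hv]
  have hQx : ∀ a : VV, Q a = 0 → Q ((x : MM) *ᵥ a) = 0 := fun a ha => by rw [hiso, ha]
  have hconj : ∀ {a b : VV}, Q a = 0 → BB a b = 0 → RatV F₀ a → RatV F₀ b → sg Q ((x : MM) *ᵥ a) ((x : MM) *ᵥ b) ∈ M := by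
    intro a b ha hab har hbr
    rw [← sg_conj hQ hiso ha hab]
    exact M.mul_mem (M.mul_mem hx (sg_in_M hR hn9 hHM har hbr ha hab)) (M.inv_mem hx)
  have hg₁ := rat_root hR hn hHM hB (hQx _ h1) (hQx _ h2) (by rw [hpol, h12]) hwr hj (hwperp _ (hfix _ hk₁)) (hwperp _ (hfix _ hk₂)) (hconj h1 h12 hv₁ hv₂)
  have hg₂ := rat_root hR hn hHM hB (hQx _ h1) (hQx _ h3) (by rw [hpol, h13]) hwr hj (hwperp _ (hfix _ hk₁)) (hwperp _ (hfix _ hk₃)) (hconj h1 h13 hv₁ hv₃)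
  have hP : Pt F₀ ((x : MM) *ᵥ v₁) := by
    refine pt_of_two hR (hQx _ h1) (hQx _ h2) (hQx _ h3) (by rw [hpol, h12]) (by rw [hpol, h13]) ?_ hg₁ hg₂
    intro α β γ he
    apply hind
    by_contra h5
    apply SubfieldSL.mulVec_ne_zero x h5
    rw [Matrix.mulVec_add, Matrix.mulVec_add, Matrix.mulVec_smul, Matrix.mulVec_smul, Matrix.mulVec_smul]
    exact he
  have hv₁0 : v₁ ≠ 0 := by
    intro h0
    have := (hind 1 0 0 (by rw [h0]; simp)).1
    exact one_ne_zero this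
  apply ratScal_of_sing_pt hR hn
  intro u hu huu _
  exact pt_all hR hn hHM hB hMS hx hv₁ h1 hv₁0 hP hu huu

end

end Cfsg.Agent.Lib.ClassMax.SubfieldO
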