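import Mathlib
import Cfsg.Agent.Lib.ClassMax.SubfieldO4

/-! The subfield subgroups of the orthogonal groups are maximal. -/

set_option autoImplicit false

namespace Cfsg.Agent.Lib.ClassMax.SubfieldO

open Matrix Cfsg.Geo Cfsg.Agent.Lib.ClassMax Cfsg.Agent.Lib.ClassMax.QuadOver
open Cfsg.Agent.Lib.ClassMax.OmegaCore
open Cfsg.Agent.Lib.ClassMax.SubfieldCore Cfsg.Agent.Lib.ClassMax.SubfieldDih Cfsg.Agent.Lib.ClassMax.SubfieldGen

variable {ι : Type} [Fintype ι] [DecidableEq ι] {F : Type*} [Field F] {Q : (ι → F) → F} {F₀ : Subfield F}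

local notation "BB" => QuadraticMap.polar Q
local notation "VV" => (ι → F)
local notation "MM" => Matrix ι ι F
local notation "GG" => GL ι F

section

variable [Fintype F] (hR : RatQ Q F₀) {M : Subgroup (GL ι F)}
include hR

/-- The two involutions. -/
theorem exists_invols (hn : 13 ≤ Fintype.card ι) :
    ∃ t₁ t₂ : GL ι F, t₁ ∈ omegaGL Q ∧ t₂ ∈ omegaGL Q ∧
      RatM F₀ (t₁ : MM) ∧ RatM F₀ (t₂ : MM) ∧ t₁ * t₁ = 1 ∧ t₂ * t₂ = 1 ∧ t₁ ≠ 1 ∧ t₂ ≠ 1 ∧
      ((t₁ : MM) - 1).rank ≠ ((t₂ : MM) - 1).rank ∧ ((t₁ : MM) - 1).rank + ((t₂ : MM) - 1).rank ≤ 6 := by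
  classical
  have hQ := hR.nd
  have hb := hQ.polar_bilinear
  obtain ⟨p₁, p₁', hp₁, hp₁', h11, h1'1', h11', -, -⟩ := rat_hyp hR ![] (fun i => i.elim0) (by simp; omega)
  obtain ⟨p₂, p₂', hp₂, hp₂', h22, h2'2', h22', hc1, hc2⟩ := rat_hyp hR ![p₁, p₁'] (by
    intro i
    fin_cases i
    · exact hp₁
    · exact hp₁') (by simp; omega)
  obtain ⟨p₃, p₃', hp₃, hp₃', h33, h3'3', h33', hd1, hd2⟩ := rat_hyp hR ![p₁, p₁', p₂, p₂'] (by
    intro i
    fin_cases i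
    · exact hp₁
    · exact hp₁'
    · exact hp₂
    · exact hp₂') (by simp; omega)
  have hsym : ∀ {a b : VV}, BB a b = 0 → BB b a = 0 := fun h => by rw [pol_comm]; exact h
  have hself : ∀ {a : VV}, Q a = 0 → BB a a = 0 := fun h => by rw [pol_self hQ, h, mul_zero]
  have hQa : ∀ {p p' : VV}, Q p = 0 → Q p' = 0 → BB p p' = 1 → Q (p + p') = 1 := by
    intro p p' h h' h1
    rw [Q_add' (Q := Q), h, h', h1]
    ring
  have hBa : ∀ {p p' : VV}, Q p = 0 → BB p p' = 1 → BB p (p + p') = 1 := by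
    intro p p' h h1
    rw [hb.add_right, hself h, h1, zero_add]
  obtain ⟨a₁, ha₁⟩ : ∃ a₁, a₁ = p₁ + p₁' := ⟨_, rfl⟩
  obtain ⟨a₂, ha₂⟩ : ∃ a₂, a₂ = p₂ + p₂' := ⟨_, rfl⟩
  obtain ⟨a₃, ha₃⟩ : ∃ a₃, a₃ = p₃ + p₃' := ⟨_, rfl⟩
  have har₁ : RatV F₀ a₁ := ha₁ ▸ hp₁.add hp₁'
  have har₂ : RatV F₀ a₂ := ha₂ ▸ hp₂.add hp₂'
  have har₃ : RatV F₀ a₃ := ha₃ ▸ hp₃.add hp₃'
  obtain ⟨p₄, p₄', hp₄, hp₄', h44, h4'4', h44', he1, he2⟩ := rat_hyp hR ![a₁, a₂, a₃] (by
    intro i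
    fin_cases i
    · exact har₁
    · exact har₂
    · exact har₃) (by simp; omega)
  obtain ⟨a₄, ha₄⟩ : ∃ a₄, a₄ = p₄ + p₄' := ⟨_, rfl⟩
  have har₄ : RatV F₀ a₄ := ha₄ ▸ hp₄.add hp₄'
  have Q₁ : Q a₁ = 1 := ha₁ ▸ hQa h11 h1'1' h11'
  have Q₂ : Q a₂ = 1 := ha₂ ▸ hQa h22 h2'2' h22'
  have Q₃ : Q a₃ = 1 := ha₃ ▸ hQa h33 h3'3' h33'
  have Q₄ : Q a₄ = 1 := ha₄ ▸ hQa h44 h4'4' h44'
  have P11 : BB p₁ a₁ = 1 := ha₁ ▸ hBa h11 h11'
  have P22 : BB p₂ a₂ = 1 := ha₂ ▸ hBa h22 h22'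
  have P33 : BB p₃ a₃ = 1 := ha₃ ▸ hBa h33 h33'
  have P44 : BB p₄ a₄ = 1 := ha₄ ▸ hBa h44 h44'
  have x1 : BB p₁ p₂ = 0 := hc1 0
  have x2 : BB p₁' p₂ = 0 := hc1 1
  have x3 : BB p₁ p₂' = 0 := hc2 0
  have x4 : BB p₁' p₂' = 0 := hc2 1
  have y1 : BB p₁ p₃ = 0 := hd1 0
  have y2 : BB p₁' p₃ = 0 := hd1 1
  have y3 : BB p₂ p₃ = 0 := hd1 2
  have y4 : BB p₂' p₃ = 0 := hd1 3
  have y5 : BB p₁ p₃' = 0 := hd2 0
  have y6 : BB p₁' p₃' = 0 := hd2 1
  have y7 : BB p₂ p₃' = 0 := hd2 2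
  have y8 : BB p₂' p₃' = 0 := hd2 3
  have P12 : BB p₁ a₂ = 0 := by rw [ha₂, hb.add_right, x1, x3, add_zero]
  have P13 : BB p₁ a₃ = 0 := by rw [ha₃, hb.add_right, y1, y5, add_zero]
  have P21 : BB p₂ a₁ = 0 := by rw [ha₁, hb.add_right, hsym x1, hsym x2, add_zero]
  have P23 : BB p₂ a₃ = 0 := by rw [ha₃, hb.add_right, y3, y7, add_zero]
  have P31 : BB p₃ a₁ = 0 := by rw [ha₁, hb.add_right, hsym y1, hsym y2, add_zero]
  have P32 : BB p₃ a₂ = 0 := by rw [ha₂, hb.add_right, hsym y3, hsym y4, add_zero]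
  have P41 : BB p₄ a₁ = 0 := hsym (he1 0)
  have P42 : BB p₄ a₂ = 0 := hsym (he1 1)
  have P43 : BB p₄ a₃ = 0 := hsym (he1 2)
  have A12 : BB a₁ a₂ = 0 := by
    rw [ha₁, ha₂]
    simp only [hb.add_left, hb.add_right, x1, x2, x3, x4, add_zero]
  have A13 : BB a₁ a₃ = 0 := by
    rw [ha₁, ha₃]
    simp only [hb.add_left, hb.add_right, y1, y2, y5, y6, add_zero]
  have A23 : BB a₂ a₃ = 0 := by
    rw [ha₂, ha₃]
    simp only [hb.add_left, hb.add_right, y3, y4, y7, y8, add_zero]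
  have A14 : BB a₁ a₄ = 0 := by
    have z1 : BB a₁ p₄ = 0 := he1 0
    have z2 : BB a₁ p₄' = 0 := he2 0
    rw [ha₄, hb.add_right, z1, z2, add_zero]
  have A24 : BB a₂ a₄ = 0 := by
    have z1 : BB a₂ p₄ = 0 := he1 1
    have z2 : BB a₂ p₄' = 0 := he2 1
    rw [ha₄, hb.add_right, z1, z2, add_zero]
  have A34 : BB a₃ a₄ = 0 := by
    have z1 : BB a₃ p₄ = 0 := he1 2
    have z2 : BB a₃ p₄' = 0 := he2 2
    rw [ha₄, hb.add_right, z1, z2, add_zero]
  have S1 : BB a₁ a₁ = 2 := by rw [pol_self hQ, Q₁, mul_one]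
  have S2 : BB a₂ a₂ = 2 := by rw [pol_self hQ, Q₂, mul_one]
  have S3 : BB a₃ a₃ = 2 := by rw [pol_self hQ, Q₃, mul_one]
  have S4 : BB a₄ a₄ = 2 := by rw [pol_self hQ, Q₄, mul_one]
  have hne1 : ∀ {a : VV}, Q a = 1 → Q a ≠ 0 := fun h => by rw [h]; exact one_ne_zero
  have hrf : ∀ {a : VV} (h : Q a = 1) (v : VV), (rf Q a : MM) *ᵥ v = v - BB v a • a := by
    intro a h v
    rw [rf_apply hQ (hne1 h)]
    unfold rfFun
    rw [h, div_one]
  obtain ⟨T₁, hT₁d⟩ : ∃ T₁, T₁ = rf Q a₁ * rf Q a₂ := ⟨_, rfl⟩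
  obtain ⟨T₃, hT₃d⟩ : ∃ T₃, T₃ = rf Q a₃ * rf Q a₄ := ⟨_, rfl⟩
  have hT₁ : ∀ v, (T₁ : MM) *ᵥ v = v - BB v a₁ • a₁ - BB v a₂ • a₂ := by
    intro v
    rw [hT₁d, Units.val_mul, ← Matrix.mulVec_mulVec, hrf Q₂, hrf Q₁, pol_sub_left hQ, hb.smul_left, hsym A12]
    module
  have hT₃ : ∀ v, (T₃ : MM) *ᵥ v = v - BB v a₃ • a₃ - BB v a₄ • a₄ := by
    intro v
    rw [hT₃d, Units.val_mul, ← Matrix.mulVec_mulVec, hrf Q₄, hrf Q₃, pol_sub_left hQ, hb.smul_left, hsym A34]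
    module
  have hT₂ : ∀ v, ((T₁ * T₃ : GL ι F) : MM) *ᵥ v = v - BB v a₁ • a₁ - BB v a₂ • a₂ - BB v a₃ • a₃ - BB v a₄ • a₄ := by
    intro v
    rw [Units.val_mul, ← Matrix.mulVec_mulVec, hT₃, hT₁]
    simp only [pol_sub_left hQ, hb.smul_left, hsym A13, hsym A14, hsym A23, hsym A24]
    module
  have hS₁ : T₁ ∈ omegaGL Q := hT₁d ▸ rf_mul_mem_omega hQ (hne1 Q₁) (by rw [Q₁, Q₂])
  have hS₃ : T₃ ∈ omegaGL Q := hT₃d ▸ rf_mul_mem_omega hQ (hne1 Q₃) (by rw [Q₃, Q₄])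
  have hR₁ : RatM F₀ (T₁ : MM) := by
    apply SubfieldSp.ratM_of_mulVec
    intro j
    rw [hT₁]
    exact ((ratV_single j).sub (har₁.smul (polar_rat hR (ratV_single j) har₁))).sub (har₂.smul (polar_rat hR (ratV_single j) har₂))
  have hR₂ : RatM F₀ ((T₁ * T₃ : GL ι F) : MM) := by
    apply SubfieldSp.ratM_of_mulVec
    intro j
    rw [hT₂]
    exact (((((ratV_single j).sub (har₁.smul (polar_rat hR (ratV_single j) har₁))).sub (har₂.smul (polar_rat hR (ratV_single j) har₂))).sub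
      (har₃.smul (polar_rat hR (ratV_single j) har₃)))).sub (har₄.smul (polar_rat hR (ratV_single j) har₄))
  have hsq₁ : T₁ * T₁ = 1 := by
    apply gl_ext_mulVec
    intro v
    rw [Units.val_mul, ← Matrix.mulVec_mulVec, hT₁, hT₁, Units.val_one, Matrix.one_mulVec]
    simp only [pol_sub_left hQ, hb.smul_left, hsym A12, A12, S1, S2]
    module
  have hsq₂ : (T₁ * T₃) * (T₁ * T₃) = 1 := by
    apply gl_ext_mulVec
    intro v
    rw [Units.val_mul, ← Matrix.mulVec_mulVec, hT₂, hT₂, Units.val_one, Matrix.one_mulVec]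
    simp only [pol_sub_left hQ, hb.smul_left, hsym A12, hsym A13, hsym A14, hsym A23, hsym A24, hsym A34, A12, A13, A14, A23, A24, A34, S1, S2, S3, S4]
    module
  have hrk₁ : ((T₁ : MM) - 1).rank = 2 := by
    refine rank_of_family (k := 2) ![a₁, a₂] ?_ ?_ ?_
    · rw [Fintype.linearIndependent_iff]
      intro g hg
      rw [Fin.sum_univ_two] at hg
      simp only [Matrix.cons_val_zero, Matrix.cons_val_one] at hg
      have c1 := congrArg (fun t => BB p₁ t) hg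
      have c2 := congrArg (fun t => BB p₂ t) hg
      simp only [hb.add_right, hb.smul_right, P11, P12, P21, P22, pol_zero_right hQ] at c1 c2
      intro i
      fin_cases i
      · simpa using c1
      · simpa using c2
    · intro v
      have e : ((T₁ : MM) - 1) *ᵥ v = (-BB v a₁) • a₁ + (-BB v a₂) • a₂ := by
        rw [Matrix.sub_mulVec, Matrix.one_mulVec, hT₁]
        module
      rw [e]
      exact add_mem (Submodule.smul_mem _ _ (Submodule.subset_span ⟨0, rfl⟩)) (Submodule.smul_mem _ _ (Submodule.subset_span ⟨1, rfl⟩))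
    · intro i
      have e : ∀ v, ((T₁ : MM) - 1) *ᵥ v = (-BB v a₁) • a₁ + (-BB v a₂) • a₂ := by
        intro v
        rw [Matrix.sub_mulVec, Matrix.one_mulVec, hT₁]
        module
      fin_cases i
      · refine ⟨-p₁, ?_⟩
        rw [e, pol_neg_left hQ, pol_neg_left hQ, P11, P12]
        simp
      · refine ⟨-p₂, ?_⟩
        rw [e, pol_neg_left hQ, pol_neg_left hQ, P21, P22]
        simp
  have hrk₂ : (((T₁ * T₃ : GL ι F) : MM) - 1).rank = 4 := by
    have e : ∀ v, (((T₁ * T₃ : GL ι F) : MM) - 1) *ᵥ v = (-BB v a₁) • a₁ + (-BB v a₂) • a₂ + (-BB v a₃) • a₃ + (-BB v a₄) • a₄ := by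
      intro v
      rw [Matrix.sub_mulVec, Matrix.one_mulVec, hT₂]
      module
    have e4 : ((((T₁ * T₃ : GL ι F) : MM) - 1) *ᵥ (-p₄)) = a₄ := by
      rw [e]
      simp only [pol_neg_left hQ, P41, P42, P43, P44]
      simp
    have eadd : ∀ (p : VV) (c : F), (((T₁ * T₃ : GL ι F) : MM) - 1) *ᵥ (p - c • (-p₄)) = (((T₁ * T₃ : GL ι F) : MM) - 1) *ᵥ p - c • a₄ := by
      intro p c
      rw [Matrix.mulVec_sub, Matrix.mulVec_smul, e4]
    refine rank_of_family (k := 4) ![a₁, a₂, a₃, a₄] ?_ ?_ ?_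
    · rw [Fintype.linearIndependent_iff]
      intro g hg
      rw [Fin.sum_univ_four] at hg
      simp only [Matrix.cons_val] at hg
      have c4 := congrArg (fun t => BB p₄ t) hg
      simp only [hb.add_right, hb.smul_right, P41, P42, P43, P44, pol_zero_right hQ] at c4
      have g4 : g 3 = 0 := by simpa using c4
      have c1 := congrArg (fun t => BB p₁ t) hg
      have c2 := congrArg (fun t => BB p₂ t) hg
      have c3 := congrArg (fun t => BB p₃ t) hg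
      simp only [hb.add_right, hb.smul_right, P11, P12, P13, P21, P22, P23, P31, P32, P33, g4, pol_zero_right hQ] at c1 c2 c3
      intro i
      fin_cases i
      · simpa using c1
      · simpa using c2
      · simpa using c3
      · exact g4
    · intro v
      rw [e]
      exact add_mem (add_mem (add_mem (Submodule.smul_mem _ _ (Submodule.subset_span ⟨0, rfl⟩)) (Submodule.smul_mem _ _ (Submodule.subset_span ⟨1, rfl⟩))) (Submodule.smul_mem _ _ (Submodule.subset_span ⟨2, rfl⟩))) (Submodule.smul_mem _ _ (Submodule.subset_span ⟨3, rfl⟩))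
    · intro i
      fin_cases i
      · refine ⟨(-p₁) - (BB p₁ a₄) • (-p₄), ?_⟩
        rw [eadd, e]
        simp only [pol_neg_left hQ, P11, P12, P13]
        simp
      · refine ⟨(-p₂) - (BB p₂ a₄) • (-p₄), ?_⟩
        rw [eadd, e]
        simp only [pol_neg_left hQ, P21, P22, P23]
        simp
      · refine ⟨(-p₃) - (BB p₃ a₄) • (-p₄), ?_⟩
        rw [eadd, e]
        simp only [pol_neg_left hQ, P31, P32, P33]
        simp
      · exact ⟨-p₄, e4⟩
  refine ⟨T₁, T₁ * T₃, hS₁, mul_mem hS₁ hS₃, hR₁, hR₂, hsq₁, hsq₂, ?_, ?_, ?_, ?_⟩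
  · intro h
    rw [h, Units.val_one, sub_self, Matrix.rank_zero] at hrk₁
    omega
  · intro h
    rw [h, Units.val_one, sub_self, Matrix.rank_zero] at hrk₂
    omega
  · rw [hrk₁, hrk₂]
    omega
  · rw [hrk₁, hrk₂]

/-- The main argument. -/
theorem le_ratScal (hn : 13 ≤ Fintype.card ι) (hHM : ratScal F₀ ι ⊓ omegaGL Q ≤ M) (hB : NoIrr F₀ Q M) (hMS : M ≤ omegaGL Q) :
    M ≤ ratScal F₀ ι := by
  obtain ⟨t₁, t₂, hs₁, hs₂, hr₁, hr₂, ht₁, ht₂, h10, h20, hne, hrk⟩ := exists_invols hR (F₀ := F₀) hn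
  have hmem : ∀ {g : GG}, RatM F₀ (g : MM) → g ∈ omegaGL Q → g ∈ M := fun hg hs =>
    hHM ⟨⟨1, one_ne_zero, by rwa [one_smul]⟩, hs⟩
  refine dihedral_main (s₀ := 6) (by omega) (hmem hr₁ hs₁) (hmem hr₂ hs₂) hr₁ hr₂ ht₁ ht₂ h10 h20 hne hrk ?_
  intro x hx z y hz hy hzz _ hzr hyr hz1 _ hxy hbig
  exact ratScal_of_comm hR hn hHM hB hMS hx hzr (hMS hz) hz1 hyr hxy hbig

/-- The maximality for a rational form. -/
theorem isMaximal_abs (hn : 13 ≤ Fintype.card ι) {r : ℕ} (hr : r.Prime) (hcard : Fintype.card F = Nat.card F₀ ^ r) :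
    IsMaximalIn (omegaGL Q) (ratScal F₀ ι ⊓ omegaGL Q) := by
  have hQ := hR.nd
  have hb := hQ.polar_bilinear
  have hn9 : 9 ≤ Fintype.card ι := by omega
  constructor
  · refine lt_of_le_of_ne inf_le_right ?_
    intro h
    obtain ⟨κ, hκ⟩ := SubfieldSp.exists_notMem_subfield (F₀ := F₀) hr hcard
    -- a frame
    obtain ⟨z, z', hz, hz', hzz, hz'z', hzz', -, -⟩ := rat_hyp hR ![] (fun i => i.elim0) (by simp; omega)
    obtain ⟨u, u', hu, hu', huu, hu'u', huu', hc1, hc2⟩ := rat_hyp hR ![z, z'] (by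
      intro i
      fin_cases i
      · exact hz
      · exact hz') (by simp; omega)
    have hzu : BB z u = 0 := hc1 0
    have hz'u : BB z' u = 0 := hc1 1
    have hzu' : BB z u' = 0 := hc2 0
    have hg : sg Q z (κ • u) ∈ omegaGL Q := sg_mem_omega hQ hn9 hzz (perp_smul_right hR _ hzu)
    rw [← h] at hg
    obtain ⟨d, hd, hrat⟩ := hg.1
    have hv : ∀ v, RatV F₀ v → RatV F₀ (d • ((sg Q z (κ • u) : MM) *ᵥ v)) := by
      intro v hv
      have : (d • (sg Q z (κ • u) : MM)) *ᵥ v = d • ((sg Q z (κ • u) : MM) *ᵥ v) := Matrix.smul_mulVec _ _ _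
      rw [← this]
      exact RatM.mulVec hrat hv
    have hz'z : BB z' z = 1 := by rw [pol_comm]; exact hzz'
    have hz'img : (sg Q z (κ • u) : MM) *ᵥ z' = z' + (- κ) • u := by
      rw [sg_ts_apply hR hzz (perp_smul_right hR _ hzu) (Qs hR _ huu), hb.smul_right, hz'u, hz'z]
      module
    have e1 := polar_rat hR (hv z' hz') hu'
    rw [hz'img, hb.smul_left, hb.add_left, hb.smul_left, huu', pol_comm z' u'] at e1
    have e4 := polar_rat hR (hv z' hz') hz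
    rw [hz'img, hb.smul_left, hb.add_left, hb.smul_left, pol_comm u z, hzu, hz'z] at e4
    have hzu'' : BB u' z' = BB z' u' := pol_comm _ _
    have hd' : d ∈ F₀ := by
      simpa using e4
    have e5 : BB u' z' = BB z' u' := pol_comm _ _
    -- the pairing with a vector orthogonal to `z'`
    obtain ⟨q, hq⟩ : ∃ q, q = u' - BB z' u' • z := ⟨_, rfl⟩
    have hqr : RatV F₀ q := hq ▸ hu'.sub (hz.smul (polar_rat hR hz' hu'))
    have hz'q : BB z' q = 0 := by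
      rw [hq, pol_sub_right hQ, hb.smul_right, hz'z]
      ring
    have huq : BB u q = 1 := by
      rw [hq, pol_sub_right hQ, hb.smul_right, huu', pol_comm u z, hzu]
      ring
    have e6 := polar_rat hR (hv z' hz') hqr
    rw [hz'img, hb.smul_left, hb.add_left, hb.smul_left, hz'q, huq] at e6
    apply hκ
    have e7 : κ = (-(d * (0 + -κ * 1))) * d⁻¹ * (-1) * (-1) := by
      field_simp
      ring
    have e8 : κ = (d * (0 + -κ * 1)) * d⁻¹ * (-1) := by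
      field_simp
      ring
    rw [e8]
    exact F₀.mul_mem (F₀.mul_mem e6 (F₀.inv_mem hd')) (F₀.neg_mem F₀.one_mem)
  · intro M hHM hMS
    by_cases hB : NoIrr F₀ Q M
    · left
      exact le_antisymm (le_inf (le_ratScal hR hn hHM hB hMS) hMS) hHM
    · right
      unfold NoIrr at hB
      push Not at hB
      obtain ⟨z, z', u, u', hF, κ, hS, hκ⟩ := hB
      exact le_antisymm hMS (omega_le_of_irr hR hn hHM hr hcard hF hκ hS)

end

section reduction

variable [Fintype F]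

/-- Transport of the commutator subgroup of the isometry group. -/
theorem omegaGL_map_conj {Q' : (ι → F) → F} (P : GL ι F) (h : (Cfsg.isometryGroup F Q').map (MulAut.conj P).toMonoidHom = Cfsg.isometryGroup F Q) :
    (omegaGL Q').map (MulAut.conj P).toMonoidHom = omegaGL Q := by
  have e : ∀ R : (ι → F) → F, omegaGL R = ⁅Cfsg.isometryGroup F R, Cfsg.isometryGroup F R⁆ := by
    intro R
    unfold omegaGL Cfsg.Omega
    exact Subgroup.map_subtype_commutator _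
  rw [e, e, Subgroup.map_commutator, h]

/-- The subfield subgroups of the orthogonal groups are maximal. -/
theorem isMaximal (hQ : IsNondegenerateQuadraticForm Q) (hn : 13 ≤ Fintype.card ι) (F₀ : Subfield F) {r : ℕ} (hr : r.Prime)
    (hcard : Fintype.card F = Nat.card F₀ ^ r) (P : GL ι F) {ζ : F} (hζ : ζ ≠ 0) (hP : IsQuadFormRationalStructure (fun v : ι → F => ζ * Q v) F₀ P) :
    IsMaximalIn (omegaGL Q) (subfieldSubgroup F₀ P ⊓ omegaGL Q) := by
  classical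
  obtain ⟨Q', hQ'⟩ : ∃ Q' : (ι → F) → F, Q' = fun u => ζ * Q ((P : MM) *ᵥ u) := ⟨_, rfl⟩
  have hb := hQ.polar_bilinear
  have hinv : ∀ z : ι → F, (P : MM) *ᵥ (((P⁻¹ : GL ι F) : MM) *ᵥ z) = z := by
    intro z
    rw [Matrix.mulVec_mulVec, ← Units.val_mul, mul_inv_cancel, Units.val_one, Matrix.one_mulVec]
  have hpol : ∀ u v, QuadraticMap.polar Q' u v = ζ * BB ((P : MM) *ᵥ u) ((P : MM) *ᵥ v) := by
    intro u v
    rw [hQ']
    simp only [QuadraticMap.polar, Matrix.mulVec_add]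
    ring
  have hnd : IsNondegenerateQuadraticForm Q' := by
    refine ⟨fun c v => ?_, ⟨?_, ?_, ?_, ?_⟩, ?_⟩
    · rw [hQ']
      simp only [Matrix.mulVec_smul, hQ.smul]
      ring
    · intro x y v
      simp only [hpol, Matrix.mulVec_add, hb.add_left]
      ring
    · intro c x v
      simp only [hpol, Matrix.mulVec_smul, hb.smul_left]
      ring
    · intro v x y
      simp only [hpol, Matrix.mulVec_add, hb.add_right]
      ring
    · intro c v x
      simp only [hpol, Matrix.mulVec_smul, hb.smul_right]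
      ring
    · intro v hv
      have hPv : (P : MM) *ᵥ v ≠ 0 := SubfieldSL.mulVec_ne_zero P hv
      obtain ⟨⟨x, hx⟩, ⟨y, hy⟩⟩ := hQ.nondegenerate _ hPv
      refine ⟨⟨((P⁻¹ : GL ι F) : MM) *ᵥ x, ?_⟩, ⟨((P⁻¹ : GL ι F) : MM) *ᵥ y, ?_⟩⟩
      · rw [hpol, hinv]
        exact mul_ne_zero hζ hx
      · rw [hpol, hinv]
        exact mul_ne_zero hζ hy
  have hR : RatQ Q' F₀ := by
    refine ⟨hnd, fun u hu => ?_⟩
    rw [hQ']
    exact hP u hu
  have hmax := isMaximal_abs hR hn hr hcard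
  have hiso : (Cfsg.isometryGroup F Q').map (MulAut.conj P).toMonoidHom = Cfsg.isometryGroup F Q := by
    apply le_antisymm
    · rintro _ ⟨g, hg, rfl⟩
      rw [mem_iso_iff]
      intro a
      have h1 := (mem_iso_iff g).mp hg (((P⁻¹ : GL ι F) : MM) *ᵥ a)
      rw [hQ'] at h1
      simp only [hinv] at h1
      have h2 := mul_left_cancel₀ hζ h1
      rw [← h2]
      simp only [MulEquiv.toMonoidHom_eq_coe, MonoidHom.coe_coe, MulAut.conj_apply, Units.val_mul, ← Matrix.mulVec_mulVec]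
    · intro h hh
      have hmem : P⁻¹ * h * P ∈ Cfsg.isometryGroup F Q' := by
        rw [mem_iso_iff]
        intro u
        rw [hQ']
        simp only [Units.val_mul, ← Matrix.mulVec_mulVec, hinv]
        rw [(mem_iso_iff h).mp hh]
      exact ⟨_, hmem, by simp [MulAut.conj_apply, mul_assoc]⟩
  have hG := omegaGL_map_conj P hiso
  have hH : subfieldSubgroup F₀ P ⊓ omegaGL Q = (ratScal F₀ ι ⊓ omegaGL Q').map (MulAut.conj P).toMonoidHom := by
    rw [Subgroup.map_inf_eq _ _ _ (MulAut.conj P).injective, hG, subfieldSubgroup, sup_eq_ratScal]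
  rw [hH, ← hG]
  exact isMaximalIn_map_conj P hmax

end reduction

end Cfsg.Agent.Lib.ClassMax.SubfieldO
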