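import Mathlib
import Cfsg.Agent.Lib.ClassMax.UnitCrit

/-! Stabilisers of non-degenerate subspaces of a unitary space are maximal in `SU`. -/

set_option autoImplicit false

namespace Cfsg.Agent.Lib.ClassMax.UnitCore

open Matrix Cfsg.Geo Cfsg.Agent.Lib.ClassMax Cfsg.Agent.Lib.ClassMax.QuadOver
open Cfsg.Agent.Lib.ClassMax.HermOver

variable {ι : Type} [Fintype ι] [DecidableEq ι] {F : Type*} [Field F] {σ : F ≃+* F} {f : (ι → F) → (ι → F) → F}

local notation "VV" => (ι → F)
local notation "MM" => Matrix ι ι F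
local notation "GG" => GL ι F

/-- An injective image does not have smaller dimension. -/
theorem finrank_le_of_map {A T : Submodule F VV} (g : GG) (h : ∀ x ∈ A, (g : MM) *ᵥ x ∈ T) :
    Module.finrank F A ≤ Module.finrank F T := by
  let e : VV ≃ₗ[F] VV := Matrix.toLin'OfInv (M := ((g⁻¹ : GG) : MM)) (M' := (g : MM))
    (by rw [← Units.val_mul, inv_mul_cancel, Units.val_one]) (by rw [← Units.val_mul, mul_inv_cancel, Units.val_one])
  have h1 : A.map (e : VV →ₗ[F] VV) ≤ T := by
    rintro _ ⟨x, hx, rfl⟩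
    exact h x hx
  have h2 := LinearEquiv.finrank_map_eq e A
  have h3 := Submodule.finrank_mono h1
  omega

section Nondeg

variable (hf : IsUnitaryForm σ f)
include hf

/-- The perpendicular of a subspace. -/
def perpS (hf : IsUnitaryForm σ f) (W : Submodule F (ι → F)) : Submodule F (ι → F) where
  carrier := {v | ∀ w ∈ W, f w v = 0}
  add_mem' := by
    intro x y hx hy w hw
    rw [add_right hf, hx w hw, hy w hw, add_zero]
  zero_mem' := fun w _ => zero_right hf w
  smul_mem' := by
    intro c x hx w hw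
    rw [smul_right hf, hx w hw, mul_zero]

theorem mem_perpS {W : Submodule F VV} {v : VV} : v ∈ perpS hf W ↔ ∀ w ∈ W, f w v = 0 := Iff.rfl

theorem finrank_perpS_ge (W : Submodule F VV) : Fintype.card ι ≤ Module.finrank F (perpS hf W) + Module.finrank F W := by
  classical
  set b := Module.finBasis F W with hb
  set k := Module.finrank F W with hk
  let c : Fin k → VV := fun i => (b i : VV)
  let L : VV →ₗ[F] (Fin k → F) :=
    { toFun := fun v i => f v (c i)
      map_add' := fun a d => by funext i; exact hf.add_left _ _ _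
      map_smul' := fun d a => by funext i; simpa using hf.smul_left d a _ }
  have hle : LinearMap.ker L ≤ perpS hf W := by
    intro v hv w hw
    have h1 : ∀ i, f (c i) v = 0 := by
      intro i
      have h2 : f v (c i) = 0 := congrFun hv i
      rw [hf.herm, h2, map_zero]
    have h3 : w = ∑ i, (b.repr ⟨w, hw⟩ i) • c i := by
      have h4 := congrArg Subtype.val (b.sum_repr ⟨w, hw⟩)
      simp only [Submodule.coe_sum, Submodule.coe_smul] at h4
      exact h4.symm
    rw [h3]
    refine perp_of_span hf h1 ?_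
    exact Submodule.sum_mem _ fun i _ => Submodule.smul_mem _ _ (Submodule.subset_span ⟨i, rfl⟩)
  have h5 := LinearMap.finrank_range_add_finrank_ker L
  have h6 : Module.finrank F (LinearMap.range L) ≤ k := by
    have := Submodule.finrank_le (LinearMap.range L)
    simpa using this
  have h7 := Submodule.finrank_mono hle
  simp only [Module.finrank_fintype_fun_eq_card] at h5
  omega

theorem uPair_perpS {W : Submodule F VV} (hW : IsNondegenerateOn f W) : UPair f W (perpS hf W) := by
  have hdisj : Disjoint W (perpS hf W) := by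
    rw [Submodule.disjoint_def]
    intro x hxW hx
    by_contra h0
    obtain ⟨w, hw, hne⟩ := (hW x hxW h0).1
    exact hne (hx w hw)
  have h1 := finrank_perpS_ge hf W
  have h2 := Submodule.finrank_sup_add_finrank_inf_eq W (perpS hf W)
  rw [hdisj.eq_bot, finrank_bot, add_zero] at h2
  have htop : W ⊔ perpS hf W = ⊤ := by
    apply Submodule.eq_top_of_finrank_eq
    have h3 := Submodule.finrank_le (W ⊔ perpS hf W)
    simp only [Module.finrank_fintype_fun_eq_card] at h3 ⊢
    omega
  exact ⟨⟨hdisj, codisjoint_iff.mpr htop⟩, fun a ha c hc => hc a ha⟩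

theorem stab_other {A C : Submodule F VV} (h : UPair f A C) {g : GG} (hg : ∀ v w, f ((g : MM) *ᵥ v) ((g : MM) *ᵥ w) = f v w)
    (hgC : ∀ c ∈ C, (g : MM) *ᵥ c ∈ C) : ∀ a ∈ A, (g : MM) *ᵥ a ∈ A := by
  intro a ha
  apply h.mem_left hf
  intro c hc
  have hS := mem_subspaceStabilizer_of_forall C g hgC
  have h1 : ((g⁻¹ : GG) : MM) *ᵥ c ∈ C := by
    rw [mem_subspaceStabilizer_iff.mp hS]
    rw [Matrix.mulVec_mulVec, ← Units.val_mul, mul_inv_cancel, Units.val_one, Matrix.one_mulVec]
    exact hc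
  have h2 := hg (((g⁻¹ : GG) : MM) *ᵥ c) a
  rw [Matrix.mulVec_mulVec, ← Units.val_mul, mul_inv_cancel, Units.val_one, Matrix.one_mulVec] at h2
  rw [h2]
  exact h.orth' hf ha h1

variable [Fintype F]

/-- Every vector of a summand of dimension at least two is a sum of two isotropic vectors of the summand. -/
theorem exists_split_mem {A C : Submodule F VV} (h : UPair f A C) (hA : 2 ≤ Module.finrank F A) {u : VV} (hu : u ∈ A) :
    ∃ i₁ ∈ A, ∃ i₂ ∈ A, f i₁ i₁ = 0 ∧ f i₂ i₂ = 0 ∧ i₁ + i₂ = u := by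
  obtain ⟨p, hp, p', hp', hpQ, hpQ', hpp', -, -⟩ := exists_hyp_nd hf h (![] : Fin 0 → VV) (fun i => i.elim0)
    (by simp) (by simpa using hA)
  obtain ⟨i₁, i₂, a, b, c, h1, h2, e, hi⟩ := exists_split hf (u := u) hpQ hpQ' hpp'
  have hi₁A : i₁ ∈ A := by
    rw [hi]
    exact A.add_mem (A.add_mem (A.smul_mem _ hu) (A.smul_mem _ hp)) (A.smul_mem _ hp')
  have hi₂A : i₂ ∈ A := by
    have : i₂ = u - i₁ := by rw [← e]; abel
    rw [this]
    exact A.sub_mem hu hi₁A
  exact ⟨i₁, hi₁A, i₂, hi₂A, h1, h2, e⟩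

/-- An isotropic vector of `C` with mixed image. -/
theorem exists_mixed {A C : Submodule F VV} (h : UPair f A C) (hlt : Module.finrank F A < Module.finrank F C)
    (hC : 2 ≤ Module.finrank F C) {g : GG} (hg : ∀ v w, f ((g : MM) *ᵥ v) ((g : MM) *ᵥ w) = f v w)
    (hgA : ¬ ∀ a ∈ A, (g : MM) *ᵥ a ∈ A) :
    ∃ z ∈ C, f z z = 0 ∧ ∃ a₁ ∈ A, ∃ c₁ ∈ C, a₁ ≠ 0 ∧ c₁ ≠ 0 ∧ (g : MM) *ᵥ z = a₁ + c₁ := by
  have hsymm := h.symm hf
  have hinj : ∀ {z : VV}, z ≠ 0 → (g : MM) *ᵥ z ≠ 0 := by
    intro z hz h0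
    apply hz
    have := congrArg (fun w => ((g⁻¹ : GG) : MM) *ᵥ w) h0
    simpa [Matrix.mulVec_mulVec] using this
  have mixed_of : ∀ {z : VV}, z ∈ C → f z z = 0 → (g : MM) *ᵥ z ∉ A → (g : MM) *ᵥ z ∉ C →
      ∃ z ∈ C, f z z = 0 ∧ ∃ a₁ ∈ A, ∃ c₁ ∈ C, a₁ ≠ 0 ∧ c₁ ≠ 0 ∧ (g : MM) *ᵥ z = a₁ + c₁ := by
    intro z hz hzQ h1 h2
    obtain ⟨a, ha, c, hc, e⟩ := h.decomp ((g : MM) *ᵥ z)
    refine ⟨z, hz, hzQ, a, ha, c, hc, ?_, ?_, e.symm⟩
    · rintro rfl
      rw [zero_add] at e
      exact h2 (e ▸ hc)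
    · rintro rfl
      rw [add_zero] at e
      exact h1 (e ▸ ha)
  -- an isotropic vector of `C` moved out of `C`
  have h1 : ∃ z₁ ∈ C, f z₁ z₁ = 0 ∧ (g : MM) *ᵥ z₁ ∉ C := by
    by_contra hcon
    push Not at hcon
    apply hgA
    apply stab_other hf h hg
    intro c hc
    obtain ⟨i₁, hi₁, i₂, hi₂, h3, h4, rfl⟩ := exists_split_mem hf hsymm hC hc
    rw [Matrix.mulVec_add]
    exact C.add_mem (hcon i₁ hi₁ h3) (hcon i₂ hi₂ h4)
  obtain ⟨z₁, hz₁, hz₁Q, hz₁C⟩ := h1
  by_cases hz₁A : (g : MM) *ᵥ z₁ ∈ A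
  · -- another vector
    have h2 : ∃ z₂ ∈ C, f z₂ z₂ = 0 ∧ (g : MM) *ᵥ z₂ ∉ A := by
      by_contra hcon
      push Not at hcon
      have h3 : ∀ c ∈ C, (g : MM) *ᵥ c ∈ A := by
        intro c hc
        obtain ⟨i₁, hi₁, i₂, hi₂, h3, h4, rfl⟩ := exists_split_mem hf hsymm hC hc
        rw [Matrix.mulVec_add]
        exact A.add_mem (hcon i₁ hi₁ h3) (hcon i₂ hi₂ h4)
      have := finrank_le_of_map g h3
      omega
    obtain ⟨z₂, hz₂, hz₂Q, hz₂A⟩ := h2
    by_cases hz₂C : (g : MM) *ᵥ z₂ ∈ C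
    · have h12 : f z₁ z₂ = 0 := by
        rw [← hg]
        exact h.orth _ hz₁A _ hz₂C
      have h21 : f z₂ z₁ = 0 := by rw [hf.herm, h12, map_zero]
      refine ⟨z₁ + z₂, C.add_mem hz₁ hz₂, ?_, _, hz₁A, _, hz₂C, ?_, ?_, Matrix.mulVec_add _ _ _⟩
      · rw [hf.add_left, add_right hf, add_right hf, hz₁Q, hz₂Q, h12, h21]; ring
      · intro h0
        exact hz₁C (h0 ▸ C.zero_mem)
      · intro h0
        exact hz₂A (h0 ▸ A.zero_mem)
    · exact mixed_of hz₂ hz₂Q hz₂A hz₂C
  · exact mixed_of hz₁ hz₁Q hz₁A hz₁C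

/-- The product formula for three transvections with mutually orthogonal centres. -/
theorem tv_triple {y w : VV} {b β : F} (hy : f y y = 0) (hw : f w w = 0) (hyw : f y w = 0) (hb : b + σ b = 0) :
    ∃ hz : f (w + (-β) • y) (w + (-β) • y) = 0,
    eg f (w + (-β) • y) 0 b * (eg f w 0 (-b) * eg f (β • y) 0 (-b)) = eg f y ((-b * σ β) • w) 0 := by
  have hwy : f w y = 0 := by rw [hf.herm, hyw, map_zero]
  have hz : f (w + (-β) • y) (w + (-β) • y) = 0 := by
    simp only [hf.add_left, add_right hf, hf.smul_left, smul_right hf, hy, hw, hyw, hwy]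
    ring
  have hσb : σ b = - b := by linear_combination hb
  have hneg : -b + σ (-b) = 0 := by rw [map_neg, hσb]; ring
  have hβy : f (β • y) (β • y) = 0 := by
    simp only [hf.smul_left, smul_right hf, hy]
    ring
  have h1 : f y ((-b * σ β) • w) = 0 := by rw [smul_right hf, hyw, mul_zero]
  have h2 : (0 : F) + σ 0 = - f ((-b * σ β) • w) ((-b * σ β) • w) := by
    simp only [hf.smul_left, smul_right hf, hw]
    simp
  refine ⟨hz, ?_⟩
  apply gl_ext_mulVec
  intro v
  simp only [Units.val_mul, ← Matrix.mulVec_mulVec]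
  rw [eg_apply hf hβy (zero_right hf _) (skew_ok hf hneg), eg_apply hf hw (zero_right hf _) (skew_ok hf hneg),
    eg_apply hf hz (zero_right hf _) (skew_ok hf hb), eg_apply hf hy h1 h2]
  unfold egFun
  simp only [zero_right hf, zero_smul, add_zero, sub_zero, hf.add_left, add_right hf, hf.smul_left, smul_right hf, hy, hw, hyw, hwy,
    mul_zero, smul_zero, zero_add, map_neg, map_mul, hf.involutive, hσb]
  module

/-- The main theorem: the stabiliser of the smaller summand is maximal. -/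
theorem isMaximal_nd {A C : Submodule F VV} (h : UPair f A C) (hlt : Module.finrank F A < Module.finrank F C)
    (hn : 13 ≤ Fintype.card ι) (hA0 : A ≠ ⊥) (hAnd : IsNondegenerateOn f A) :
    IsMaximalIn (uiso f ⊓ specialLinear ι F) (subspaceStabilizer A ⊓ (uiso f ⊓ specialLinear ι F)) := by
  have hfa := h.finrank_add
  have hsymm := h.symm hf
  have hn6 : 6 ≤ Fintype.card ι := by omega
  have hC : 7 ≤ Module.finrank F C := by omega
  obtain ⟨b₀, hb₀0, hb₀⟩ := exists_skew' hf
  have hσb₀ : σ b₀ = - b₀ := by linear_combination hb₀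
  have hstrict : subspaceStabilizer A ⊓ (uiso f ⊓ specialLinear ι F) < uiso f ⊓ specialLinear ι F := by
    refine lt_of_le_of_ne inf_le_right ?_
    intro heq
    obtain ⟨a, ha, ha0⟩ := Submodule.exists_mem_ne_zero_of_ne_bot hA0
    obtain ⟨a', ha', hne⟩ := (hAnd a ha ha0).1
    obtain ⟨p, hp, p', hp', hpQ, hpQ', hpp', -, -⟩ := exists_hyp_nd hf hsymm (![] : Fin 0 → VV) (fun i => i.elim0)
      (by simp) (by simp; omega)
    obtain ⟨t, ht⟩ := exists_trace hf (- f a a) (by rw [map_neg, sig_f hf])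
    have hp'p : f p' p = 1 := by rw [hf.herm, hpp', map_one]
    set c := p + t • p' with hc
    have hcC : c ∈ C := C.add_mem hp (C.smul_mem _ hp')
    have hcc : f c c = - f a a := by
      simp only [hc, hf.add_left, add_right hf, hf.smul_left, smul_right hf, hpQ, hpQ', hpp', hp'p]
      linear_combination ht
    have hc0 : c ≠ 0 := by
      intro h0
      have : f c p' = 1 := by
        rw [hc, hf.add_left, hf.smul_left, hpp', hpQ']; ring
      rw [h0, zero_left hf] at this
      exact zero_ne_one this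
    have hac : f a c = 0 := h.orth a ha c hcC
    have hca : f c a = 0 := h.orth' hf ha hcC
    set z := a + c with hz
    have hzQ : f z z = 0 := by
      rw [hz, hf.add_left, add_right hf a a c, add_right hf c a c, hac, hca, hcc]; ring
    have hmem : eg f z 0 b₀ ∈ subspaceStabilizer A ⊓ (uiso f ⊓ specialLinear ι F) := by
      rw [heq]
      exact eg_mem_su hf hn6 hzQ (zero_right hf z) (skew_ok hf hb₀)
    have h1 := (mem_subspaceStabilizer_iff.mp hmem.1 a').mp ha'
    rw [eg_apply hf hzQ (zero_right hf z) (skew_ok hf hb₀)] at h1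
    unfold egFun at h1
    have h2 : f a' z = f a' a := by rw [hz, add_right hf, h.orth a' ha' c hcC, add_zero]
    rw [h2, zero_right hf] at h1
    have h3 : (b₀ * f a' a) • c ∈ A := by
      have e : (b₀ * f a' a) • c = (a' + (f a' a) • (0 : VV) - (0 : F) • z + (b₀ * f a' a) • z) - a' - (b₀ * f a' a) • a := by
        rw [hz]
        module
      rw [e]
      exact A.sub_mem (A.sub_mem h1 ha') (A.smul_mem _ ha)
    have h4 : (b₀ * f a' a) • c ∈ C := C.smul_mem _ hcC
    have h5 := h.inter h3 h4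
    rcases smul_eq_zero.mp h5 with h6 | h6
    · exact (mul_ne_zero hb₀0 hne) h6
    · exact hc0 h6
  refine ⟨hstrict, fun M hHM hMO => ?_⟩
  by_cases hle : M ≤ subspaceStabilizer A ⊓ (uiso f ⊓ specialLinear ι F)
  · exact Or.inl (le_antisymm hle hHM)
  right
  apply le_antisymm hMO
  obtain ⟨g, hgM, hgH⟩ := SetLike.not_le_iff_exists.mp hle
  have hgS := hMO hgM
  have hgiso : ∀ v w, f ((g : MM) *ᵥ v) ((g : MM) *ᵥ w) = f v w := hgS.1
  have hHmem : ∀ k ∈ uiso f ⊓ specialLinear ι F, (∀ a ∈ A, (k : MM) *ᵥ a ∈ A) → k ∈ M :=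
    fun k hk hw => hHM ⟨mem_subspaceStabilizer_of_forall A k hw, hk⟩
  have hgA : ¬ ∀ a ∈ A, (g : MM) *ᵥ a ∈ A := fun hcon =>
    hgH ⟨mem_subspaceStabilizer_of_forall A g hcon, hgS⟩
  -- Eichler transformations of `C`
  have hEC : ∀ {y u : VV} {γ : F}, y ∈ C → u ∈ C → f y y = 0 → f y u = 0 → γ + σ γ = - f u u → eg f y u γ ∈ M := by
    intro y u γ hy hu hyQ hyu hγ
    apply hHmem _ (eg_mem_su hf hn6 hyQ hyu hγ)
    intro a ha
    rw [eg_fix hf hyQ hyu hγ (h.orth a ha y hy) (h.orth a ha u hu)]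
    exact ha
  have hTA : ∀ {z : VV} {b : F}, z ∈ A → f z z = 0 → b + σ b = 0 → eg f z 0 b ∈ M := by
    intro z b hz hzQ hb
    apply hHmem _ (eg_mem_su hf hn6 hzQ (zero_right hf z) (skew_ok hf hb))
    intro a ha
    rw [eg_apply hf hzQ (zero_right hf z) (skew_ok hf hb)]
    unfold egFun
    rw [zero_right hf, zero_smul]
    simp only [smul_zero, add_zero, sub_zero]
    exact A.add_mem ha (A.smul_mem _ hz)
  obtain ⟨z, hzC, hzQ, a₁, ha₁, c₁, hc₁, ha₁0, hc₁0, hz'⟩ := exists_mixed hf h hlt (by omega) hgiso hgA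
  set z' := (g : MM) *ᵥ z with hz'def
  have hz'Q : f z' z' = 0 := by rw [hz'def, hgiso, hzQ]
  have hTz' : ∀ {b : F}, b + σ b = 0 → eg f z' 0 b ∈ M := by
    intro b hb
    have h1 := eg_conj hf hgiso hzQ (zero_right hf z) (skew_ok hf hb)
    rw [Matrix.mulVec_zero] at h1
    rw [← hz'def, ] at h1
    rw [← h1]
    exact M.mul_mem (M.mul_mem hgM (hEC hzC C.zero_mem hzQ (zero_right hf z) (skew_ok hf hb))) (M.inv_mem hgM)
  -- the key claim: a vector of `C` orthogonal to `c₁` is a full centre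
  have hkey : ∀ {y : VV}, y ∈ C → f y y = 0 → f c₁ y = 0 → (∀ t : F, c₁ ≠ t • y) → UFull σ f M y := by
    intro y hy hyQ hc₁y hny
    have hz'y : f z' y = 0 := by rw [hz', hf.add_left, h.orth a₁ ha₁ y hy, hc₁y, add_zero]
    have hyz' : f y z' = 0 := by rw [hf.herm, hz'y, map_zero]
    -- a separating vector
    have hsep : c₁ ∉ A ⊔ Submodule.span F {y} := by
      intro hin
      obtain ⟨a', ha', s, hs, e⟩ := Submodule.mem_sup.mp hin
      obtain ⟨t, rfl⟩ := Submodule.mem_span_singleton.mp hs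
      have h0 : a' = 0 := by
        apply h.inter ha'
        have : a' = c₁ - t • y := eq_sub_of_add_eq e
        rw [this]
        exact C.sub_mem hc₁ (C.smul_mem _ hy)
      rw [h0, zero_add] at e
      exact hny t e.symm
    obtain ⟨τ, hτC, hτ, hτ1⟩ := exists_sep_mem hf hsymm (le_sup_left : A ≤ A ⊔ Submodule.span F {y}) hsep
    have hyτ : f y τ = 0 := hτ y (Submodule.mem_sup_right (Submodule.mem_span_singleton_self y))
    have hz'τ : f z' τ = 1 := by
      rw [hz', hf.add_left, h.orth a₁ ha₁ τ hτC, hτ1, zero_add]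
    -- all the multiples of `z'`
    have hmul : ∀ c : F, eg f y (c • z') 0 ∈ M := by
      intro c
      set β := σ (- c / b₀) with hβ
      set d := σ β with hd
      set u := d • τ with hu
      have huC : u ∈ C := C.smul_mem _ hτC
      have hyu : f y u = 0 := by rw [hu, smul_right hf, hyτ, mul_zero]
      have hz'u : f z' u = β := by
        rw [hu, smul_right hf, hz'τ, mul_one, hd, hf.involutive]
      obtain ⟨γ, hγ⟩ := exists_trace hf (- f u u) (by rw [map_neg, sig_f hf])
      have hE : eg f y u γ ∈ M := hEC hy huC hyQ hyu hγ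
      have hEz : (eg f y u γ : MM) *ᵥ z' = z' + (-β) • y := by
        rw [eg_apply hf hyQ hyu hγ]
        unfold egFun
        rw [hz'y, hz'u]
        module
      obtain ⟨hzβ, hprod⟩ := tv_triple hf (β := β) hyQ hz'Q hyz' hb₀
      have hneg : -b₀ + σ (-b₀) = 0 := by rw [map_neg, hσb₀]; ring
      have m1 : eg f (z' + (-β) • y) 0 b₀ ∈ M := by
        have h1 := eg_conj hf (eg_iso hf hyQ hyu hγ) hz'Q (zero_right hf z') (skew_ok hf hb₀)
        rw [Matrix.mulVec_zero, hEz] at h1
        rw [← h1]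
        exact M.mul_mem (M.mul_mem hE (hTz' hb₀)) (M.inv_mem hE)
      have m2 : eg f (β • y) 0 (-b₀) ∈ M := hEC (C.smul_mem _ hy) C.zero_mem
        (by simp only [hf.smul_left, smul_right hf, hyQ]; ring) (zero_right hf _) (skew_ok hf hneg)
      have m3 := M.mul_mem m1 (M.mul_mem (hTz' hneg) m2)
      rw [hprod] at m3
      have e : -b₀ * σ β = c := by
        rw [hβ, hf.involutive]
        field_simp
      rwa [e] at m3
    -- the set of vectors of `A` which are reached
    let TT : VV → Prop := fun a => ∀ γ, γ + σ γ = - f a a → eg f y a γ ∈ M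
    have hTa : ∀ {a : VV}, a ∈ A → f y a = 0 := fun ha => h.orth' hf ha hy
    have hT₀ : ∀ {b : F}, b + σ b = 0 → eg f y 0 b ∈ M := fun hb =>
      hEC hy C.zero_mem hyQ (zero_right hf y) (skew_ok hf hb)
    have hadd : ∀ {a a' : VV}, a ∈ A → a' ∈ A → TT a → TT a' → TT (a + a') := by
      intro a a' ha ha' h1 h2 γ hγ
      obtain ⟨γ₁, hγ₁⟩ := exists_trace hf (- f a a) (by rw [map_neg, sig_f hf])
      obtain ⟨γ₂, hγ₂⟩ := exists_trace hf (- f a' a') (by rw [map_neg, sig_f hf])
      have h3 := eg_mul hf hyQ (hTa ha) (hTa ha') hγ₁ hγ₂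
      have hsum : f y (a + a') = 0 := by rw [add_right hf, hTa ha, hTa ha', add_zero]
      have hγ₃ : (γ₁ + γ₂ - f a' a) + σ (γ₁ + γ₂ - f a' a) = - f (a + a') (a + a') := by
        rw [map_sub, map_add, sig_f hf, hf.add_left, add_right hf, add_right hf]
        linear_combination hγ₁ + hγ₂
      set δ := γ - (γ₁ + γ₂ - f a' a) with hδ
      have hδ' : δ + σ δ = 0 := by
        rw [hδ, map_sub]
        linear_combination hγ - hγ₃
      have h4 := eg_mul hf hyQ hsum (zero_right hf y) hγ₃ (skew_ok hf hδ')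
      rw [add_zero, zero_left hf] at h4
      have e : γ₁ + γ₂ - f a' a + δ - 0 = γ := by rw [hδ]; ring
      rw [e] at h4
      rw [← h4, ← h3]
      exact M.mul_mem (M.mul_mem (h1 _ hγ₁) (h2 _ hγ₂)) (hT₀ hδ')
    have hneg' : ∀ {a : VV}, a ∈ A → TT a → TT (-a) := by
      intro a ha h1 γ hγ
      have hγ' : σ γ + σ (σ γ) = - f a a := by
        rw [hf.involutive, add_comm, hγ, neg_left hf, neg_right hf]
        ring
      have h2 := eg_inv hf hyQ (hTa ha) hγ'
      rw [hf.involutive] at h2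
      rw [← h2]
      exact M.inv_mem (h1 _ hγ')
    have hsc : ∀ c : F, TT (c • a₁) := by
      intro c γ hγ
      have hu₁ : f y (c • a₁) = 0 := hTa (A.smul_mem _ ha₁)
      have hu₂ : f y (c • c₁) = 0 := by rw [smul_right hf, hf.herm, hc₁y, map_zero, mul_zero]
      obtain ⟨γ₂, hγ₂⟩ := exists_trace hf (- f (c • c₁) (c • c₁)) (by rw [map_neg, sig_f hf])
      have h3 := eg_mul hf hyQ hu₁ hu₂ hγ hγ₂
      have e1 : c • a₁ + c • c₁ = c • z' := by rw [hz', smul_add]
      have h4 : f (c • c₁) (c • a₁) = 0 := by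
        simp only [hf.smul_left, smul_right hf, h.orth' hf ha₁ hc₁]
        ring
      rw [e1, h4, sub_zero] at h3
      have hz'c : f y (c • z') = 0 := by rw [smul_right hf, hyz', mul_zero]
      have hδ : (γ + γ₂) + σ (γ + γ₂) = 0 := by
        have h5 : f (c • z') (c • z') = 0 := by
          simp only [hf.smul_left, smul_right hf, hz'Q]
          ring
        have h6 : f (c • z') (c • z') = f (c • a₁) (c • a₁) + f (c • c₁) (c • c₁) := by
          rw [← e1, hf.add_left, add_right hf, add_right hf, h4]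
          have : f (c • a₁) (c • c₁) = 0 := by
            simp only [hf.smul_left, smul_right hf, h.orth a₁ ha₁ c₁ hc₁]
            ring
          rw [this]
          ring
        rw [map_add]
        linear_combination hγ + hγ₂ + h6 - h5
      have h7 := eg_mul hf hyQ hz'c (zero_right hf y) (by
        have h5 : f (c • z') (c • z') = 0 := by
          simp only [hf.smul_left, smul_right hf, hz'Q]
          ring
        rw [h5]
        simp : (0 : F) + σ 0 = - f (c • z') (c • z')) (skew_ok hf hδ)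
      rw [add_zero, zero_left hf] at h7
      have e2 : (0 : F) + (γ + γ₂) - 0 = γ + γ₂ := by ring
      rw [e2] at h7
      have h8 : eg f y (c • a₁) γ = eg f y (c • z') (γ + γ₂) * (eg f y (c • c₁) γ₂)⁻¹ := by
        rw [← h3]
        group
      rw [h8, ← h7]
      exact M.mul_mem (M.mul_mem (hmul c) (hT₀ hδ)) (M.inv_mem (hEC hy (C.smul_mem _ hc₁) hyQ hu₂ hγ₂))
    -- transvections of `A` act
    have hact : ∀ {w a : VV} {b : F}, w ∈ A → a ∈ A → f w w = 0 → b + σ b = 0 → TT a →
        TT ((eg f w 0 b : MM) *ᵥ a) := by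
      intro w a b hw ha hwQ hb h1 γ hγ
      have hiso := eg_iso hf hwQ (zero_right hf w) (skew_ok hf hb)
      have h2 := eg_conj hf hiso hyQ (hTa ha) (by rw [hγ, hiso])
      have hfix : (eg f w 0 b : MM) *ᵥ y = y :=
        eg_fix hf hwQ (zero_right hf w) (skew_ok hf hb) (h.orth' hf hw hy) (zero_right hf y)
      rw [hfix] at h2
      rw [← h2]
      exact M.mul_mem (M.mul_mem (hTA hw hwQ hb) (h1 _ (by rw [hγ, hiso]))) (M.inv_mem (hTA hw hwQ hb))
    have hsmulz : ∀ {w : VV}, w ∈ A → f w w = 0 → f a₁ w ≠ 0 → ∀ d : F, TT (d • w) := by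
      intro w hw hwQ hne d
      have h1 := hact hw (A.smul_mem (d / (b₀ * f a₁ w)) ha₁) hwQ hb₀ (hsc (d / (b₀ * f a₁ w)))
      rw [eg_apply hf hwQ (zero_right hf w) (skew_ok hf hb₀)] at h1
      unfold egFun at h1
      rw [zero_right hf, hf.smul_left] at h1
      have e : (d / (b₀ * f a₁ w)) • a₁ + ((d / (b₀ * f a₁ w)) * f a₁ w) • (0 : VV) - (0 : F) • w +
          (b₀ * ((d / (b₀ * f a₁ w)) * f a₁ w)) • w = (d / (b₀ * f a₁ w)) • a₁ + d • w := by
        have : b₀ * ((d / (b₀ * f a₁ w)) * f a₁ w) = d := by field_simp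
        rw [this]
        simp
      rw [e] at h1
      have h2 := hadd (A.add_mem (A.smul_mem _ ha₁) (A.smul_mem _ hw)) (A.neg_mem (A.smul_mem (d / (b₀ * f a₁ w)) ha₁)) h1
        (hneg' (A.smul_mem (d / (b₀ * f a₁ w)) ha₁) (hsc (d / (b₀ * f a₁ w))))
      have e2 : (d / (b₀ * f a₁ w)) • a₁ + d • w + -(d / (b₀ * f a₁ w)) • a₁ = d • w := by
        module
      have e3 : -((d / (b₀ * f a₁ w)) • a₁) = -(d / (b₀ * f a₁ w)) • a₁ := by module
      rw [e3, e2] at h2
      exact h2
    have hallA : ∀ a ∈ A, TT a := by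
      by_cases hA1 : Module.finrank F A < 2
      · intro a ha
        -- dimension one
        have hfr : Module.finrank F A ≤ 1 := by omega
        have hd : ∃ t : F, a = t • a₁ := by
          have h1 := finrank_le_one_iff.mp hfr
          obtain ⟨v, hv⟩ := h1
          obtain ⟨s, hs⟩ := hv ⟨a₁, ha₁⟩
          obtain ⟨t, ht⟩ := hv ⟨a, ha⟩
          have hs' : s • (v : VV) = a₁ := congrArg Subtype.val hs
          have ht' : t • (v : VV) = a := congrArg Subtype.val ht
          have hs0 : s ≠ 0 := by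
            rintro rfl
            rw [zero_smul] at hs'
            exact ha₁0 hs'.symm
          refine ⟨t / s, ?_⟩
          rw [← hs', ← ht', smul_smul]
          congr 1
          field_simp
        obtain ⟨t, rfl⟩ := hd
        exact hsc t
      push Not at hA1
      -- an isotropic vector not orthogonal to `a₁`
      obtain ⟨z₀, hz₀A, hz₀Q, hz₀⟩ : ∃ z₀ ∈ A, f z₀ z₀ = 0 ∧ f a₁ z₀ ≠ 0 := by
        obtain ⟨x, hx, hne⟩ := (hAnd a₁ ha₁ ha₁0).2
        obtain ⟨i₁, hi₁, i₂, hi₂, h1, h2, rfl⟩ := exists_split_mem hf h hA1 hx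
        by_cases h3 : f a₁ i₁ = 0
        · refine ⟨i₂, hi₂, h2, fun h4 => hne ?_⟩
          rw [add_right hf, h3, h4, add_zero]
        · exact ⟨i₁, hi₁, h1, h3⟩
      have hisom : ∀ w ∈ A, f w w = 0 → ∀ d : F, TT (d • w) := by
        intro w hw hwQ d
        by_cases h1 : f a₁ w = 0
        · by_cases h2 : f w z₀ = 0
          · -- `z₀ + d w` is isotropic
            have h3 : f z₀ w = 0 := by rw [hf.herm, h2, map_zero]
            have h4 : f (z₀ + d • w) (z₀ + d • w) = 0 := by
              simp only [hf.add_left, add_right hf, hf.smul_left, smul_right hf, hz₀Q, hwQ, h2, h3]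
              ring
            have h5 : f a₁ (z₀ + d • w) ≠ 0 := by
              rw [add_right hf, smul_right hf, h1, mul_zero, add_zero]
              exact hz₀
            have h6 := hsmulz (A.add_mem hz₀A (A.smul_mem _ hw)) h4 h5 1
            have h7 := hsmulz hz₀A hz₀Q hz₀ (-1)
            have h8 := hadd (A.smul_mem _ (A.add_mem hz₀A (A.smul_mem _ hw))) (A.smul_mem _ hz₀A) h6 h7
            have e : (1 : F) • (z₀ + d • w) + (-1 : F) • z₀ = d • w := by module
            rwa [e] at h8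
          · -- a hyperbolic line
            set e := b₀ / f w z₀ with he
            have h3 : f z₀ w = σ (f w z₀) := hf.herm z₀ w
            have hσ0 : σ (f w z₀) ≠ 0 := fun h0 => h2 (σ.injective (by rw [h0, map_zero]))
            have h4 : f (z₀ + e • w) (z₀ + e • w) = 0 := by
              simp only [hf.add_left, add_right hf, hf.smul_left, smul_right hf, hz₀Q, hwQ, h3]
              have e1 : σ e * σ (f w z₀) = σ b₀ := by
                rw [← map_mul, he]
                congr 1
                field_simp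
              have e2 : e * f w z₀ = b₀ := by
                rw [he]
                field_simp
              linear_combination e1 + e2 + hb₀ - (σ b₀ + b₀ - σ e * σ (f w z₀) - e * f w z₀)
            have h5 : f a₁ (z₀ + e • w) ≠ 0 := by
              rw [add_right hf, smul_right hf, h1, mul_zero, add_zero]
              exact hz₀
            have he0 : e ≠ 0 := div_ne_zero hb₀0 h2
            have h6 := hsmulz (A.add_mem hz₀A (A.smul_mem _ hw)) h4 h5 (d / e)
            have h7 := hsmulz hz₀A hz₀Q hz₀ (-(d / e))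
            have h8 := hadd (A.smul_mem _ (A.add_mem hz₀A (A.smul_mem _ hw))) (A.smul_mem _ hz₀A) h6 h7
            have e3 : (d / e) • (z₀ + e • w) + (-(d / e)) • z₀ = d • w := by
              rw [smul_add, smul_smul]
              have : d / e * e = d := by field_simp
              rw [this]
              module
            rwa [e3] at h8
        · exact hsmulz hw hwQ h1 d
      intro a ha
      obtain ⟨i₁, hi₁, i₂, hi₂, h1, h2, rfl⟩ := exists_split_mem hf h hA1 ha
      have h3 := hisom i₁ hi₁ h1 1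
      have h4 := hisom i₂ hi₂ h2 1
      rw [one_smul] at h3 h4
      exact hadd hi₁ hi₂ h3 h4
    -- conclusion
    intro w γ hw hγ
    obtain ⟨a, ha, c, hc, rfl⟩ := h.decomp w
    have hyc : f y c = 0 := by
      rw [add_right hf, hTa ha, zero_add] at hw
      exact hw
    obtain ⟨γ₁, hγ₁⟩ := exists_trace hf (- f a a) (by rw [map_neg, sig_f hf])
    obtain ⟨γ₂, hγ₂⟩ := exists_trace hf (- f c c) (by rw [map_neg, sig_f hf])
    have h3 := eg_mul hf hyQ (hTa ha) hyc hγ₁ hγ₂
    have h4 : f c a = 0 := h.orth' hf ha hc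
    have h5 : f a c = 0 := h.orth a ha c hc
    rw [h4, sub_zero] at h3
    have hδ : (γ - (γ₁ + γ₂)) + σ (γ - (γ₁ + γ₂)) = 0 := by
      rw [map_sub, map_add]
      rw [hf.add_left, add_right hf, add_right hf, h4, h5] at hγ
      linear_combination hγ - hγ₁ - hγ₂
    have hγ₃ : (γ₁ + γ₂) + σ (γ₁ + γ₂) = - f (a + c) (a + c) := by
      rw [hf.add_left, add_right hf, add_right hf, h4, h5, map_add]
      linear_combination hγ₁ + hγ₂
    have h6 := eg_mul hf hyQ hw (zero_right hf y) hγ₃ (skew_ok hf hδ)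
    rw [add_zero, zero_left hf] at h6
    have e : γ₁ + γ₂ + (γ - (γ₁ + γ₂)) - 0 = γ := by ring
    rw [e] at h6
    rw [← h6, ← h3]
    exact M.mul_mem (M.mul_mem (hallA a ha _ hγ₁) (hEC hy hc hyQ hyc hγ₂)) (hT₀ hδ)
  -- two non-orthogonal centres
  obtain ⟨p, hp, p', hp', hpQ, hpQ', hpp', h1, h2⟩ := exists_hyp hf hsymm ![c₁] (by simp; omega)
  have h3 : f c₁ p = 0 := h1 0
  have h4 : f c₁ p' = 0 := h2 0
  have hp'p : f p' p = 1 := by rw [hf.herm, hpp', map_one]
  have hnot : ∀ t : F, c₁ ≠ t • p := by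
    rintro t rfl
    rw [hf.smul_left, hpp', mul_one] at h4
    rw [h4, zero_smul] at hc₁0
    exact hc₁0 rfl
  have hnot' : ∀ t : F, c₁ ≠ t • p' := by
    rintro t rfl
    rw [hf.smul_left, hp'p, mul_one] at h3
    rw [h3, zero_smul] at hc₁0
    exact hc₁0 rfl
  exact su_le_of_centres hf hn6 hpQ hpQ' (hkey hp hpQ h3 hnot) (hkey hp' hpQ' h4 hnot') (by rw [hpp']; exact one_ne_zero)

/-- The statement in terms of a non-degenerate subspace of small dimension. -/
theorem isMaximal_nondegOn {W : Submodule F VV} (hW0 : W ≠ ⊥) (hW : IsNondegenerateOn f W)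
    (hdim : 2 * Module.finrank F W < Fintype.card ι) (hn : 13 ≤ Fintype.card ι) :
    IsMaximalIn (uiso f ⊓ specialLinear ι F) (subspaceStabilizer W ⊓ (uiso f ⊓ specialLinear ι F)) := by
  have h := uPair_perpS hf hW
  have hfa := h.finrank_add
  exact isMaximal_nd hf h (by omega) hn hW0 hW

end Nondeg

end Cfsg.Agent.Lib.ClassMax.UnitCore
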