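import Mathlib
import Cfsg.Agent.Lib.ClassMax.UnitNd

/-! Rational structures: the subfield subgroup described through the semilinear involution fixing a rational
structure. -/

set_option autoImplicit false

namespace Cfsg.Agent.Lib.ClassMax.UnitCore

open Matrix Cfsg.Geo Cfsg.Agent.Lib.ClassMax Cfsg.Agent.Lib.ClassMax.QuadOver
open Cfsg.Agent.Lib.ClassMax.HermOver

variable {ι : Type} [Fintype ι] [DecidableEq ι] {F : Type*} [Field F] {σ : F ≃+* F}

local notation "VV" => (ι → F)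
local notation "MM" => Matrix ι ι F
local notation "GG" => GL ι F

/-- The `σ`-semilinear map fixing the columns of `P`. -/
def tau (σ : F ≃+* F) (P : GL ι F) (v : ι → F) : ι → F :=
  (P : Matrix ι ι F) *ᵥ (fun i => σ ((((P⁻¹ : GL ι F) : Matrix ι ι F) *ᵥ v) i))

/-- Rational vectors: fixed points of `tau`. -/
def Rt (σ : F ≃+* F) (P : GL ι F) (v : ι → F) : Prop := tau σ P v = v

variable {P : GL ι F}

theorem tau_add (v w : VV) : tau σ P (v + w) = tau σ P v + tau σ P w := by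
  unfold tau
  rw [← Matrix.mulVec_add]
  congr 1
  funext i
  simp [Matrix.mulVec_add]

theorem tau_smul (c : F) (v : VV) : tau σ P (c • v) = σ c • tau σ P v := by
  unfold tau
  rw [← Matrix.mulVec_smul]
  congr 1
  funext i
  simp [Matrix.mulVec_smul]

theorem tau_zero : tau σ P (0 : VV) = 0 := by
  have := tau_smul (σ := σ) (P := P) 0 (0 : VV)
  simpa using this

theorem tau_neg (v : VV) : tau σ P (-v) = - tau σ P v := by
  have := tau_smul (σ := σ) (P := P) (-1) v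
  simpa using this

theorem tau_sub (v w : VV) : tau σ P (v - w) = tau σ P v - tau σ P w := by
  rw [sub_eq_add_neg, tau_add, tau_neg, sub_eq_add_neg]

theorem tau_sum {κ : Type*} (s : Finset κ) (x : κ → VV) : tau σ P (∑ i ∈ s, x i) = ∑ i ∈ s, tau σ P (x i) := by
  classical
  induction s using Finset.induction_on with
  | empty => simp [tau_zero]
  | insert a s ha ih => rw [Finset.sum_insert ha, Finset.sum_insert ha, tau_add, ih]

theorem Rt.zero : Rt σ P (0 : VV) := tau_zero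

theorem Rt.add {v w : VV} (h1 : Rt σ P v) (h2 : Rt σ P w) : Rt σ P (v + w) := by
  unfold Rt at *
  rw [tau_add, h1, h2]

theorem Rt.sub {v w : VV} (h1 : Rt σ P v) (h2 : Rt σ P w) : Rt σ P (v - w) := by
  unfold Rt at *
  rw [tau_sub, h1, h2]

theorem Rt.neg {v : VV} (h1 : Rt σ P v) : Rt σ P (-v) := by
  unfold Rt at *
  rw [tau_neg, h1]

theorem Rt.smul {v : VV} {c : F} (hc : σ c = c) (h1 : Rt σ P v) : Rt σ P (c • v) := by
  unfold Rt at *
  rw [tau_smul, h1, hc]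

theorem Rt.sum {κ : Type*} (s : Finset κ) {x : κ → VV} (h : ∀ i ∈ s, Rt σ P (x i)) : Rt σ P (∑ i ∈ s, x i) := by
  unfold Rt at *
  rw [tau_sum]
  exact Finset.sum_congr rfl h

theorem rt_iff {v : VV} : Rt σ P v ↔ ∀ i, σ ((((P⁻¹ : GG) : MM) *ᵥ v) i) = (((P⁻¹ : GG) : MM) *ᵥ v) i := by
  constructor
  · intro h i
    have h1 := congrArg (fun w => ((P⁻¹ : GG) : MM) *ᵥ w) h
    simp only [tau, Matrix.mulVec_mulVec, ← Units.val_mul, inv_mul_cancel, Units.val_one, Matrix.one_mulVec] at h1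
    exact congrFun h1 i
  · intro h
    unfold Rt tau
    have : (fun i => σ ((((P⁻¹ : GG) : MM) *ᵥ v) i)) = ((P⁻¹ : GG) : MM) *ᵥ v := funext h
    rw [this, Matrix.mulVec_mulVec, ← Units.val_mul, mul_inv_cancel, Units.val_one, Matrix.one_mulVec]

theorem rt_P {u : VV} (hu : ∀ i, σ (u i) = u i) : Rt σ P ((P : MM) *ᵥ u) := by
  rw [rt_iff]
  intro i
  rw [Matrix.mulVec_mulVec, ← Units.val_mul, inv_mul_cancel, Units.val_one, Matrix.one_mulVec]
  exact hu i

theorem rt_column (j : ι) : Rt σ P ((P : MM) *ᵥ Pi.single j 1) := by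
  apply rt_P
  intro i
  by_cases h : i = j
  · subst h
    simp
  · simp [Pi.single_apply, h]

/-- A rational vector is a rational combination of the columns of `P`. -/
theorem rt_sum {v : VV} (h : Rt σ P v) :
    v = ∑ j, (((P⁻¹ : GG) : MM) *ᵥ v) j • ((P : MM) *ᵥ Pi.single j 1) := by
  have h1 := pi_eq_sum_univ' (((P⁻¹ : GG) : MM) *ᵥ v)
  have h2 : v = (P : MM) *ᵥ (((P⁻¹ : GG) : MM) *ᵥ v) := by
    rw [Matrix.mulVec_mulVec, ← Units.val_mul, mul_inv_cancel, Units.val_one, Matrix.one_mulVec]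
  conv_lhs => rw [h2, h1]
  rw [Matrix.mulVec_sum]
  refine Finset.sum_congr rfl fun j _ => ?_
  rw [Matrix.mulVec_smul]

section Inv

variable (hσ : ∀ a : F, σ (σ a) = a)
include hσ

theorem tau_tau (v : VV) : tau σ P (tau σ P v) = v := by
  unfold tau
  simp only [Matrix.mulVec_mulVec, ← Units.val_mul, inv_mul_cancel, Units.val_one, Matrix.one_mulVec]
  have : (fun i => σ (σ ((((P⁻¹ : GG) : MM) *ᵥ v) i))) = ((P⁻¹ : GG) : MM) *ᵥ v := funext fun i => hσ _
  rw [this, Matrix.mulVec_mulVec, ← Units.val_mul, mul_inv_cancel, Units.val_one, Matrix.one_mulVec]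

/-- Every vector is `x + ε y` with `x`, `y` rational. -/
theorem rt_decomp {ε : F} (hε : σ ε ≠ ε) (v : VV) : ∃ x y, Rt σ P x ∧ Rt σ P y ∧ v = x + ε • y := by
  have hne : ε - σ ε ≠ 0 := sub_ne_zero.mpr (Ne.symm hε)
  set y := (ε - σ ε)⁻¹ • (v - tau σ P v) with hy
  have hRy : Rt σ P y := by
    unfold Rt
    rw [hy, tau_smul, tau_sub, tau_tau hσ, map_inv₀, map_sub, hσ]
    have e : (σ ε - ε)⁻¹ = - (ε - σ ε)⁻¹ := by
      rw [← neg_sub ε (σ ε), inv_neg]
    rw [e, neg_smul, ← smul_neg, neg_sub]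
  refine ⟨v - ε • y, y, ?_, hRy, by abel⟩
  unfold Rt
  rw [tau_sub, tau_smul, hRy]
  have e1 : (ε - σ ε) • y = v - tau σ P v := by
    rw [hy, smul_smul, mul_inv_cancel₀ hne, one_smul]
  have e2 : v - ε • y - (tau σ P v - σ ε • y) = (v - tau σ P v) - (ε - σ ε) • y := by module
  rw [← sub_eq_zero]
  rw [← neg_eq_zero, neg_sub, e2, e1, sub_self]

omit hσ in
theorem rt_unique {ε : F} (hε : σ ε ≠ ε) {x y x' y' : VV} (h1 : Rt σ P x) (h2 : Rt σ P y) (h3 : Rt σ P x') (h4 : Rt σ P y')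
    (e : x + ε • y = x' + ε • y') : x = x' ∧ y = y' := by
  have hne : ε - σ ε ≠ 0 := sub_ne_zero.mpr (Ne.symm hε)
  have e1 := congrArg (tau σ P) e
  rw [tau_add, tau_add, tau_smul, tau_smul, h1, h2, h3, h4] at e1
  have e2 : (ε - σ ε) • (y - y') = 0 := by
    have : (ε - σ ε) • (y - y') = (x + ε • y - (x' + ε • y')) - (x + σ ε • y - (x' + σ ε • y')) := by module
    rw [this, e, e1]
    simp
  have e3 : y = y' := by
    rcases smul_eq_zero.mp e2 with h | h
    · exact absurd h hne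
    · exact sub_eq_zero.mp h
  subst e3
  exact ⟨add_right_cancel e, rfl⟩

end Inv

/-- Ratios in a relation among three rational vectors. -/
theorem ratio_fix {r₁ r₂ r₃ : VV} {c₁ c₂ c₃ : F} (h1 : Rt σ P r₁) (h2 : Rt σ P r₂) (h3 : Rt σ P r₃)
    (e : c₁ • r₁ + c₂ • r₂ = c₃ • r₃) (hc₃ : c₃ ≠ 0) (hind : ∀ a b : F, a • r₁ + b • r₂ = 0 → a = 0 ∧ b = 0) :
    σ (c₁ / c₃) = c₁ / c₃ ∧ σ (c₂ / c₃) = c₂ / c₃ := by
  have e1 := congrArg (tau σ P) e
  rw [tau_add, tau_smul, tau_smul, tau_smul, h1, h2, h3] at e1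
  have hσ0 : σ c₃ ≠ 0 := fun h0 => hc₃ (σ.injective (by rw [h0, map_zero]))
  have e2 : (c₁ * σ c₃ - σ c₁ * c₃) • r₁ + (c₂ * σ c₃ - σ c₂ * c₃) • r₂ = 0 := by
    have : (c₁ * σ c₃ - σ c₁ * c₃) • r₁ + (c₂ * σ c₃ - σ c₂ * c₃) • r₂ =
        σ c₃ • (c₁ • r₁ + c₂ • r₂) - c₃ • (σ c₁ • r₁ + σ c₂ • r₂) := by module
    rw [this, e, e1]
    module
  obtain ⟨h4, h5⟩ := hind _ _ e2
  constructor
  · rw [map_div₀]
    field_simp
    linear_combination -h4
  · rw [map_div₀]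
    field_simp
    linear_combination -h5

/-- If no scalar multiple of `g` preserves the rational vectors, `g` moves a rational vector away from the rational
points. -/
theorem exists_notRat {g : GG} [Nonempty ι] (hg : ¬ ∃ c : F, c ≠ 0 ∧ ∀ v, Rt σ P v → Rt σ P (c • ((g : MM) *ᵥ v))) :
    ∃ x, Rt σ P x ∧ ∀ (c : F) r, Rt σ P r → (g : MM) *ᵥ x ≠ c • r := by
  by_contra hcon
  push Not at hcon
  apply hg
  obtain ⟨i₀⟩ := ‹Nonempty ι›
  set b : ι → VV := fun j => (P : MM) *ᵥ Pi.single j 1 with hb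
  have hRb : ∀ j, Rt σ P (b j) := fun j => rt_column j
  have hinj : ∀ {z : VV}, (g : MM) *ᵥ z = 0 → z = 0 := by
    intro z h0
    have := congrArg (fun w => ((g⁻¹ : GG) : MM) *ᵥ w) h0
    simpa [Matrix.mulVec_mulVec] using this
  have hPinj : ∀ {z : VV}, (P : MM) *ᵥ z = 0 → z = 0 := by
    intro z h0
    have := congrArg (fun w => ((P⁻¹ : GG) : MM) *ᵥ w) h0
    simpa [Matrix.mulVec_mulVec] using this
  have hbind : ∀ {i j : ι}, i ≠ j → ∀ a d : F, a • b i + d • b j = 0 → a = 0 ∧ d = 0 := by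
    intro i j hij a d e
    have h1 : (a • Pi.single i (1 : F) + d • Pi.single j (1 : F) : VV) = 0 := by
      apply hPinj
      rw [Matrix.mulVec_add, Matrix.mulVec_smul, Matrix.mulVec_smul]
      exact e
    have h2 := congrFun h1 i
    have h3 := congrFun h1 j
    simp [Pi.single_apply, hij, hij.symm] at h2 h3
    exact ⟨h2, h3⟩
  obtain ⟨c₀, r₀, hr₀, e₀⟩ := hcon (b i₀) (hRb i₀)
  have hb0 : ∀ j, b j ≠ 0 := by
    intro j h0
    have h1 := hPinj h0
    have h2 := congrFun h1 j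
    simp at h2
  have hc₀ : c₀ ≠ 0 := by
    rintro rfl
    rw [zero_smul] at e₀
    exact hb0 i₀ (hinj e₀)
  have hcol : ∀ j, Rt σ P (c₀⁻¹ • ((g : MM) *ᵥ b j)) := by
    intro j
    by_cases hj : j = i₀
    · subst hj
      rw [e₀, smul_smul, inv_mul_cancel₀ hc₀, one_smul]
      exact hr₀
    · obtain ⟨c₁, r₁, hr₁, e₁⟩ := hcon (b j) (hRb j)
      obtain ⟨c₃, r₃, hr₃, e₃⟩ := hcon (b j + b i₀) ((hRb j).add (hRb i₀))
      have hc₁ : c₁ ≠ 0 := by
        rintro rfl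
        rw [zero_smul] at e₁
        exact hb0 j (hinj e₁)
      have hrel : c₁ • r₁ + c₀ • r₀ = c₃ • r₃ := by
        rw [← e₁, ← e₀, ← e₃, Matrix.mulVec_add]
      have hind : ∀ a d : F, a • r₁ + d • r₀ = 0 → a = 0 ∧ d = 0 := by
        intro a d e
        have h1 : (a / c₁) • b j + (d / c₀) • b i₀ = 0 := by
          apply hinj
          rw [Matrix.mulVec_add, Matrix.mulVec_smul, Matrix.mulVec_smul, e₁, e₀, smul_smul, smul_smul]
          have e1 : a / c₁ * c₁ = a := by field_simp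
          have e2 : d / c₀ * c₀ = d := by field_simp
          rw [e1, e2, e]
        obtain ⟨h2, h3⟩ := hbind hj _ _ h1
        constructor
        · exact (div_eq_zero_iff.mp h2).resolve_right hc₁
        · exact (div_eq_zero_iff.mp h3).resolve_right hc₀
      have hc₃ : c₃ ≠ 0 := by
        rintro rfl
        rw [zero_smul] at e₃
        have h1 := hinj e₃
        have h2 := (hbind hj 1 1 (by simpa using h1)).1
        exact one_ne_zero h2
      obtain ⟨h5, h6⟩ := ratio_fix hr₁ hr₀ hr₃ hrel hc₃ hind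
      have h7 : c₀⁻¹ * c₁ = (c₁ / c₃) / (c₀ / c₃) := by field_simp
      have h8 : σ (c₀⁻¹ * c₁) = c₀⁻¹ * c₁ := by
        rw [h7, map_div₀, h5, h6]
      rw [e₁, smul_smul]
      exact hr₁.smul h8
  refine ⟨c₀⁻¹, inv_ne_zero hc₀, fun v hv => ?_⟩
  have hsum := rt_sum hv
  have hco : ∀ j, σ ((((P⁻¹ : GG) : MM) *ᵥ v) j) = (((P⁻¹ : GG) : MM) *ᵥ v) j := rt_iff.mp hv
  rw [hsum, Matrix.mulVec_sum, Finset.smul_sum]
  refine Rt.sum _ fun j _ => ?_
  rw [Matrix.mulVec_smul, smul_comm]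
  exact (hcol j).smul (hco j)

section Subfield

variable {F₀ : Subfield F} (hF₀ : ∀ a : F, a ∈ F₀ ↔ σ a = a)
include hF₀

theorem mem_subfield_of_rat {g : GG} {c : F} (hc : c ≠ 0) (h : ∀ v, Rt σ P v → Rt σ P (c • ((g : MM) *ᵥ v))) :
    g ∈ subfieldSubgroup F₀ P := by
  classical
  set A : MM := ((P⁻¹ : GG) : MM) * (c • (g : MM)) * (P : MM) with hA
  have hentry : ∀ i j, A i j ∈ F₀ := by
    intro i j
    rw [hF₀]
    have h1 := rt_iff.mp (h _ (rt_column (P := P) (σ := σ) j)) i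
    have h2 : (((P⁻¹ : GG) : MM) *ᵥ (c • ((g : MM) *ᵥ ((P : MM) *ᵥ Pi.single j 1)))) i = A i j := by
      rw [← Matrix.smul_mulVec, Matrix.mulVec_mulVec, Matrix.mulVec_mulVec, Matrix.mulVec_single_one]
      rfl
    rw [h2] at h1
    exact h1
  let A₀ : Matrix ι ι F₀ := fun i j => ⟨A i j, hentry i j⟩
  have hA₀ : A₀.map F₀.subtype = A := by
    ext i j
    rfl
  let C : GG := Units.map (Matrix.scalar ι : F →+* Matrix ι ι F).toMonoidHom (Units.mk0 c hc)
  have hC : (C : MM) = c • 1 := by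
    show Matrix.scalar ι c = _
    ext i j
    simp [Matrix.scalar_apply, Matrix.smul_apply, Matrix.one_apply, Matrix.diagonal_apply]
  let G₁ : GG := P⁻¹ * (C * g) * P
  have hG₁ : (G₁ : MM) = A := by
    simp only [G₁, Units.val_mul, hC, hA]
    rw [Matrix.smul_mul, Matrix.one_mul]
  have hdet : A₀.det ≠ 0 := by
    intro h0
    have h1 : A.det = 0 := by
      rw [← hA₀]
      have := RingHom.map_det F₀.subtype A₀
      rw [RingHom.mapMatrix_apply] at this
      rw [← this, h0, map_zero]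
    rw [← hG₁] at h1
    exact (Matrix.isUnits_det_units G₁).ne_zero h1
  let A₁ : GL ι F₀ := Matrix.GeneralLinearGroup.mkOfDetNeZero A₀ hdet
  have hA₁ : ((Matrix.GeneralLinearGroup.map F₀.subtype A₁ : GG) : MM) = A := by
    rw [← hA₀]
    rfl
  let D : GG := Units.map (Matrix.scalar ι : F →+* Matrix ι ι F).toMonoidHom (Units.mk0 c hc)⁻¹
  have hD : (D : MM) = c⁻¹ • 1 := by
    show Matrix.scalar ι c⁻¹ = _
    ext i j
    simp [Matrix.scalar_apply, Matrix.smul_apply, Matrix.one_apply, Matrix.diagonal_apply]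
  refine Subgroup.mem_map.mpr ⟨Matrix.GeneralLinearGroup.map F₀.subtype A₁ * D, Subgroup.mul_mem_sup ⟨A₁, rfl⟩ ⟨_, rfl⟩, ?_⟩
  apply Units.ext
  show (P : MM) * (((Matrix.GeneralLinearGroup.map F₀.subtype A₁ : GG) : MM) * (D : MM)) * ((P⁻¹ : GG) : MM) = g
  rw [hA₁, hD, hA]
  have e1 : (P : MM) * ((P⁻¹ : GG) : MM) = 1 := by rw [← Units.val_mul, mul_inv_cancel, Units.val_one]
  simp only [Matrix.mul_smul, Matrix.smul_mul, Matrix.mul_one, smul_smul, Matrix.mul_assoc]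
  rw [e1, Matrix.mul_one, ← Matrix.mul_assoc, e1, Matrix.one_mul, inv_mul_cancel₀ hc, one_smul]

theorem scalars_normal : (scalars ι F).Normal := by
  refine ⟨fun n hn g => ?_⟩
  obtain ⟨c, rfl⟩ := hn
  have : g * (Units.map (Matrix.scalar ι : F →+* Matrix ι ι F).toMonoidHom c) * g⁻¹ =
      Units.map (Matrix.scalar ι : F →+* Matrix ι ι F).toMonoidHom c := by
    apply Units.ext
    simp only [Units.val_mul, Units.coe_map]
    show (g : MM) * Matrix.scalar ι (c : F) * ((g⁻¹ : GG) : MM) = Matrix.scalar ι (c : F)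
    rw [← Matrix.scalar_commute (c : F) (fun r => by exact mul_comm _ _) (g : MM)]
    rw [Matrix.mul_assoc, ← Units.val_mul, mul_inv_cancel, Units.val_one, Matrix.mul_one]
  rw [this]
  exact ⟨c, rfl⟩

theorem rat_of_mem_subfield {g : GG} (hg : g ∈ subfieldSubgroup F₀ P) :
    ∃ c : F, c ≠ 0 ∧ ∀ v, Rt σ P v → Rt σ P (c • ((g : MM) *ᵥ v)) := by
  classical
  obtain ⟨x, hx, rfl⟩ := Subgroup.mem_map.mp hg
  haveI := scalars_normal (ι := ι) (F := F) (F₀ := F₀) (σ := σ) hF₀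
  have hx' : x ∈ (((Matrix.GeneralLinearGroup.map (F₀.subtype : F₀ →+* F)).range ⊔ scalars ι F : Subgroup GG) : Set GG) := hx
  rw [Subgroup.mul_normal] at hx'
  obtain ⟨a, ⟨a₀, rfl⟩, s, ⟨d, rfl⟩, rfl⟩ := Set.mem_mul.mp hx'
  refine ⟨(d⁻¹ : Fˣ), Units.ne_zero _, fun v hv => ?_⟩
  have hS : ∀ w : VV, ((Units.map (Matrix.scalar ι : F →+* Matrix ι ι F).toMonoidHom d : GG) : MM) *ᵥ w = (d : F) • w := by
    intro w
    show Matrix.scalar ι (d : F) *ᵥ w = _
    funext i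
    simp [Matrix.scalar_apply, Matrix.mulVec_diagonal]
  set u := ((P⁻¹ : GG) : MM) *ᵥ v with hu
  have e : ((MulAut.conj P).toMonoidHom (Matrix.GeneralLinearGroup.map F₀.subtype a₀ * Units.map (Matrix.scalar ι : F →+* Matrix ι ι F).toMonoidHom d) : GG) = P * (Matrix.GeneralLinearGroup.map F₀.subtype a₀ * Units.map (Matrix.scalar ι : F →+* Matrix ι ι F).toMonoidHom d) * P⁻¹ := rfl
  rw [e]
  simp only [Units.val_mul, ← Matrix.mulVec_mulVec]
  rw [← hu, hS, Matrix.mulVec_smul, Matrix.mulVec_smul, smul_smul]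
  have e2 : ((d⁻¹ : Fˣ) : F) * d = 1 := by simp
  rw [e2, one_smul]
  apply rt_P
  intro i
  have hu' : ∀ j, σ (u j) = u j := rt_iff.mp hv
  show σ (∑ j, ((a₀ : Matrix ι ι F₀) i j : F) * u j) = ∑ j, ((a₀ : Matrix ι ι F₀) i j : F) * u j
  rw [map_sum]
  refine Finset.sum_congr rfl fun j _ => ?_
  rw [map_mul, hu', (hF₀ _).mp ((a₀ : Matrix ι ι F₀) i j).2]

end Subfield

end Cfsg.Agent.Lib.ClassMax.UnitCore
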