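import Mathlib
import Cfsg.Agent.Lib.ClassMax.UnitRat

/-! The subfield of index two of a field with `q²` elements is the fixed field of `x ↦ x^q`. -/

set_option autoImplicit false

namespace Cfsg.Agent.Lib.ClassMax.UnitCore

open Matrix

variable {F : Type*} [Field F] [Fintype F]

theorem mem_subfield_iff_pow {q : ℕ} (hF : Fintype.card F = q ^ 2) (F₀ : Subfield F) (hcard : Fintype.card F = Nat.card F₀ ^ 2)
    (a : F) : a ∈ F₀ ↔ a ^ q = a := by
  classical
  have h2 := Cfsg.Agent.Lib.Classical.two_le_q hF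
  have hq : Nat.card F₀ = q := by
    have h3 : Nat.card F₀ ^ 2 = q ^ 2 := by rw [← hcard, hF]
    exact Nat.pow_left_injective (n := 2) (by norm_num) h3
  haveI : Fintype F₀ := Fintype.ofFinite F₀
  have hq' : Fintype.card F₀ = q := by rw [← hq, Nat.card_eq_fintype_card]
  have hpow : ∀ b : F₀, (b : F) ^ q = b := by
    intro b
    have h3 := FiniteField.pow_card b
    rw [hq'] at h3
    exact_mod_cast congrArg Subtype.val h3
  constructor
  · intro ha
    exact hpow ⟨a, ha⟩
  · intro ha
    -- counting roots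
    set S : Finset F := Finset.univ.filter fun x : F => x ^ q = x with hS
    set T : Finset F := Finset.univ.filter fun x : F => x ∈ F₀ with hT
    have hTS : T ⊆ S := by
      intro x hx
      simp only [hT, hS, Finset.mem_filter, Finset.mem_univ, true_and] at hx ⊢
      exact hpow ⟨x, hx⟩
    have hTc : T.card = q := by
      rw [← hq', Fintype.card_subtype]
    have hSc : S.card ≤ q := by
      have hne : (Polynomial.X ^ q - Polynomial.X : Polynomial F) ≠ 0 :=
        FiniteField.X_pow_card_sub_X_ne_zero F (by omega)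
      have hdeg : (Polynomial.X ^ q - Polynomial.X : Polynomial F).natDegree = q :=
        FiniteField.X_pow_card_sub_X_natDegree_eq F (by omega)
      rw [← hdeg]
      apply Polynomial.card_le_degree_of_subset_roots
      intro x hx
      have hx' : x ∈ S := hx
      simp only [hS, Finset.mem_filter, Finset.mem_univ, true_and] at hx'
      rw [Polynomial.mem_roots hne]
      simp [sub_eq_zero, hx']
    have hEq : T = S := Finset.eq_of_subset_of_card_le hTS (by omega)
    have haS : a ∈ S := by
      simp only [hS, Finset.mem_filter, Finset.mem_univ, true_and]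
      exact ha
    rw [← hEq] at haS
    simpa [hT] using haS

/-- The rationality hypothesis in terms of the columns of `P`. -/
theorem rat_values {ι : Type} [_root_.Fintype ι] [DecidableEq ι] {σ : F ≃+* F} {F₀ : Subfield F} (hF₀ : ∀ a : F, a ∈ F₀ ↔ σ a = a)
    {f : (ι → F) → (ι → F) → F} {P : GL ι F} {ζ : F} (hP : Cfsg.Geo.IsFormRationalStructure f F₀ ζ P) (u v : ι → F)
    (hu : Rt σ P u) (hv : Rt σ P v) : σ (ζ * f u v) = ζ * f u v := by
  have h1 : ∀ {w : ι → F}, Rt σ P w → w = (P : Matrix ι ι F) *ᵥ (((P⁻¹ : GL ι F) : Matrix ι ι F) *ᵥ w) := by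
    intro w _
    rw [Matrix.mulVec_mulVec, ← Units.val_mul, mul_inv_cancel, Units.val_one, Matrix.one_mulVec]
  rw [h1 hu, h1 hv, ← hF₀]
  apply hP
  · intro i
    rw [hF₀]
    exact rt_iff.mp hu i
  · intro i
    rw [hF₀]
    exact rt_iff.mp hv i

theorem rat_vec {ι : Type} [_root_.Fintype ι] [DecidableEq ι] {σ : F ≃+* F} {F₀ : Subfield F} (hF₀ : ∀ a : F, a ∈ F₀ ↔ σ a = a)
    {P : GL ι F} {u : ι → F} (hu : Rt σ P u) : ∃ w : ι → F, (∀ i, w i ∈ F₀) ∧ u = (P : Matrix ι ι F) *ᵥ w := by
  refine ⟨((P⁻¹ : GL ι F) : Matrix ι ι F) *ᵥ u, fun i => ?_, ?_⟩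
  · rw [hF₀]
    exact rt_iff.mp hu i
  · rw [Matrix.mulVec_mulVec, ← Units.val_mul, mul_inv_cancel, Units.val_one, Matrix.one_mulVec]

end Cfsg.Agent.Lib.ClassMax.UnitCore
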