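import Mathlib
import Cfsg.Prelude.Def_GeometricClasses
import Cfsg.Agent.Lib.ClassMax.SubfieldSp
import Cfsg.Agent.Lib.ClassMax.SubfieldGen
import Cfsg.Agent.Lib.ClassMax.UnitField

/-! The subfield subgroups of the special unitary group are maximal. -/

set_option autoImplicit false

namespace Cfsg.Agent.Lib.ClassMax.SubfieldSU

open Matrix Cfsg.Geo Cfsg.Agent.Lib.ClassMax Cfsg.Agent.Lib.ClassMax.QuadOver
open Cfsg.Agent.Lib.ClassMax.HermOver Cfsg.Agent.Lib.ClassMax.UnitCore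
open Cfsg.Agent.Lib.ClassMax.SubfieldCore Cfsg.Agent.Lib.ClassMax.SubfieldDih Cfsg.Agent.Lib.ClassMax.SubfieldGen

variable {ι : Type} [Fintype ι] [DecidableEq ι] {F : Type*} [Field F] {σ : F ≃+* F} {f : (ι → F) → (ι → F) → F} {F₀ : Subfield F}

local notation "VV" => (ι → F)
local notation "MM" => Matrix ι ι F
local notation "GG" => GL ι F

/-- A unitary form which is rational on rational vectors. -/
structure RatForm (σ : F ≃+* F) (f : (ι → F) → (ι → F) → F) (F₀ : Subfield F) : Prop where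
  unit : IsUnitaryForm σ f
  sig : ∀ a ∈ F₀, σ a ∈ F₀
  ne : ∃ a ∈ F₀, σ a ≠ a
  rat : ∀ u v : ι → F, RatV F₀ u → RatV F₀ v → f u v ∈ F₀

/-- The semilinear automorphism of the subfield. -/
def sig₀ (hR : RatForm σ f F₀) : F₀ ≃+* F₀ where
  toFun a := ⟨σ a, hR.sig a a.2⟩
  invFun a := ⟨σ a, hR.sig a a.2⟩
  left_inv a := Subtype.ext (hR.unit.involutive a)
  right_inv a := Subtype.ext (hR.unit.involutive a)
  map_mul' a b := Subtype.ext (by simp)
  map_add' a b := Subtype.ext (by simp)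

/-- The form over the subfield. -/
def f₀ (hR : RatForm σ f F₀) (u v : ι → F₀) : F₀ :=
  ⟨f (SubfieldSp.cst F₀ u) (SubfieldSp.cst F₀ v), hR.rat _ _ (SubfieldSp.cst_rat u) (SubfieldSp.cst_rat v)⟩

theorem dual_zero (hf : IsUnitaryForm σ f) {y : VV} (h : ∀ j, f (Pi.single j 1) y = 0) : y = 0 := by
  by_contra hy
  obtain ⟨x, hx⟩ := (hf.nondegenerate y hy).1
  apply hx
  rw [← dual_dot hf]
  have : fdual f y = 0 := funext h
  rw [this, zero_dotProduct]

theorem hf₀ (hR : RatForm σ f F₀) : IsUnitaryForm (sig₀ hR) (f₀ hR) where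
  ne_refl := by
    intro h
    obtain ⟨a, ha, hne⟩ := hR.ne
    apply hne
    have := congrArg (fun τ : F₀ ≃+* F₀ => τ ⟨a, ha⟩) h
    exact congrArg Subtype.val this
  involutive a := Subtype.ext (hR.unit.involutive a)
  add_left x y v := Subtype.ext (hR.unit.add_left _ _ _)
  smul_left c x v := Subtype.ext (hR.unit.smul_left _ _ _)
  herm v w := Subtype.ext (hR.unit.herm _ _)
  nondegenerate := by
    have hf := hR.unit
    have e1 : ∀ v : ι → F₀, v ≠ 0 → ∃ j, f (Pi.single j 1) (SubfieldSp.cst F₀ v) ≠ 0 := by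
      intro v hv
      by_contra hcon
      push Not at hcon
      exact hv (SubfieldSp.cst_inj (dual_zero hf hcon))
    have e2 : ∀ j, SubfieldSp.cst F₀ (Pi.single j 1 : ι → F₀) = (Pi.single j 1 : ι → F) := by
      intro j
      funext i
      simp only [SubfieldSp.cst, Pi.single_apply]
      split_ifs <;> rfl
    intro v hv
    obtain ⟨j, hj⟩ := e1 v hv
    refine ⟨⟨Pi.single j 1, fun h0 => hj ?_⟩, ⟨Pi.single j 1, fun h0 => hj ?_⟩⟩
    · have := congrArg Subtype.val h0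
      simp only [f₀, e2] at this
      exact this
    · have h3 := congrArg Subtype.val h0
      simp only [f₀, e2] at h3
      have h4 : f (SubfieldSp.cst F₀ v) (Pi.single j 1) = 0 := h3
      rw [hf.herm, h4, map_zero]

section rat

variable [Fintype F] (hR : RatForm σ f F₀)
include hR

/-- Rational hyperbolic pairs. -/
theorem rat_hyp {k : ℕ} (c : Fin k → ι → F) (hc : ∀ i, RatV F₀ (c i)) (hk : 2 * k + 1 < Fintype.card ι) :
    ∃ b b' : ι → F, RatV F₀ b ∧ RatV F₀ b' ∧ f b b = 0 ∧ f b' b' = 0 ∧ f b b' = 1 ∧ (∀ i, f (c i) b = 0) ∧ (∀ i, f (c i) b' = 0) := by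
  classical
  letI : Fintype F₀ := Fintype.ofFinite _
  obtain ⟨b, b', h1, h2, h3, h4, h5⟩ := exists_hyp_pair (hf₀ hR) (fun i j => (⟨c i j, hc i j⟩ : F₀)) hk
  refine ⟨SubfieldSp.cst F₀ b, SubfieldSp.cst F₀ b', SubfieldSp.cst_rat b, SubfieldSp.cst_rat b', ?_, ?_, ?_, ?_, ?_⟩
  · exact congrArg Subtype.val h1
  · exact congrArg Subtype.val h2
  · exact congrArg Subtype.val h3
  · intro i
    exact congrArg Subtype.val (h4 i)
  · intro i
    exact congrArg Subtype.val (h5 i)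

theorem rat_trace {μ : F} (hμ : μ ∈ F₀) (hs : σ μ = μ) : ∃ κ ∈ F₀, κ + σ κ = μ := by
  classical
  letI : Fintype F₀ := Fintype.ofFinite _
  obtain ⟨κ, hκ⟩ := exists_trace (hf₀ hR) (⟨μ, hμ⟩ : F₀) (Subtype.ext hs)
  exact ⟨κ, κ.2, congrArg Subtype.val hκ⟩

theorem rat_norm {μ : F} (hμ : μ ∈ F₀) (h0 : μ ≠ 0) (hs : σ μ = μ) : ∃ l ∈ F₀, l * σ l = μ := by
  classical
  letI : Fintype F₀ := Fintype.ofFinite _
  obtain ⟨l, hl⟩ := exists_norm (hf₀ hR) (⟨μ, hμ⟩ : F₀) (fun h => h0 (congrArg Subtype.val h)) (Subtype.ext hs)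
  exact ⟨l, l.2, congrArg Subtype.val hl⟩

theorem rat_skew : ∃ a ∈ F₀, a ≠ 0 ∧ a + σ a = 0 := by
  classical
  letI : Fintype F₀ := Fintype.ofFinite _
  obtain ⟨a, ha, h⟩ := exists_skew (hf₀ hR)
  exact ⟨a, a.2, fun h0 => ha (Subtype.ext h0), congrArg Subtype.val h⟩

theorem perp_symm {a b : ι → F} (h : f a b = 0) : f b a = 0 := by
  rw [hR.unit.herm, h, map_zero]

/-- A vector whose values on rational vectors are rational is rational. -/
theorem rat_of_dual {y : ι → F} (h : ∀ j, f y (Pi.single j 1) ∈ F₀) : RatV F₀ y := by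
  have hf := hR.unit
  let G : MM := fun j i => f (Pi.single i 1) (Pi.single j 1)
  have hG : RatM F₀ G := fun j i => hR.rat _ _ (ratV_single i) (ratV_single j)
  have hGy : ∀ v : VV, ∀ j, (G *ᵥ v) j = f v (Pi.single j 1) := by
    intro v j
    rw [← dual_dot hf (Pi.single j 1) v]
    rfl
  have hinj : Function.Injective G.mulVec := by
    intro a b hab
    apply sub_eq_zero.mp
    apply dual_zero hf
    intro j
    have h1 : (G *ᵥ (a - b)) j = 0 := by
      have hab' : G *ᵥ a = G *ᵥ b := hab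
      rw [Matrix.mulVec_sub, hab', sub_self]
      rfl
    rw [hGy] at h1
    rw [hf.herm, h1, map_zero]
  have hu : IsUnit G := Matrix.mulVec_injective_iff_isUnit.mp hinj
  have hy : y = G⁻¹ *ᵥ (G *ᵥ y) := by
    rw [Matrix.mulVec_mulVec, Matrix.nonsing_inv_mul _ ((Matrix.isUnit_iff_isUnit_det _).mp hu), Matrix.one_mulVec]
  rw [hy]
  exact hG.inv.mulVec (fun j => by rw [hGy]; exact h j)

/-- A rational partner of a rational isotropic vector. -/
theorem rat_partner {u₀ : ι → F} (hu : RatV F₀ u₀) (h0 : f u₀ u₀ = 0) (hne : u₀ ≠ 0) :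
    ∃ z, RatV F₀ z ∧ f z z = 0 ∧ f z u₀ = 1 ∧ f u₀ z = 1 := by
  have hf := hR.unit
  obtain ⟨j, hj⟩ : ∃ j, f (Pi.single j 1) u₀ ≠ 0 := by
    by_contra hcon
    push Not at hcon
    exact hne (dual_zero hf hcon)
  obtain ⟨c, hc⟩ : ∃ c, c = (f (Pi.single j 1) u₀)⁻¹ := ⟨_, rfl⟩
  have hcr : c ∈ F₀ := hc ▸ F₀.inv_mem (hR.rat _ _ (ratV_single j) hu)
  obtain ⟨z', hz'⟩ : ∃ z' : ι → F, z' = c • Pi.single j 1 := ⟨_, rfl⟩
  have hz'r : RatV F₀ z' := hz' ▸ (ratV_single j).smul hcr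
  have h1 : f z' u₀ = 1 := by
    rw [hz', hf.smul_left, hc, inv_mul_cancel₀ hj]
  have h1' : f u₀ z' = 1 := by
    rw [hf.herm, h1, map_one]
  obtain ⟨t, htr, ht⟩ := rat_trace hR (hR.rat _ _ hz'r hz'r) (sig_f hf _ _)
  refine ⟨z' - t • u₀, hz'r.sub (hu.smul htr), ?_, ?_, ?_⟩
  · rw [sub_left hf, sub_right hf, sub_right hf, hf.smul_left, hf.smul_left, smul_right hf, smul_right hf, h1, h1', h0, ← ht]
    ring
  · rw [sub_left hf, hf.smul_left, h1, h0]
    ring
  · rw [sub_right hf, smul_right hf, h1', h0]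
    ring

/-- A rational vector is a combination of three rational isotropic vectors. -/
theorem rat_iso_decomp {u₀ g : ι → F} (hu : RatV F₀ u₀) (hg : RatV F₀ g) (hn : 5 < Fintype.card ι) :
    ∃ x₁ p p' : ι → F, ∃ β ∈ F₀, RatV F₀ x₁ ∧ RatV F₀ p ∧ RatV F₀ p' ∧ f x₁ x₁ = 0 ∧ f p p = 0 ∧ f p' p' = 0 ∧ g = x₁ - p - β • p' ∧
      f u₀ p = 0 ∧ f u₀ p' = 0 ∧ (f u₀ g = 0 → f u₀ x₁ = 0) := by
  have hf := hR.unit
  obtain ⟨p, p', hp, hp', h1, h2, h3, h4, h5⟩ := rat_hyp hR ![u₀, g] (by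
    intro i
    fin_cases i
    · exact hu
    · exact hg) (by simp; omega)
  have hup : f u₀ p = 0 := h4 0
  have hgp : f g p = 0 := h4 1
  have hup' : f u₀ p' = 0 := h5 0
  have hgp' : f g p' = 0 := h5 1
  obtain ⟨β, hβ, hβt⟩ := rat_trace hR (F₀.neg_mem (hR.rat _ _ hg hg)) (by rw [map_neg, sig_f hf])
  have hx : f (g + p + β • p') (g + p + β • p') = 0 := by
    rw [norm_level hf h1 h2 h3 hgp hgp']
    linear_combination hβt
  refine ⟨g + p + β • p', p, p', β, hβ, (hg.add hp).add (hp'.smul hβ), hp, hp', hx, h1, h2, ?_, hup, hup', ?_⟩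
  · abel
  · intro h
    rw [add_right hf, add_right hf, smul_right hf, hup, hup', h]
    ring

end rat

section eg

variable [Fintype F] (hR : RatForm σ f F₀)
include hR

theorem zero_ok {b : VV} (hb : f b b = 0) : (0 : F) + σ 0 = - f b b := by
  rw [hb]; simp

theorem iso_smul (κ : F) {u : VV} (h : f u u = 0) : f (κ • u) (κ • u) = 0 := by
  rw [hR.unit.smul_left, smul_right hR.unit, h]
  ring

theorem perp_smul_right (κ : F) {a u : VV} (h : f a u = 0) : f a (κ • u) = 0 := by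
  rw [smul_right hR.unit, h, mul_zero]

theorem perp_smul_left (κ : F) {a u : VV} (h : f a u = 0) : f (κ • a) u = 0 := by
  rw [hR.unit.smul_left, h, mul_zero]

theorem eg_rat {z u : VV} {γ : F} (hz : RatV F₀ z) (hu : RatV F₀ u) (hγ' : γ ∈ F₀) (hzz : f z z = 0) (hzu : f z u = 0)
    (hγ : γ + σ γ = - f u u) : RatM F₀ (eg f z u γ : MM) := by
  apply SubfieldSp.ratM_of_mulVec
  intro j
  rw [eg_apply hR.unit hzz hzu hγ]
  unfold egFun
  have hj : RatV F₀ (Pi.single j 1 : VV) := ratV_single j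
  exact (((hj.add (hu.smul (hR.rat _ _ hj hz))).sub (hz.smul (hR.rat _ _ hj hu))).add (hz.smul (F₀.mul_mem hγ' (hR.rat _ _ hj hz))))

theorem eg_in_M (hn : 6 ≤ Fintype.card ι) {M : Subgroup GG} (hHM : ratScal F₀ ι ⊓ (uiso f ⊓ specialLinear ι F) ≤ M) {z u : VV} {γ : F} (hz : RatV F₀ z)
    (hu : RatV F₀ u) (hγ' : γ ∈ F₀) (hzz : f z z = 0) (hzu : f z u = 0) (hγ : γ + σ γ = - f u u) : eg f z u γ ∈ M :=
  hHM ⟨⟨1, one_ne_zero, by rw [one_smul]; exact eg_rat hR hz hu hγ' hzz hzu hγ⟩, eg_mem_su hR.unit hn hzz hzu hγ⟩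

theorem E_apply {z a : VV} (hzz : f z z = 0) (hza : f z a = 0) (haa : f a a = 0) (v : VV) :
    (eg f z a 0 : MM) *ᵥ v = v + (f v z • a - f v a • z) := by
  rw [eg_apply hR.unit hzz hza (zero_ok hR haa)]
  unfold egFun
  module

/-- The commutator of two root elements. -/
theorem eg_comm {z a x b : VV} (hzz : f z z = 0) (haa : f a a = 0) (hxx : f x x = 0) (hbb : f b b = 0) (hza : f z a = 0) (hzx : f z x = 0)
    (hzb : f z b = 0) (hax : f a x = 0) (hxb : f x b = 0) :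
    eg f z a 0 * eg f x b 0 * (eg f z a 0)⁻¹ * (eg f x b 0)⁻¹ = eg f z (σ (f b a) • x) 0 := by
  have hf := hR.unit
  have haz := perp_symm hR hza
  have hxz := perp_symm hR hzx
  have hbz := perp_symm hR hzb
  have hxa := perp_symm hR hax
  have hbx := perp_symm hR hxb
  have hab : f a b = σ (f b a) := hf.herm _ _
  have h3 : f z (σ (f b a) • x) = 0 := perp_smul_right hR _ hzx
  have h4 : f (σ (f b a) • x) (σ (f b a) • x) = 0 := iso_smul hR _ hxx
  apply gl_ext_mulVec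
  intro v
  rw [SpPair.comm_formula2 (eg f z a 0) (eg f x b 0) (fun v => f v z • a - f v a • z) (fun v => f v x • b - f v b • x)
    (E_apply hR hzz hza haa) (E_apply hR hxx hxb hbb), E_apply hR hzz h3 h4]
  · simp only [hf.add_left, sub_left hf, hf.smul_left, smul_right hf, haz, hbz, hxz, hxa, hbx, hab, hbb, haa, hzz, hxx, hza, hzb, hzx, hax, hxb, hf.involutive]
    simp only [mul_zero, zero_mul, sub_zero, zero_sub, add_zero, zero_add, zero_smul, smul_zero, smul_sub]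
    module
  · intro v
    simp only [hf.add_left, sub_left hf, hf.smul_left, haz, haa, hzz, hza]
    simp
  · intro v
    simp only [hf.add_left, sub_left hf, hf.smul_left, hbx, hbb, hxx, hxb]
    simp
  · intro v
    simp only [hf.add_left, sub_left hf, hf.smul_left, hbz, hbx, hxz, hbb, hxx, hxb, hxa, haz, haa, hzz, hza, hab, hax, hzx, hzb]
    simp
  · intro v
    simp only [hf.add_left, sub_left hf, hf.smul_left, hbz, hbx, hxz, hbb, hxx, hxb, hxa, haz, haa, hzz, hza, hab, hax, hzx, hzb]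
    simp
  · intro p q
    simp only [hf.add_left, add_smul]
    abel
  · intro p q
    simp only [hf.add_left, add_smul]
    abel

theorem eg_symm {z u : VV} (κ : F) (hzz : f z z = 0) (huu : f u u = 0) (hzu : f z u = 0) :
    eg f z (κ • u) 0 = eg f u ((- σ κ) • z) 0 := by
  have hf := hR.unit
  have huz := perp_symm hR hzu
  apply gl_ext_mulVec
  intro v
  rw [E_apply hR hzz (perp_smul_right hR _ hzu) (iso_smul hR _ huu), E_apply hR huu (perp_smul_right hR _ huz) (iso_smul hR _ hzz)]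
  simp only [smul_right hf, map_neg, hf.involutive]
  module

theorem eg_add {z a b : VV} (hzz : f z z = 0) (hza : f z a = 0) (hzb : f z b = 0) (haa : f a a = 0) (hbb : f b b = 0) (hab : f b a = 0) :
    eg f z a 0 * eg f z b 0 = eg f z (a + b) 0 := by
  rw [eg_mul hR.unit hzz hza hzb (zero_ok hR haa) (zero_ok hR hbb), hab]
  simp

end eg

section closure

variable [Fintype F] (hR : RatForm σ f F₀) {M : Subgroup (GL ι F)}
include hR

/-- Moving the second vector of a root element. -/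
theorem P_mul {z u x y : VV} {κ l : F} (hzz : f z z = 0) (huu : f u u = 0) (hzu : f z u = 0) (hyy : f y y = 0)
    (hzy : f z y = 0) (hxx : f x x = 0) (hzx : f z x = 0) (hux : f u x = 0) (hxy : f x y = 0) (hyu : f y u = 1)
    (hP : eg f z (κ • u) 0 ∈ M) (hQ : eg f x (l • y) 0 ∈ M) : eg f z ((κ * σ l) • x) 0 ∈ M := by
  have hf := hR.unit
  have h := eg_comm hR (a := κ • u) (b := l • y) hzz (iso_smul hR _ huu) hxx (iso_smul hR _ hyy) (perp_smul_right hR _ hzu) hzx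
    (perp_smul_right hR _ hzy) (perp_smul_left hR _ hux) (perp_smul_right hR _ hxy)
  have e : σ (f (l • y) (κ • u)) = κ * σ l := by
    rw [hf.smul_left, smul_right hf, hyu, map_mul, map_mul, hf.involutive, map_one]
    ring
  rw [e] at h
  rw [← h]
  exact M.mul_mem (M.mul_mem (M.mul_mem hP hQ) (M.inv_mem hP)) (M.inv_mem hQ)

theorem P_move (hn : 6 ≤ Fintype.card ι) (hHM : ratScal F₀ ι ⊓ (uiso f ⊓ specialLinear ι F) ≤ M) {z u u' x : VV} {κ : F} (hzz : f z z = 0) (huu : f u u = 0)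
    (hzu : f z u = 0) (hu'r : RatV F₀ u') (hu'u' : f u' u' = 0) (huu' : f u u' = 1) (hzu' : f z u' = 0) (hxr : RatV F₀ x) (hxx : f x x = 0) (hzx : f z x = 0)
    (hux : f u x = 0) (hxu' : f x u' = 0) (hP : eg f z (κ • u) 0 ∈ M) : eg f z (κ • x) 0 ∈ M := by
  have hf := hR.unit
  have hyu : f u' u = 1 := by rw [hf.herm, huu', map_one]
  have hQ : eg f x ((1 : F) • u') 0 ∈ M := by
    rw [one_smul]
    exact eg_in_M hR hn hHM hxr hu'r F₀.zero_mem hxx hxu' (zero_ok hR hu'u')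
  have := P_mul hR hzz huu hzu hu'u' hzu' hxx hzx hux hxu' hyu hP hQ
  rwa [map_one, mul_one] at this

theorem P_neg {z u : VV} {κ : F} (hzz : f z z = 0) (huu : f u u = 0) (hzu : f z u = 0) (hP : eg f z (κ • u) 0 ∈ M) : eg f z ((-κ) • u) 0 ∈ M := by
  have h := M.inv_mem hP
  rw [eg_inv hR.unit hzz (perp_smul_right hR _ hzu) (zero_ok hR (iso_smul hR _ huu)), map_zero, ← neg_smul] at h
  exact h

theorem P_add {z u : VV} {κ l : F} (hzz : f z z = 0) (huu : f u u = 0) (hzu : f z u = 0) (hP : eg f z (κ • u) 0 ∈ M) (hQ : eg f z (l • u) 0 ∈ M) :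
    eg f z ((κ + l) • u) 0 ∈ M := by
  have h := M.mul_mem hP hQ
  rw [eg_add hR hzz (perp_smul_right hR _ hzu) (perp_smul_right hR _ hzu) (iso_smul hR _ huu) (iso_smul hR _ huu), ← add_smul] at h
  · exact h
  · rw [hR.unit.smul_left, smul_right hR.unit, huu]
    ring

/-- A rational frame. -/
structure Frame (F₀ : Subfield F) (f : (ι → F) → (ι → F) → F) (z z' u u' : ι → F) : Prop where
  rz : RatV F₀ z
  rz' : RatV F₀ z'
  ru : RatV F₀ u
  ru' : RatV F₀ u'
  zz : f z z = 0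
  z'z' : f z' z' = 0
  uu : f u u = 0
  u'u' : f u' u' = 0
  zz1 : f z z' = 1
  uu1 : f u u' = 1
  zu : f z u = 0
  zu' : f z u' = 0
  z'u : f z' u = 0
  z'u' : f z' u' = 0

/-- An irrational coefficient gives all coefficients. -/
theorem P_all (hn : 13 ≤ Fintype.card ι) (hHM : ratScal F₀ ι ⊓ (uiso f ⊓ specialLinear ι F) ≤ M) {r : ℕ} (hr : r.Prime)
    (hcard : Fintype.card F = Nat.card F₀ ^ r) {z z' u u' : VV} (hF : Frame F₀ f z z' u u') {κ : F} (hκ : κ ∉ F₀) (hS : eg f z (κ • u) 0 ∈ M) (c : F) :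
    eg f z (c • u) 0 ∈ M := by
  have hf := hR.unit
  have hn6 : 6 ≤ Fintype.card ι := by omega
  have huz := perp_symm hR hF.zu
  have hu'z := perp_symm hR hF.zu'
  have hz'z : f z' z = 1 := by rw [hf.herm, hF.zz1, map_one]
  have hu'u : f u' u = 1 := by rw [hf.herm, hF.uu1, map_one]
  have hrat : ∀ a ∈ F₀, eg f z (a • u) 0 ∈ M := fun a ha =>
    eg_in_M hR hn6 hHM hF.rz (hF.ru.smul ha) F₀.zero_mem hF.zz (perp_smul_right hR _ hF.zu) (zero_ok hR (iso_smul hR _ hF.uu))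
  obtain ⟨w, w', hw, hw', hww, hw'w', hww', hc1, hc2⟩ := rat_hyp hR ![z, z', u, u'] (by
    intro i
    fin_cases i
    · exact hF.rz
    · exact hF.rz'
    · exact hF.ru
    · exact hF.ru') (by simp; omega)
  have hzw : f z w = 0 := hc1 0
  have hz'w : f z' w = 0 := hc1 1
  have huw : f u w = 0 := hc1 2
  have hu'w : f u' w = 0 := hc1 3
  have hzw' : f z w' = 0 := hc2 0
  have hz'w' : f z' w' = 0 := hc2 1
  have huw' : f u w' = 0 := hc2 2
  have hu'w' : f u' w' = 0 := hc2 3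
  obtain ⟨v, v', hv, hv', hvv, hv'v', hvv', hd1, hd2⟩ := rat_hyp hR ![w, z, z', u'] (by
    intro i
    fin_cases i
    · exact hw
    · exact hF.rz
    · exact hF.rz'
    · exact hF.ru') (by simp; omega)
  have hwv : f w v = 0 := hd1 0
  have hzv : f z v = 0 := hd1 1
  have hz'v : f z' v = 0 := hd1 2
  have hu'v : f u' v = 0 := hd1 3
  have hwv' : f w v' = 0 := hd2 0
  have hzv' : f z v' = 0 := hd2 1
  have hz'v' : f z' v' = 0 := hd2 2
  have hu'v' : f u' v' = 0 := hd2 3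
  have hmul : ∀ {a b : F}, eg f z (a • u) 0 ∈ M → eg f z (b • u) 0 ∈ M → eg f z ((a * b) • u) 0 ∈ M := by
    intro a b ha hb
    -- moving `b`
    have s1 : eg f z (b • w) 0 ∈ M := P_move hR hn6 hHM hF.zz hF.uu hF.zu hF.ru' hF.u'u' hF.uu1 hF.zu' hw hww hzw huw (perp_symm hR hu'w) hb
    have s2 : eg f w ((- σ b) • z) 0 ∈ M := by
      rw [← eg_symm hR b hF.zz hww hzw]
      exact s1
    have s3 : eg f w ((- σ b) • v) 0 ∈ M :=
      P_move hR hn6 hHM hww hF.zz (perp_symm hR hzw) hF.rz' hF.z'z' hF.zz1 (perp_symm hR hz'w) hv hvv hwv hzv (perp_symm hR hz'v) s2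
    have s4 : eg f w ((- σ b) • u') 0 ∈ M :=
      P_move hR hn6 hHM hww hvv hwv hv' hv'v' hvv' hwv' hF.ru' hF.u'u' (perp_symm hR hu'w) (perp_symm hR hu'v) hu'v' s3
    have s5 : eg f z ((a * σ (- σ b)) • w) 0 ∈ M :=
      P_mul hR hF.zz hF.uu hF.zu hF.u'u' hF.zu' hww hzw huw (perp_symm hR hu'w) hu'u ha s4
    have e : a * σ (- σ b) = - (a * b) := by
      rw [map_neg, hf.involutive]
      ring
    rw [e] at s5
    have s6 : eg f z ((- (a * b)) • u) 0 ∈ M :=
      P_move hR hn6 hHM hF.zz hww hzw hw' hw'w' hww' hzw' hF.ru hF.uu hF.zu (perp_symm hR huw) huw' s5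
    have s7 := P_neg hR hF.zz hF.uu hF.zu s6
    rwa [neg_neg] at s7
  have hpow : ∀ (x : F) (k : ℕ), eg f z (x • u) 0 ∈ M → eg f z ((x ^ k) • u) 0 ∈ M := by
    intro x k hx
    induction k with
    | zero =>
      rw [pow_zero]
      exact hrat 1 F₀.one_mem
    | succ k ih =>
      rw [pow_succ]
      exact hmul ih hx
  let K : Subfield F :=
    { carrier := {x | eg f z (x • u) 0 ∈ M}
      mul_mem' := fun {a b} ha hb => hmul ha hb
      one_mem' := hrat 1 F₀.one_mem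
      add_mem' := fun {a b} ha hb => P_add hR hF.zz hF.uu hF.zu ha hb
      zero_mem' := hrat 0 F₀.zero_mem
      neg_mem' := fun {a} ha => P_neg hR hF.zz hF.uu hF.zu ha
      inv_mem' := fun x hx => by
        by_cases hx0 : x = 0
        · rw [hx0, _root_.inv_zero]
          exact hrat 0 F₀.zero_mem
        · have h2 : x⁻¹ = x ^ (Fintype.card F - 2) := by
            have h3 := FiniteField.pow_card_sub_one_eq_one x hx0
            have h4 : 2 ≤ Fintype.card F := Fintype.one_lt_card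
            have h5 : Fintype.card F - 1 = (Fintype.card F - 2) + 1 := by omega
            rw [h5, pow_succ] at h3
            exact (eq_inv_of_mul_eq_one_left h3).symm
          rw [h2]
          exact hpow x _ hx }
  have hK : F₀ ≤ K := fun a ha => hrat a ha
  rcases eq_or_top_of_prime F₀ hr hcard K hK with hK1 | hK1
  · exfalso
    apply hκ
    rw [← hK1]
    exact hS
  · have : c ∈ K := by
      rw [hK1]
      trivial
    exact this


/-- From one direction to all rational directions. -/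
theorem P_all_dir (hn : 13 ≤ Fintype.card ι) (hHM : ratScal F₀ ι ⊓ (uiso f ⊓ specialLinear ι F) ≤ M) {z u u' x : VV} (hzr : RatV F₀ z) (hur : RatV F₀ u) (hu'r : RatV F₀ u')
    (hzz : f z z = 0) (huu : f u u = 0) (hu'u' : f u' u' = 0) (hzu : f z u = 0) (huu' : f u u' = 1) (hzu' : f z u' = 0)
    (hall : ∀ c : F, eg f z (c • u) 0 ∈ M) (hxr : RatV F₀ x) (hxx : f x x = 0) (hzx : f z x = 0) (c : F) : eg f z (c • x) 0 ∈ M := by
  have hn6 : 6 ≤ Fintype.card ι := by omega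
  obtain ⟨v, v', hv, hv', hvv, hv'v', hvv', hd1, hd2⟩ := rat_hyp hR ![z, u, u', x] (by
    intro i
    fin_cases i
    · exact hzr
    · exact hur
    · exact hu'r
    · exact hxr) (by simp; omega)
  have hzv : f z v = 0 := hd1 0
  have huv : f u v = 0 := hd1 1
  have hu'v : f u' v = 0 := hd1 2
  have hxv : f x v = 0 := hd1 3
  have hzv' : f z v' = 0 := hd2 0
  have hxv' : f x v' = 0 := hd2 3
  have s1 : eg f z (c • v) 0 ∈ M :=
    P_move hR hn6 hHM hzz huu hzu hu'r hu'u' huu' hzu' hv hvv hzv huv (perp_symm hR hu'v) (hall c)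
  exact P_move hR hn6 hHM hzz hvv hzv hv' hv'v' hvv' hzv' hxr hxx hzx (perp_symm hR hxv) hxv' s1

/-- Decomposition of a transvection. -/
theorem tv_decomp {a b : VV} {c : F} (β : F) (haa : f a a = 0) (hbb : f b b = 0) (hab : f a b = 0) (hc : c + σ c = 0) :
    eg f (a + β • b) 0 c = eg f a 0 c * eg f b ((c * σ β) • a) (c * β * σ β) := by
  have hf := hR.unit
  have hba := perp_symm hR hab
  have hsum : f (a + β • b) (a + β • b) = 0 := by
    rw [hf.add_left, add_right hf, add_right hf, hf.smul_left, hf.smul_left, smul_right hf, smul_right hf, haa, hbb, hab, hba]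
    ring
  have hσc : σ c = - c := by linear_combination hc
  have h1 : f b ((c * σ β) • a) = 0 := perp_smul_right hR _ hba
  have h2 : c * β * σ β + σ (c * β * σ β) = - f ((c * σ β) • a) ((c * σ β) • a) := by
    rw [iso_smul hR _ haa, map_mul, map_mul, hf.involutive, hσc]
    ring
  apply gl_ext_mulVec
  intro v
  rw [Units.val_mul, ← Matrix.mulVec_mulVec, eg_apply hf hsum (zero_right hf _) (skew_ok hf hc),
    eg_apply hf hbb h1 h2, eg_apply hf haa (zero_right hf _) (skew_ok hf hc)]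
  unfold egFun
  simp only [hf.add_left, add_right hf, sub_left hf, hf.smul_left, smul_right hf, zero_right hf, haa, hba, map_mul, hσc, hf.involutive]
  module

theorem tv_all (hn : 13 ≤ Fintype.card ι) (hHM : ratScal F₀ ι ⊓ (uiso f ⊓ specialLinear ι F) ≤ M) {z : VV} (hzr : RatV F₀ z) (hzz : f z z = 0)
    (hall : ∀ x, RatV F₀ x → f x x = 0 → f z x = 0 → ∀ c : F, eg f z (c • x) 0 ∈ M) {b : F} (hb : b + σ b = 0) : eg f z 0 b ∈ M := by
  have hf := hR.unit
  have hn6 : 6 ≤ Fintype.card ι := by omega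
  by_cases hb0 : b = 0
  · rw [hb0, eg_zero hf z hzz]
    exact M.one_mem
  obtain ⟨a₀, ha₀, ha₀0, ha₀s⟩ := rat_skew hR
  obtain ⟨w, w', hw, hw', hww, hw'w', hww', hc1, hc2⟩ := rat_hyp hR ![z] (by
    intro i
    fin_cases i
    exact hzr) (by simp; omega)
  have hzw : f z w = 0 := hc1 0
  have hzw' : f z w' = 0 := hc2 0
  have hwz := perp_symm hR hzw
  obtain ⟨s, hs⟩ : ∃ s, s = b / a₀ := ⟨_, rfl⟩
  have hs0 : s ≠ 0 := hs ▸ div_ne_zero hb0 ha₀0
  have hσb : σ b = - b := by linear_combination hb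
  have hσa : σ a₀ = - a₀ := by linear_combination ha₀s
  have hσs : σ s = s := by
    rw [hs, map_div₀, hσb, hσa, neg_div_neg_eq]
  obtain ⟨l, hl⟩ := exists_norm hf s hs0 hσs
  have hR' := hall w' hw' hw'w' hzw' (- σ l)
  have hRw : (eg f z ((- σ l) • w') 0 : MM) *ᵥ w = w + l • z := by
    rw [E_apply hR hzz (perp_smul_right hR _ hzw') (iso_smul hR _ hw'w'), hwz, smul_right hf, hww', map_neg, hf.involutive]
    module
  have ht : eg f w 0 a₀ ∈ M := eg_in_M hR hn6 hHM hw ratV_zero ha₀ hww (zero_right hf _) (skew_ok hf ha₀s)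
  have h1 := M.mul_mem (M.mul_mem hR' ht) (M.inv_mem hR')
  rw [eg_conj hf (eg_iso hf hzz (perp_smul_right hR _ hzw') (zero_ok hR (iso_smul hR _ hw'w'))) hww (zero_right hf _) (skew_ok hf ha₀s), hRw, Matrix.mulVec_zero,
    tv_decomp hR l hww hzz hwz ha₀s] at h1
  have h2 := M.mul_mem (M.inv_mem ht) h1
  rw [inv_mul_cancel_left] at h2
  have h3 := hall w hw hww hzw (a₀ * σ l)
  have h4 := M.mul_mem (M.inv_mem h3) h2
  have e : eg f z ((a₀ * σ l) • w) 0 * eg f z 0 b = eg f z ((a₀ * σ l) • w) (a₀ * l * σ l) := by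
    have hx : f z ((a₀ * σ l) • w) = 0 := perp_smul_right hR _ hzw
    rw [eg_mul hf hzz hx (zero_right hf _) (zero_ok hR (iso_smul hR _ hww)) (skew_ok hf hb), add_zero, zero_left hf]
    congr 1
    rw [zero_add, sub_zero, hs] at *
    have hl' : l * σ l = b / a₀ := hl
    field_simp at hl'
    linear_combination -hl'
  rw [← e, inv_mul_cancel_left] at h4
  exact h4

/-- All rational directions give all Eichler transformations. -/
theorem ufull_of_dir (hn : 13 ≤ Fintype.card ι) (hHM : ratScal F₀ ι ⊓ (uiso f ⊓ specialLinear ι F) ≤ M) {z z' : VV} (hzr : RatV F₀ z) (hz'r : RatV F₀ z') (hzz : f z z = 0)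
    (hz'z : f z' z = 1) (hall : ∀ x, RatV F₀ x → f x x = 0 → f z x = 0 → ∀ c : F, eg f z (c • x) 0 ∈ M) : UFull σ f M z := by
  have hf := hR.unit
  obtain ⟨D, hD⟩ : ∃ D : VV → Prop, D = fun w => f z w = 0 ∧ ∃ γ, γ + σ γ = - f w w ∧ eg f z w γ ∈ M := ⟨_, rfl⟩
  have hadd : ∀ a b, D a → D b → D (a + b) := by
    intro a b ha hb
    rw [hD] at ha hb ⊢
    obtain ⟨h1, γ, hγ, hm⟩ := ha
    obtain ⟨h2, γ', hγ', hm'⟩ := hb
    have h3 : f z (a + b) = 0 := by rw [add_right hf, h1, h2, add_zero]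
    refine ⟨h3, γ + γ' - f b a, ?_, ?_⟩
    · rw [map_sub, map_add, sig_f hf b a, hf.add_left, add_right hf, add_right hf]
      linear_combination hγ + hγ'
    · rw [← eg_mul hf hzz h1 h2 hγ hγ']
      exact M.mul_mem hm hm'
  have hzero : D 0 := by
    rw [hD]
    refine ⟨zero_right hf _, 0, ?_, ?_⟩
    · simp [zero_left hf]
    · rw [eg_zero hf z hzz]
      exact M.one_mem
  have hiso : ∀ x, RatV F₀ x → f x x = 0 → f z x = 0 → ∀ c : F, D (c • x) := by
    intro x hx hxx hzx c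
    rw [hD]
    exact ⟨perp_smul_right hR _ hzx, 0, zero_ok hR (iso_smul hR _ hxx), hall x hx hxx hzx c⟩
  have hrat : ∀ g, RatV F₀ g → f z g = 0 → ∀ c : F, D (c • g) := by
    intro g hg hzg c
    obtain ⟨x₁, p, p', β, hβ, hx₁, hp, hp', h1, h2, h3, he, h4, h5, h6⟩ := rat_iso_decomp hR hzr hg (by omega)
    have e : c • g = c • x₁ + (-c) • p + (-(c * β)) • p' := by
      rw [he]
      module
    rw [e]
    exact hadd _ _ (hadd _ _ (hiso _ hx₁ h1 (h6 hzg) _) (hiso _ hp h2 h4 _)) (hiso _ hp' h3 h5 _)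
  have hall' : ∀ w, f z w = 0 → D w := by
    intro w hzw
    have hwz := perp_symm hR hzw
    have hsum : w = ∑ j, w j • ((Pi.single j 1 : VV) - (f (Pi.single j 1) z) • z') := by
      have h1 : ∑ j, w j • ((Pi.single j 1 : VV) - (f (Pi.single j 1) z) • z') = (∑ j, w j • (Pi.single j 1 : VV)) - (∑ j, w j * f (Pi.single j 1) z) • z' := by
        rw [Finset.sum_smul, ← Finset.sum_sub_distrib]
        apply Finset.sum_congr rfl
        intro j _
        rw [smul_sub, smul_smul]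
      have h2 : ∑ j, w j * f (Pi.single j 1) z = f w z := by
        rw [← dual_dot hf z w, dotProduct]
        apply Finset.sum_congr rfl
        intro j _
        rw [mul_comm]
        rfl
      have h3 : ∑ j, w j • (Pi.single j 1 : VV) = w := by
        funext i
        simp [Finset.sum_apply, Pi.single_apply]
      rw [h1, h2, h3, hwz, zero_smul, sub_zero]
    rw [hsum]
    apply Finset.sum_induction _ D hadd hzero
    intro j _
    apply hrat _ ((ratV_single j).sub (hz'r.smul (hR.rat _ _ (ratV_single j) hzr)))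
    apply perp_symm hR
    rw [sub_left hf, hf.smul_left, hz'z, mul_one, sub_self]
  intro w γ hzw hγ
  have hDw := hall' w hzw
  rw [hD] at hDw
  obtain ⟨-, γ₀, hγ₀, hm⟩ := hDw
  have hskew : (γ - γ₀) + σ (γ - γ₀) = 0 := by
    rw [map_sub]
    linear_combination hγ - hγ₀
  have ht := tv_all hR hn hHM hzr hzz hall hskew
  have e : eg f z w γ₀ * eg f z 0 (γ - γ₀) = eg f z w γ := by
    rw [eg_mul hf hzz hzw (zero_right hf _) hγ₀ (skew_ok hf hskew), add_zero, zero_left hf]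
    congr 1
    ring
  rw [← e]
  exact M.mul_mem hm ht

/-- An irrational root element gives the whole group. -/
theorem su_le_of_irr (hn : 13 ≤ Fintype.card ι) (hHM : ratScal F₀ ι ⊓ (uiso f ⊓ specialLinear ι F) ≤ M) {r : ℕ} (hr : r.Prime)
    (hcard : Fintype.card F = Nat.card F₀ ^ r) {z z' u u' : VV} (hF : Frame F₀ f z z' u u') {κ : F} (hκ : κ ∉ F₀) (hS : eg f z (κ • u) 0 ∈ M) :
    uiso f ⊓ specialLinear ι F ≤ M := by
  have hf := hR.unit
  have hn6 : 6 ≤ Fintype.card ι := by omega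
  have hall := P_all hR hn hHM hr hcard hF hκ hS
  have hz'z : f z' z = 1 := by rw [hf.herm, hF.zz1, map_one]
  have hUz : UFull σ f M z := ufull_of_dir hR hn hHM hF.rz hF.rz' hF.zz hz'z
    (fun x hx hxx hzx c => P_all_dir hR hn hHM hF.rz hF.ru hF.ru' hF.zz hF.uu hF.u'u' hF.zu hF.uu1 hF.zu' hall hx hxx hzx c)
  obtain ⟨v, v', hv, hv', hvv, hv'v', hvv', hd1, hd2⟩ := rat_hyp hR ![u, z, z'] (by
    intro i
    fin_cases i
    · exact hF.ru
    · exact hF.rz
    · exact hF.rz') (by simp; omega)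
  have huv : f u v = 0 := hd1 0
  have hzv : f z v = 0 := hd1 1
  have hz'v : f z' v = 0 := hd1 2
  have huv' : f u v' = 0 := hd2 0
  have hz'v' : f z' v' = 0 := hd2 2
  have huz := perp_symm hR hF.zu
  have huz' := perp_symm hR hF.z'u
  have hallu : ∀ c : F, eg f u (c • z) 0 ∈ M := by
    intro c
    have := hall (- σ c)
    rwa [eg_symm hR _ hF.zz hF.uu hF.zu, map_neg, hf.involutive, neg_neg] at this
  have hall' : ∀ c : F, eg f z' (c • u) 0 ∈ M := by
    intro c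
    have s1 : eg f u ((- σ c) • v) 0 ∈ M :=
      P_move hR hn6 hHM hF.uu hF.zz huz hF.rz' hF.z'z' hF.zz1 huz' hv hvv huv hzv (perp_symm hR hz'v) (hallu _)
    have s2 : eg f u ((- σ c) • z') 0 ∈ M :=
      P_move hR hn6 hHM hF.uu hvv huv hv' hv'v' hvv' huv' hF.rz' hF.z'z' huz' (perp_symm hR hz'v) hz'v' s1
    have := (eg_symm hR (- σ c) hF.uu hF.z'z' huz')
    rw [this, map_neg, hf.involutive, neg_neg] at s2
    exact s2
  have hUz' : UFull σ f M z' := ufull_of_dir hR hn hHM hF.rz' hF.rz hF.z'z' hF.zz1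
    (fun x hx hxx hzx c => P_all_dir hR hn hHM hF.rz' hF.ru hF.ru' hF.z'z' hF.uu hF.u'u' hF.z'u hF.uu1 hF.z'u' hall' hx hxx hzx c)
  exact su_le_of_centres hf hn6 hF.zz hF.z'z' hUz hUz' (by rw [hF.zz1]; exact one_ne_zero)

end closure

section key

/-- The image of the group in the unipotent radical of the stabiliser of a point, modulo its centre. -/
def AA (σ : F ≃+* F) (f : (ι → F) → (ι → F) → F) (M : Subgroup (GL ι F)) (u₀ x : ι → F) : Prop :=
  f u₀ x = 0 ∧ ∃ τ : F, τ + σ τ = - f x x ∧ eg f u₀ x τ ∈ M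

/-- No irrational root element. -/
def NoIrr (F₀ : Subfield F) (f : (ι → F) → (ι → F) → F) (M : Subgroup (GL ι F)) : Prop :=
  ∀ z z' u u' : ι → F, Frame F₀ f z z' u u' → ∀ κ : F, eg f z (κ • u) 0 ∈ M → κ ∈ F₀

variable [Fintype F] (hR : RatForm σ f F₀) {M : Subgroup (GL ι F)}
include hR

/-- A commutator with a rational root element. -/
theorem AA_comm (hn : 6 ≤ Fintype.card ι) (hHM : ratScal F₀ ι ⊓ (uiso f ⊓ specialLinear ι F) ≤ M) {u₀ x p q : VV} {τ : F} (hu₀₀ : f u₀ u₀ = 0) (hx : f u₀ x = 0)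
    (hτ : τ + σ τ = - f x x) (hQ : eg f u₀ x τ ∈ M) (hpr : RatV F₀ p) (hqr : RatV F₀ q) (hpp : f p p = 0) (hqq : f q q = 0) (hpq : f p q = 0)
    (hp0 : f u₀ p = 0) (hq0 : f u₀ q = 0) :
    eg f u₀ (f x p • q - f x q • p) (f x (f x p • q - f x q • p)) ∈ M ∧
      f x (f x p • q - f x q • p) + σ (f x (f x p • q - f x q • p)) = - f (f x p • q - f x q • p) (f x p • q - f x q • p) := by
  have hf := hR.unit
  obtain ⟨y, hy⟩ : ∃ y, y = f x p • q - f x q • p := ⟨_, rfl⟩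
  rw [← hy]
  have hRM : eg f p q 0 ∈ M := eg_in_M hR hn hHM hpr hqr F₀.zero_mem hpp hpq (zero_ok hR hqq)
  have hiso := eg_iso hf hpp hpq (zero_ok hR hqq)
  have hRu : (eg f p q 0 : MM) *ᵥ u₀ = u₀ := by
    rw [E_apply hR hpp hpq hqq, hp0, hq0]
    simp
  have hRx : (eg f p q 0 : MM) *ᵥ x = x + y := by
    rw [E_apply hR hpp hpq hqq, hy]
  have h1 := M.mul_mem (M.mul_mem (M.mul_mem hRM hQ) (M.inv_mem hRM)) (M.inv_mem hQ)
  rw [eg_conj hf hiso hu₀₀ hx hτ, hRu, hRx, eg_inv hf hu₀₀ hx hτ] at h1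
  have hisoxy : f (x + y) (x + y) = f x x := by
    rw [← hRx, hiso]
  have hu1 : f u₀ (x + y) = 0 := by
    rw [← hRx]
    conv_lhs => rw [← hRu]
    rw [hRu, hRx]
    rw [hy, add_right hf, sub_right hf, smul_right hf, smul_right hf, hx, hp0, hq0]
    simp
  have hu2 : f u₀ (-x) = 0 := by rw [neg_right hf, hx, neg_zero]
  have hγ1 : τ + σ τ = - f (x + y) (x + y) := by rw [hisoxy, hτ]
  have hγ2 : σ τ + σ (σ τ) = - f (-x) (-x) := by
    rw [hf.involutive, neg_left hf, neg_right hf, add_comm, hτ]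
    ring
  rw [eg_mul hf hu₀₀ hu1 hu2 hγ1 hγ2] at h1
  have e1 : x + y + -x = y := by abel
  have e2 : τ + σ τ - f (-x) (x + y) = f x y := by
    rw [neg_left hf, add_right hf, hτ]
    ring
  rw [e1, e2] at h1
  refine ⟨h1, ?_⟩
  rw [sig_f hf]
  have e3 : f (x + y) (x + y) = f x x + f x y + f y x + f y y := by
    rw [hf.add_left, add_right hf, add_right hf]
    ring
  rw [hisoxy] at e3
  linear_combination -e3

theorem AA_step (hn : 6 ≤ Fintype.card ι) (hHM : ratScal F₀ ι ⊓ (uiso f ⊓ specialLinear ι F) ≤ M) {u₀ x p q : VV} (hu₀₀ : f u₀ u₀ = 0) (hA : AA σ f M u₀ x)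
    (hpr : RatV F₀ p) (hqr : RatV F₀ q) (hpp : f p p = 0) (hqq : f q q = 0) (hpq : f p q = 0) (hp0 : f u₀ p = 0) (hq0 : f u₀ q = 0) :
    AA σ f M u₀ (f x p • q - f x q • p) := by
  have hf := hR.unit
  obtain ⟨hx, τ, hτ, hQ⟩ := hA
  obtain ⟨h1, h2⟩ := AA_comm hR hn hHM hu₀₀ hx hτ hQ hpr hqr hpp hqq hpq hp0 hq0
  refine ⟨?_, _, h2, h1⟩
  rw [sub_right hf, smul_right hf, smul_right hf, hp0, hq0]
  simp

/-- A rational vector with an irrational scalar is not in the image. -/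
theorem AA_rat (hn : 13 ≤ Fintype.card ι) (hHM : ratScal F₀ ι ⊓ (uiso f ⊓ specialLinear ι F) ≤ M) (hB : NoIrr F₀ f M) {u₀ w w' : VV} (hu₀ : RatV F₀ u₀) (hu₀₀ : f u₀ u₀ = 0)
    (hu₀0 : u₀ ≠ 0) (hw : RatV F₀ w) (hw' : RatV F₀ w') (hww : f w w = 0) (hw'w' : f w' w' = 0) (hww' : f w w' = 1) (hu₀w : f u₀ w = 0) (hu₀w' : f u₀ w' = 0) {κ : F}
    (hA : AA σ f M u₀ (κ • w)) : κ ∈ F₀ := by
  have hf := hR.unit
  have hn6 : 6 ≤ Fintype.card ι := by omega
  obtain ⟨z, hz, hzz, hzu, huz⟩ := rat_partner hR hu₀ hu₀₀ hu₀0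
  obtain ⟨p, p', hp, hp', hpp, hp'p', hpp', hc1, hc2⟩ := rat_hyp hR ![u₀, z, w, w'] (by
    intro i
    fin_cases i
    · exact hu₀
    · exact hz
    · exact hw
    · exact hw') (by simp; omega)
  have hu₀p : f u₀ p = 0 := hc1 0
  have hzp : f z p = 0 := hc1 1
  have hwp : f w p = 0 := hc1 2
  have hw'p : f w' p = 0 := hc1 3
  have hu₀p' : f u₀ p' = 0 := hc2 0
  have hzp' : f z p' = 0 := hc2 1
  have hF : Frame F₀ f u₀ z p p' :=
    ⟨hu₀, hz, hp, hp', hu₀₀, hzz, hpp, hp'p', huz, hpp', hu₀p, hu₀p', hzp, hzp'⟩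
  obtain ⟨hx, τ, hτ, hQ⟩ := hA
  have hq : RatV F₀ ((-1 : F) • w') := hw'.smul (F₀.neg_mem F₀.one_mem)
  have hqq : f ((-1 : F) • w') ((-1 : F) • w') = 0 := iso_smul hR _ hw'w'
  have hpq : f p ((-1 : F) • w') = 0 := perp_smul_right hR _ (perp_symm hR hw'p)
  obtain ⟨h1, -⟩ := AA_comm hR hn6 hHM hu₀₀ hx hτ hQ hp hq hpp hqq hpq hu₀p (perp_smul_right hR _ hu₀w')
  have e1 : f (κ • w) p = 0 := perp_smul_left hR _ hwp
  have e2 : f (κ • w) ((-1 : F) • w') = - κ := by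
    rw [hf.smul_left, smul_right hf, hww', map_neg, map_one]
    ring
  have e3 : f (κ • w) p • ((-1 : F) • w') - f (κ • w) ((-1 : F) • w') • p = κ • p := by
    rw [e1, e2]
    simp
  rw [e3] at h1
  have e4 : f (κ • w) (κ • p) = 0 := perp_smul_right hR _ e1
  rw [e4] at h1
  exact hB _ _ _ _ hF κ h1

/-- Values of an element of the image on rational isotropic vectors orthogonal to the centre are rational. -/
theorem AA_iso (hn : 13 ≤ Fintype.card ι) (hHM : ratScal F₀ ι ⊓ (uiso f ⊓ specialLinear ι F) ≤ M) (hB : NoIrr F₀ f M) {u₀ y w : VV} (hu₀ : RatV F₀ u₀) (hu₀₀ : f u₀ u₀ = 0)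
    (hu₀0 : u₀ ≠ 0) (hy : AA σ f M u₀ y) (hw : RatV F₀ w) (hww : f w w = 0) (hu₀w : f u₀ w = 0) : f y w ∈ F₀ := by
  have hf := hR.unit
  have hn6 : 6 ≤ Fintype.card ι := by omega
  obtain ⟨w₂, w₄, hw₂, hw₄, h22, h44, h24, hc1, hc2⟩ := rat_hyp hR ![u₀, w] (by
    intro i
    fin_cases i
    · exact hu₀
    · exact hw) (by simp; omega)
  have hu₂ : f u₀ w₂ = 0 := hc1 0
  have hw2 : f w w₂ = 0 := hc1 1
  have hu₄ : f u₀ w₄ = 0 := hc2 0
  have hw4 : f w w₄ = 0 := hc2 1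
  obtain ⟨w₃, w₃', hw₃, hw₃', h33, h3'3', h33', hd1, hd2⟩ := rat_hyp hR ![u₀, w, w₂, w₄] (by
    intro i
    fin_cases i
    · exact hu₀
    · exact hw
    · exact hw₂
    · exact hw₄) (by simp; omega)
  have hu₃ : f u₀ w₃ = 0 := hd1 0
  have hw3 : f w w₃ = 0 := hd1 1
  have h23 : f w₂ w₃ = 0 := hd1 2
  have h43 : f w₄ w₃ = 0 := hd1 3
  have hu₃' : f u₀ w₃' = 0 := hd2 0
  have s1 := AA_step hR hn6 hHM hu₀₀ hy hw hw₂ hww h22 hw2 hu₀w hu₂
  have s2 := AA_step hR hn6 hHM hu₀₀ s1 hw₃ hw₄ h33 h44 (perp_symm hR h43) hu₃ hu₄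
  have e1 : f (f y w • w₂ - f y w₂ • w) w₃ = 0 := by
    rw [sub_left hf, hf.smul_left, hf.smul_left, h23, hw3]
    ring
  have e2 : f (f y w • w₂ - f y w₂ • w) w₄ = f y w := by
    rw [sub_left hf, hf.smul_left, hf.smul_left, h24, hw4]
    ring
  rw [e1, e2, zero_smul, zero_sub, ← neg_smul] at s2
  have h3 := AA_rat hR hn hHM hB hu₀ hu₀₀ hu₀0 hw₃ hw₃' h33 h3'3' h33' hu₃ hu₃' s2
  have := F₀.neg_mem h3
  rwa [neg_neg] at this

theorem AA_gen (hn : 13 ≤ Fintype.card ι) (hHM : ratScal F₀ ι ⊓ (uiso f ⊓ specialLinear ι F) ≤ M) (hB : NoIrr F₀ f M) {u₀ y g : VV} (hu₀ : RatV F₀ u₀) (hu₀₀ : f u₀ u₀ = 0)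
    (hu₀0 : u₀ ≠ 0) (hy : AA σ f M u₀ y) (hg : RatV F₀ g) (hu₀g : f u₀ g = 0) : f y g ∈ F₀ := by
  have hf := hR.unit
  obtain ⟨x₁, p, p', β, hβ, hx₁, hp, hp', h1, h2, h3, he, h4, h5, h6⟩ := rat_iso_decomp hR hu₀ hg (by omega)
  rw [he, sub_right hf, sub_right hf, smul_right hf]
  exact F₀.sub_mem (F₀.sub_mem (AA_iso hR hn hHM hB hu₀ hu₀₀ hu₀0 hy hx₁ h1 (h6 hu₀g)) (AA_iso hR hn hHM hB hu₀ hu₀₀ hu₀0 hy hp h2 h4))
    (F₀.mul_mem (hR.sig _ hβ) (AA_iso hR hn hHM hB hu₀ hu₀₀ hu₀0 hy hp' h3 h5))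

/-- A vector with rational values on rational vectors orthogonal to a rational isotropic vector is rational modulo this vector. -/
theorem rat_mod {u₀ y : VV} (hu₀ : RatV F₀ u₀) (hu₀₀ : f u₀ u₀ = 0) (hu₀0 : u₀ ≠ 0) (hy : f u₀ y = 0)
    (h : ∀ g, RatV F₀ g → f u₀ g = 0 → f y g ∈ F₀) : ∃ y₀ : VV, ∃ e : F, RatV F₀ y₀ ∧ y = y₀ + e • u₀ ∧ f u₀ y₀ = 0 := by
  have hf := hR.unit
  obtain ⟨z, hz, hzz, hzu, huz⟩ := rat_partner hR hu₀ hu₀₀ hu₀0
  refine ⟨y - f y z • u₀, f y z, ?_, by abel, ?_⟩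
  · apply rat_of_dual hR
    intro j
    obtain ⟨g, hg⟩ : ∃ g : VV, g = Pi.single j 1 - (f (Pi.single j 1) u₀) • z := ⟨_, rfl⟩
    have hgr : RatV F₀ g := hg ▸ (ratV_single j).sub (hz.smul (hR.rat _ _ (ratV_single j) hu₀))
    have hgu : f g u₀ = 0 := by
      rw [hg, sub_left hf, hf.smul_left, hzu, mul_one, sub_self]
    have hug : f u₀ g = 0 := perp_symm hR hgu
    have e1 : (Pi.single j 1 : VV) = g + (f (Pi.single j 1) u₀) • z := by
      rw [hg]; abel
    have e2 : f (y - f y z • u₀) z = 0 := by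
      rw [sub_left hf, hf.smul_left, huz]
      ring
    rw [e1, add_right hf, smul_right hf, e2, mul_zero, add_zero, sub_left hf, hf.smul_left, hug, mul_zero, sub_zero]
    exact h g hgr hug
  · rw [sub_right hf, smul_right hf, hy, hu₀₀]
    ring

/-- A transvection of the group whose centre is orthogonal to a rational point contributes to the image. -/
theorem AA_of_tv (hn : 6 ≤ Fintype.card ι) (hHM : ratScal F₀ ι ⊓ (uiso f ⊓ specialLinear ι F) ≤ M) {u₀ a v : VV} {c : F} (hu₀ : RatV F₀ u₀) (hu₀₀ : f u₀ u₀ = 0) (haa : f a a = 0)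
    (hu₀a : f u₀ a = 0) (hc : c + σ c = 0) (hT : eg f a 0 c ∈ M) (hv : RatV F₀ v) (hvv : f v v = 0) (hu₀v : f u₀ v = 0) :
    AA σ f M u₀ ((c * f v a) • a) := by
  have hf := hR.unit
  have hau₀ := perp_symm hR hu₀a
  have hRM : eg f u₀ v 0 ∈ M := eg_in_M hR hn hHM hu₀ hv F₀.zero_mem hu₀₀ hu₀v (zero_ok hR hvv)
  have hiso := eg_iso hf hu₀₀ hu₀v (zero_ok hR hvv)
  have h1 := M.mul_mem (M.mul_mem hRM hT) (M.inv_mem hRM)
  rw [eg_conj hf hiso haa (zero_right hf _) (skew_ok hf hc), Matrix.mulVec_zero, E_apply hR hu₀₀ hu₀v hvv, hau₀, zero_smul, zero_sub, ← sub_eq_add_neg] at h1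
  have e : a - f a v • u₀ = a + (- f a v) • u₀ := by
    rw [neg_smul, sub_eq_add_neg]
  rw [e, tv_decomp hR _ haa hu₀₀ hau₀ hc] at h1
  have h2 := M.mul_mem (M.inv_mem hT) h1
  rw [inv_mul_cancel_left] at h2
  have e2 : σ (- f a v) = - f v a := by rw [map_neg, sig_f hf]
  rw [e2] at h2
  have hτ : c * - f a v * - f v a + σ (c * - f a v * - f v a) = 0 := by
    have hσc : σ c = - c := by linear_combination hc
    simp only [map_mul, map_neg, hσc, sig_f hf]
    ring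
  have hA : AA σ f M u₀ ((c * - f v a) • a) :=
    ⟨perp_smul_right hR _ hu₀a, _, by rw [hτ, iso_smul hR _ haa, neg_zero], h2⟩
  obtain ⟨hx, τ, hτ', hQ⟩ := hA
  refine ⟨perp_smul_right hR _ hu₀a, σ τ, ?_, ?_⟩
  · rw [hf.involutive, add_comm, hτ', iso_smul hR _ haa, iso_smul hR _ haa]
  · have h3 := M.inv_mem hQ
    rw [eg_inv hf hu₀₀ hx hτ'] at h3
    have e3 : -((c * - f v a) • a) = (c * f v a) • a := by
      rw [← neg_smul]
      congr 1
      ring
    rwa [e3] at h3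


/-- The key lemma. -/
theorem key (hn : 13 ≤ Fintype.card ι) (hHM : ratScal F₀ ι ⊓ (uiso f ⊓ specialLinear ι F) ≤ M) (hB : NoIrr F₀ f M) {u₀ a : VV} {c : F} (hu₀ : RatV F₀ u₀) (hu₀₀ : f u₀ u₀ = 0)
    (hu₀0 : u₀ ≠ 0) (haa : f a a = 0) (hu₀a : f u₀ a = 0) (hc : c + σ c = 0) (hc0 : c ≠ 0) (hT : eg f a 0 c ∈ M) : Pt F₀ a := by
  have hf := hR.unit
  have hn6 : 6 ≤ Fintype.card ι := by omega
  have hau₀ := perp_symm hR hu₀a
  have hσc : σ c = - c := by linear_combination hc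
  by_cases h : ∃ v, RatV F₀ v ∧ f v v = 0 ∧ f u₀ v = 0 ∧ f v a ≠ 0
  · obtain ⟨v₀, hv₀, hv₀₀, hu₀v₀, hne⟩ := h
    have hv₀u₀ := perp_symm hR hu₀v₀
    obtain ⟨d, hd⟩ : ∃ d, d = c * f v₀ a := ⟨_, rfl⟩
    have hd0 : d ≠ 0 := hd ▸ mul_ne_zero hc0 hne
    have hA : AA σ f M u₀ (d • a) := hd ▸ AA_of_tv hR hn6 hHM hu₀ hu₀₀ haa hu₀a hc hT hv₀ hv₀₀ hu₀v₀
    obtain ⟨a₀, e₀, ha₀, hda, hu₀a₀⟩ := rat_mod hR hu₀ hu₀₀ hu₀0 hA.1 (fun g hg hg0 => AA_gen hR hn hHM hB hu₀ hu₀₀ hu₀0 hA hg hg0)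
    have ha₀u₀ := perp_symm hR hu₀a₀
    have ha₀a₀ : f a₀ a₀ = 0 := by
      have h1 : f (d • a) (d • a) = 0 := iso_smul hR _ haa
      rw [hda, hf.add_left, add_right hf, add_right hf, hf.smul_left, smul_right hf, smul_right hf, hf.smul_left, hu₀₀, ha₀u₀, hu₀a₀] at h1
      simpa using h1
    have hv₀a₀ : f v₀ a₀ = σ d * f v₀ a := by
      have h1 := congrArg (fun w => f v₀ w) hda
      simp only [smul_right hf, add_right hf, hv₀u₀, mul_zero, add_zero] at h1
      exact h1.symm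
    have hσd : σ d ≠ 0 := by
      intro h0
      exact hd0 (by simpa using (map_eq_zero σ).mp h0)
    have hv₀a₀0 : f v₀ a₀ ≠ 0 := hv₀a₀ ▸ mul_ne_zero hσd hne
    obtain ⟨c', hc'⟩ : ∃ c', c' = c * (d⁻¹ * σ d⁻¹) := ⟨_, rfl⟩
    have hc'0 : c' ≠ 0 := by
      rw [hc']
      exact mul_ne_zero hc0 (mul_ne_zero (inv_ne_zero hd0) (by rw [map_inv₀]; exact inv_ne_zero hσd))
    have hc'e : c' = (f v₀ a₀)⁻¹ := by
      rw [hc', hv₀a₀, map_inv₀]
      have : f v₀ a = d / c := by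
        rw [hd]
        field_simp
      rw [this]
      field_simp
    have hc'r : c' ∈ F₀ := hc'e ▸ F₀.inv_mem (hR.rat _ _ hv₀ ha₀)
    have hc's : c' + σ c' = 0 := by
      rw [hc']
      simp only [map_mul, hσc, hf.involutive]
      ring
    have hT' : eg f (a₀ + e₀ • u₀) 0 c' ∈ M := by
      have e : a = d⁻¹ • (a₀ + e₀ • u₀) := by
        rw [← hda, smul_smul, inv_mul_cancel₀ hd0, one_smul]
      have hz : f (a₀ + e₀ • u₀) (a₀ + e₀ • u₀) = 0 := by
        rw [← hda]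
        exact iso_smul hR _ haa
      have hγ : c + σ c = - f (0 : VV) 0 := skew_ok hf hc
      have h1 := eg_smul_left hf d⁻¹ hz (zero_right hf _) hγ
      rw [smul_zero, ← e, ← hc'] at h1
      rw [← h1]
      exact hT
    rw [tv_decomp hR e₀ ha₀a₀ hu₀₀ ha₀u₀ hc's] at hT'
    have hT₀ : eg f a₀ 0 c' ∈ M := eg_in_M hR hn6 hHM ha₀ ratV_zero hc'r ha₀a₀ (zero_right hf _) (skew_ok hf hc's)
    have h3 := M.mul_mem (M.inv_mem hT₀) hT'
    rw [inv_mul_cancel_left] at h3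
    have hτ : c' * e₀ * σ e₀ + σ (c' * e₀ * σ e₀) = 0 := by
      have hσc' : σ c' = - c' := by linear_combination hc's
      simp only [map_mul, hσc', hf.involutive]
      ring
    have hA' : AA σ f M u₀ ((c' * σ e₀) • a₀) :=
      ⟨perp_smul_right hR _ hu₀a₀, _, by rw [hτ, iso_smul hR _ ha₀a₀, neg_zero], h3⟩
    have h4 := AA_gen hR hn hHM hB hu₀ hu₀₀ hu₀0 hA' hv₀ hu₀v₀
    rw [hf.smul_left] at h4
    have h5 : f a₀ v₀ ≠ 0 := by
      rw [hf.herm]
      intro h0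
      exact hv₀a₀0 (by simpa using (map_eq_zero σ).mp h0)
    have he₀' : σ e₀ ∈ F₀ := by
      have e : σ e₀ = (c' * σ e₀ * f a₀ v₀) * (c' * f a₀ v₀)⁻¹ := by
        field_simp
      rw [e]
      exact F₀.mul_mem h4 (F₀.inv_mem (F₀.mul_mem hc'r (hR.rat _ _ ha₀ hv₀)))
    have he₀ : e₀ ∈ F₀ := by
      have := hR.sig _ he₀'
      rwa [hf.involutive] at this
    refine ⟨d, hd0, ?_⟩
    rw [hda]
    exact ha₀.add (hu₀.smul he₀)
  · push Not at h
    have hall : ∀ g, RatV F₀ g → f u₀ g = 0 → f g a = 0 := by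
      intro g hg hg0
      obtain ⟨x₁, p, p', β, hβ, hx₁, hp, hp', h1, h2, h3, he, h4, h5, h6⟩ := rat_iso_decomp hR hu₀ hg (by omega)
      rw [he, sub_left hf, sub_left hf, hf.smul_left, h x₁ hx₁ h1 (h6 hg0), h p hp h2 h4, h p' hp' h3 h5]
      ring
    obtain ⟨z, hz, hzz, hzu, huz⟩ := rat_partner hR hu₀ hu₀₀ hu₀0
    obtain ⟨μ, hμ⟩ : ∃ μ, μ = f a z := ⟨_, rfl⟩
    have hσμ : σ μ = f z a := by rw [hμ, sig_f hf]
    have ha : a = μ • u₀ := by
      apply sub_eq_zero.mp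
      apply dual_zero hf
      intro j
      obtain ⟨g, hg⟩ : ∃ g : VV, g = Pi.single j 1 - (f (Pi.single j 1) u₀) • z := ⟨_, rfl⟩
      have hgr : RatV F₀ g := hg ▸ (ratV_single j).sub (hz.smul (hR.rat _ _ (ratV_single j) hu₀))
      have hgu : f g u₀ = 0 := by
        rw [hg, sub_left hf, hf.smul_left, hzu, mul_one, sub_self]
      have hug : f u₀ g = 0 := perp_symm hR hgu
      have e1 : (Pi.single j 1 : VV) = g + (f (Pi.single j 1) u₀) • z := by
        rw [hg]; abel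
      rw [e1, hf.add_left, hf.smul_left, sub_right hf, sub_right hf, smul_right hf, smul_right hf, hall g hgr hug, hgu, hσμ, hzu]
      ring
    by_cases hμ0 : μ = 0
    · rw [ha, hμ0, zero_smul]
      exact Pt_zero F₀
    · refine ⟨μ⁻¹, inv_ne_zero hμ0, ?_⟩
      rw [ha, smul_smul, inv_mul_cancel₀ hμ0, one_smul]
      exact hu₀

variable {x : GL ι F}

theorem pt_step (hn : 13 ≤ Fintype.card ι) (hHM : ratScal F₀ ι ⊓ (uiso f ⊓ specialLinear ι F) ≤ M) (hB : NoIrr F₀ f M) (hMS : M ≤ uiso f ⊓ specialLinear ι F) (hx : x ∈ M)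
    {u₀ u₁ : VV} (hu₀₀ : f u₀ u₀ = 0) (hu₀0 : u₀ ≠ 0) (h : Pt F₀ ((x : MM) *ᵥ u₀)) (hu₁ : RatV F₀ u₁) (hu₁₁ : f u₁ u₁ = 0) (hf01 : f u₀ u₁ = 0) :
    Pt F₀ ((x : MM) *ᵥ u₁) := by
  have hf := hR.unit
  have hiso := (hMS hx).1
  have hiso' : ∀ v w, f ((x : MM) *ᵥ v) ((x : MM) *ᵥ w) = f v w := hiso
  obtain ⟨d, hd, hr⟩ := h
  obtain ⟨a₀, ha₀, ha₀0, ha₀s⟩ := rat_skew hR
  have hT : eg f u₁ 0 a₀ ∈ M := eg_in_M hR (by omega) hHM hu₁ ratV_zero ha₀ hu₁₁ (zero_right hf _) (skew_ok hf ha₀s)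
  have h1 := M.mul_mem (M.mul_mem hx hT) (M.inv_mem hx)
  rw [eg_conj hf hiso' hu₁₁ (zero_right hf _) (skew_ok hf ha₀s), Matrix.mulVec_zero] at h1
  refine key hR hn hHM hB hr ?_ (smul_ne_zero hd (SubfieldSL.mulVec_ne_zero x hu₀0)) ?_ ?_ ha₀s ha₀0 h1
  · rw [iso_smul hR _ (by rw [hiso', hu₀₀])]
  · rw [hiso', hu₁₁]
  · rw [hf.smul_left, hiso', hf01, mul_zero]

theorem pt_all (hn : 13 ≤ Fintype.card ι) (hHM : ratScal F₀ ι ⊓ (uiso f ⊓ specialLinear ι F) ≤ M) (hB : NoIrr F₀ f M) (hMS : M ≤ uiso f ⊓ specialLinear ι F) (hx : x ∈ M)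
    {u₀ u₂ : VV} (hu₀ : RatV F₀ u₀) (hu₀₀ : f u₀ u₀ = 0) (hu₀0 : u₀ ≠ 0) (h : Pt F₀ ((x : MM) *ᵥ u₀)) (hu₂ : RatV F₀ u₂) (hu₂₂ : f u₂ u₂ = 0) :
    Pt F₀ ((x : MM) *ᵥ u₂) := by
  have hf := hR.unit
  obtain ⟨v, v', hv, hv', hvv, hv'v', hvv', hd1, hd2⟩ := rat_hyp hR ![u₀, u₂] (by
    intro i
    fin_cases i
    · exact hu₀
    · exact hu₂) (by simp; omega)
  have h0v : f u₀ v = 0 := hd1 0
  have h2v : f u₂ v = 0 := hd1 1
  have hv0 : v ≠ 0 := by
    rintro rfl
    rw [zero_left hf] at hvv'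
    exact zero_ne_one hvv'
  have s1 := pt_step hR hn hHM hB hMS hx hu₀₀ hu₀0 h hv hvv h0v
  exact pt_step hR hn hHM hB hMS hx hvv hv0 s1 hu₂ hu₂₂ (perp_symm hR h2v)

/-- An element mapping rational isotropic vectors to scalar multiples of rational vectors is a scalar multiple of a
rational matrix. -/
theorem ratScal_of_iso_pt (hn : 13 ≤ Fintype.card ι) (h : ∀ u : VV, RatV F₀ u → f u u = 0 → u ≠ 0 → Pt F₀ ((x : MM) *ᵥ u)) : x ∈ ratScal F₀ ι := by
  have hf := hR.unit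
  have hstep : ∀ {c : F} {a b : VV}, c ≠ 0 → RatV F₀ ((c • ((x : MM) *ᵥ a))) → RatV F₀ a → RatV F₀ b → f a a = 0 → f b b = 0 → f a b = 0 → a ≠ 0 → b ≠ 0 →
      (∀ s : F, a ≠ s • b) → RatV F₀ (c • ((x : MM) *ᵥ b)) := by
    intro c a b hc h1 ha hb haa hbb hab ha0 hb0 hind
    obtain ⟨d₂, hd₂, hr₂⟩ := h b hb hbb hb0
    have hsum : f (a + b) (a + b) = 0 := by
      rw [hf.add_left, add_right hf, add_right hf, haa, hbb, hab, perp_symm hR hab]
      ring
    have hne : a + b ≠ 0 := by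
      intro h0
      apply hind (-1)
      rw [neg_smul, one_smul]
      exact eq_neg_of_add_eq_zero_left h0
    obtain ⟨d', hd', hr'⟩ := h (a + b) (ha.add hb) hsum hne
    rw [Matrix.mulVec_add] at hr'
    have hxind : ∀ s : F, (x : MM) *ᵥ a ≠ s • ((x : MM) *ᵥ b) := by
      intro s he
      apply hind s
      have h2 : (x : MM) *ᵥ (a - s • b) = 0 := by
        rw [Matrix.mulVec_sub, Matrix.mulVec_smul, he, sub_self]
      by_contra hcon
      exact SubfieldSL.mulVec_ne_zero x (sub_ne_zero.mpr hcon) h2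
    have hratio := ratio_of_rat hc hd₂ hd' h1 hr₂ hr' (SubfieldSL.mulVec_ne_zero x ha0) (SubfieldSL.mulVec_ne_zero x hb0) hxind
    have e : c • ((x : MM) *ᵥ b) = (c * d₂⁻¹) • (d₂ • ((x : MM) *ᵥ b)) := by
      rw [smul_smul, mul_assoc, inv_mul_cancel₀ hd₂, mul_one]
    rw [e]
    exact hr₂.smul hratio
  obtain ⟨p, p', hp, hp', hpp, hp'p', hpp', -, -⟩ := rat_hyp hR ![] (fun i => i.elim0) (by simp; omega)
  have hp0 : p ≠ 0 := by
    rintro rfl
    rw [zero_left hf] at hpp'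
    exact zero_ne_one hpp'
  obtain ⟨d₀, hd₀, hr₀⟩ := h p hp hpp hp0
  have hiso : ∀ u, RatV F₀ u → f u u = 0 → RatV F₀ (d₀ • ((x : MM) *ᵥ u)) := by
    intro u hu huu
    by_cases hu0 : u = 0
    · rw [hu0, Matrix.mulVec_zero, smul_zero]
      exact ratV_zero
    obtain ⟨v, v', hv, hv', hvv, hv'v', hvv', hd1, hd2⟩ := rat_hyp hR ![p, u] (by
      intro i
      fin_cases i
      · exact hp
      · exact hu) (by simp; omega)
    have hpv : f p v = 0 := hd1 0
    have huv : f u v = 0 := hd1 1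
    have hpv' : f p v' = 0 := hd2 0
    have huv' : f u v' = 0 := hd2 1
    have hv0 : v ≠ 0 := by
      rintro rfl
      rw [zero_left hf] at hvv'
      exact zero_ne_one hvv'
    have h1 : RatV F₀ (d₀ • ((x : MM) *ᵥ v)) := by
      refine hstep hd₀ hr₀ hp hv hpp hvv hpv hp0 hv0 ?_
      intro s he
      rw [he, hf.smul_left, hvv', mul_one] at hpv'
      rw [hpv', zero_smul] at he
      exact hp0 he
    refine hstep hd₀ h1 hv hu hvv huu (perp_symm hR huv) hv0 hu0 ?_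
    intro s he
    rw [he, hf.smul_left, huv', mul_zero] at hvv'
    exact zero_ne_one hvv'
  have hrat : ∀ g, RatV F₀ g → RatV F₀ (d₀ • ((x : MM) *ᵥ g)) := by
    intro g hg
    obtain ⟨x₁, a, a', β, hβ, hx₁, ha, ha', h1, h2, h3, he, -, -, -⟩ := rat_iso_decomp hR hp hg (by omega)
    have e : d₀ • ((x : MM) *ᵥ g) = d₀ • ((x : MM) *ᵥ x₁) - d₀ • ((x : MM) *ᵥ a) - β • (d₀ • ((x : MM) *ᵥ a')) := by
      rw [he, Matrix.mulVec_sub, Matrix.mulVec_sub, Matrix.mulVec_smul]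
      module
    rw [e]
    exact ((hiso _ hx₁ h1).sub (hiso _ ha h2)).sub ((hiso _ ha' h3).smul hβ)
  refine ⟨d₀, hd₀, ?_⟩
  intro i j
  have := hrat (Pi.single j 1) (ratV_single j) i
  rwa [Pi.smul_apply, Matrix.mulVec_single_one, Matrix.col_apply] at this


/-- Two independent rational vectors have a rational isotropic combination. -/
theorem exists_iso_comb {w₁ w₂ : VV} (h₁ : RatV F₀ w₁) (h₂ : RatV F₀ w₂) (h0 : w₁ ≠ 0) (hind : ∀ c : F, w₂ ≠ c • w₁) :
    ∃ α ∈ F₀, ∃ β ∈ F₀, f (α • w₁ + β • w₂) (α • w₁ + β • w₂) = 0 ∧ α • w₁ + β • w₂ ≠ 0 := by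
  have hf := hR.unit
  by_cases h11 : f w₁ w₁ = 0
  · exact ⟨1, F₀.one_mem, 0, F₀.zero_mem, by simpa using h11, by simpa using h0⟩
  obtain ⟨t, ht⟩ : ∃ t, t = f w₂ w₁ / f w₁ w₁ := ⟨_, rfl⟩
  have htr : t ∈ F₀ := ht ▸ F₀.div_mem (hR.rat _ _ h₂ h₁) (hR.rat _ _ h₁ h₁)
  obtain ⟨w₃, hw₃⟩ : ∃ w₃, w₃ = w₂ - t • w₁ := ⟨_, rfl⟩
  have h3r : RatV F₀ w₃ := hw₃ ▸ h₂.sub (h₁.smul htr)
  have h31 : f w₃ w₁ = 0 := by
    rw [hw₃, sub_left hf, hf.smul_left, ht]
    field_simp
    ring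
  have h13 := perp_symm hR h31
  by_cases h33 : f w₃ w₃ = 0
  · refine ⟨-t, F₀.neg_mem htr, 1, F₀.one_mem, ?_, ?_⟩
    · have e : (-t) • w₁ + (1 : F) • w₂ = w₃ := by
        rw [hw₃]
        module
      rw [e]
      exact h33
    · have e : (-t) • w₁ + (1 : F) • w₂ = w₃ := by
        rw [hw₃]
        module
      rw [e, hw₃]
      intro h5
      exact hind t (sub_eq_zero.mp h5)
  · have hμ : - f w₃ w₃ / f w₁ w₁ ≠ 0 := div_ne_zero (neg_ne_zero.mpr h33) h11
    obtain ⟨l, hl, hln⟩ := rat_norm hR (F₀.div_mem (F₀.neg_mem (hR.rat _ _ h3r h3r)) (hR.rat _ _ h₁ h₁)) hμ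
      (by rw [map_div₀, map_neg, sig_f hf, sig_f hf])
    refine ⟨l - t, F₀.sub_mem hl htr, 1, F₀.one_mem, ?_, ?_⟩
    · have e : (l - t) • w₁ + (1 : F) • w₂ = l • w₁ + w₃ := by
        rw [hw₃]
        module
      rw [e, hf.add_left, add_right hf, add_right hf, hf.smul_left, hf.smul_left, smul_right hf, smul_right hf, h31, h13]
      have e2 : l * (σ l * f w₁ w₁) = (l * σ l) * f w₁ w₁ := by ring
      rw [e2, hln]
      field_simp
      ring
    · have e : (l - t) • w₁ + (1 : F) • w₂ = l • w₁ + w₃ := by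
        rw [hw₃]
        module
      rw [e]
      intro h5
      apply hind (t - l)
      have h6 : w₂ - t • w₁ = - (l • w₁) := by
        rw [← hw₃]
        exact (neg_eq_of_add_eq_zero_right h5).symm
      rw [sub_eq_iff_eq_add] at h6
      rw [h6]
      module

/-- A rational involution in the special unitary group has a rational isotropic vector in the image of `z - 1`. -/
theorem exists_iso_image {z : GL ι F} (hzr : RatM F₀ (z : MM)) (hzS : z ∈ uiso f ⊓ specialLinear ι F) (hz1 : z ≠ 1) (hzz : z * z = 1) :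
    ∃ u₀ : VV, RatV F₀ u₀ ∧ f u₀ u₀ = 0 ∧ u₀ ≠ 0 ∧ ∀ a : VV, (z : MM) *ᵥ a = a → f u₀ a = 0 := by
  have hf := hR.unit
  have hiso : ∀ v w, f ((z : MM) *ᵥ v) ((z : MM) *ᵥ w) = f v w := hzS.1
  obtain ⟨A, hA⟩ : ∃ A : VV → VV, A = fun j => (z : MM) *ᵥ j - j := ⟨_, rfl⟩
  have hAr : ∀ j : ι, RatV F₀ (A (Pi.single j 1)) := by
    intro j
    rw [hA]
    exact (hzr.mulVec (ratV_single j)).sub (ratV_single j)
  have hAperp : ∀ (e a : VV), (z : MM) *ᵥ a = a → f (A e) a = 0 := by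
    intro e a ha
    rw [hA]
    simp only
    rw [sub_left hf]
    conv_lhs => rw [← ha]
    rw [hiso, ha, sub_self]
  obtain ⟨j, hj⟩ : ∃ j : ι, A (Pi.single j 1) ≠ 0 := by
    by_contra hcon
    push Not at hcon
    apply hz1
    apply Units.ext
    rw [Units.val_one]
    ext a b
    have := congrFun (hcon b) a
    rw [hA] at this
    simp only [Pi.sub_apply, Matrix.mulVec_single_one, Matrix.col_apply, Pi.zero_apply, sub_eq_zero] at this
    rw [this, Matrix.one_apply, Pi.single_apply]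
  obtain ⟨w, hw⟩ : ∃ w, w = A (Pi.single j 1) := ⟨_, rfl⟩
  rw [← hw] at hj
  have hwr : RatV F₀ w := hw ▸ hAr j
  by_cases hcase : ∃ k, ∀ c : F, A (Pi.single k 1) ≠ c • w
  · obtain ⟨k, hk⟩ := hcase
    obtain ⟨α, hα, β, hβ, h1, h2⟩ := exists_iso_comb hR hwr (hAr k) hj hk
    refine ⟨_, (hwr.smul hα).add ((hAr k).smul hβ), h1, h2, ?_⟩
    intro a ha
    rw [hf.add_left, hf.smul_left, hf.smul_left, hw, hAperp _ a ha, hAperp _ a ha]
    ring
  · push Not at hcase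
    by_cases hww : f w w = 0
    · refine ⟨w, hwr, hww, hj, ?_⟩
      intro a ha
      rw [hw]
      exact hAperp _ a ha
    · exfalso
      choose φ hφ using hcase
      -- `z - 1` has rank one
      have hval : (z : MM) = 1 + vecMulVec w φ := by
        ext a b
        have h3 := congrFun (hφ b) a
        rw [hA] at h3
        simp only [Pi.sub_apply, Matrix.mulVec_single_one, Matrix.col_apply, Pi.smul_apply, smul_eq_mul] at h3
        rw [Matrix.add_apply, vecMulVec_apply, Matrix.one_apply, Pi.single_apply] at *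
        have h4 : w a * φ b = φ b * w a := mul_comm _ _
        rw [h4, ← h3]
        ring
      have hzw : (z : MM) *ᵥ w = - w := by
        rw [hw, hA]
        simp only
        rw [Matrix.mulVec_sub, Matrix.mulVec_mulVec, ← Units.val_mul, hzz, Units.val_one, Matrix.one_mulVec]
        abel
      have h5 : (z : MM) *ᵥ w = w + (φ ⬝ᵥ w) • w := by
        rw [hval, Matrix.add_mulVec, Matrix.one_mulVec, vecMulVec_mulVec, op_smul_eq_smul]
      have h6 : (φ ⬝ᵥ w + 2) • w = 0 := by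
        have : w + (φ ⬝ᵥ w) • w = - w := by rw [← h5, hzw]
        have h7 : (φ ⬝ᵥ w + 2) • w = (w + (φ ⬝ᵥ w) • w) + w := by
          rw [add_smul, two_smul]
          abel
        rw [h7, this]
        abel
      have h7 : φ ⬝ᵥ w + 2 = 0 := (smul_eq_zero.mp h6).resolve_right hj
      have hdet : (z : MM).det = 1 := by
        have h1 : Matrix.GeneralLinearGroup.det z = 1 := hzS.2
        have := congrArg Units.val h1
        simpa [Matrix.GeneralLinearGroup.val_det_apply] using this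
      rw [hval, vecMulVec_eq Unit, det_one_add_replicateCol_mul_replicateRow] at hdet
      have h8 : φ ⬝ᵥ w = 0 := by
        have h9 : 1 + φ ⬝ᵥ w = 1 := hdet
        linear_combination h9
      have h9 : (z : MM) *ᵥ w = w := by
        rw [h5, h8, zero_smul, add_zero]
      apply hww
      have := hAperp (Pi.single j 1) w h9
      rwa [← hw] at this

/-- An element intertwining two rational involutions is a scalar multiple of a rational matrix. -/
theorem ratScal_of_comm (hn : 13 ≤ Fintype.card ι) (hHM : ratScal F₀ ι ⊓ (uiso f ⊓ specialLinear ι F) ≤ M) (hB : NoIrr F₀ f M) (hMS : M ≤ uiso f ⊓ specialLinear ι F) (hx : x ∈ M)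
    {z y : GL ι F} (hzr : RatM F₀ (z : MM)) (hzS : z ∈ uiso f ⊓ specialLinear ι F) (hz1 : z ≠ 1) (hzz : z * z = 1)
    (hxy : x * y = z * x) {v : VV} (hv : RatV F₀ v) (hvv : f v v = 0) (hv0 : v ≠ 0) (hyv : (y : MM) *ᵥ v = v) : x ∈ ratScal F₀ ι := by
  have hf := hR.unit
  have hiso : ∀ v w, f ((x : MM) *ᵥ v) ((x : MM) *ᵥ w) = f v w := (hMS hx).1
  have hfix : (z : MM) *ᵥ ((x : MM) *ᵥ v) = (x : MM) *ᵥ v := by
    have h1 : (z : MM) * (x : MM) = (x : MM) * (y : MM) := by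
      rw [← Units.val_mul, ← Units.val_mul, hxy]
    rw [Matrix.mulVec_mulVec, h1, ← Matrix.mulVec_mulVec, hyv]
  obtain ⟨u₀, hu₀, hu₀₀, hu₀0, hperp⟩ := exists_iso_image hR hzr hzS hz1 hzz
  obtain ⟨a₀, ha₀, ha₀0, ha₀s⟩ := rat_skew hR
  have hT : eg f v 0 a₀ ∈ M := eg_in_M hR (by omega) hHM hv ratV_zero ha₀ hvv (zero_right hf _) (skew_ok hf ha₀s)
  have h1 := M.mul_mem (M.mul_mem hx hT) (M.inv_mem hx)
  rw [eg_conj hf hiso hvv (zero_right hf _) (skew_ok hf ha₀s), Matrix.mulVec_zero] at h1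
  have hP := key hR hn hHM hB hu₀ hu₀₀ hu₀0 (by rw [hiso, hvv]) (hperp _ hfix) ha₀s ha₀0 h1
  apply ratScal_of_iso_pt hR hn
  intro u hu huu _
  exact pt_all hR hn hHM hB hMS hx hv hvv hv0 hP hu huu


omit [Fintype F] hR in
/-- Linear independence from a dual family. -/
theorem li_of_dual (hf : IsUnitaryForm σ f) {k : ℕ} (a b : Fin k → VV) (h : ∀ i j, f (a i) (b j) = if i = j then 1 else 0) : LinearIndependent F a := by
  rw [Fintype.linearIndependent_iff]
  intro g hg j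
  have h1 : f (∑ i, g i • a i) (b j) = 0 := by
    rw [hg, zero_left hf]
  have h2 : ∀ s : Finset (Fin k), f (∑ i ∈ s, g i • a i) (b j) = ∑ i ∈ s, g i * f (a i) (b j) := by
    intro s
    classical
    induction s using Finset.induction_on with
    | empty => simp [zero_left hf]
    | insert a s ha ih => rw [Finset.sum_insert ha, Finset.sum_insert ha, hf.add_left, hf.smul_left, ih]
  rw [h2] at h1
  simp only [h, mul_ite, mul_one, mul_zero, Finset.sum_ite_eq', Finset.mem_univ, if_true] at h1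
  exact h1

/-- The involution acting as `-1` on a hyperbolic plane. -/
theorem exists_hypInv (h2 : (2 : F) ≠ 0) {p p' : VV} (hpp : f p p = 0) (hp'p' : f p' p' = 0) (hpp' : f p p' = 1) :
    ∃ t : GL ι F, (∀ v, (t : MM) *ᵥ v = v + ((-2 : F) * f v p') • p + ((-2 : F) * f v p) • p') ∧ t ∈ uiso f ⊓ specialLinear ι F := by
  have hf := hR.unit
  have hp'p : f p' p = 1 := by rw [hf.herm, hpp', map_one]
  obtain ⟨N, hN⟩ : ∃ N : MM, N = vecMulVec p (fdual f p') + vecMulVec p' (fdual f p) := ⟨_, rfl⟩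
  have hNv : ∀ v, ((1 : MM) + (-2 : F) • N) *ᵥ v = v + ((-2 : F) * f v p') • p + ((-2 : F) * f v p) • p' := by
    intro v
    rw [Matrix.add_mulVec, Matrix.one_mulVec, Matrix.smul_mulVec, hN, Matrix.add_mulVec, vecMulVec_mulVec, vecMulVec_mulVec, op_smul_eq_smul, op_smul_eq_smul,
      dual_dot hf, dual_dot hf]
    module
  have hNN : ((1 : MM) + (-2 : F) • N) * ((1 : MM) + (-2 : F) • N) = 1 := by
    apply Cfsg.Agent.Lib.Classical.mat_ext_mulVec
    intro v
    rw [← Matrix.mulVec_mulVec, hNv, hNv, Matrix.one_mulVec]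
    simp only [hf.add_left, hf.smul_left, hpp, hp'p', hpp', hp'p]
    module
  let t : GL ι F := ⟨1 + (-2 : F) • N, 1 + (-2 : F) • N, hNN, hNN⟩
  have ht : (t : MM) = 1 + (-2 : F) • N := rfl
  refine ⟨t, fun v => by rw [ht, hNv], ?_, ?_⟩
  · intro v w
    rw [ht, hNv, hNv]
    simp only [hf.add_left, add_right hf, hf.smul_left, smul_right hf, hpp, hp'p', hpp', hp'p, map_mul, map_neg, map_ofNat, sig_f hf]
    ring
  · show Matrix.GeneralLinearGroup.det t = 1
    apply Units.ext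
    simp only [Matrix.GeneralLinearGroup.val_det_apply, Units.val_one]
    rw [ht]
    let U : Matrix ι (Fin 2) F := Matrix.of fun i k => ![p i, p' i] k
    let V : Matrix (Fin 2) ι F := Matrix.of fun k j => (-2 : F) * ![fdual f p' j, fdual f p j] k
    have hUV : U * V = (-2 : F) • N := by
      ext i j
      rw [Matrix.mul_apply, Fin.sum_univ_two]
      show p i * ((-2 : F) * fdual f p' j) + p' i * ((-2 : F) * fdual f p j) = _
      rw [hN, Matrix.smul_apply, Matrix.add_apply, vecMulVec_apply, vecMulVec_apply, smul_eq_mul]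
      ring
    have hVU : V * U = !![(-2 : F), 0; 0, -2] := by
      have hsum : ∀ a b : VV, ∑ i, ((-2 : F) * a i) * b i = (-2) * (a ⬝ᵥ b) := by
        intro a b
        rw [dotProduct, Finset.mul_sum]
        exact Finset.sum_congr rfl fun i _ => by ring
      have e1 : fdual f p' ⬝ᵥ p = 1 := by rw [dual_dot hf, hpp']
      have e2 : fdual f p' ⬝ᵥ p' = 0 := by rw [dual_dot hf, hp'p']
      have e3 : fdual f p ⬝ᵥ p = 0 := by rw [dual_dot hf, hpp]
      have e4 : fdual f p ⬝ᵥ p' = 1 := by rw [dual_dot hf, hp'p]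
      ext k l
      rw [Matrix.mul_apply]
      fin_cases k <;> fin_cases l
      · show ∑ i, ((-2 : F) * fdual f p' i) * p i = -2
        rw [hsum, e1, mul_one]
      · show ∑ i, ((-2 : F) * fdual f p' i) * p' i = 0
        rw [hsum, e2, mul_zero]
      · show ∑ i, ((-2 : F) * fdual f p i) * p i = 0
        rw [hsum, e3, mul_zero]
      · show ∑ i, ((-2 : F) * fdual f p i) * p' i = -2
        rw [hsum, e4, mul_one]
    rw [← hUV, Matrix.det_one_add_mul_comm, hVU, Matrix.det_fin_two]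
    simp
    ring

/-- The two involutions. -/
theorem exists_invols_su (hn : 13 ≤ Fintype.card ι) :
    ∃ t₁ t₂ : GL ι F, t₁ ∈ uiso f ⊓ specialLinear ι F ∧ t₂ ∈ uiso f ⊓ specialLinear ι F ∧
      RatM F₀ (t₁ : MM) ∧ RatM F₀ (t₂ : MM) ∧ t₁ * t₁ = 1 ∧ t₂ * t₂ = 1 ∧ t₁ ≠ 1 ∧ t₂ ≠ 1 ∧
      ((t₁ : MM) - 1).rank ≠ ((t₂ : MM) - 1).rank ∧ ((t₁ : MM) - 1).rank + ((t₂ : MM) - 1).rank ≤ 6 := by
  classical
  have hf := hR.unit
  have hn6 : 6 ≤ Fintype.card ι := by omega
  obtain ⟨p₁, p₁', hp₁, hp₁', h11, h1'1', h11', -, -⟩ := rat_hyp hR ![] (fun i => i.elim0) (by simp; omega)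
  obtain ⟨p₂, p₂', hp₂, hp₂', h22, h2'2', h22', hc1, hc2⟩ := rat_hyp hR ![p₁, p₁'] (by
    intro i
    fin_cases i
    · exact hp₁
    · exact hp₁') (by simp; omega)
  have h12 : f p₁ p₂ = 0 := hc1 0
  have h1'2 : f p₁' p₂ = 0 := hc1 1
  have h12' : f p₁ p₂' = 0 := hc2 0
  have h1'2' : f p₁' p₂' = 0 := hc2 1
  have h21 := perp_symm hR h12
  have h21' := perp_symm hR h1'2
  have h2'1 := perp_symm hR h12'
  have h2'1' := perp_symm hR h1'2'
  have h1'1 : f p₁' p₁ = 1 := by rw [hf.herm, h11', map_one]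
  have h2'2 : f p₂' p₂ = 1 := by rw [hf.herm, h22', map_one]
  by_cases h2 : (2 : F) = 0
  · -- characteristic two
    obtain ⟨a₀, ha₀, ha₀0, ha₀s⟩ := rat_skew hR
    have hskew := skew_ok hf ha₀s
    obtain ⟨T₁, hT₁⟩ : ∃ T₁, T₁ = eg f p₁ 0 a₀ := ⟨_, rfl⟩
    obtain ⟨T₂, hT₂⟩ : ∃ T₂, T₂ = eg f p₂ 0 a₀ := ⟨_, rfl⟩
    have hv₁ : ∀ v, (T₁ : MM) *ᵥ v = v + (a₀ * f v p₁) • p₁ := by
      intro v
      rw [hT₁, eg_apply hf h11 (zero_right hf _) hskew]
      unfold egFun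
      rw [zero_right hf]
      module
    have hv₂ : ∀ v, (T₂ : MM) *ᵥ v = v + (a₀ * f v p₂) • p₂ := by
      intro v
      rw [hT₂, eg_apply hf h22 (zero_right hf _) hskew]
      unfold egFun
      rw [zero_right hf]
      module
    have hadd : ∀ x : VV, x + x = 0 := fun x => by
      rw [← two_smul F, h2, zero_smul]
    have hsq₁ : T₁ * T₁ = 1 := by
      apply gl_ext_mulVec
      intro v
      rw [Units.val_mul, ← Matrix.mulVec_mulVec, hv₁, hv₁, Units.val_one, Matrix.one_mulVec]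
      simp only [hf.add_left, hf.smul_left, h11, mul_zero, add_zero]
      rw [add_assoc, hadd, add_zero]
    have hsq₂ : T₂ * T₂ = 1 := by
      apply gl_ext_mulVec
      intro v
      rw [Units.val_mul, ← Matrix.mulVec_mulVec, hv₂, hv₂, Units.val_one, Matrix.one_mulVec]
      simp only [hf.add_left, hf.smul_left, h22, mul_zero, add_zero]
      rw [add_assoc, hadd, add_zero]
    have hcomm : T₁ * T₂ = T₂ * T₁ := by
      apply gl_ext_mulVec
      intro v
      simp only [Units.val_mul, ← Matrix.mulVec_mulVec, hv₁, hv₂, hf.add_left, hf.smul_left, h12, h21, mul_zero, add_zero]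
      abel
    have hS₁ : T₁ ∈ uiso f ⊓ specialLinear ι F := hT₁ ▸ eg_mem_su hf hn6 h11 (zero_right hf _) hskew
    have hS₂ : T₂ ∈ uiso f ⊓ specialLinear ι F := hT₂ ▸ eg_mem_su hf hn6 h22 (zero_right hf _) hskew
    have hR₁ : RatM F₀ (T₁ : MM) := hT₁ ▸ eg_rat hR hp₁ ratV_zero ha₀ h11 (zero_right hf _) hskew
    have hR₂ : RatM F₀ (T₂ : MM) := hT₂ ▸ eg_rat hR hp₂ ratV_zero ha₀ h22 (zero_right hf _) hskew
    have hsolve₁ : ((T₁ : MM) - 1) *ᵥ (a₀⁻¹ • p₁') = p₁ := by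
      rw [Matrix.sub_mulVec, Matrix.one_mulVec, hv₁, add_sub_cancel_left, hf.smul_left, h1'1, mul_one, mul_inv_cancel₀ ha₀0, one_smul]
    have hrk₁ : ((T₁ : MM) - 1).rank = 1 := by
      refine rank_of_family (k := 1) ![p₁] (li_of_dual hf ![p₁] ![p₁'] (by
        intro i j
        fin_cases i
        fin_cases j
        simpa using h11')) ?_ ?_
      · intro v
        rw [Matrix.sub_mulVec, Matrix.one_mulVec, hv₁, add_sub_cancel_left]
        exact Submodule.smul_mem _ _ (Submodule.subset_span ⟨0, rfl⟩)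
      · intro i
        fin_cases i
        exact ⟨_, hsolve₁⟩
    have hv₁₂ : ∀ v, ((T₁ * T₂ : GL ι F) : MM) *ᵥ v = v + (a₀ * f v p₁) • p₁ + (a₀ * f v p₂) • p₂ := by
      intro v
      rw [Units.val_mul, ← Matrix.mulVec_mulVec, hv₂, hv₁]
      simp only [hf.add_left, hf.smul_left, h21, mul_zero, add_zero]
      abel
    have hrk₂ : (((T₁ * T₂ : GL ι F) : MM) - 1).rank = 2 := by
      refine rank_of_family (k := 2) ![p₁, p₂] (li_of_dual hf ![p₁, p₂] ![p₁', p₂'] (by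
        intro i j
        fin_cases i <;> fin_cases j
        · simpa using h11'
        · simpa using h12'
        · simpa using h21'
        · simpa using h22')) ?_ ?_
      · intro v
        have e : ((T₁ * T₂ : GL ι F) : MM) *ᵥ v - v = (a₀ * f v p₁) • p₁ + (a₀ * f v p₂) • p₂ := by
          rw [hv₁₂]
          abel
        rw [Matrix.sub_mulVec, Matrix.one_mulVec, e]
        exact add_mem (Submodule.smul_mem _ _ (Submodule.subset_span ⟨0, rfl⟩)) (Submodule.smul_mem _ _ (Submodule.subset_span ⟨1, rfl⟩))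
      · intro i
        have hs : ∀ v, ((T₁ * T₂ : GL ι F) : MM) *ᵥ v - v = (a₀ * f v p₁) • p₁ + (a₀ * f v p₂) • p₂ := by
          intro v
          rw [hv₁₂]
          abel
        fin_cases i
        · refine ⟨a₀⁻¹ • p₁', ?_⟩
          rw [Matrix.sub_mulVec, Matrix.one_mulVec, hs, hf.smul_left, hf.smul_left, h1'1, h1'2, mul_one, mul_inv_cancel₀ ha₀0, mul_zero, mul_zero, one_smul, zero_smul, add_zero]
          rfl
        · refine ⟨a₀⁻¹ • p₂', ?_⟩
          rw [Matrix.sub_mulVec, Matrix.one_mulVec, hs, hf.smul_left, hf.smul_left, h2'1, h2'2, mul_one, mul_inv_cancel₀ ha₀0, mul_zero, mul_zero, one_smul, zero_smul, zero_add]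
          rfl
    refine ⟨T₁, T₁ * T₂, hS₁, mul_mem hS₁ hS₂, hR₁, ?_, hsq₁, ?_, ?_, ?_, ?_, ?_⟩
    · rw [Units.val_mul]
      exact hR₁.mul hR₂
    · calc T₁ * T₂ * (T₁ * T₂) = T₁ * (T₂ * T₁) * T₂ := by group
        _ = T₁ * (T₁ * T₂) * T₂ := by rw [hcomm]
        _ = (T₁ * T₁) * (T₂ * T₂) := by group
        _ = 1 := by rw [hsq₁, hsq₂, one_mul]
    · intro h
      rw [h, Units.val_one, sub_self, Matrix.rank_zero] at hrk₁
      omega
    · intro h
      rw [h, Units.val_one, sub_self, Matrix.rank_zero] at hrk₂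
      omega
    · rw [hrk₁, hrk₂]
      omega
    · rw [hrk₁, hrk₂]
      omega
  · -- odd characteristic
    obtain ⟨T₁, hv₁, hS₁⟩ := exists_hypInv hR h2 h11 h1'1' h11'
    obtain ⟨T₂, hv₂, hS₂⟩ := exists_hypInv hR h2 h22 h2'2' h22'
    have hsq₁ : T₁ * T₁ = 1 := by
      apply gl_ext_mulVec
      intro v
      rw [Units.val_mul, ← Matrix.mulVec_mulVec, hv₁, hv₁, Units.val_one, Matrix.one_mulVec]
      simp only [hf.add_left, hf.smul_left, h11, h1'1', h11', h1'1]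
      module
    have hsq₂ : T₂ * T₂ = 1 := by
      apply gl_ext_mulVec
      intro v
      rw [Units.val_mul, ← Matrix.mulVec_mulVec, hv₂, hv₂, Units.val_one, Matrix.one_mulVec]
      simp only [hf.add_left, hf.smul_left, h22, h2'2', h22', h2'2]
      module
    have hcomm : T₁ * T₂ = T₂ * T₁ := by
      apply gl_ext_mulVec
      intro v
      simp only [Units.val_mul, ← Matrix.mulVec_mulVec, hv₁, hv₂, hf.add_left, hf.smul_left, h12, h21, h12', h21', h2'1, h2'1', h1'2, h1'2', mul_zero, add_zero]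
      abel
    have hm2 : (2 : F)⁻¹ * 2 = 1 := inv_mul_cancel₀ h2
    have hR₁ : RatM F₀ (T₁ : MM) := by
      apply SubfieldSp.ratM_of_mulVec
      intro j
      rw [hv₁]
      have h3 : (-2 : F) ∈ F₀ := F₀.neg_mem (by simpa using F₀.natCast_mem 2)
      exact ((ratV_single j).add (hp₁.smul (F₀.mul_mem h3 (hR.rat _ _ (ratV_single j) hp₁')))).add (hp₁'.smul (F₀.mul_mem h3 (hR.rat _ _ (ratV_single j) hp₁)))
    have hR₂ : RatM F₀ (T₂ : MM) := by
      apply SubfieldSp.ratM_of_mulVec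
      intro j
      rw [hv₂]
      have h3 : (-2 : F) ∈ F₀ := F₀.neg_mem (by simpa using F₀.natCast_mem 2)
      exact ((ratV_single j).add (hp₂.smul (F₀.mul_mem h3 (hR.rat _ _ (ratV_single j) hp₂')))).add (hp₂'.smul (F₀.mul_mem h3 (hR.rat _ _ (ratV_single j) hp₂)))
    have hs₁ : ∀ v, ((T₁ : MM) - 1) *ᵥ v = ((-2 : F) * f v p₁') • p₁ + ((-2 : F) * f v p₁) • p₁' := by
      intro v
      rw [Matrix.sub_mulVec, Matrix.one_mulVec, hv₁]
      abel
    have hrk₁ : ((T₁ : MM) - 1).rank = 2 := by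
      refine rank_of_family (k := 2) ![p₁, p₁'] (li_of_dual hf ![p₁, p₁'] ![p₁', p₁] (by
        intro i j
        fin_cases i <;> fin_cases j
        · simpa using h11'
        · simpa using h11
        · simpa using h1'1'
        · simpa using h1'1)) ?_ ?_
      · intro v
        rw [hs₁]
        exact add_mem (Submodule.smul_mem _ _ (Submodule.subset_span ⟨0, rfl⟩)) (Submodule.smul_mem _ _ (Submodule.subset_span ⟨1, rfl⟩))
      · intro i
        fin_cases i
        · refine ⟨(-(2 : F)⁻¹) • p₁, ?_⟩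
          rw [hs₁, hf.smul_left, hf.smul_left, h11', h11]
          have e : (-2 : F) * (-(2 : F)⁻¹ * 1) = 1 := by linear_combination hm2
          rw [e]
          simp
        · refine ⟨(-(2 : F)⁻¹) • p₁', ?_⟩
          rw [hs₁, hf.smul_left, hf.smul_left, h1'1, h1'1']
          have e : (-2 : F) * (-(2 : F)⁻¹ * 1) = 1 := by linear_combination hm2
          rw [e]
          simp
    have hs₁₂ : ∀ v, (((T₁ * T₂ : GL ι F) : MM) - 1) *ᵥ v = ((-2 : F) * f v p₁') • p₁ + ((-2 : F) * f v p₁) • p₁' + ((-2 : F) * f v p₂') • p₂ + ((-2 : F) * f v p₂) • p₂' := by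
      intro v
      rw [Matrix.sub_mulVec, Matrix.one_mulVec, Units.val_mul, ← Matrix.mulVec_mulVec, hv₂, hv₁]
      simp only [hf.add_left, hf.smul_left, h21, h21', h2'1, h2'1', mul_zero, add_zero]
      abel
    have hrk₂ : (((T₁ * T₂ : GL ι F) : MM) - 1).rank = 4 := by
      refine rank_of_family (k := 4) ![p₁, p₁', p₂, p₂'] (li_of_dual hf ![p₁, p₁', p₂, p₂'] ![p₁', p₁, p₂', p₂] (by
        intro i j
        fin_cases i <;> fin_cases j
        · simpa using h11'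
        · simpa using h11
        · simpa using h12'
        · simpa using h12
        · simpa using h1'1'
        · simpa using h1'1
        · simpa using h1'2'
        · simpa using h1'2
        · simpa using h2'1' |> fun x => by simpa using h21'
        · simpa using h21
        · simpa using h22'
        · simpa using h22
        · simpa using h2'1'
        · simpa using h2'1
        · simpa using h2'2'
        · simpa using h2'2)) ?_ ?_
      · intro v
        rw [hs₁₂]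
        exact add_mem (add_mem (add_mem (Submodule.smul_mem _ _ (Submodule.subset_span ⟨0, rfl⟩)) (Submodule.smul_mem _ _ (Submodule.subset_span ⟨1, rfl⟩))) (Submodule.smul_mem _ _ (Submodule.subset_span ⟨2, rfl⟩))) (Submodule.smul_mem _ _ (Submodule.subset_span ⟨3, rfl⟩))
      · intro i
        have e : (-2 : F) * (-(2 : F)⁻¹ * 1) = 1 := by linear_combination hm2
        fin_cases i
        · refine ⟨(-(2 : F)⁻¹) • p₁, ?_⟩
          rw [hs₁₂]
          simp only [hf.smul_left, h11', h11, h12, h12', mul_zero, e]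
          simp
        · refine ⟨(-(2 : F)⁻¹) • p₁', ?_⟩
          rw [hs₁₂]
          simp only [hf.smul_left, h1'1, h1'1', h1'2, h1'2', mul_zero, e]
          simp
        · refine ⟨(-(2 : F)⁻¹) • p₂, ?_⟩
          rw [hs₁₂]
          simp only [hf.smul_left, h22', h22, h21, h21', mul_zero, e]
          simp
        · refine ⟨(-(2 : F)⁻¹) • p₂', ?_⟩
          rw [hs₁₂]
          simp only [hf.smul_left, h2'2, h2'2', h2'1, h2'1', mul_zero, e]
          simp
    refine ⟨T₁, T₁ * T₂, hS₁, mul_mem hS₁ hS₂, hR₁, ?_, hsq₁, ?_, ?_, ?_, ?_, ?_⟩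
    · rw [Units.val_mul]
      exact hR₁.mul hR₂
    · calc T₁ * T₂ * (T₁ * T₂) = T₁ * (T₂ * T₁) * T₂ := by group
        _ = T₁ * (T₁ * T₂) * T₂ := by rw [hcomm]
        _ = (T₁ * T₁) * (T₂ * T₂) := by group
        _ = 1 := by rw [hsq₁, hsq₂, one_mul]
    · intro h
      rw [h, Units.val_one, sub_self, Matrix.rank_zero] at hrk₁
      omega
    · intro h
      rw [h, Units.val_one, sub_self, Matrix.rank_zero] at hrk₂
      omega
    · rw [hrk₁, hrk₂]
      omega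
    · rw [hrk₁, hrk₂]

/-- The main argument. -/
theorem le_ratScal (hn : 13 ≤ Fintype.card ι) (hHM : ratScal F₀ ι ⊓ (uiso f ⊓ specialLinear ι F) ≤ M) (hB : NoIrr F₀ f M) (hMS : M ≤ uiso f ⊓ specialLinear ι F) :
    M ≤ ratScal F₀ ι := by
  obtain ⟨t₁, t₂, hs₁, hs₂, hr₁, hr₂, ht₁, ht₂, h10, h20, hne, hrk⟩ := exists_invols_su hR (F₀ := F₀) hn
  have hmem : ∀ {g : GG}, RatM F₀ (g : MM) → g ∈ uiso f ⊓ specialLinear ι F → g ∈ M := fun hg hs =>
    hHM ⟨⟨1, one_ne_zero, by rwa [one_smul]⟩, hs⟩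
  refine dihedral_main (s₀ := 6) (by omega) (hmem hr₁ hs₁) (hmem hr₂ hs₂) hr₁ hr₂ ht₁ ht₂ h10 h20 hne hrk ?_
  intro x hx z y hz hy hzz _ hzr hyr hz1 _ hxy hbig
  obtain ⟨v₁, v₂, hv₁, hv₂, hb₁, hb₂, hv₁0, hind⟩ := exists_rat_ker₂ (hyr.sub ratM_one) (by omega)
  obtain ⟨α, hα, β, hβ, h1, h2⟩ := exists_iso_comb hR hv₁ hv₂ hv₁0 hind
  have hyv : (y : MM) *ᵥ (α • v₁ + β • v₂) = α • v₁ + β • v₂ := by
    rw [Matrix.sub_mulVec, Matrix.one_mulVec, sub_eq_zero] at hb₁ hb₂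
    rw [Matrix.mulVec_add, Matrix.mulVec_smul, Matrix.mulVec_smul, hb₁, hb₂]
  exact ratScal_of_comm hR hn hHM hB hMS hx hzr (hMS hz) hz1 hzz hxy ((hv₁.smul hα).add (hv₂.smul hβ)) h1 h2 hyv

/-- The maximality for a rational form. -/
theorem isMaximal_abs (hn : 13 ≤ Fintype.card ι) {r : ℕ} (hr : r.Prime) (hcard : Fintype.card F = Nat.card F₀ ^ r) :
    IsMaximalIn (uiso f ⊓ specialLinear ι F) (ratScal F₀ ι ⊓ (uiso f ⊓ specialLinear ι F)) := by
  have hf := hR.unit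
  have hn6 : 6 ≤ Fintype.card ι := by omega
  constructor
  · refine lt_of_le_of_ne inf_le_right ?_
    intro h
    obtain ⟨κ, hκ⟩ := SubfieldSp.exists_notMem_subfield (F₀ := F₀) hr hcard
    -- a frame
    obtain ⟨z, z', hz, hz', hzz, hz'z', hzz', -, -⟩ := rat_hyp hR ![] (fun i => i.elim0) (by simp; omega)
    obtain ⟨u, u', hu, hu', huu, hu'u', huu', hc1, hc2⟩ := rat_hyp hR ![z, z'] (by
      intro i
      fin_cases i
      · exact hz
      · exact hz') (by simp; omega)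
    have hzu : f z u = 0 := hc1 0
    have hz'u : f z' u = 0 := hc1 1
    have hzu' : f z u' = 0 := hc2 0
    have hz'u' : f z' u' = 0 := hc2 1
    have hg : eg f z (κ • u) 0 ∈ uiso f ⊓ specialLinear ι F :=
      eg_mem_su hf hn6 hzz (perp_smul_right hR _ hzu) (zero_ok hR (iso_smul hR _ huu))
    rw [← h] at hg
    obtain ⟨d, hd, hrat⟩ := hg.1
    -- the images of rational vectors
    have hv : ∀ v, RatV F₀ v → RatV F₀ (d • ((eg f z (κ • u) 0 : MM) *ᵥ v)) := by
      intro v hv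
      have : (d • (eg f z (κ • u) 0 : MM)) *ᵥ v = d • ((eg f z (κ • u) 0 : MM) *ᵥ v) := Matrix.smul_mulVec _ _ _
      rw [← this]
      exact RatM.mulVec hrat hv
    have hz'img : (eg f z (κ • u) 0 : MM) *ᵥ z' = z' + (κ • u) := by
      rw [E_apply hR hzz (perp_smul_right hR _ hzu) (iso_smul hR _ huu), smul_right hf, hz'u]
      have hz'z : f z' z = 1 := by rw [hf.herm, hzz', map_one]
      rw [hz'z]
      simp
    have huimg : (eg f z (κ • u) 0 : MM) *ᵥ u' = u' - (σ κ) • z := by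
      rw [E_apply hR hzz (perp_smul_right hR _ hzu) (iso_smul hR _ huu), smul_right hf, perp_symm hR hzu']
      have hu'u : f u' u = 1 := by rw [hf.herm, huu', map_one]
      rw [hu'u]
      simp [sub_eq_add_neg]
    -- the values
    have e1 := hR.rat _ _ (hv z' hz') hu'
    rw [hz'img, hf.smul_left, hf.add_left, hz'u', hf.smul_left, huu'] at e1
    have e2 := hR.rat _ _ (hv z' hz') hz'
    rw [hz'img, hf.smul_left, hf.add_left, hz'z', hf.smul_left, perp_symm hR hz'u] at e2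
    have e3 := hR.rat _ _ (hv u' hu') hu'
    rw [huimg, hf.smul_left, sub_left hf, hu'u', hf.smul_left, hzu'] at e3
    have e4 := hR.rat _ _ (hv z' hz') hz
    rw [hz'img, hf.smul_left, hf.add_left, hf.smul_left, perp_symm hR hzu] at e4
    have hz'z : f z' z = 1 := by rw [hf.herm, hzz', map_one]
    rw [hz'z] at e4
    simp only [mul_zero, add_zero, zero_add, mul_one] at e1 e2 e3 e4
    apply hκ
    have hd' : d ∈ F₀ := e4
    have e : κ = (d * κ) * d⁻¹ := by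
      field_simp
    rw [e]
    exact F₀.mul_mem e1 (F₀.inv_mem hd')
  · intro M hHM hMS
    by_cases hB : NoIrr F₀ f M
    · left
      exact le_antisymm (le_inf (le_ratScal hR hn hHM hB hMS) hMS) hHM
    · right
      unfold NoIrr at hB
      push Not at hB
      obtain ⟨z, z', u, u', hF, κ, hS, hκ⟩ := hB
      exact le_antisymm hMS (su_le_of_irr hR hn hHM hr hcard hF hκ hS)

end key

section reduction

theorem arith_ne {Q q r : ℕ} (hQ : 2 ≤ Q) (hr : Odd r) (h : q ^ 2 = Q ^ r) (hd : Q - 1 ∣ q - 1) : False := by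
  obtain ⟨s, rfl⟩ := hr
  have h1 : (Q ^ s) ^ 2 ∣ q ^ 2 := by
    rw [h, ← pow_mul, mul_comm s 2]
    exact pow_dvd_pow _ (by omega)
  obtain ⟨t, ht⟩ := (Nat.pow_dvd_pow_iff (two_ne_zero)).1 h1
  have hQs : 0 < Q ^ s := by positivity
  have ht2 : t ^ 2 = Q := by
    have h2 : (Q ^ s) ^ 2 * t ^ 2 = (Q ^ s) ^ 2 * Q := by
      calc (Q ^ s) ^ 2 * t ^ 2 = q ^ 2 := by rw [ht]; ring
        _ = Q ^ (2 * s + 1) := h
        _ = (Q ^ s) ^ 2 * Q := by ring
    exact Nat.eq_of_mul_eq_mul_left (by positivity) h2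
  have hq : q = t ^ (2 * s + 1) := by
    rw [ht, ← ht2]
    ring
  have ht1 : 2 ≤ t := by
    by_contra hcon
    have : t ≤ 1 := by omega
    interval_cases t <;> omega
  have hd' : ((t : ℤ) ^ 2 - 1) ∣ (t : ℤ) ^ (2 * s + 1) - 1 := by
    have h3 : ((Q - 1 : ℕ) : ℤ) ∣ ((q - 1 : ℕ) : ℤ) := Int.natCast_dvd_natCast.mpr hd
    have hq1 : 1 ≤ q := by
      rw [hq]
      exact Nat.one_le_pow _ _ (by omega)
    rw [Nat.cast_sub (by omega), Nat.cast_sub hq1, hq, ← ht2] at h3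
    push_cast at h3
    exact h3
  have h4 : ((t : ℤ) ^ 2 - 1) ∣ ((t : ℤ) ^ 2) ^ s - 1 := by
    have := sub_dvd_pow_sub_pow ((t : ℤ) ^ 2) 1 s
    rwa [one_pow] at this
  have h5 : ((t : ℤ) ^ 2 - 1) ∣ (t : ℤ) - 1 := by
    have h6 : (t : ℤ) - 1 = ((t : ℤ) ^ (2 * s + 1) - 1) - (t : ℤ) * (((t : ℤ) ^ 2) ^ s - 1) := by
      rw [← pow_mul]
      ring
    rw [h6]
    exact dvd_sub hd' (Dvd.dvd.mul_left h4 _)
  have ht' : (2 : ℤ) ≤ t := by exact_mod_cast ht1
  have h7 := Int.le_of_dvd (by linarith) h5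
  nlinarith

variable [Fintype F]

theorem exists_pow_ne {q r : ℕ} (hF : Fintype.card F = q ^ 2) (hro : Odd r) (hcard : Fintype.card F = Nat.card F₀ ^ r) : ∃ a ∈ F₀, a ^ q ≠ a := by
  classical
  by_contra hcon
  push Not at hcon
  letI : Fintype F₀ := Fintype.ofFinite _
  have hQ : 2 ≤ Nat.card F₀ := by
    rw [Nat.card_eq_fintype_card]
    exact Fintype.one_lt_card
  have hq : 2 ≤ q := Cfsg.Agent.Lib.Classical.two_le_q hF
  have h1 : q ^ 2 = Nat.card F₀ ^ r := by rw [← hF, hcard]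
  apply arith_ne hQ hro h1
  rw [Nat.card_eq_fintype_card]
  rw [← FiniteField.forall_pow_eq_one_iff]
  intro x
  apply Units.ext
  have h2 : ((x : F₀) : F) ^ q = ((x : F₀) : F) := hcon _ (x : F₀).2
  have h3 : ((x : F₀) : F) ≠ 0 := by
    intro h0
    exact x.ne_zero (Subtype.ext h0)
  have h4 : ((x : F₀) : F) ^ (q - 1) = 1 := by
    have h5 : q = (q - 1) + 1 := by omega
    rw [h5, pow_succ] at h2
    exact mul_right_cancel₀ h3 (by rw [h2, one_mul])
  apply Subtype.ext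
  simpa using h4

variable {n q : ℕ}

/-- The subfield subgroups of the special unitary group are maximal. -/
theorem isMaximal (hF : Fintype.card F = q ^ 2) (hn : 13 ≤ n) (F₀ : Subfield F) {r : ℕ} (hr : r.Prime) (hro : Odd r)
    (hcard : Fintype.card F = Nat.card F₀ ^ r) (P : GL (Fin n) F) (hP : IsFormRationalStructure (Cfsg.hermForm n F q) F₀ 1 P) :
    IsMaximalIn (Cfsg.GU n F q ⊓ specialLinear (Fin n) F) (subfieldSubgroup F₀ P ⊓ (Cfsg.GU n F q ⊓ specialLinear (Fin n) F)) := by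
  classical
  obtain ⟨σ, hf, hσ⟩ := hermForm_unitary (n := n) hF
  obtain ⟨f', hf'⟩ : ∃ f' : (Fin n → F) → (Fin n → F) → F, f' = fun u v => Cfsg.hermForm n F q ((P : Matrix (Fin n) (Fin n) F) *ᵥ u) ((P : Matrix (Fin n) (Fin n) F) *ᵥ v) := ⟨_, rfl⟩
  have hinv : ∀ z : Fin n → F, (P : Matrix (Fin n) (Fin n) F) *ᵥ (((P⁻¹ : GL (Fin n) F) : Matrix (Fin n) (Fin n) F) *ᵥ z) = z := by
    intro z
    rw [Matrix.mulVec_mulVec, ← Units.val_mul, mul_inv_cancel, Units.val_one, Matrix.one_mulVec]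
  have hU : IsUnitaryForm σ f' := by
    refine ⟨hf.ne_refl, hf.involutive, ?_, ?_, ?_, ?_⟩
    · intro x y v
      rw [hf']
      simp only [Matrix.mulVec_add, hf.add_left]
    · intro c x v
      rw [hf']
      simp only [Matrix.mulVec_smul, hf.smul_left]
    · intro v w
      rw [hf']
      exact hf.herm _ _
    · intro v hv
      have hPv : (P : Matrix (Fin n) (Fin n) F) *ᵥ v ≠ 0 := SubfieldSL.mulVec_ne_zero P hv
      obtain ⟨⟨x, hx⟩, ⟨y, hy⟩⟩ := hf.nondegenerate _ hPv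
      refine ⟨⟨((P⁻¹ : GL (Fin n) F) : Matrix (Fin n) (Fin n) F) *ᵥ x, ?_⟩, ⟨((P⁻¹ : GL (Fin n) F) : Matrix (Fin n) (Fin n) F) *ᵥ y, ?_⟩⟩
      · rw [hf']
        simp only [hinv]
        exact hx
      · rw [hf']
        simp only [hinv]
        exact hy
  have hR : RatForm σ f' F₀ := by
    refine ⟨hU, fun a ha => ?_, ?_, ?_⟩
    · rw [hσ]
      exact F₀.pow_mem ha q
    · obtain ⟨a, ha, hne⟩ := exists_pow_ne (F₀ := F₀) hF hro hcard
      exact ⟨a, ha, by rw [hσ]; exact hne⟩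
    · intro u v hu hv
      have := hP u v hu hv
      rw [one_mul] at this
      rw [hf']
      exact this
  have hmax := isMaximal_abs hR (by simpa using hn) hr hcard
  have hN : (specialLinear (Fin n) F).Normal := by
    unfold specialLinear
    infer_instance
  have hSL : (specialLinear (Fin n) F).map (MulAut.conj P).toMonoidHom = specialLinear (Fin n) F := Subgroup.Normal.map_conj_eq _ P
  have hiso : (uiso f').map (MulAut.conj P).toMonoidHom = Cfsg.GU n F q := by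
    rw [GU_eq_uiso]
    apply le_antisymm
    · rintro _ ⟨g, hg, rfl⟩
      intro a b
      have h1 := hg (((P⁻¹ : GL (Fin n) F) : Matrix (Fin n) (Fin n) F) *ᵥ a) (((P⁻¹ : GL (Fin n) F) : Matrix (Fin n) (Fin n) F) *ᵥ b)
      rw [hf'] at h1
      simp only [hinv] at h1
      rw [← h1]
      simp only [MulEquiv.toMonoidHom_eq_coe, MonoidHom.coe_coe, MulAut.conj_apply, Units.val_mul, ← Matrix.mulVec_mulVec]
    · intro h hh
      have hmem : P⁻¹ * h * P ∈ uiso f' := by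
        intro u v
        rw [hf']
        simp only [Units.val_mul, ← Matrix.mulVec_mulVec, hinv]
        exact hh _ _
      exact ⟨_, hmem, by simp [MulAut.conj_apply, mul_assoc]⟩
  have hG : (uiso f' ⊓ specialLinear (Fin n) F).map (MulAut.conj P).toMonoidHom = Cfsg.GU n F q ⊓ specialLinear (Fin n) F := by
    rw [Subgroup.map_inf_eq _ _ _ (MulAut.conj P).injective, hSL, hiso]
  have hH : subfieldSubgroup F₀ P ⊓ (Cfsg.GU n F q ⊓ specialLinear (Fin n) F) = (ratScal F₀ (Fin n) ⊓ (uiso f' ⊓ specialLinear (Fin n) F)).map (MulAut.conj P).toMonoidHom := by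
    rw [Subgroup.map_inf_eq _ _ _ (MulAut.conj P).injective, hG, subfieldSubgroup, sup_eq_ratScal]
  rw [hH, ← hG]
  exact isMaximalIn_map_conj P hmax

end reduction

end Cfsg.Agent.Lib.ClassMax.SubfieldSU
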