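import Mathlib
import Cfsg.Agent.Lib.ClassMax.OmegaFrame2

/-! Pure tensors attached to a tensor form structure, and an abstract criterion for intermediate subgroups when one
tensor factor carries a frame. -/

set_option autoImplicit false

namespace Cfsg.Agent.Lib.ClassMax.TensorFrame

open Matrix Cfsg.Geo Cfsg.Agent.Lib.ClassMax Cfsg.Agent.Lib.ClassMax.QuadOver Cfsg.Agent.Lib.ClassMax.OmegaCore
open Cfsg.Agent.Lib.ClassMax.OmegaFrame
open scoped Kronecker

variable {ι : Type} [Fintype ι] [DecidableEq ι] {F : Type*} [Field F]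

local notation "VV" => (ι → F)
local notation "MM" => Matrix ι ι F
local notation "GG" => GL ι F

/-- The tensor of two coordinate vectors. -/
def tens {n₁ n₂ : ℕ} (x₁ : Fin n₁ → F) (x₂ : Fin n₂ → F) : Fin n₁ × Fin n₂ → F := fun a => x₁ a.1 * x₂ a.2

/-- Pure tensors in the coordinates given by `e` and `P`. -/
def pure {n₁ n₂ : ℕ} (e : ι ≃ Fin n₁ × Fin n₂) (P : GL ι F) (x₁ : Fin n₁ → F) (x₂ : Fin n₂ → F) : ι → F :=
  (P : Matrix ι ι F) *ᵥ (tens x₁ x₂ ∘ e)

section Pure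

variable {n₁ n₂ : ℕ} (e : ι ≃ Fin n₁ × Fin n₂) (P : GL ι F)

theorem pure_add_left (x x' : Fin n₁ → F) (y : Fin n₂ → F) : pure e P (x + x') y = pure e P x y + pure e P x' y := by
  unfold pure
  rw [← Matrix.mulVec_add]
  congr 1
  funext i
  simp [tens, add_mul]

theorem pure_add_right (x : Fin n₁ → F) (y y' : Fin n₂ → F) : pure e P x (y + y') = pure e P x y + pure e P x y' := by
  unfold pure
  rw [← Matrix.mulVec_add]
  congr 1
  funext i
  simp [tens, mul_add]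

theorem pure_smul_left (c : F) (x : Fin n₁ → F) (y : Fin n₂ → F) : pure e P (c • x) y = c • pure e P x y := by
  unfold pure
  rw [← Matrix.mulVec_smul]
  congr 1
  funext i
  simp [tens, mul_assoc]

theorem pure_smul_right (c : F) (x : Fin n₁ → F) (y : Fin n₂ → F) : pure e P x (c • y) = c • pure e P x y := by
  unfold pure
  rw [← Matrix.mulVec_smul]
  congr 1
  funext i
  simp [tens]
  ring

theorem pure_swap (c : F) (x : Fin n₁ → F) (y : Fin n₂ → F) : pure e P (c • x) y = pure e P x (c • y) := by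
  rw [pure_smul_left, pure_smul_right]

theorem kron_mulVec_tens (a : Matrix (Fin n₁) (Fin n₁) F) (b : Matrix (Fin n₂) (Fin n₂) F) (x₁ : Fin n₁ → F) (x₂ : Fin n₂ → F) :
    (a ⊗ₖ b) *ᵥ tens x₁ x₂ = tens (a *ᵥ x₁) (b *ᵥ x₂) := by
  funext q
  simp only [Matrix.mulVec, dotProduct, tens, Fintype.sum_prod_type, Matrix.kroneckerMap_apply]
  rw [Finset.sum_mul_sum]
  apply Finset.sum_congr rfl
  intro i _
  apply Finset.sum_congr rfl
  intro j _
  ring

theorem tensor_apply {g : GG} (hg : g ∈ tensorProductSubgroup n₁ n₂ e P) :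
    ∃ (a : GL (Fin n₁) F) (b : GL (Fin n₂) F), ∀ x₁ x₂, g.val *ᵥ pure e P x₁ x₂ = pure e P (a.val *ᵥ x₁) (b.val *ᵥ x₂) := by
  obtain ⟨_, ⟨k, ⟨a, b, hk⟩, rfl⟩, rfl⟩ := hg
  refine ⟨a, b, fun x₁ x₂ => ?_⟩
  have h1 : (((MulAut.conj P).toMonoidHom ((glReindex e.symm).toMonoidHom k)) : GL ι F).val
      = P.val * (Matrix.reindexAlgEquiv F F e.symm k.val) * (P⁻¹ : GL ι F).val := rfl
  rw [h1]
  unfold pure
  rw [Matrix.mulVec_mulVec, Matrix.mul_assoc, Matrix.mul_assoc, ← Units.val_mul, inv_mul_cancel, Units.val_one, Matrix.mul_one,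
    ← Matrix.mulVec_mulVec, hk, ← kron_mulVec_tens]
  congr 1
  funext i
  simp only [Matrix.reindexAlgEquiv_apply, Matrix.reindex_apply, Equiv.symm_symm, Function.comp_apply]
  rw [Matrix.submatrix_mulVec_equiv]
  have h2 : (tens x₁ x₂ ∘ e) ∘ e.symm = tens x₁ x₂ := by
    funext z
    simp
  rw [h2]
  rfl

end Pure

section Gram

theorem gram_form {κ : Type} [Fintype κ] [DecidableEq κ] (σ : F → F) {f : (κ → F) → (κ → F) → F} (hal : ∀ x y v, f (x + y) v = f x v + f y v)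
    (hsl : ∀ (c : F) x v, f (c • x) v = c * f x v) (har : ∀ v x y, f v (x + y) = f v x + f v y) (hsr : ∀ (c : F) v x, f v (c • x) = σ c * f v x)
    (x y : κ → F) : f x y = formOfGram σ (gramMatrix f) x y := by
  have hex : ∀ z : κ → F, z = ∑ a, z a • Pi.single a (1 : F) := by
    intro z
    funext i
    simp [Finset.sum_apply, Pi.single_apply]
  have hz : ∀ v : κ → F, f 0 v = 0 := by
    intro v
    have := hsl 0 0 v
    simpa using this
  have hz' : ∀ v : κ → F, f v 0 = 0 := by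
    intro v
    have h1 := har v 0 0
    rw [add_zero] at h1
    linear_combination - h1
  have hl : ∀ (s : Finset κ) (v : κ → F), f (∑ a ∈ s, x a • Pi.single a (1 : F)) v = ∑ a ∈ s, x a * f (Pi.single a 1) v := by
    intro s v
    induction s using Finset.induction_on with
    | empty => simpa using hz v
    | insert a s ha ih => rw [Finset.sum_insert ha, Finset.sum_insert ha, hal, hsl, ih]
  have hr : ∀ (s : Finset κ) (v : κ → F), f v (∑ b ∈ s, y b • Pi.single b (1 : F)) = ∑ b ∈ s, σ (y b) * f v (Pi.single b 1) := by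
    intro s v
    induction s using Finset.induction_on with
    | empty => simpa using hz' v
    | insert a s ha ih => rw [Finset.sum_insert ha, Finset.sum_insert ha, har, hsr, ih]
  conv_lhs => rw [hex x, hl]
  unfold formOfGram
  apply Finset.sum_congr rfl
  intro a _
  conv_lhs => rw [hex y, hr]
  rw [Finset.mul_sum]
  apply Finset.sum_congr rfl
  intro b _
  rw [gramMatrix]
  ring

variable {n₁ n₂ : ℕ}

theorem formOfGram_kron_tens (σ : F → F) (hσ : ∀ a b, σ (a * b) = σ a * σ b) (G₁ : Matrix (Fin n₁) (Fin n₁) F) (G₂ : Matrix (Fin n₂) (Fin n₂) F)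
    (x₁ y₁ : Fin n₁ → F) (x₂ y₂ : Fin n₂ → F) :
    formOfGram σ (G₁ ⊗ₖ G₂) (tens x₁ x₂) (tens y₁ y₂) = formOfGram σ G₁ x₁ y₁ * formOfGram σ G₂ x₂ y₂ := by
  unfold formOfGram
  simp only [tens, Fintype.sum_prod_type, Matrix.kroneckerMap_apply, hσ]
  rw [Finset.sum_mul_sum]
  apply Finset.sum_congr rfl
  intro a₁ _
  apply Finset.sum_congr rfl
  intro a₂ _
  rw [Finset.sum_mul_sum]
  apply Finset.sum_congr rfl
  intro b₁ _
  apply Finset.sum_congr rfl
  intro b₂ _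
  ring

/-- The form on pure tensors. -/
theorem form_pure (σ : F → F) (hσ : ∀ a b, σ (a * b) = σ a * σ b) {f : (ι → F) → (ι → F) → F} {f₁ : (Fin n₁ → F) → (Fin n₁ → F) → F} {f₂ : (Fin n₂ → F) → (Fin n₂ → F) → F}
    {e : ι ≃ Fin n₁ × Fin n₂} {P : GL ι F} {c : F} (hT : ∀ x y : Fin n₁ × Fin n₂ → F, f ((P : Matrix ι ι F) *ᵥ (x ∘ e)) ((P : Matrix ι ι F) *ᵥ (y ∘ e)) = c * formOfGram σ (gramMatrix f₁ ⊗ₖ gramMatrix f₂) x y)
    (h₁ : ∀ x y, f₁ x y = formOfGram σ (gramMatrix f₁) x y) (h₂ : ∀ x y, f₂ x y = formOfGram σ (gramMatrix f₂) x y)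
    (x₁ y₁ : Fin n₁ → F) (x₂ y₂ : Fin n₂ → F) :
    f (pure e P x₁ x₂) (pure e P y₁ y₂) = c * f₁ x₁ y₁ * f₂ x₂ y₂ := by
  unfold pure
  rw [hT, formOfGram_kron_tens σ hσ, ← h₁, ← h₂, mul_assoc]

end Gram

/-- The abstract criterion. -/
theorem tensor_frame [Fintype F] {k l m : ℕ} {pu : (Fin k → F) → (Fin l → F) → ι → F} {f : VV → VV → F}
    {fA : (Fin k → F) → (Fin k → F) → F} {fB : (Fin l → F) → (Fin l → F) → F} {c : F} (hc : c ≠ 0)
    (padd : ∀ x x' y, pu (x + x') y = pu x y + pu x' y)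
    (pswap : ∀ (ζ : F) x y, pu (ζ • x) y = pu x (ζ • y))
    (fadd : ∀ u u' w, f (u + u') w = f u w + f u' w)
    (hform : ∀ x y x' y', f (pu x y) (pu x' y') = c * fA x x' * fB y y')
    (hBadd : ∀ u u' t, fB (u + u') t = fB u t + fB u' t) (hBsmul : ∀ (ζ : F) u t, fB (ζ • u) t = ζ * fB u t)
    (hBnd : ∀ u, (∀ t, fB u t = 0) → u = 0)
    {v : Fin m → Fin k → F} (hvv : ∀ j, fA (v j) (v j) ≠ 0) (hvo : ∀ i j, i ≠ j → fA (v i) (v j) = 0)
    (hframe : ∀ (a : GL (Fin k) F) (lam : F), (∀ x x', fA (a.val *ᵥ x) (a.val *ᵥ x') = lam * fA x x') → ∀ j, ∃ i, ∃ ζ : F, a.val *ᵥ v j = ζ • v i)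
    {G H : Subgroup GG} (hHG : H ≤ G) (hGf : ∀ g ∈ G, ∀ u w, f (g.val *ᵥ u) (g.val *ᵥ w) = f u w)
    (hH : ∀ g ∈ H, ∃ (a : GL (Fin k) F) (b : GL (Fin l) F), ∀ x y, g.val *ᵥ pu x y = pu (a.val *ᵥ x) (b.val *ᵥ y))
    {j₀ j₁ : Fin m} (hj : j₀ ≠ j₁)
    {g₀ s : GG} (hg₀ : g₀ ∈ G) {g' : (Fin l → F) → Fin l → F}
    (hg0 : ∀ y, g₀.val *ᵥ pu (v j₀) y = pu (v j₀) (g' y)) (hg1 : ∀ j, j ≠ j₀ → ∀ y, g₀.val *ᵥ pu (v j) y = pu (v j) y)
    {yp : Fin l → F} (hy0 : yp ≠ 0) (hy : ∀ ζ : F, g' yp ≠ ζ • yp)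
    (hs : s ∈ G) {t₀ y₀ y₁ : Fin l → F} (hy₀ : y₀ ≠ 0) (hy₁ : y₁ ≠ 0) (hst : s.val *ᵥ pu (v j₀) t₀ = pu (v j₀) y₀ + pu (v j₁) y₁) :
    ∃ K : Subgroup GG, H < K ∧ K < G := by
  have hBnd' : ∀ {u u' : Fin l → F} {a b : F}, (∀ t, a * fB u t = b * fB u' t) → a • u = b • u' := by
    intro u u' a b h
    have h1 : a • u + (-b) • u' = 0 := by
      apply hBnd
      intro t
      rw [hBadd, hBsmul, hBsmul, h t]
      ring
    rw [neg_smul] at h1
    exact eq_of_add_neg_eq_zero h1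
  let T : Set VV := {w | ∃ j y, w = pu (v j) y}
  refine exists_between T hHG ?_ hg₀ ?_ ?_ hs (v₀ := pu (v j₀) t₀) ⟨j₀, t₀, rfl⟩ ?_
  · rintro g hg w ⟨j, y, rfl⟩
    obtain ⟨a, b, hab⟩ := hH g hg
    have hgf : ∀ x x' y y', c * fA (a.val *ᵥ x) (a.val *ᵥ x') * fB (b.val *ᵥ y) (b.val *ᵥ y') = c * fA x x' * fB y y' := by
      intro x x' y y'
      rw [← hform, ← hform, ← hab, ← hab, hGf g (hHG hg)]
    obtain ⟨t, ht⟩ : ∃ t, fB yp t ≠ 0 := by
      by_contra hcon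
      push Not at hcon
      exact hy0 (hBnd _ hcon)
    have h1 := hgf (v j₀) (v j₀) yp t
    have hs₂ : fB (b.val *ᵥ yp) (b.val *ᵥ t) ≠ 0 := by
      intro h0
      rw [h0, mul_zero] at h1
      exact mul_ne_zero (mul_ne_zero hc (hvv j₀)) ht h1.symm
    have hsim : ∀ x x', fA (a.val *ᵥ x) (a.val *ᵥ x') = (fB yp t / fB (b.val *ᵥ yp) (b.val *ᵥ t)) * fA x x' := by
      intro x x'
      have h2 := hgf x x' yp t
      have h3 : fA (a.val *ᵥ x) (a.val *ᵥ x') * fB (b.val *ᵥ yp) (b.val *ᵥ t) = fA x x' * fB yp t := by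
        apply mul_left_cancel₀ hc
        linear_combination h2
      field_simp
      linear_combination h3
    obtain ⟨i, ζ, hi⟩ := hframe a _ hsim j
    refine ⟨i, ζ • b.val *ᵥ y, ?_⟩
    rw [hab, hi, pswap]
  · rintro hmem
    obtain ⟨a, b, hab⟩ := hH _ hmem
    have h1 := hab (v j₀ + v j₁) yp
    rw [padd, Matrix.mulVec_add, hg0, hg1 _ hj.symm] at h1
    set x := a.val *ᵥ (v j₀ + v j₁) with hx
    set y' := b.val *ᵥ yp with hy'
    have e0 : ∀ t, fA (v j₀) (v j₀) * fB (g' yp) t = fA x (v j₀) * fB y' t := by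
      intro t
      have h2 := congrArg (fun w => f w (pu (v j₀) t)) h1
      simp only [fadd, hform, hvo _ _ hj.symm] at h2
      apply mul_left_cancel₀ hc
      linear_combination h2
    have e1 : ∀ t, fA (v j₁) (v j₁) * fB yp t = fA x (v j₁) * fB y' t := by
      intro t
      have h2 := congrArg (fun w => f w (pu (v j₁) t)) h1
      simp only [fadd, hform, hvo _ _ hj] at h2
      apply mul_left_cancel₀ hc
      linear_combination h2
    have e2 := hBnd' e0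
    have e3 := hBnd' e1
    have hξ : fA x (v j₁) ≠ 0 := by
      intro h0
      rw [h0, zero_smul] at e3
      exact hy0 ((smul_eq_zero.mp e3).resolve_left (hvv j₁))
    apply hy ((fA (v j₀) (v j₀))⁻¹ * fA x (v j₀) * ((fA x (v j₁))⁻¹ * fA (v j₁) (v j₁)))
    have e4 : y' = ((fA x (v j₁))⁻¹ * fA (v j₁) (v j₁)) • yp := by
      rw [mul_smul, e3, smul_smul, inv_mul_cancel₀ hξ, one_smul]
    have e5 : g' yp = ((fA (v j₀) (v j₀))⁻¹ * fA x (v j₀)) • y' := by
      rw [mul_smul, ← e2, smul_smul, inv_mul_cancel₀ (hvv j₀), one_smul]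
    rw [e5, e4, smul_smul]
  · rintro w ⟨j, y, rfl⟩
    by_cases hjj : j = j₀
    · subst hjj
      exact ⟨j, g' y, hg0 y⟩
    · exact ⟨j, y, hg1 j hjj y⟩
  · rw [hst]
    rintro ⟨j, y, hjy⟩
    have h5 : j = j₀ := by
      by_contra hc'
      apply hy₀
      apply hBnd
      intro t
      have h2 := congrArg (fun w => f w (pu (v j₀) t)) hjy
      simp only [fadd, hform, hvo _ _ hj.symm, hvo _ _ hc'] at h2
      have h3 : c * fA (v j₀) (v j₀) * fB y₀ t = 0 := by linear_combination h2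
      exact (mul_eq_zero.mp h3).resolve_left (mul_ne_zero hc (hvv j₀))
    have h6 : j = j₁ := by
      by_contra hc'
      apply hy₁
      apply hBnd
      intro t
      have h2 := congrArg (fun w => f w (pu (v j₁) t)) hjy
      simp only [fadd, hform, hvo _ _ hj, hvo _ _ hc'] at h2
      have h3 : c * fA (v j₁) (v j₁) * fB y₁ t = 0 := by linear_combination h2
      exact (mul_eq_zero.mp h3).resolve_left (mul_ne_zero hc (hvv j₁))
    exact hj (h5.symm.trans h6)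

end Cfsg.Agent.Lib.ClassMax.TensorFrame
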