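import Mathlib
import Cfsg.Agent.Lib.ClassMax.TensorFrame

/-! Frames in dimension three over the field with three elements; the criterion with transvections and with
reflections. -/

set_option autoImplicit false

namespace Cfsg.Agent.Lib.ClassMax.TensorFrame

open Matrix Cfsg.Geo Cfsg.Agent.Lib.ClassMax Cfsg.Agent.Lib.ClassMax.QuadOver Cfsg.Agent.Lib.ClassMax.OmegaCore
open Cfsg.Agent.Lib.ClassMax.OmegaFrame
open scoped Kronecker

variable {ι : Type} [Fintype ι] [DecidableEq ι] {F : Type*} [Field F]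

local notation "VV" => (ι → F)
local notation "MM" => Matrix ι ι F
local notation "GG" => GL ι F

section Symm

variable {κ : Type} [Fintype κ] [DecidableEq κ]

/-- The diagonal of a symmetric form. -/
theorem quad_of_symm (h2 : (2 : F) ≠ 0) {f : (κ → F) → (κ → F) → F} (hf : IsSymmetricForm f) :
    IsNondegenerateQuadraticForm (fun v => f v v) ∧ ∀ u v, QuadraticMap.polar (fun v => f v v) u v = 2 * f u v := by
  have hb := hf.bilinear
  have hpol : ∀ u v, QuadraticMap.polar (fun v => f v v) u v = 2 * f u v := by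
    intro u v
    simp only [QuadraticMap.polar, hb.add_left, hb.add_right]
    rw [hf.symm v u]
    ring
  refine ⟨⟨fun c v => ?_, ⟨?_, ?_, ?_, ?_⟩, ?_⟩, hpol⟩
  · show f (c • v) (c • v) = c ^ 2 * f v v
    rw [hb.smul_left, hb.smul_right]
    ring
  · intro x y v
    simp only [hpol, hb.add_left]
    ring
  · intro c x v
    simp only [hpol, hb.smul_left]
    ring
  · intro v x y
    simp only [hpol, hb.add_right]
    ring
  · intro c v x
    simp only [hpol, hb.smul_right]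
    ring
  · intro v hv
    obtain ⟨⟨x, hx⟩, ⟨y, hy⟩⟩ := hf.nondegenerate v hv
    exact ⟨⟨x, by rw [hpol]; exact mul_ne_zero h2 hx⟩, ⟨y, by rw [hpol]; exact mul_ne_zero h2 hy⟩⟩

/-- An orthogonal basis of a symmetric form. -/
theorem orth_symm (h2 : (2 : F) ≠ 0) {f : (κ → F) → (κ → F) → F} (hf : IsSymmetricForm f) {k : ℕ} (hk : Fintype.card κ = k) :
    ∃ b : Fin k → κ → F, (∀ i j, i ≠ j → f (b i) (b j) = 0) ∧ (∀ j, f (b j) (b j) ≠ 0) ∧ ∀ v, ∃ c : Fin k → F, v = ∑ j, c j • b j := by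
  obtain ⟨hQ, hpol⟩ := quad_of_symm h2 hf
  have hnd : IsNondegenerateOn (QuadraticMap.polar (fun v => f v v)) (⊤ : Submodule F (κ → F)) := by
    intro w _ hw
    obtain ⟨⟨x, hx⟩, ⟨y, hy⟩⟩ := hQ.nondegenerate w hw
    exact ⟨⟨x, trivial, hx⟩, ⟨y, trivial, hy⟩⟩
  obtain ⟨b, -, hbo, hbQ, hrep⟩ := orth_basis hQ h2 (W := ⊤) (k := k) (by simpa using hk) hnd
  refine ⟨b, fun i j hij => ?_, hbQ, fun v => hrep v trivial⟩
  have := hbo i j hij
  rw [hpol] at this
  exact (mul_eq_zero.mp this).resolve_left h2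

end Symm

section Three

variable [Fintype F]

theorem det_gram_ne {κ : Type} [Fintype κ] [DecidableEq κ] {f : (κ → F) → (κ → F) → F} (hf : IsSymmetricForm f) : (gramMatrix f).det ≠ 0 := by
  intro h0
  obtain ⟨w, hw0, hw⟩ := Matrix.exists_mulVec_eq_zero_iff.mpr h0
  obtain ⟨⟨x, hx⟩, -⟩ := hf.nondegenerate w hw0
  apply hx
  have hb := hf.bilinear
  rw [gram_form id hb.add_left hb.smul_left hb.add_right hb.smul_right]
  unfold formOfGram
  have h1 : ∀ a, ∑ b, x a * gramMatrix f a b * id (w b) = x a * (gramMatrix f *ᵥ w) a := by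
    intro a
    simp only [Matrix.mulVec, dotProduct, Finset.mul_sum, id, mul_assoc]
  simp only [h1, hw]
  simp

/-- Similarities of a form in dimension three over the field with three elements are isometries. -/
theorem lam_eq_one (hq : Fintype.card F = 3) {f : (Fin 3 → F) → (Fin 3 → F) → F} (hf : IsSymmetricForm f) (a : GL (Fin 3) F) {lam : F}
    (h : ∀ x x', f (a.val *ᵥ x) (a.val *ᵥ x') = lam * f x x') : lam = 1 := by
  have hb := hf.bilinear
  have hG : (a.val)ᵀ * gramMatrix f * a.val = lam • gramMatrix f := by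
    ext i j
    have h1 := h (Pi.single i 1) (Pi.single j 1)
    rw [gram_form id hb.add_left hb.smul_left hb.add_right hb.smul_right] at h1
    rw [Matrix.smul_apply, smul_eq_mul]
    show _ = lam * f (Pi.single i 1) (Pi.single j 1)
    rw [← h1]
    unfold formOfGram
    simp only [Matrix.mul_apply, Matrix.transpose_apply, Finset.sum_mul, Matrix.mulVec_single_one, id, Matrix.col_apply]
    rw [Finset.sum_comm]
  have hd := congrArg Matrix.det hG
  rw [Matrix.det_mul, Matrix.det_mul, Matrix.det_transpose, Matrix.det_smul] at hd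
  simp only [Fintype.card_fin] at hd
  have hG0 := det_gram_ne hf
  have h3 : a.val.det * a.val.det = lam ^ 3 := by
    apply mul_right_cancel₀ hG0
    linear_combination hd
  have ha0 : a.val.det ≠ 0 := (Matrix.isUnits_det_units a).ne_zero
  have h4 := (sq_three hq a.val.det).resolve_left ha0
  have h5 := FiniteField.pow_card lam
  rw [hq] at h5
  rw [← h5, ← h3]
  linear_combination h4

theorem frame_of_orth (hq : Fintype.card F = 3) {f : (Fin 3 → F) → (Fin 3 → F) → F} (hf : IsSymmetricForm f) {u p r : Fin 3 → F} {α : F} (hα : α ≠ 0)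
    (hu : f u u = α) (hp : f p p = α) (hr : f r r = α) (hup : f u p = 0) (hur : f u r = 0) (hpr : f p r = 0)
    (hrep : ∀ y, ∃ x₁ x₂ x₃ : F, y = x₁ • u + x₂ • p + x₃ • r) :
    ∃ v : Fin 3 → Fin 3 → F, (∀ j, f (v j) (v j) ≠ 0) ∧ (∀ i j, i ≠ j → f (v i) (v j) = 0) ∧ (∀ j, f (v j) (v j) = f (v 0) (v 0)) ∧
      ∀ (a : GL (Fin 3) F) (lam : F), (∀ x x', f (a.val *ᵥ x) (a.val *ᵥ x') = lam * f x x') → ∀ j, ∃ i, ∃ ζ : F, a.val *ᵥ v j = ζ • v i := by
  have hb := hf.bilinear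
  have h3 := three_zero hq
  have h2 := two_ne_three hq
  have hpu : f p u = 0 := by rw [hf.symm, hup]
  have hru : f r u = 0 := by rw [hf.symm, hur]
  have hrp : f r p = 0 := by rw [hf.symm, hpr]
  refine ⟨![u, p, r], ?_, ?_, ?_, ?_⟩
  · intro j
    fin_cases j
    · simpa [hu] using hα
    · simpa [hp] using hα
    · simpa [hr] using hα
  · intro i j hij
    fin_cases i <;> fin_cases j <;> first | exact absurd rfl hij | simpa [hup, hur, hpr, hpu, hru, hrp]
  · intro j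
    fin_cases j
    · rfl
    · simp [hu, hp]
    · simp [hu, hr]
  · intro a lam hsim j
    have hl := lam_eq_one hq hf a hsim
    subst hl
    have hQ : f (a.val *ᵥ ![u, p, r] j) (a.val *ᵥ ![u, p, r] j) = α := by
      rw [hsim, one_mul]
      fin_cases j
      · exact hu
      · exact hp
      · exact hr
    obtain ⟨x₁, x₂, x₃, hy⟩ := hrep (a.val *ᵥ ![u, p, r] j)
    rw [hy] at hQ ⊢
    have hexp : f (x₁ • u + x₂ • p + x₃ • r) (x₁ • u + x₂ • p + x₃ • r) = (x₁ ^ 2 + x₂ ^ 2 + x₃ ^ 2) * α := by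
      simp only [hb.add_left, hb.add_right, hb.smul_left, hb.smul_right, hu, hp, hr, hup, hur, hpr, hpu, hru, hrp]
      ring
    rw [hexp] at hQ
    have hs : x₁ ^ 2 + x₂ ^ 2 + x₃ ^ 2 = 1 := by
      apply mul_right_cancel₀ hα
      rw [hQ, one_mul]
    rcases sq_three hq x₁ with rfl | h1 <;> rcases sq_three hq x₂ with rfl | h2' <;> rcases sq_three hq x₃ with rfl | h3'
    · norm_num at hs
    · refine ⟨2, x₃, ?_⟩
      simp
    · refine ⟨1, x₂, ?_⟩
      simp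
    · exfalso
      rw [h2', h3'] at hs
      exact one_ne_zero (show (1 : F) = 0 by linear_combination hs)
    · refine ⟨0, x₁, ?_⟩
      simp
    · exfalso
      rw [h1, h3'] at hs
      exact one_ne_zero (show (1 : F) = 0 by linear_combination hs)
    · exfalso
      rw [h1, h2'] at hs
      exact one_ne_zero (show (1 : F) = 0 by linear_combination hs)
    · exfalso
      rw [h1, h2', h3'] at hs
      exact one_ne_zero (show (1 : F) = 0 by linear_combination h3 - hs)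

/-- Frames of a three-dimensional symmetric form over the field with three elements. -/
theorem frame3d (hq : Fintype.card F = 3) {f : (Fin 3 → F) → (Fin 3 → F) → F} (hf : IsSymmetricForm f) :
    ∃ v : Fin 3 → Fin 3 → F, (∀ j, f (v j) (v j) ≠ 0) ∧ (∀ i j, i ≠ j → f (v i) (v j) = 0) ∧ (∀ j, f (v j) (v j) = f (v 0) (v 0)) ∧
      ∀ (a : GL (Fin 3) F) (lam : F), (∀ x x', f (a.val *ᵥ x) (a.val *ᵥ x') = lam * f x x') → ∀ j, ∃ i, ∃ ζ : F, a.val *ᵥ v j = ζ • v i := by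
  have h2 := two_ne_three hq
  have h3 := three_zero hq
  have hb := hf.bilinear
  obtain ⟨b, hbo, hbQ, hrep⟩ := orth_symm h2 hf (Fintype.card_fin 3)
  have key : ∀ {u p r : Fin 3 → F}, f u u ≠ 0 → f p p ≠ 0 → f p p = f r r → f u p = 0 → f u r = 0 → f p r = 0 →
      (∀ y, ∃ x₁ x₂ x₃ : F, y = x₁ • u + x₂ • p + x₃ • r) → ∃ v : Fin 3 → Fin 3 → F, (∀ j, f (v j) (v j) ≠ 0) ∧ (∀ i j, i ≠ j → f (v i) (v j) = 0) ∧ (∀ j, f (v j) (v j) = f (v 0) (v 0)) ∧
      ∀ (a : GL (Fin 3) F) (lam : F), (∀ x x', f (a.val *ᵥ x) (a.val *ᵥ x') = lam * f x x') → ∀ j, ∃ i, ∃ ζ : F, a.val *ᵥ v j = ζ • v i := by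
    intro u p r hu hp hpr' hup hur hpr hrep'
    by_cases hc : f u u = f p p
    · exact frame_of_orth hq hf hu rfl hc.symm (by rw [← hpr', hc]) hup hur hpr hrep'
    · have hγ : f u u = - f p p := by
        rcases pm_three hq hu with h5 | h5 <;> rcases pm_three hq hp with h6 | h6
        · exact absurd (h5.trans h6.symm) hc
        · rw [h5, h6]; simp
        · rw [h5, h6]
        · exact absurd (h5.trans h6.symm) hc
      have hrp : f r p = 0 := by rw [hf.symm, hpr]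
      refine frame_of_orth hq hf (u := u) (p := p + r) (r := p + (-1 : F) • r) hu rfl ?_ ?_ ?_ ?_ ?_ ?_
      · simp only [hb.add_left, hb.add_right, hpr, hrp, ← hpr', hγ]
        linear_combination (f p p) * h3
      · simp only [hb.add_left, hb.add_right, hb.smul_left, hb.smul_right, hpr, hrp, ← hpr', hγ]
        linear_combination (f p p) * h3
      · simp only [hb.add_right, hup, hur, add_zero]
      · simp only [hb.add_right, hb.smul_right, hup, hur]
        ring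
      · simp only [hb.add_left, hb.add_right, hb.smul_left, hb.smul_right, hpr, hrp, ← hpr']
        ring
      · intro y
        obtain ⟨x₁, x₂, x₃, rfl⟩ := hrep' y
        refine ⟨x₁, - x₂ - x₃, - x₂ + x₃, ?_⟩
        funext i
        simp only [Pi.add_apply, Pi.smul_apply, smul_eq_mul]
        linear_combination (x₂ * p i + x₃ * r i) * h3
  have h01 := hbo 0 1 (by decide)
  have h02 := hbo 0 2 (by decide)
  have h12 := hbo 1 2 (by decide)
  have hpig : f (b 0) (b 0) = f (b 1) (b 1) ∨ f (b 0) (b 0) = f (b 2) (b 2) ∨ f (b 1) (b 1) = f (b 2) (b 2) := by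
    rcases pm_three hq (hbQ 0) with h0 | h0 <;> rcases pm_three hq (hbQ 1) with h1 | h1 <;> rcases pm_three hq (hbQ 2) with h2' | h2' <;> simp [h0, h1, h2']
  rcases hpig with h | h | h
  · refine key (u := b 2) (p := b 0) (r := b 1) (hbQ 2) (hbQ 0) h (by rw [hf.symm]; exact h02) (by rw [hf.symm]; exact h12) h01 ?_
    intro y
    obtain ⟨c, rfl⟩ := hrep y
    refine ⟨c 2, c 0, c 1, ?_⟩
    rw [Fin.sum_univ_three]
    abel
  · refine key (u := b 1) (p := b 0) (r := b 2) (hbQ 1) (hbQ 0) h (by rw [hf.symm]; exact h01) h12 h02 ?_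
    intro y
    obtain ⟨c, rfl⟩ := hrep y
    refine ⟨c 1, c 0, c 2, ?_⟩
    rw [Fin.sum_univ_three]
    abel
  · refine key (u := b 0) (p := b 1) (r := b 2) (hbQ 0) (hbQ 1) h h01 h02 h12 ?_
    intro y
    obtain ⟨c, rfl⟩ := hrep y
    exact ⟨c 0, c 1, c 2, Fin.sum_univ_three _⟩

end Three

section Witness

variable [Fintype F]

/-- The criterion with transvections. -/
theorem tensor_tv {k l m : ℕ} {pu : (Fin k → F) → (Fin l → F) → ι → F} {f : VV → VV → F}
    {fA : (Fin k → F) → (Fin k → F) → F} {fB : (Fin l → F) → (Fin l → F) → F} {c : F} (hc : c ≠ 0)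
    (padd : ∀ x x' y, pu (x + x') y = pu x y + pu x' y) (padd' : ∀ x y y', pu x (y + y') = pu x y + pu x y')
    (pswap : ∀ (ζ : F) x y, pu (ζ • x) y = pu x (ζ • y)) (psmul' : ∀ (ζ : F) x y, pu x (ζ • y) = ζ • pu x y)
    (fadd : ∀ u u' w, f (u + u') w = f u w + f u' w)
    (hform : ∀ x y x' y', f (pu x y) (pu x' y') = c * fA x x' * fB y y')
    (hBadd : ∀ u u' t, fB (u + u') t = fB u t + fB u' t) (hBsmul : ∀ (ζ : F) u t, fB (ζ • u) t = ζ * fB u t)
    (hBnd : ∀ u, (∀ t, fB u t = 0) → u = 0) (hBnd' : ∀ u, (∀ t, fB t u = 0) → u = 0)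
    {v : Fin m → Fin k → F} (hvv : ∀ j, fA (v j) (v j) ≠ 0) (hvo : ∀ i j, i ≠ j → fA (v i) (v j) = 0)
    (hAadd : ∀ x y y', fA x (y + y') = fA x y + fA x y')
    (hframe : ∀ (a : GL (Fin k) F) (lam : F), (∀ x x', fA (a.val *ᵥ x) (a.val *ᵥ x') = lam * fA x x') → ∀ j, ∃ i, ∃ ζ : F, a.val *ᵥ v j = ζ • v i)
    {G H : Subgroup GG} (hHG : H ≤ G) (hGf : ∀ g ∈ G, ∀ u w, f (g.val *ᵥ u) (g.val *ᵥ w) = f u w)
    (hH : ∀ g ∈ H, ∃ (a : GL (Fin k) F) (b : GL (Fin l) F), ∀ x y, g.val *ᵥ pu x y = pu (a.val *ᵥ x) (b.val *ᵥ y))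
    {j₀ j₁ : Fin m} (hj : j₀ ≠ j₁) {y₂ : Fin l → F} (hy₂ : y₂ ≠ 0) (hy₂₂ : fB y₂ y₂ = 0)
    (htv : ∀ z, f z z = 0 → ∃ g ∈ G, ∀ w, g.val *ᵥ w = w + f w z • z) :
    ∃ K : Subgroup GG, H < K ∧ K < G := by
  have hB0 : ∀ t, fB 0 t = 0 := by
    intro t
    have := hBsmul 0 0 t
    simpa using this
  obtain ⟨t₀, ht₀⟩ : ∃ t, fB t y₂ ≠ 0 := by
    by_contra hcon
    push Not at hcon
    exact hy₂ (hBnd' _ hcon)
  have ht₀0 : t₀ ≠ 0 := by
    rintro rfl
    exact ht₀ (hB0 _)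
  have hα := hvv j₀
  obtain ⟨g₀, hg₀, hg₀v⟩ := htv (pu (v j₀) y₂) (by rw [hform, hy₂₂, mul_zero])
  obtain ⟨s, hs, hsv⟩ := htv (pu (v j₀ + v j₁) y₂) (by rw [hform, hy₂₂, mul_zero])
  have hμ : c * fA (v j₀) (v j₀) * fB t₀ y₂ ≠ 0 := mul_ne_zero (mul_ne_zero hc hα) ht₀
  refine tensor_frame hc padd pswap fadd hform hBadd hBsmul hBnd hvv hvo hframe hHG hGf hH hj (g₀ := g₀) (s := s) hg₀
    (g' := fun y => y + (c * fA (v j₀) (v j₀) * fB y y₂) • y₂) ?_ ?_ (yp := t₀) ht₀0 ?_ hs (t₀ := t₀) (y₀ := t₀ + (c * fA (v j₀) (v j₀) * fB t₀ y₂) • y₂) (y₁ := (c * fA (v j₀) (v j₀) * fB t₀ y₂) • y₂) ?_ ?_ ?_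
  · intro y
    rw [hg₀v, hform, padd', psmul']
  · intro j hj' y
    rw [hg₀v, hform, hvo _ _ hj']
    simp
  · intro ζ h
    have h1 := congrArg (fun w => fB w y₂) h
    simp only [hBadd, hBsmul, hy₂₂, mul_zero, add_zero] at h1
    have hζ : ζ = 1 := by
      apply mul_right_cancel₀ ht₀
      rw [← h1, one_mul]
    rw [hζ, one_smul] at h
    have h3 : (c * fA (v j₀) (v j₀) * fB t₀ y₂) • y₂ = 0 := by
      simpa using h
    exact (smul_ne_zero hμ hy₂) h3
  · intro h0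
    have h1 := congrArg (fun w => fB w y₂) h0
    simp only [hBadd, hBsmul, hy₂₂, mul_zero, add_zero, hB0] at h1
    exact ht₀ h1
  · exact smul_ne_zero hμ hy₂
  · rw [hsv, hform, hAadd, hvo _ _ hj, add_zero, padd, smul_add, padd', ← psmul', ← psmul', add_assoc]

/-- The criterion with reflections. -/
theorem tensor_rf {Q : (ι → F) → F} (hQ : IsNondegenerateQuadraticForm Q) (h2 : (2 : F) ≠ 0) {k l m : ℕ} {pu : (Fin k → F) → (Fin l → F) → ι → F}
    {fA : (Fin k → F) → (Fin k → F) → F} {fB : (Fin l → F) → (Fin l → F) → F} {c : F} (hc : c ≠ 0)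
    (padd : ∀ x x' y, pu (x + x') y = pu x y + pu x' y) (padd' : ∀ x y y', pu x (y + y') = pu x y + pu x y')
    (pswap : ∀ (ζ : F) x y, pu (ζ • x) y = pu x (ζ • y)) (psmul' : ∀ (ζ : F) x y, pu x (ζ • y) = ζ • pu x y)
    (hform : ∀ x y x' y', QuadraticMap.polar Q (pu x y) (pu x' y') = c * fA x x' * fB y y')
    (hBadd : ∀ u u' t, fB (u + u') t = fB u t + fB u' t) (hBsmul : ∀ (ζ : F) u t, fB (ζ • u) t = ζ * fB u t)
    (hBnd : ∀ u, (∀ t, fB u t = 0) → u = 0)
    {v : Fin m → Fin k → F} (hvv : ∀ j, fA (v j) (v j) ≠ 0) (hvo : ∀ i j, i ≠ j → fA (v i) (v j) = 0)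
    (hAadd : ∀ x y y', fA x (y + y') = fA x y + fA x y') (hAadd' : ∀ x y y', fA (y + y') x = fA y x + fA y' x)
    (hAsmul : ∀ (ζ : F) x y, fA x (ζ • y) = ζ * fA x y) (hAsmul' : ∀ (ζ : F) x y, fA (ζ • y) x = ζ * fA y x)
    (hframe : ∀ (a : GL (Fin k) F) (lam : F), (∀ x x', fA (a.val *ᵥ x) (a.val *ᵥ x') = lam * fA x x') → ∀ j, ∃ i, ∃ ζ : F, a.val *ᵥ v j = ζ • v i)
    {H : Subgroup GG} (hHG : H ≤ omegaGL Q)
    (hH : ∀ g ∈ H, ∃ (a : GL (Fin k) F) (b : GL (Fin l) F), ∀ x y, g.val *ᵥ pu x y = pu (a.val *ᵥ x) (b.val *ᵥ y))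
    {j₀ j₁ : Fin m} (hj : j₀ ≠ j₁) (hvs : fA (v j₀) (v j₀) = fA (v j₁) (v j₁)) {y₁ y₂ y₃ : Fin l → F} (h12 : fB y₁ y₂ = 0) (h13 : fB y₁ y₃ = 0) (h31 : fB y₃ y₁ = 0) (h32 : fB y₃ y₂ = 0)
    (hN : fB y₁ y₁ = fB y₂ y₂) (hN0 : fB y₁ y₁ ≠ 0) (h33 : fB y₃ y₃ ≠ 0) :
    ∃ K : Subgroup GG, H < K ∧ K < omegaGL Q := by
  have hb := hQ.polar_bilinear
  have hB0 : ∀ t, fB 0 t = 0 := by
    intro t
    have := hBsmul 0 0 t
    simpa using this
  have hGf : ∀ g ∈ omegaGL Q, ∀ u w, QuadraticMap.polar Q (g.val *ᵥ u) (g.val *ᵥ w) = QuadraticMap.polar Q u w :=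
    fun g hg u w => pol_iso' g ((mem_iso_iff g).mp (omegaGL_le_iso hg)) u w
  obtain ⟨α, hαd⟩ : ∃ α, α = fA (v j₀) (v j₀) := ⟨_, rfl⟩
  have hα : α ≠ 0 := by rw [hαd]; exact hvv j₀
  obtain ⟨N, hNd⟩ : ∃ N, N = fB y₁ y₁ := ⟨_, rfl⟩
  have hN0' : N ≠ 0 := by rw [hNd]; exact hN0
  have hκ : c * α * N ≠ 0 := mul_ne_zero (mul_ne_zero hc hα) hN0'
  have hQX : ∀ x y, fA x x = α → fB y y = N → Q (pu x y) = (c * α * N) / 2 := by
    intro x y hx hy
    have := hform x y x y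
    rw [pol_self hQ, hx, hy] at this
    rw [eq_div_iff h2]
    linear_combination this
  have hQ1 := hQX (v j₀) y₁ hαd.symm hNd.symm
  have hQ2 := hQX (v j₀) y₂ hαd.symm (by rw [← hN, hNd])
  have hQ10 : Q (pu (v j₀) y₁) ≠ 0 := by rw [hQ1]; exact div_ne_zero hκ h2
  have hQ20 : Q (pu (v j₀) y₂) ≠ 0 := by rw [hQ2]; exact div_ne_zero hκ h2
  have hg₀ : rf Q (pu (v j₀) y₁) * rf Q (pu (v j₀) y₂) ∈ omegaGL Q := rf_mul_mem_omega hQ hQ10 (by rw [hQ1, hQ2])
  have hone : ∀ x (y₁' y : Fin l → F), Q (pu x y₁') ≠ 0 → (rf Q (pu x y₁') : MM) *ᵥ pu (v j₀) y = pu (v j₀) y + (- (QuadraticMap.polar Q (pu (v j₀) y) (pu x y₁') / Q (pu x y₁'))) • pu x y₁' := by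
    intro x y₁' y hne
    rw [rf_apply hQ hne]
    unfold rfFun
    rw [neg_smul, sub_eq_add_neg]
  -- the second argument of the Eichler-free `g'`
  have hxY : (1 : F) + 1 = 2 := by norm_num
  have hYa : ∀ ε : F, ε ^ 2 = 1 → fA (v j₀ + ε • v j₁) (v j₀ + ε • v j₁) = 2 * α := by
    intro ε hε
    rw [hAadd, hAadd', hAadd', hAsmul, hAsmul, hAsmul', hAsmul', hvo _ _ hj, hvo _ _ hj.symm, ← hvs, ← hαd]
    linear_combination α * hε
  have hQY : ∀ (ε : F) (y : Fin l → F), ε ^ 2 = 1 → fB y y = N → Q (pu (v j₀ + ε • v j₁) y) = c * α * N := by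
    intro ε y hε hy
    have := hform (v j₀ + ε • v j₁) y (v j₀ + ε • v j₁) y
    rw [pol_self hQ, hYa ε hε, hy] at this
    apply mul_left_cancel₀ h2
    linear_combination this
  have hQY1 := hQY 1 y₁ (by norm_num) hNd.symm
  have hQY2 := hQY (-1) y₂ (by norm_num) (by rw [← hN, hNd])
  have hs : rf Q (pu (v j₀ + (1 : F) • v j₁) y₁) * rf Q (pu (v j₀ + (-1 : F) • v j₁) y₂) ∈ omegaGL Q :=
    rf_mul_mem_omega hQ (by rw [hQY1]; exact hκ) (by rw [hQY1, hQY2])
  refine tensor_frame hc padd pswap hb.add_left hform hBadd hBsmul hBnd hvv hvo hframe hHG hGf hH hj hg₀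
    (g' := fun y => (fun y' => y' + (- (c * α * fB y' y₁ / Q (pu (v j₀) y₁))) • y₁) (y + (- (c * α * fB y y₂ / Q (pu (v j₀) y₂))) • y₂)) ?_ ?_ (yp := y₁ + y₃) ?_ ?_ hs (t₀ := y₁ + y₃) (y₀ := y₃) (y₁ := (-1 : F) • y₁) ?_ ?_ ?_
  · intro y
    rw [Units.val_mul, ← Matrix.mulVec_mulVec, hone _ _ _ hQ20, hform, ← hαd, ← psmul', ← padd', hone _ _ _ hQ10, hform, ← hαd, ← psmul', ← padd']
  · intro j hj' y
    rw [Units.val_mul, ← Matrix.mulVec_mulVec, rf_fix hQ hQ20 (by rw [hform, hvo _ _ hj']; ring), rf_fix hQ hQ10 (by rw [hform, hvo _ _ hj']; ring)]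
  · intro h0
    have h1 := congrArg (fun w => fB w y₃) h0
    simp only [hBadd, h13, h33, hB0, zero_add] at h1
  · intro ζ h
    have hR2 : fB (y₁ + y₃) y₂ = 0 := by rw [hBadd, h12, h32, add_zero]
    have hval : c * α * fB (y₁ + y₃) y₁ / Q (pu (v j₀) y₁) = 2 := by
      rw [hBadd, h31, add_zero, ← hNd, hQ1]
      field_simp
    simp only [hR2, mul_zero, zero_div, neg_zero, zero_smul, add_zero] at h
    rw [hval] at h
    have h1 := congrArg (fun w => fB w y₃) h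
    have h4 := congrArg (fun w => fB w y₁) h
    simp only [hBadd, hBsmul, h13, h33, h31, ← hNd, zero_add, mul_zero, add_zero] at h1 h4
    have hζ : ζ = 1 := by
      apply mul_right_cancel₀ h33
      rw [← h1, one_mul]
    rw [hζ] at h4
    have h5 : (2 : F) * N = 0 := by linear_combination - h4
    exact mul_ne_zero h2 hN0' h5
  · intro h0
    rw [h0, hB0] at h33
    exact h33 rfl
  · intro h0
    have := (smul_eq_zero.mp h0).resolve_left (by norm_num)
    rw [this, hB0] at hN0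
    exact hN0 rfl
  · have hfixY2 : QuadraticMap.polar Q (pu (v j₀) (y₁ + y₃)) (pu (v j₀ + (-1 : F) • v j₁) y₂) = 0 := by
      rw [hform, hBadd, h12, h32, add_zero, mul_zero]
    have hval : QuadraticMap.polar Q (pu (v j₀) (y₁ + y₃)) (pu (v j₀ + (1 : F) • v j₁) y₁) / Q (pu (v j₀ + (1 : F) • v j₁) y₁) = 1 := by
      rw [hform, hBadd, h31, add_zero, hAadd, hAsmul, hvo _ _ hj, hQY1, ← hNd, ← hαd]
      rw [div_eq_one_iff_eq hκ]
      ring
    rw [Units.val_mul, ← Matrix.mulVec_mulVec, rf_fix hQ (by rw [hQY2]; exact hκ) hfixY2, hone _ _ _ (by rw [hQY1]; exact hκ), hval, padd, padd', pswap, one_smul, psmul']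
    simp only [neg_smul, one_smul]
    abel

end Witness

end Cfsg.Agent.Lib.ClassMax.TensorFrame
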