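import Mathlib
import Cfsg.Agent.Lib.ClassMax.TensorFrame2
import Cfsg.Agent.Lib.ClassMax.SpOver

/-! Tensor decompositions with a three-dimensional factor over the field with three elements. -/

set_option autoImplicit false

namespace Cfsg.Agent.Lib.ClassMax.TensorFrame

open Matrix Cfsg.Geo Cfsg.Agent.Lib.ClassMax Cfsg.Agent.Lib.ClassMax.QuadOver Cfsg.Agent.Lib.ClassMax.OmegaCore
open Cfsg.Agent.Lib.ClassMax.OmegaFrame
open scoped Kronecker

variable {ι : Type} [Fintype ι] [DecidableEq ι] {F : Type*} [Field F] [Fintype F]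

local notation "VV" => (ι → F)
local notation "MM" => Matrix ι ι F
local notation "GG" => GL ι F

theorem three_orth (hq : Fintype.card F = 3) {l : ℕ} {f : (Fin l → F) → (Fin l → F) → F} (hf : IsSymmetricForm f) (hl : 3 ≤ l) :
    ∃ y₁ y₂ y₃ : Fin l → F, f y₁ y₂ = 0 ∧ f y₁ y₃ = 0 ∧ f y₃ y₁ = 0 ∧ f y₃ y₂ = 0 ∧ f y₁ y₁ = f y₂ y₂ ∧ f y₁ y₁ ≠ 0 ∧ f y₃ y₃ ≠ 0 := by
  have h2 := two_ne_three hq
  obtain ⟨b, hbo, hbQ, -⟩ := orth_symm h2 hf (Fintype.card_fin l)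
  let i₀ : Fin l := ⟨0, by omega⟩
  let i₁ : Fin l := ⟨1, by omega⟩
  let i₂ : Fin l := ⟨2, by omega⟩
  have h01 : i₀ ≠ i₁ := by simp [i₀, i₁, Fin.ext_iff]
  have h02 : i₀ ≠ i₂ := by simp [i₀, i₂, Fin.ext_iff]
  have h12 : i₁ ≠ i₂ := by simp [i₁, i₂, Fin.ext_iff]
  have hpig : f (b i₀) (b i₀) = f (b i₁) (b i₁) ∨ f (b i₀) (b i₀) = f (b i₂) (b i₂) ∨ f (b i₁) (b i₁) = f (b i₂) (b i₂) := by
    rcases pm_three hq (hbQ i₀) with h0 | h0 <;> rcases pm_three hq (hbQ i₁) with h1 | h1 <;> rcases pm_three hq (hbQ i₂) with h2' | h2' <;> simp [h0, h1, h2']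
  rcases hpig with h | h | h
  · exact ⟨b i₀, b i₁, b i₂, hbo _ _ h01, hbo _ _ h02, hbo _ _ h02.symm, hbo _ _ h12.symm, h, hbQ _, hbQ _⟩
  · exact ⟨b i₀, b i₂, b i₁, hbo _ _ h02, hbo _ _ h01, hbo _ _ h01.symm, hbo _ _ h12, h, hbQ _, hbQ _⟩
  · exact ⟨b i₁, b i₂, b i₀, hbo _ _ h12, hbo _ _ h01.symm, hbo _ _ h01, hbo _ _ h02, h, hbQ _, hbQ _⟩

/-- Tensor decompositions of the polar form with a three-dimensional factor over the field with three elements. -/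
theorem omega_tensor3 (hq : Fintype.card F = 3) {Q : (ι → F) → F} (hQ : IsNondegenerateQuadraticForm Q) {n₂ : ℕ} (h3 : 3 ≤ n₂) (e : ι ≃ Fin 3 × Fin n₂) (P : GL ι F)
    {f₁ : (Fin 3 → F) → (Fin 3 → F) → F} {f₂ : (Fin n₂ → F) → (Fin n₂ → F) → F} (hf₁ : IsSymmetricForm f₁) (hf₂ : IsSymmetricForm f₂)
    (hT : IsTensorFormStructure id (QuadraticMap.polar Q) f₁ f₂ e P) :
    ∃ K : Subgroup GG, tensorProductSubgroup 3 n₂ e P ⊓ omegaGL Q < K ∧ K < omegaGL Q := by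
  have h2 := two_ne_three hq
  obtain ⟨c, hc, hT'⟩ := hT
  have hb₁ := hf₁.bilinear
  have hb₂ := hf₂.bilinear
  have hform := form_pure id (fun _ _ => rfl) hT' (gram_form id hb₁.add_left hb₁.smul_left hb₁.add_right hb₁.smul_right)
    (gram_form id hb₂.add_left hb₂.smul_left hb₂.add_right hb₂.smul_right)
  obtain ⟨v, hvv, hvo, hvs, hfr⟩ := frame3d hq hf₁
  obtain ⟨y₁, y₂, y₃, h12, h13, h31, h32, hN, hN0, h33⟩ := three_orth hq hf₂ h3
  have hBnd : ∀ u, (∀ t, f₂ u t = 0) → u = 0 := by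
    intro u hu
    by_contra h0
    obtain ⟨-, ⟨x, hx⟩⟩ := hf₂.nondegenerate u h0
    exact hx (hu x)
  exact tensor_rf hQ h2 hc (pure_add_left e P) (pure_add_right e P) (pure_swap e P) (pure_smul_right e P)
    (fun x y x' y' => hform x x' y y') hb₂.add_left hb₂.smul_left hBnd hvv hvo hb₁.add_right (fun x y y' => hb₁.add_left y y' x) hb₁.smul_right (fun ζ x y => hb₁.smul_left ζ y x) hfr inf_le_right
    (fun g hg => tensor_apply e P hg.1) (j₀ := 0) (j₁ := 1) (by decide) ((hvs 1).symm) h12 h13 h31 h32 hN hN0 h33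

/-- Tensor decompositions of the symplectic form with a three-dimensional orthogonal factor over the field with three
elements. -/
theorem sp_tensor3 (hq : Fintype.card F = 3) {m n₁ : ℕ} (hn₁ : 0 < n₁) (e : (Fin m ⊕ Fin m) ≃ Fin n₁ × Fin 3) (P : GL (Fin m ⊕ Fin m) F)
    {f₁ : (Fin n₁ → F) → (Fin n₁ → F) → F} {f₂ : (Fin 3 → F) → (Fin 3 → F) → F} (hf₁ : IsSymplecticForm f₁) (hf₂ : IsSymmetricForm f₂)
    (hT : IsTensorFormStructure id (Cfsg.sympForm m F) f₁ f₂ e P) :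
    ∃ K : Subgroup (GL (Fin m ⊕ Fin m) F), tensorProductSubgroup n₁ 3 e P ⊓ Cfsg.spGL m F < K ∧ K < Cfsg.spGL m F := by
  obtain ⟨c, hc, hT'⟩ := hT
  have hb₁ := hf₁.bilinear
  have hb₂ := hf₂.bilinear
  have hform := form_pure id (fun _ _ => rfl) hT' (gram_form id hb₁.add_left hb₁.smul_left hb₁.add_right hb₁.smul_right)
    (gram_form id hb₂.add_left hb₂.smul_left hb₂.add_right hb₂.smul_right)
  obtain ⟨v, hvv, hvo, hvs, hfr⟩ := frame3d hq hf₂
  have hBnd : ∀ u, (∀ t, f₁ u t = 0) → u = 0 := by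
    intro u hu
    by_contra h0
    obtain ⟨-, ⟨x, hx⟩⟩ := hf₁.nondegenerate u h0
    exact hx (hu x)
  have hBnd' : ∀ u, (∀ t, f₁ t u = 0) → u = 0 := by
    intro u hu
    by_contra h0
    obtain ⟨⟨x, hx⟩, -⟩ := hf₁.nondegenerate u h0
    exact hx (hu x)
  haveI : NeZero n₁ := ⟨hn₁.ne'⟩
  have hy : (Pi.single 0 1 : Fin n₁ → F) ≠ 0 := by
    intro h0
    have := congrFun h0 0
    simp at this
  refine tensor_tv (pu := fun x y => pure e P y x) (f := Cfsg.sympForm m F) (fA := f₂) (fB := f₁) hc (fun x x' y => pure_add_right e P y x x') (fun x y y' => pure_add_left e P y y' x)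
    (fun ζ x y => (pure_swap e P ζ y x).symm) (fun ζ x y => pure_smul_left e P ζ y x) (Cfsg.Agent.Lib.KnownSimple.sympForm_add_left) ?_ hb₁.add_left hb₁.smul_left hBnd hBnd' hvv hvo hb₂.add_right hfr
    (H := tensorProductSubgroup n₁ 3 e P ⊓ Cfsg.spGL m F) (G := Cfsg.spGL m F) inf_le_right (fun g hg u w => (mem_spGL_iff g).mp hg u w) ?_ (j₀ := 0) (j₁ := 1) (by decide) (y₂ := Pi.single 0 1) hy (hf₁.alternating _) ?_
  · intro x y x' y'
    rw [hform]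
    ring
  · intro g hg
    obtain ⟨a, b, hab⟩ := tensor_apply e P hg.1
    exact ⟨b, a, fun x y => hab y x⟩
  · intro z _
    refine ⟨stv z 1, stv_mem_spGL z 1, fun w => ?_⟩
    rw [stv_apply, one_mul]

end Cfsg.Agent.Lib.ClassMax.TensorFrame
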