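import Mathlib
import Cfsg.Agent.Lib.ClassMax.TensorFrame3
import Cfsg.Agent.S5656

/-! Tensor decompositions with a two-dimensional unitary factor over the field with four elements. -/

set_option autoImplicit false

namespace Cfsg.Agent.Lib.ClassMax.TensorFrame

open Matrix Cfsg.Geo Cfsg.Agent.Lib.ClassMax Cfsg.Agent.Lib.ClassMax.QuadOver Cfsg.Agent.Lib.ClassMax.HermOver Cfsg.Agent.Lib.ClassMax.UnitCore
open Cfsg.Agent.S5656
open scoped Kronecker

variable {F : Type*} [Field F] [Fintype F]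

theorem exists_isotropic {l : ℕ} {σ : F ≃+* F} {f : (Fin l → F) → (Fin l → F) → F} (hF : Fintype.card F = 4) (hf : IsUnitaryForm σ f) (hσ : ∀ x, σ x = x ^ 2) (hl : 2 ≤ l) :
    ∃ y : Fin l → F, y ≠ 0 ∧ f y y = 0 := by
  have h2 := two_zero_aux hF
  have hW : IsNondegenerateOn f (⊤ : Submodule F (Fin l → F)) := by
    intro w _ hw
    obtain ⟨⟨x, hx⟩, ⟨y, hy⟩⟩ := hf.nondegenerate w hw
    exact ⟨⟨x, trivial, hx⟩, ⟨y, trivial, hy⟩⟩
  haveI : NeZero l := ⟨by omega⟩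
  have hy : (Pi.single 0 1 : Fin l → F) ≠ 0 := by
    intro h0
    have := congrFun h0 0
    simp at this
  obtain ⟨e₁, -, h1⟩ := aniso_aux hF hf hW (w := Pi.single 0 1) trivial hy
  have he₁ : f e₁ e₁ = 1 := (norm_aux hf hσ e₁).resolve_left h1
  have he₀ : e₁ ≠ 0 := by
    rintro rfl
    exact h1 (zero_left hf _)
  have hlt : Submodule.span F {e₁} < ⊤ := by
    rw [lt_top_iff_ne_top]
    intro h
    have h3 : Module.finrank F (Submodule.span F {e₁}) = 1 := finrank_span_singleton he₀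
    rw [h] at h3
    simp at h3
    omega
  obtain ⟨w, -, hwn⟩ := SetLike.exists_of_lt hlt
  set e₂ := w - f w e₁ • e₁ with he₂
  have h21 : f e₂ e₁ = 0 := by
    rw [he₂, sub_left hf, hf.smul_left, he₁]; ring
  have h12 : f e₁ e₂ = 0 := by rw [hf.herm, h21, map_zero]
  have he₂0 : e₂ ≠ 0 := by
    intro h0
    apply hwn
    rw [Submodule.mem_span_singleton]
    exact ⟨f w e₁, by rw [← sub_eq_zero, ← neg_sub, ← he₂, h0, neg_zero]⟩
  rcases norm_aux hf hσ e₂ with h3 | h3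
  · exact ⟨e₂, he₂0, h3⟩
  · refine ⟨e₁ + e₂, ?_, ?_⟩
    · intro h0
      have h4 : e₂ = - e₁ := by
        rw [eq_neg_iff_add_eq_zero, add_comm]
        exact h0
      rw [h4, neg_left hf, he₁] at h21
      have : (1 : F) = 0 := by linear_combination - h21
      exact one_ne_zero this
    · rw [hf.add_left, add_right hf, add_right hf, he₁, h3, h12, h21]
      linear_combination h2

theorem su_tensor2 (hF : Fintype.card F = 4) {n n₂ : ℕ} (hn₂ : 2 ≤ n₂) (e : Fin n ≃ Fin 2 × Fin n₂) (P : GL (Fin n) F)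
    {f₁ : (Fin 2 → F) → (Fin 2 → F) → F} {f₂ : (Fin n₂ → F) → (Fin n₂ → F) → F} (hf₁ : IsUnitaryFormPow 2 f₁) (hf₂ : IsUnitaryFormPow 2 f₂)
    (hT : IsTensorFormStructure (fun x : F => x ^ 2) (Cfsg.hermForm n F 2) f₁ f₂ e P) :
    ∃ K : Subgroup (GL (Fin n) F), tensorProductSubgroup 2 n₂ e P ⊓ (Cfsg.GU n F 2 ⊓ specialLinear (Fin n) F) < K ∧ K < (Cfsg.GU n F 2 ⊓ specialLinear (Fin n) F) := by
  classical
  have hF4 : Fintype.card F = 2 ^ 2 := by rw [hF]; norm_num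
  obtain ⟨σ, hf, hσ⟩ := UnitCore.hermForm_unitary (n := n) hF4
  have h2 := two_zero_aux hF
  have hu₁ : IsUnitaryForm σ f₁ := ⟨hf.ne_refl, hf.involutive, hf₁.add_left, hf₁.smul_left, fun v w => by rw [hσ]; exact hf₁.herm v w, hf₁.nondegenerate⟩
  have hu₂ : IsUnitaryForm σ f₂ := ⟨hf.ne_refl, hf.involutive, hf₂.add_left, hf₂.smul_left, fun v w => by rw [hσ]; exact hf₂.herm v w, hf₂.nondegenerate⟩
  obtain ⟨c, hc, hT'⟩ := hT
  have hform := form_pure (fun x : F => x ^ 2) (fun a b => mul_pow a b 2) hT'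
    (gram_form _ hf₁.add_left hf₁.smul_left (add_right hu₁) (fun c v x => by rw [smul_right hu₁, hσ]))
    (gram_form _ hf₂.add_left hf₂.smul_left (add_right hu₂) (fun c v x => by rw [smul_right hu₂, hσ]))
  have hW : IsNondegenerateOn f₁ (⊤ : Submodule F (Fin 2 → F)) := by
    intro w _ hw
    obtain ⟨⟨x, hx⟩, ⟨y, hy⟩⟩ := hf₁.nondegenerate w hw
    exact ⟨⟨x, trivial, hx⟩, ⟨y, trivial, hy⟩⟩
  obtain ⟨e₀, -, e₁, -, h00, h11, h01, hrep⟩ := pair_aux hF hu₁ hσ hW (by simp)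
  have h10 : f₁ e₁ e₀ = 0 := by rw [hu₁.herm, h01, map_zero]
  have hBnd : ∀ u, (∀ t, f₂ u t = 0) → u = 0 := by
    intro u hu
    by_contra h0
    obtain ⟨-, ⟨x, hx⟩⟩ := hf₂.nondegenerate u h0
    exact hx (hu x)
  have hBnd' : ∀ u, (∀ t, f₂ t u = 0) → u = 0 := by
    intro u hu
    by_contra h0
    obtain ⟨⟨x, hx⟩, -⟩ := hf₂.nondegenerate u h0
    exact hx (hu x)
  obtain ⟨y₂, hy₂, hy₂₂⟩ := exists_isotropic hF hu₂ hσ hn₂
  have h1s : (1 : F) + σ 1 = 0 := by rw [map_one]; linear_combination h2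
  have hfr : ∀ (a : GL (Fin 2) F) (lam : F), (∀ x x', f₁ (a.val *ᵥ x) (a.val *ᵥ x') = lam * f₁ x x') → ∀ j, ∃ i, ∃ ζ : F, a.val *ᵥ ![e₀, e₁] j = ζ • ![e₀, e₁] i := by
    intro a lam hsim j
    have hl0 : lam ≠ 0 := by
      rintro rfl
      have h3 := hsim ((a⁻¹).val *ᵥ e₀) ((a⁻¹).val *ᵥ e₀)
      rw [Matrix.mulVec_mulVec, ← Units.val_mul, mul_inv_cancel, Units.val_one, Matrix.one_mulVec, h00, zero_mul] at h3
      exact one_ne_zero h3
    have hvj : f₁ (![e₀, e₁] j) (![e₀, e₁] j) = 1 := by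
      fin_cases j
      · exact h00
      · exact h11
    have h3 := hsim (![e₀, e₁] j) (![e₀, e₁] j)
    rw [hvj, mul_one] at h3
    obtain ⟨s, t, hst⟩ := hrep _ (Submodule.mem_top (x := a.val *ᵥ ![e₀, e₁] j))
    rw [hst] at h3 ⊢
    have hexp : f₁ (s • e₀ + t • e₁) (s • e₀ + t • e₁) = s ^ 3 + t ^ 3 := by
      simp only [hu₁.add_left, add_right hu₁, hu₁.smul_left, smul_right hu₁, h00, h11, h01, h10, hσ]
      ring
    have h4 : f₁ (s • e₀ + t • e₁) (s • e₀ + t • e₁) = 1 := by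
      rw [h3]
      have h5 := norm_aux hu₁ hσ (s • e₀ + t • e₁)
      rw [h3] at h5
      exact h5.resolve_left hl0
    rw [hexp] at h4
    by_cases hs : s = 0
    · refine ⟨1, t, ?_⟩
      simp [hs]
    · by_cases ht : t = 0
      · refine ⟨0, s, ?_⟩
        simp [ht]
      · exfalso
        rw [cube_one_aux hF hs, cube_one_aux hF ht] at h4
        have : (1 : F) = 0 := by linear_combination - h4 + h2
        exact one_ne_zero this
  refine tensor_tv (pu := pure e P) (f := Cfsg.hermForm n F 2) (fA := f₁) (fB := f₂) hc (pure_add_left e P) (pure_add_right e P) (pure_swap e P) (pure_smul_right e P) hf.add_left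
    (fun x y x' y' => hform x x' y y') hf₂.add_left hf₂.smul_left hBnd hBnd' (v := ![e₀, e₁]) ?_ ?_ (add_right hu₁) hfr
    (H := tensorProductSubgroup 2 n₂ e P ⊓ (Cfsg.GU n F 2 ⊓ specialLinear (Fin n) F)) (G := Cfsg.GU n F 2 ⊓ specialLinear (Fin n) F) inf_le_right (fun g hg u w => hg.1 u w)
    (fun g hg => tensor_apply e P hg.1) (j₀ := 0) (j₁ := 1) (by decide) hy₂ hy₂₂ ?_
  · intro j
    fin_cases j
    · simp [h00]
    · simp [h11]
  · intro i j hij
    fin_cases i <;> fin_cases j <;> first | exact absurd rfl hij | simpa [h01, h10]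
  · intro z hz
    refine ⟨eg (Cfsg.hermForm n F 2) z 0 1, ⟨fun a b => eg_iso hf hz (zero_right hf z) (skew_ok hf h1s) a b, eg_tv_mem_SL hf hz h1s⟩, fun w => ?_⟩
    rw [eg_apply hf hz (zero_right hf z) (skew_ok hf h1s)]
    unfold egFun
    rw [zero_right hf]
    simp

end Cfsg.Agent.Lib.ClassMax.TensorFrame
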