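import Mathlib
import Cfsg.Prelude.Def_GeometricClasses

/-! The stabiliser of a tensor decomposition with a two-dimensional factor over the field with two elements lies in
the normaliser of the field with four elements. -/

set_option autoImplicit false

namespace Cfsg.Agent.Lib.ClassMax.TensorTwo

open Matrix Cfsg.Geo
open scoped Kronecker

variable {F : Type*} [Field F] [Fintype F]

/-- The element of order three. -/
def om (F : Type*) [Field F] : Matrix (Fin 2) (Fin 2) F := !![0, 1; 1, 1]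

/-- The normaliser of the field generated by `W`, in characteristic two and if `W` has minimal polynomial `X² + X + 1`. -/
def stabW {ι : Type} [Fintype ι] [DecidableEq ι] (W : Matrix ι ι F) (h2 : (1 : F) + 1 = 0) : Subgroup (GL ι F) where
  carrier := {g | (g : Matrix ι ι F) * W = W * (g : Matrix ι ι F) ∨ (g : Matrix ι ι F) * W = (W + 1) * (g : Matrix ι ι F)}
  mul_mem' := by
    intro a b ha hb
    have h3 : (1 : Matrix ι ι F) + 1 = 0 := by
      have : (1 : Matrix ι ι F) + 1 = ((1 : F) + 1) • (1 : Matrix ι ι F) := by module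
      rw [this, h2, zero_smul]
    show (((a * b : GL ι F) : Matrix ι ι F) * W = W * ((a * b : GL ι F) : Matrix ι ι F)) ∨ (((a * b : GL ι F) : Matrix ι ι F) * W = (W + 1) * ((a * b : GL ι F) : Matrix ι ι F))
    rw [Units.val_mul]
    rcases hb with hb | hb <;> rcases ha with ha | ha
    · left
      rw [Matrix.mul_assoc, hb, ← Matrix.mul_assoc, ha, Matrix.mul_assoc]
    · right
      rw [Matrix.mul_assoc, hb, ← Matrix.mul_assoc, ha, Matrix.mul_assoc]
    · right
      rw [Matrix.mul_assoc, hb, ← Matrix.mul_assoc, Matrix.mul_add, ha, Matrix.mul_one]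
      simp only [Matrix.add_mul, Matrix.one_mul, Matrix.mul_assoc]
    · left
      rw [Matrix.mul_assoc, hb, ← Matrix.mul_assoc, Matrix.mul_add, ha, Matrix.mul_one]
      simp only [Matrix.add_mul, Matrix.one_mul, Matrix.mul_assoc]
      have e : ∀ X : Matrix ι ι F, X + X = 0 := fun X => by
        have : X + X = ((1 : F) + 1) • X := by module
        rw [this, h2, zero_smul]
      rw [add_assoc, e, add_zero]
  one_mem' := by
    left
    simp
  inv_mem' := by
    intro a ha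
    have hai : ((a⁻¹ : GL ι F) : Matrix ι ι F) * (a : Matrix ι ι F) = 1 := by
      rw [← Units.val_mul, inv_mul_cancel, Units.val_one]
    have hia : (a : Matrix ι ι F) * ((a⁻¹ : GL ι F) : Matrix ι ι F) = 1 := by
      rw [← Units.val_mul, mul_inv_cancel, Units.val_one]
    have e : ∀ X : Matrix ι ι F, X + X = 0 := fun X => by
      have : X + X = ((1 : F) + 1) • X := by module
      rw [this, h2, zero_smul]
    show (((a⁻¹ : GL ι F) : Matrix ι ι F) * W = W * ((a⁻¹ : GL ι F) : Matrix ι ι F)) ∨ (((a⁻¹ : GL ι F) : Matrix ι ι F) * W = (W + 1) * ((a⁻¹ : GL ι F) : Matrix ι ι F))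
    rcases ha with ha | ha
    · left
      calc ((a⁻¹ : GL ι F) : Matrix ι ι F) * W = ((a⁻¹ : GL ι F) : Matrix ι ι F) * W * ((a : Matrix ι ι F) * ((a⁻¹ : GL ι F) : Matrix ι ι F)) := by rw [hia, Matrix.mul_one]
        _ = ((a⁻¹ : GL ι F) : Matrix ι ι F) * (W * (a : Matrix ι ι F)) * ((a⁻¹ : GL ι F) : Matrix ι ι F) := by simp only [Matrix.mul_assoc]
        _ = W * ((a⁻¹ : GL ι F) : Matrix ι ι F) := by
          rw [← ha, ← Matrix.mul_assoc, hai, Matrix.one_mul]
    · right
      have h5 : W * ((a⁻¹ : GL ι F) : Matrix ι ι F) = ((a⁻¹ : GL ι F) : Matrix ι ι F) * W + ((a⁻¹ : GL ι F) : Matrix ι ι F) := by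
        calc W * ((a⁻¹ : GL ι F) : Matrix ι ι F) = ((a⁻¹ : GL ι F) : Matrix ι ι F) * ((a : Matrix ι ι F) * W) * ((a⁻¹ : GL ι F) : Matrix ι ι F) := by
              rw [← Matrix.mul_assoc, hai, Matrix.one_mul]
          _ = ((a⁻¹ : GL ι F) : Matrix ι ι F) * ((W + 1) * ((a : Matrix ι ι F) * ((a⁻¹ : GL ι F) : Matrix ι ι F))) := by
              rw [ha, Matrix.mul_assoc, Matrix.mul_assoc]
          _ = ((a⁻¹ : GL ι F) : Matrix ι ι F) * W + ((a⁻¹ : GL ι F) : Matrix ι ι F) := by
              rw [hia, Matrix.mul_one, Matrix.mul_add, Matrix.mul_one]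
      rw [Matrix.add_mul, Matrix.one_mul, h5, add_assoc, e, add_zero]

/-- Conjugation of an element of order three in `GL₂(2)`. -/
theorem mul_om (hq : Fintype.card F = 2) (a : GL (Fin 2) F) :
    (a : Matrix (Fin 2) (Fin 2) F) * om F = om F * (a : Matrix (Fin 2) (Fin 2) F) ∨
      (a : Matrix (Fin 2) (Fin 2) F) * om F = (om F + 1) * (a : Matrix (Fin 2) (Fin 2) F) := by
  have hF2 : ∀ x : F, x = 0 ∨ x = 1 := fun x => by
    by_cases hx : x = 0
    · exact Or.inl hx
    · right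
      have := FiniteField.pow_card_sub_one_eq_one x hx
      rwa [hq, show 2 - 1 = 1 from rfl, pow_one] at this
  have htwo : (1 : F) + 1 = 0 := by
    rcases hF2 (1 + 1) with h | h
    · exact h
    · exact absurd (by linear_combination h) (one_ne_zero (α := F))
  have hdet : (a : Matrix (Fin 2) (Fin 2) F).det ≠ 0 := by
    have := Matrix.isUnits_det_units a
    exact this.ne_zero
  rw [Matrix.det_fin_two] at hdet
  have hM := Matrix.eta_fin_two (a : Matrix (Fin 2) (Fin 2) F)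
  obtain ⟨p, hp⟩ : ∃ p, p = (a : Matrix (Fin 2) (Fin 2) F) 0 0 := ⟨_, rfl⟩
  obtain ⟨q', hq'⟩ : ∃ q', q' = (a : Matrix (Fin 2) (Fin 2) F) 0 1 := ⟨_, rfl⟩
  obtain ⟨r, hr⟩ : ∃ r, r = (a : Matrix (Fin 2) (Fin 2) F) 1 0 := ⟨_, rfl⟩
  obtain ⟨s, hs⟩ : ∃ s, s = (a : Matrix (Fin 2) (Fin 2) F) 1 1 := ⟨_, rfl⟩
  rw [← hp, ← hq', ← hr, ← hs] at hM hdet
  rw [hM]
  have hom : om F + 1 = !![1, 1; 1, 0] := by
    unfold om
    ext i j
    fin_cases i <;> fin_cases j <;> simp [htwo]
  rw [hom]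
  unfold om
  have hE : ∀ A B : Matrix (Fin 2) (Fin 2) F, A 0 0 = B 0 0 → A 0 1 = B 0 1 → A 1 0 = B 1 0 → A 1 1 = B 1 1 → A = B := by
    intro A B h1 h2 h3 h4
    ext i j
    fin_cases i <;> fin_cases j <;> assumption
  have hmul : ∀ A B : Matrix (Fin 2) (Fin 2) F, ∀ i j, (A * B) i j = A i 0 * B 0 j + A i 1 * B 1 j := by
    intro A B i j
    rw [Matrix.mul_apply, Fin.sum_univ_two]
  rcases hF2 p with rfl | rfl <;> rcases hF2 q' with rfl | rfl <;> rcases hF2 r with rfl | rfl <;> rcases hF2 s with rfl | rfl <;>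
    first
    | (exfalso; apply hdet; ring1)
    | (left; apply hE <;> simp [hmul, htwo] <;> done)
    | (right; apply hE <;> simp [hmul, htwo] <;> done)

/-- The theorem for the standard tensor product. -/
theorem kron_lt (hq : Fintype.card F = 2) {n₂ : ℕ} (hn₂ : 3 ≤ n₂) :
    ∃ K₀ : Subgroup (GL (Fin 2 × Fin n₂) F), kroneckerSubgroup 2 n₂ F < K₀ ∧ K₀ < ⊤ := by
  have hF2 : ∀ x : F, x = 0 ∨ x = 1 := fun x => by
    by_cases hx : x = 0
    · exact Or.inl hx
    · right
      have := FiniteField.pow_card_sub_one_eq_one x hx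
      rwa [hq, show 2 - 1 = 1 from rfl, pow_one] at this
  have htwo : (1 : F) + 1 = 0 := by
    rcases hF2 (1 + 1) with h | h
    · exact h
    · exact absurd (by linear_combination h) (one_ne_zero (α := F))
  obtain ⟨i₁, i₂, i₃, h12, h13, h23⟩ : ∃ i₁ i₂ i₃ : Fin n₂, i₁ ≠ i₂ ∧ i₁ ≠ i₃ ∧ i₂ ≠ i₃ :=
    ⟨⟨0, by omega⟩, ⟨1, by omega⟩, ⟨2, by omega⟩, by simp [Fin.ext_iff], by simp [Fin.ext_iff], by simp [Fin.ext_iff]⟩
  obtain ⟨E, hE⟩ : ∃ E : Matrix (Fin n₂) (Fin n₂) F, E = Matrix.single i₁ i₂ 1 := ⟨_, rfl⟩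
  have hEE : E * E = 0 := by
    rw [hE, Matrix.single_mul_single_of_ne _ _ _ _ h12.symm]
  have hEa : ∀ i j, E i j = if i = i₁ ∧ j = i₂ then 1 else 0 := by
    intro i j
    rw [hE, Matrix.single_apply]
    by_cases h : i = i₁ ∧ j = i₂
    · simp [h]
    · rw [if_neg h, if_neg (fun h' => h ⟨h'.1.symm, h'.2.symm⟩)]
  -- the generator
  obtain ⟨W, hW⟩ : ∃ W : Matrix (Fin 2 × Fin n₂) (Fin 2 × Fin n₂) F, W = om F ⊗ₖ (1 : Matrix (Fin n₂) (Fin n₂) F) := ⟨_, rfl⟩
  have hW1 : W + 1 = (om F + 1) ⊗ₖ (1 : Matrix (Fin n₂) (Fin n₂) F) := by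
    rw [hW, Matrix.add_kronecker, Matrix.one_kronecker_one]
  have hKron : kroneckerSubgroup 2 n₂ F ≤ stabW W htwo := by
    rintro g ⟨a, b, hg⟩
    show (g : Matrix (Fin 2 × Fin n₂) (Fin 2 × Fin n₂) F) * W = W * (g : Matrix (Fin 2 × Fin n₂) (Fin 2 × Fin n₂) F) ∨
      (g : Matrix (Fin 2 × Fin n₂) (Fin 2 × Fin n₂) F) * W = (W + 1) * (g : Matrix (Fin 2 × Fin n₂) (Fin 2 × Fin n₂) F)
    rw [hW1, hW, hg, ← Matrix.mul_kronecker_mul, ← Matrix.mul_kronecker_mul, ← Matrix.mul_kronecker_mul, Matrix.mul_one, Matrix.one_mul]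
    rcases mul_om hq a with h | h
    · left
      rw [h]
    · right
      rw [h]
  -- the element of the field group which is not a product
  obtain ⟨N, hN⟩ : ∃ N : Matrix (Fin 2 × Fin n₂) (Fin 2 × Fin n₂) F, N = om F ⊗ₖ E := ⟨_, rfl⟩
  have hNN : N * N = 0 := by
    rw [hN, ← Matrix.mul_kronecker_mul, hEE, Matrix.kronecker_zero]
  have hidem : (1 + N) * (1 + N) = 1 := by
    have : (1 + N) * (1 + N) = 1 + ((1 : F) + 1) • N := by
      simp only [Matrix.add_mul, Matrix.mul_add, Matrix.one_mul, Matrix.mul_one, hNN, add_zero]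
      module
    rw [this, htwo, zero_smul, add_zero]
  let x : GL (Fin 2 × Fin n₂) F := ⟨1 + N, 1 + N, hidem, hidem⟩
  have hxv : (x : Matrix (Fin 2 × Fin n₂) (Fin 2 × Fin n₂) F) = 1 + N := rfl
  have hxK : x ∈ stabW W htwo := by
    left
    rw [hxv, hN, hW, Matrix.add_mul, Matrix.mul_add, Matrix.one_mul, Matrix.mul_one, ← Matrix.mul_kronecker_mul, ← Matrix.mul_kronecker_mul, Matrix.mul_one, Matrix.one_mul]
  have hxn : x ∉ kroneckerSubgroup 2 n₂ F := by
    rintro ⟨a, b, hg⟩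
    rw [hxv, hN] at hg
    have hent : ∀ i j k l, ((1 : Matrix (Fin 2 × Fin n₂) (Fin 2 × Fin n₂) F) + om F ⊗ₖ E) (i, k) (j, l) = (a : Matrix (Fin 2) (Fin 2) F) i j * (b : Matrix (Fin n₂) (Fin n₂) F) k l := by
      intro i j k l
      rw [hg, Matrix.kronecker_apply]
    have h1 := hent 0 0 i₃ i₃
    have h2 := hent 0 1 i₃ i₃
    have h3 := hent 0 0 i₁ i₂
    have h4 := hent 0 1 i₁ i₂
    simp only [Matrix.add_apply, Matrix.kronecker_apply, hEa, Matrix.one_apply, Prod.mk.injEq, h13.symm, h12, false_and, and_false, if_false, mul_zero, add_zero,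
      zero_ne_one, if_true, and_self, true_and, and_true, ne_eq, one_ne_zero, Fin.isValue, Fin.zero_eq_one_iff, Nat.succ_ne_self] at h1 h2 h3 h4
    simp [om] at h3 h4
    simp at h1 h2
    have h5 : (a : Matrix (Fin 2) (Fin 2) F) 0 0 ≠ 0 := fun h => by
      rw [h, zero_mul] at h1
      exact one_ne_zero h1
    have h6 : (b : Matrix (Fin n₂) (Fin n₂) F) i₃ i₃ ≠ 0 := fun h => by
      rw [h, mul_zero] at h1
      exact one_ne_zero h1
    have h7 := h3.resolve_left h5
    rw [h7, mul_zero] at h4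
    exact one_ne_zero h4
  -- the element outside
  obtain ⟨N', hN'⟩ : ∃ N' : Matrix (Fin 2 × Fin n₂) (Fin 2 × Fin n₂) F, N' = (Matrix.single 0 0 1 : Matrix (Fin 2) (Fin 2) F) ⊗ₖ E := ⟨_, rfl⟩
  have hNN' : N' * N' = 0 := by
    rw [hN', ← Matrix.mul_kronecker_mul, hEE, Matrix.kronecker_zero]
  have hidem' : (1 + N') * (1 + N') = 1 := by
    have : (1 + N') * (1 + N') = 1 + ((1 : F) + 1) • N' := by
      simp only [Matrix.add_mul, Matrix.mul_add, Matrix.one_mul, Matrix.mul_one, hNN', add_zero]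
      module
    rw [this, htwo, zero_smul, add_zero]
  let y : GL (Fin 2 × Fin n₂) F := ⟨1 + N', 1 + N', hidem', hidem'⟩
  have hyv : (y : Matrix (Fin 2 × Fin n₂) (Fin 2 × Fin n₂) F) = 1 + N' := rfl
  have hyn : y ∉ stabW W htwo := by
    rintro (h | h)
    · rw [hyv, hN', hW, Matrix.add_mul, Matrix.mul_add, Matrix.one_mul, Matrix.mul_one, ← Matrix.mul_kronecker_mul, ← Matrix.mul_kronecker_mul, Matrix.mul_one, Matrix.one_mul] at h
      have h1 := congrFun (congrFun h (0, i₁)) (1, i₂)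
      have a1 : ((Matrix.single 0 0 1 : Matrix (Fin 2) (Fin 2) F) * om F) 0 1 = 1 := by
        simp [Matrix.mul_apply, Fin.sum_univ_two, om, Matrix.single_apply]
      have a2 : (om F * (Matrix.single 0 0 1 : Matrix (Fin 2) (Fin 2) F)) 0 1 = 0 := by
        simp [Matrix.mul_apply, Fin.sum_univ_two, om, Matrix.single_apply]
      simp only [Matrix.add_apply, Matrix.kronecker_apply, a1, a2, hEa, and_self, if_true, mul_one, zero_mul, add_zero, Matrix.one_apply, h12, if_false, mul_zero, zero_add] at h1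
      exact one_ne_zero h1
    · rw [hW1, hyv, hN', Matrix.add_mul, Matrix.mul_add, Matrix.one_mul, Matrix.mul_one, hW, ← Matrix.mul_kronecker_mul, ← Matrix.mul_kronecker_mul, Matrix.mul_one, Matrix.one_mul] at h
      have h1 := congrFun (congrFun h (0, i₃)) (0, i₃)
      simp [Matrix.add_apply, Matrix.kronecker_apply, hEa, Matrix.one_apply, Matrix.mul_apply, Fin.sum_univ_two, om, h13.symm, h23.symm, Matrix.single_apply] at h1
  refine ⟨stabW W htwo, lt_of_le_of_ne hKron ?_, lt_of_le_of_ne le_top ?_⟩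
  · intro heq
    rw [← heq] at hxK
    exact hxn hxK
  · intro heq
    apply hyn
    rw [heq]
    trivial

/-- Transport to an arbitrary tensor decomposition. -/
theorem main {ι : Type} [Fintype ι] [DecidableEq ι] (hq : Fintype.card F = 2) {n₂ : ℕ} (hn₂ : 3 ≤ n₂) (e : ι ≃ Fin 2 × Fin n₂) (P : GL ι F) :
    ∃ K : Subgroup (GL ι F), tensorProductSubgroup 2 n₂ e P ⊓ specialLinear ι F < K ∧ K < specialLinear ι F := by
  have hsl : specialLinear ι F = ⊤ := by
    rw [eq_top_iff]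
    intro g _
    show Matrix.GeneralLinearGroup.det g = 1
    apply Units.ext
    simp only [Matrix.GeneralLinearGroup.val_det_apply, Units.val_one]
    have h0 : (g : Matrix ι ι F).det ≠ 0 := (Matrix.isUnits_det_units g).ne_zero
    have := FiniteField.pow_card_sub_one_eq_one _ h0
    rwa [hq, show 2 - 1 = 1 from rfl, pow_one] at this
  obtain ⟨K₀, h1, h2⟩ := kron_lt hq hn₂ (F := F)
  rw [hsl, inf_top_eq]
  obtain ⟨φ, hφ⟩ : ∃ φ : GL (Fin 2 × Fin n₂) F →* GL ι F, φ = (MulAut.conj P).toMonoidHom.comp (glReindex e.symm).toMonoidHom := ⟨_, rfl⟩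
  have hinj : Function.Injective φ := by
    rw [hφ]
    intro a b h
    simp only [MonoidHom.comp_apply] at h
    exact (glReindex e.symm).injective ((MulAut.conj P).injective h)
  have hsurj : Function.Surjective φ := by
    rw [hφ]
    intro c
    obtain ⟨b, hb⟩ := (MulAut.conj P).surjective c
    obtain ⟨a, ha⟩ := (glReindex e.symm).surjective b
    refine ⟨a, ?_⟩
    simp only [MonoidHom.comp_apply]
    show (MulAut.conj P) ((glReindex e.symm) a) = c
    rw [ha, hb]
  have hT : tensorProductSubgroup 2 n₂ e P = (kroneckerSubgroup 2 n₂ F).map φ := by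
    rw [hφ, tensorProductSubgroup, Subgroup.map_map]
  refine ⟨K₀.map φ, ?_, ?_⟩
  · rw [hT]
    exact (Subgroup.map_lt_map_iff_of_injective hinj).mpr h1
  · have : (⊤ : Subgroup (GL ι F)) = (⊤ : Subgroup (GL (Fin 2 × Fin n₂) F)).map φ := by
      rw [← MonoidHom.range_eq_map, MonoidHom.range_eq_top.mpr hsurj]
    rw [this]
    exact (Subgroup.map_lt_map_iff_of_injective hinj).mpr h2

end Cfsg.Agent.Lib.ClassMax.TensorTwo
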