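import Mathlib
import Cfsg.Agent.Lib.ClassMax.TensorFrame3
import Cfsg.Agent.Lib.ClassMax.TensorTwo
import Cfsg.Agent.Lib.ClassMax.OmegaFrame4

/-! Tensor decompositions `Sp₂(2) ⊗ Sp_{n₂}(2)` inside `Ω⁺`: the normaliser of the field with four elements. -/

set_option autoImplicit false

namespace Cfsg.Agent.Lib.ClassMax.TensorFrame

open Matrix Cfsg.Geo Cfsg.Agent.Lib.ClassMax Cfsg.Agent.Lib.ClassMax.QuadOver Cfsg.Agent.Lib.ClassMax.OmegaCore
open Cfsg.Agent.Lib.ClassMax.TensorTwo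
open scoped Kronecker

variable {ι : Type} [Fintype ι] [DecidableEq ι] {F : Type*} [Field F]

local notation "VV" => (ι → F)
local notation "MM" => Matrix ι ι F
local notation "GG" => GL ι F

section Ind

variable {n₁ n₂ : ℕ} (e : ι ≃ Fin n₁ × Fin n₂) (P : GL ι F)

theorem pure_induction {p : VV → Prop} (h0 : p 0) (hadd : ∀ u v, p u → p v → p (u + v)) (hpure : ∀ x y, p (pure e P x y)) (v : VV) : p v := by
  have hv : v = (P : MM) *ᵥ ((fun a => ((P⁻¹ : GG) : MM) *ᵥ v |>.comp e.symm <| a) ∘ e) := by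
    have : (fun a => ((P⁻¹ : GG) : MM) *ᵥ v |>.comp e.symm <| a) ∘ e = ((P⁻¹ : GG) : MM) *ᵥ v := by
      funext i
      simp
    rw [this, Matrix.mulVec_mulVec, ← Units.val_mul, mul_inv_cancel, Units.val_one, Matrix.one_mulVec]
  obtain ⟨x, hx⟩ : ∃ x : Fin n₁ × Fin n₂ → F, v = (P : MM) *ᵥ (x ∘ e) := ⟨_, hv⟩
  have hx' : x = ∑ a, tens (x a • Pi.single a.1 (1 : F)) (Pi.single a.2 (1 : F)) := by
    funext q
    rw [Finset.sum_apply]
    simp only [tens, Pi.smul_apply, smul_eq_mul, Pi.single_apply]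
    rw [Finset.sum_eq_single q]
    · simp
    · intro b _ hb
      by_cases h1 : q.1 = b.1
      · by_cases h2 : q.2 = b.2
        · exact absurd (Prod.ext h1 h2).symm hb
        · simp [h2]
      · simp [h1]
    · simp
  have hs : ∀ s : Finset (Fin n₁ × Fin n₂), p ((P : MM) *ᵥ ((∑ a ∈ s, tens (x a • Pi.single a.1 (1 : F)) (Pi.single a.2 (1 : F))) ∘ e)) := by
    intro s
    induction s using Finset.induction_on with
    | empty =>
      have : ((∑ a ∈ (∅ : Finset (Fin n₁ × Fin n₂)), tens (x a • Pi.single a.1 (1 : F)) (Pi.single a.2 (1 : F))) ∘ e) = 0 := by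
        funext i
        simp
      rw [this, Matrix.mulVec_zero]
      exact h0
    | insert a s ha ih =>
      rw [Finset.sum_insert ha]
      have : (tens (x a • Pi.single a.1 (1 : F)) (Pi.single a.2 (1 : F)) + ∑ a ∈ s, tens (x a • Pi.single a.1 (1 : F)) (Pi.single a.2 (1 : F))) ∘ e
          = (tens (x a • Pi.single a.1 (1 : F)) (Pi.single a.2 (1 : F))) ∘ e + (∑ a ∈ s, tens (x a • Pi.single a.1 (1 : F)) (Pi.single a.2 (1 : F))) ∘ e := by
        funext i
        simp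
      rw [this, Matrix.mulVec_add]
      exact hadd _ _ (hpure _ _) ih
  have := hs Finset.univ
  rw [← hx', ← hx] at this
  exact this

/-- The conjugate of a Kronecker product. -/
noncomputable def kconj (a : Matrix (Fin n₁) (Fin n₁) F) (b : Matrix (Fin n₂) (Fin n₂) F) : MM :=
  P.val * (Matrix.reindexAlgEquiv F F e.symm (a ⊗ₖ b)) * ((P⁻¹ : GG) : MM)

theorem kconj_apply (a : Matrix (Fin n₁) (Fin n₁) F) (b : Matrix (Fin n₂) (Fin n₂) F) (x : Fin n₁ → F) (y : Fin n₂ → F) :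
    kconj e P a b *ᵥ pure e P x y = pure e P (a *ᵥ x) (b *ᵥ y) := by
  unfold kconj pure
  rw [Matrix.mulVec_mulVec, Matrix.mul_assoc, Matrix.mul_assoc, ← Units.val_mul, inv_mul_cancel, Units.val_one, Matrix.mul_one,
    ← Matrix.mulVec_mulVec, ← kron_mulVec_tens]
  congr 1
  funext i
  simp only [Matrix.reindexAlgEquiv_apply, Matrix.reindex_apply, Equiv.symm_symm, Function.comp_apply]
  rw [Matrix.submatrix_mulVec_equiv]
  have h2 : (tens x y ∘ e) ∘ e.symm = tens x y := by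
    funext z
    simp
  rw [h2]
  rfl

end Ind

section Main

variable [Fintype F]

theorem sympl_quad (hq : Fintype.card F = 2) {l : ℕ} {f : (Fin l → F) → (Fin l → F) → F} (hf : IsSymplecticForm f) (hl : 2 < l) :
    ∃ y₁ y₂ z' z'' : Fin l → F, f y₁ y₂ = 1 ∧ f y₂ y₁ = 1 ∧ z' ≠ 0 ∧ f z' y₁ = 0 ∧ f z' y₂ = 0 ∧ f z' z'' = 1 ∧ f z'' y₁ = 0 := by
  have hF2 : ∀ {x : F}, x ≠ 0 → x = 1 := fun {x} hx => OmegaFrame.eq_one_of_card2 hq hx
  have h2 := OmegaFrame.two_zero_of_card2 hq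
  have hb := hf.bilinear
  have hneg : ∀ x : F, - x = x := fun x => by linear_combination (-x) * h2
  have hsym : ∀ u v, f u v = f v u := fun u v => by rw [hf.skew, hneg]
  haveI : NeZero l := ⟨by omega⟩
  have hy : (Pi.single 0 1 : Fin l → F) ≠ 0 := by
    intro h0
    have := congrFun h0 0
    simp at this
  obtain ⟨-, ⟨y₂, hy₂⟩⟩ := hf.nondegenerate _ hy
  set y₁ : Fin l → F := Pi.single 0 1 with hy₁d
  have h12 : f y₁ y₂ = 1 := hF2 hy₂
  have h21 : f y₂ y₁ = 1 := by rw [hsym, h12]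
  classical
  have hlt : Submodule.span F (({y₁, y₂} : Finset (Fin l → F)) : Set (Fin l → F)) < ⊤ := by
    rw [lt_top_iff_ne_top]
    intro h
    have h3 : Module.finrank F (Submodule.span F (({y₁, y₂} : Finset (Fin l → F)) : Set (Fin l → F))) ≤ 2 :=
      le_trans (finrank_span_finset_le_card _) Finset.card_le_two
    rw [h] at h3
    simp at h3
    omega
  obtain ⟨z₀, -, hz₀⟩ := SetLike.exists_of_lt hlt
  set z' := z₀ + f z₀ y₂ • y₁ + f z₀ y₁ • y₂ with hz'
  have hy₁₁ : f y₁ y₁ = 0 := hf.alternating _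
  have hy₂₂ : f y₂ y₂ = 0 := hf.alternating _
  have hz'1 : f z' y₁ = 0 := by
    simp only [hz', hb.add_left, hb.smul_left, hy₁₁, h21]
    linear_combination (f z₀ y₁) * h2
  have hz'2 : f z' y₂ = 0 := by
    simp only [hz', hb.add_left, hb.smul_left, hy₂₂, h12]
    linear_combination (f z₀ y₂) * h2
  have hz'0 : z' ≠ 0 := by
    intro h0
    apply hz₀
    rw [Finset.coe_pair, Submodule.mem_span_pair]
    refine ⟨f z₀ y₂, f z₀ y₁, ?_⟩
    have h5 : z₀ = z' + f z₀ y₂ • y₁ + f z₀ y₁ • y₂ := by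
      funext i
      simp only [hz', Pi.add_apply, Pi.smul_apply, smul_eq_mul]
      linear_combination (- (f z₀ y₂ * y₁ i) - (f z₀ y₁ * y₂ i)) * h2
    rw [h0, zero_add] at h5
    exact h5.symm
  obtain ⟨-, ⟨u, hu⟩⟩ := hf.nondegenerate _ hz'0
  refine ⟨y₁, y₂, z', u + f u y₁ • y₂, h12, h21, hz'0, hz'1, hz'2, ?_, ?_⟩
  · rw [hb.add_right, hb.smul_right, hz'2, hF2 hu]
    ring
  · rw [hb.add_left, hb.smul_left, h21]
    linear_combination (f u y₁) * h2

theorem omega_tensor2 (hq : Fintype.card F = 2) {Q : (ι → F) → F} (hQ : IsNondegenerateQuadraticForm Q) {n₂ : ℕ} (hn₂ : 2 < n₂) (e : ι ≃ Fin 2 × Fin n₂) (P : GL ι F)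
    {f₁ : (Fin 2 → F) → (Fin 2 → F) → F} {f₂ : (Fin n₂ → F) → (Fin n₂ → F) → F} (hf₁ : IsSymplecticForm f₁) (hf₂ : IsSymplecticForm f₂)
    (hT : IsTensorFormStructure id (QuadraticMap.polar Q) f₁ f₂ e P) (hpure : ∀ x y, Q (pure e P x y) = 0) :
    ∃ K : Subgroup GG, tensorProductSubgroup 2 n₂ e P ⊓ omegaGL Q < K ∧ K < omegaGL Q := by
  have hF2 : ∀ {x : F}, x ≠ 0 → x = 1 := fun {x} hx => OmegaFrame.eq_one_of_card2 hq hx
  have h2 := OmegaFrame.two_zero_of_card2 hq
  have h11 : (1 : F) + 1 = 0 := by linear_combination h2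
  have hneg : ∀ x : F, - x = x := fun x => by linear_combination (-x) * h2
  have hb := hQ.polar_bilinear
  have hb₁ := hf₁.bilinear
  have hb₂ := hf₂.bilinear
  obtain ⟨c, hc, hT'⟩ := hT
  have hc1 : c = 1 := hF2 hc
  subst hc1
  have hform := form_pure id (fun _ _ => rfl) hT' (gram_form id hb₁.add_left hb₁.smul_left hb₁.add_right hb₁.smul_right)
    (gram_form id hb₂.add_left hb₂.smul_left hb₂.add_right hb₂.smul_right)
  simp only [one_mul] at hform
  obtain ⟨y₁, y₂, z', z'', h12, h21, hz'0, hz'1, hz'2, hz'z'', hz''1⟩ := sympl_quad hq hf₂ hn₂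
  have s1 : f₂ y₁ y₁ = 0 := hf₂.alternating _
  have s2 : f₂ y₂ y₂ = 0 := hf₂.alternating _
  -- the standard basis of the first factor
  obtain ⟨a₁, ha₁⟩ : ∃ a₁ : Fin 2 → F, a₁ = Pi.single 0 1 := ⟨_, rfl⟩
  obtain ⟨a₂, ha₂⟩ : ∃ a₂ : Fin 2 → F, a₂ = Pi.single 1 1 := ⟨_, rfl⟩
  have hrep : ∀ x : Fin 2 → F, x = x 0 • a₁ + x 1 • a₂ := by
    intro x
    funext i
    rw [ha₁, ha₂]
    fin_cases i <;> simp
  have a11 : f₁ a₁ a₁ = 0 := hf₁.alternating _
  have a22 : f₁ a₂ a₂ = 0 := hf₁.alternating _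
  have ha₁0 : a₁ ≠ 0 := by
    rw [ha₁]
    intro h0
    have := congrFun h0 0
    simp at this
  have a12 : f₁ a₁ a₂ = 1 := by
    apply hF2
    intro h0
    obtain ⟨-, ⟨x, hx⟩⟩ := hf₁.nondegenerate _ ha₁0
    apply hx
    rw [hrep x, hb₁.add_right, hb₁.smul_right, hb₁.smul_right, a11, h0]
    ring
  have a21 : f₁ a₂ a₁ = 1 := by
    rw [hf₁.skew, a12, hneg]
  have hom1 : om F *ᵥ a₁ = a₂ := by
    rw [ha₁, ha₂]
    funext i
    fin_cases i <;> simp [om, Matrix.mulVec, dotProduct, Fin.sum_univ_two, Pi.single_apply]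
  have hom2 : om F *ᵥ a₂ = a₁ + a₂ := by
    rw [ha₁, ha₂]
    funext i
    fin_cases i <;> simp [om, Matrix.mulVec, dotProduct, Fin.sum_univ_two, Pi.single_apply]
  have hom_iso : ∀ x x', f₁ (om F *ᵥ x) (om F *ᵥ x') = f₁ x x' := by
    intro x x'
    conv_lhs => rw [hrep x, hrep x']
    conv_rhs => rw [hrep x, hrep x']
    simp only [Matrix.mulVec_add, Matrix.mulVec_smul, hom1, hom2, hb₁.add_left, hb₁.add_right, hb₁.smul_left, hb₁.smul_right, a11, a22, a12, a21]
    linear_combination (x 1 * x' 1) * h2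
  have hom_sq : ∀ x, om F *ᵥ (om F *ᵥ x) = om F *ᵥ x + x := by
    intro x
    conv_lhs => rw [hrep x]
    conv_rhs => rw [hrep x]
    simp only [Matrix.mulVec_add, Matrix.mulVec_smul, hom1, hom2]
    funext i
    simp only [Pi.add_apply, Pi.smul_apply, smul_eq_mul]
    ring
  set J := kconj e P (om F) (1 : Matrix (Fin n₂) (Fin n₂) F) with hJ
  have hJ1 : ∀ x y, J *ᵥ pure e P x y = pure e P (om F *ᵥ x) y := by
    intro x y
    rw [hJ, kconj_apply, Matrix.one_mulVec]
  have hpp : ∀ x y x' y', QuadraticMap.polar Q (pure e P x y) (pure e P x' y') = f₁ x x' * f₂ y y' := fun x y x' y' => hform x x' y y'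
  -- `J` preserves the polar form
  have hJ3 : ∀ u v, QuadraticMap.polar Q (J *ᵥ u) (J *ᵥ v) = QuadraticMap.polar Q u v := by
    intro u
    refine pure_induction e P ?_ ?_ ?_
    · rw [Matrix.mulVec_zero, pol_zero_right hQ, pol_zero_right hQ]
    · intro v w hv hw
      rw [Matrix.mulVec_add, hb.add_right, hb.add_right, hv, hw]
    · intro x' y'
      revert u
      refine pure_induction e P ?_ ?_ ?_
      · rw [Matrix.mulVec_zero, pol_zero_left hQ, pol_zero_left hQ]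
      · intro v w hv hw
        rw [Matrix.mulVec_add, hb.add_left, hb.add_left, hv, hw]
      · intro x y
        rw [hJ1, hJ1, hpp, hpp, hom_iso]
  have hJ2 : ∀ v, J *ᵥ (J *ᵥ v) = J *ᵥ v + v := by
    refine pure_induction e P ?_ ?_ ?_
    · simp
    · intro u v hu hv
      simp only [Matrix.mulVec_add]
      rw [hu, hv]
      abel
    · intro x y
      rw [hJ1, hJ1, hom_sq, pure_add_left]
  have hJ4 : ∀ u v, QuadraticMap.polar Q (J *ᵥ u) v = QuadraticMap.polar Q u (J *ᵥ v) + QuadraticMap.polar Q u v := by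
    intro u v
    rw [← hJ3 (J *ᵥ u) v, hJ2, hb.add_left, hJ3, add_comm]
  have hrf : ∀ x v : VV, Q x = 1 → (rf Q x).val *ᵥ v = v + QuadraticMap.polar Q v x • x := by
    intro x v hx
    rw [rf_apply hQ (by rw [hx]; exact one_ne_zero)]
    unfold rfFun
    rw [hx, div_one, sub_eq_add_neg, ← neg_smul, hneg]
  -- the vector `x` and its image under `J`
  obtain ⟨x, hxd⟩ : ∃ x, x = pure e P a₁ y₁ + pure e P a₂ y₂ := ⟨_, rfl⟩
  obtain ⟨Jx, hJxd⟩ : ∃ Jx, Jx = pure e P a₂ y₁ + pure e P (a₁ + a₂) y₂ := ⟨_, rfl⟩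
  have hJx : J *ᵥ x = Jx := by
    rw [hxd, hJxd, Matrix.mulVec_add, hJ1, hJ1, hom1, hom2]
  have hQx : Q x = 1 := by
    rw [hxd, Q_add' (Q := Q), hpure, hpure, hpp, a12, h12]
    ring
  have hQJx : Q Jx = 1 := by
    rw [hJxd, Q_add' (Q := Q), hpure, hpure, hpp, hb₁.add_right, a21, a22, h12]
    ring
  have hBJx : QuadraticMap.polar Q Jx x = 1 := by
    rw [hJxd, hxd]
    simp only [hb.add_left, hb.add_right, hpp, hb₁.add_left, a11, a12, a21, a22, s1, s2, h21, h12]
    ring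
  have hg₀Ω : rf Q x * rf Q Jx ∈ omegaGL Q := rf_mul_mem_omega hQ (by rw [hQx]; exact one_ne_zero) (by rw [hQx, hQJx])
  have hg₀v : ∀ v, (rf Q x * rf Q Jx).val *ᵥ v = v + QuadraticMap.polar Q v Jx • Jx + (QuadraticMap.polar Q v x + QuadraticMap.polar Q v Jx) • x := by
    intro v
    rw [Units.val_mul, ← Matrix.mulVec_mulVec, hrf _ _ hQJx, hrf _ _ hQx, hb.add_left, hb.smul_left, hBJx, mul_one]
  have hJ2' : J *ᵥ Jx = Jx + x := by rw [← hJx, hJ2]
  have hcomm : (rf Q x * rf Q Jx).val * J = J * (rf Q x * rf Q Jx).val := by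
    apply Cfsg.Agent.Lib.Classical.mat_ext_mulVec
    intro v
    rw [← Matrix.mulVec_mulVec, ← Matrix.mulVec_mulVec, hg₀v, hg₀v]
    have e1 : QuadraticMap.polar Q (J *ᵥ v) Jx = QuadraticMap.polar Q v x := by rw [← hJx, hJ3]
    have e2 : QuadraticMap.polar Q (J *ᵥ v) x = QuadraticMap.polar Q v Jx + QuadraticMap.polar Q v x := by
      rw [hJ4, hJx]
    rw [e1, e2]
    simp only [Matrix.mulVec_add, Matrix.mulVec_smul, hJx, hJ2']
    funext i
    simp only [Pi.add_apply, Pi.smul_apply, smul_eq_mul]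
    linear_combination (QuadraticMap.polar Q v x * x i - QuadraticMap.polar Q v Jx * Jx i) * h2
  have hg₀H : rf Q x * rf Q Jx ∉ tensorProductSubgroup 2 n₂ e P ⊓ omegaGL Q := by
    rintro ⟨hs, -⟩
    obtain ⟨a, b, hab⟩ := tensor_apply e P hs
    have h3 := hab a₁ (y₁ + y₂ + z')
    rw [hg₀v] at h3
    have hα : QuadraticMap.polar Q (pure e P a₁ (y₁ + y₂ + z')) x = 1 := by
      rw [hxd]
      simp only [hb.add_right, hpp, hb₂.add_left, a11, a12, s1, s2, h12, h21, hz'1, hz'2]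
      ring
    have hβ : QuadraticMap.polar Q (pure e P a₁ (y₁ + y₂ + z')) Jx = 0 := by
      rw [hJxd]
      simp only [hb.add_right, hpp, hb₂.add_left, hb₁.add_right, a11, a12, s1, s2, h21, h12, hz'1, hz'2]
      linear_combination h2
    rw [hα, hβ, zero_smul, add_zero, add_zero, one_smul] at h3
    set x₀ := a.val *ᵥ a₁
    set y₀ := b.val *ᵥ (y₁ + y₂ + z')
    have hp1 : ∀ t, f₂ y₂ t = f₁ x₀ a₁ * f₂ y₀ t := by
      intro t
      have h4 := congrArg (fun w => QuadraticMap.polar Q w (pure e P a₁ t)) h3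
      simp only [hxd, hb.add_left, hpp, a11, a21] at h4
      rw [← h4]
      ring
    have hp2 : ∀ t, f₂ y₂ t + f₂ z' t = f₁ x₀ a₂ * f₂ y₀ t := by
      intro t
      have h4 := congrArg (fun w => QuadraticMap.polar Q w (pure e P a₂ t)) h3
      simp only [hxd, hb.add_left, hpp, a12, a22, hb₂.add_left] at h4
      rw [← h4]
      linear_combination (- f₂ y₁ t) * h2
    have h5 := hp1 y₁
    have h6 := hp2 y₁
    rw [h21] at h5
    rw [h21, hz'1, add_zero] at h6
    have h7 : f₂ y₀ y₁ ≠ 0 := by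
      intro h0
      rw [h0, mul_zero] at h5
      exact one_ne_zero h5
    have h8 : f₁ x₀ a₁ = f₁ x₀ a₂ := by
      apply mul_right_cancel₀ h7
      rw [← h5, ← h6]
    obtain ⟨-, ⟨t, ht⟩⟩ := hf₂.nondegenerate _ hz'0
    apply ht
    have h9 := hp1 t
    have h10 := hp2 t
    rw [← h8, ← h9] at h10
    linear_combination h10
  -- the element outside `K`
  have hy1z'' : f₂ y₁ z'' = 0 := by rw [hf₂.skew, hz''1, neg_zero]
  have hy1z' : f₂ y₁ z' = 0 := by rw [hf₂.skew, hz'1, neg_zero]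
  obtain ⟨y', hy'd⟩ : ∃ y', y' = pure e P a₁ z' + pure e P a₂ z'' := ⟨_, rfl⟩
  have hQy' : Q y' = 1 := by
    rw [hy'd, Q_add' (Q := Q), hpure, hpure, hpp, a12, hz'z'']
    ring
  have hs : rf Q x * rf Q y' ∈ omegaGL Q := rf_mul_mem_omega hQ (by rw [hQx]; exact one_ne_zero) (by rw [hQx, hQy'])
  have hsv : (rf Q x * rf Q y').val *ᵥ pure e P a₁ y₁ = pure e P a₁ y₁ + x := by
    have h3 : QuadraticMap.polar Q (pure e P a₁ y₁) y' = 0 := by
      rw [hy'd, hb.add_right, hpp, hpp, a11, a12, hy1z'']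
      ring
    have h4 : QuadraticMap.polar Q (pure e P a₁ y₁) x = 1 := by
      rw [hxd, hb.add_right, hpp, hpp, a11, a12, h12]
      ring
    rw [Units.val_mul, ← Matrix.mulVec_mulVec, hrf _ _ hQy', h3, zero_smul, add_zero, hrf _ _ hQx, h4, one_smul]
  have hsJv : (rf Q x * rf Q y').val *ᵥ pure e P a₂ y₁ = pure e P a₂ y₁ := by
    have h3 : QuadraticMap.polar Q (pure e P a₂ y₁) y' = 0 := by
      rw [hy'd, hb.add_right, hpp, hpp, a21, a22, hy1z']
      ring
    have h4 : QuadraticMap.polar Q (pure e P a₂ y₁) x = 0 := by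
      rw [hxd, hb.add_right, hpp, hpp, a21, a22, s1]
      ring
    rw [Units.val_mul, ← Matrix.mulVec_mulVec, hrf _ _ hQy', h3, zero_smul, add_zero, hrf _ _ hQx, h4, zero_smul, add_zero]
  have hJv : J *ᵥ pure e P a₁ y₁ = pure e P a₂ y₁ := by rw [hJ1, hom1]
  refine ⟨TensorTwo.stabW J h11 ⊓ omegaGL Q, ?_, ?_⟩
  · rw [SetLike.lt_iff_le_and_exists]
    constructor
    · rintro g ⟨hgT, hgΩ⟩
      refine ⟨?_, hgΩ⟩
      obtain ⟨a, b, hab⟩ := tensor_apply e P hgT
      have hvJ : ∀ x' y', g.val *ᵥ (J *ᵥ pure e P x' y') = pure e P (a.val *ᵥ (om F *ᵥ x')) (b.val *ᵥ y') := by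
        intro x' y'
        rw [hJ1, hab]
      show g.val * J = J * g.val ∨ g.val * J = (J + 1) * g.val
      rcases mul_om hq a with hc | hc
      · left
        apply Cfsg.Agent.Lib.Classical.mat_ext_mulVec
        refine pure_induction e P (by simp) ?_ ?_
        · intro u v hu hv
          rw [Matrix.mulVec_add, Matrix.mulVec_add, hu, hv]
        · intro x' y'
          rw [← Matrix.mulVec_mulVec, ← Matrix.mulVec_mulVec, hvJ, hab, hJ1, Matrix.mulVec_mulVec, hc, ← Matrix.mulVec_mulVec]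
      · right
        apply Cfsg.Agent.Lib.Classical.mat_ext_mulVec
        refine pure_induction e P (by simp) ?_ ?_
        · intro u v hu hv
          rw [Matrix.mulVec_add, Matrix.mulVec_add, hu, hv]
        · intro x' y'
          rw [← Matrix.mulVec_mulVec, ← Matrix.mulVec_mulVec, hvJ, hab, Matrix.add_mulVec, Matrix.one_mulVec, hJ1, Matrix.mulVec_mulVec, hc, ← pure_add_left,
            Matrix.mulVec_mulVec, Matrix.add_mul, Matrix.one_mul, Matrix.add_mulVec]
    · exact ⟨rf Q x * rf Q Jx, ⟨Or.inl hcomm, hg₀Ω⟩, hg₀H⟩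
  · rw [SetLike.lt_iff_le_and_exists]
    refine ⟨inf_le_right, rf Q x * rf Q y', hs, ?_⟩
    rintro ⟨hW, -⟩
    have hW' : (rf Q x * rf Q y').val * J = J * (rf Q x * rf Q y').val ∨ (rf Q x * rf Q y').val * J = (J + 1) * (rf Q x * rf Q y').val := hW
    rcases hW' with h | h
    · have h3 := congrArg (fun M => M *ᵥ pure e P a₁ y₁) h
      simp only [← Matrix.mulVec_mulVec] at h3
      rw [hJv, hsJv, hsv, Matrix.mulVec_add, hJv, hJx] at h3
      have h4 : Jx = 0 := by
        have := h3.symm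
        simpa using this
      rw [h4, Q_zero hQ] at hQJx
      exact zero_ne_one hQJx
    · have h3 := congrArg (fun M => M *ᵥ pure e P a₁ y₁) h
      simp only [← Matrix.mulVec_mulVec] at h3
      rw [hJv, hsJv, hsv, Matrix.add_mulVec, Matrix.one_mulVec, Matrix.mulVec_add, hJv, hJx] at h3
      have h4 := congrArg (fun w => QuadraticMap.polar Q w (pure e P a₂ y₁)) h3
      simp only [hxd, hJxd, hb.add_left, hpp, hb₁.add_left, a12, a22, s1, h21] at h4
      have : (1 : F) = 0 := by linear_combination - h4 - (f₁ a₂ a₂) * 0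
      exact one_ne_zero this

end Main

end Cfsg.Agent.Lib.ClassMax.TensorFrame
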