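import Mathlib
import Cfsg.Agent.Lib.ClassMax.UnitRat

/-! The symplectic subgroups of the special unitary groups are maximal. -/

set_option autoImplicit false

namespace Cfsg.Agent.Lib.ClassMax.UnitCore

open Matrix Cfsg.Geo Cfsg.Agent.Lib.ClassMax Cfsg.Agent.Lib.ClassMax.QuadOver
open Cfsg.Agent.Lib.ClassMax.HermOver

variable {ι : Type} [Fintype ι] [DecidableEq ι] {F : Type*} [Field F] {σ : F ≃+* F} {f : (ι → F) → (ι → F) → F}

local notation "VV" => (ι → F)
local notation "MM" => Matrix ι ι F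
local notation "GG" => GL ι F

/-- A scalar as a combination with rational coefficients. -/
theorem scalar_decomp (hσ : ∀ a : F, σ (σ a) = a) {ε : F} (hε : σ ε ≠ ε) (c : F) :
    ∃ c₁ c₂, σ c₁ = c₁ ∧ σ c₂ = c₂ ∧ c = c₁ + ε * c₂ := by
  have hne : ε - σ ε ≠ 0 := sub_ne_zero.mpr (Ne.symm hε)
  have hne' : σ ε - ε ≠ 0 := sub_ne_zero.mpr hε
  set c₂ := (c - σ c) / (ε - σ ε) with hc₂
  have h2 : σ c₂ = c₂ := by
    rw [hc₂, map_div₀, map_sub, map_sub, hσ, hσ]
    field_simp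
    ring
  have h3 : (ε - σ ε) * c₂ = c - σ c := by
    rw [hc₂]
    field_simp
  refine ⟨c - ε * c₂, c₂, ?_, h2, by ring⟩
  rw [map_sub, map_mul, h2]
  linear_combination h3

section Main

variable (hf : IsUnitaryForm σ f) {ζ : F} (hζ0 : ζ ≠ 0) (hζ : ζ + σ ζ = 0) {P : GL ι F}
  (hR : ∀ u v, Rt σ P u → Rt σ P v → σ (ζ * f u v) = ζ * f u v) (halt : ∀ u, Rt σ P u → f u u = 0)

/-- The group generated by the rational transvections. -/
def ratG (f : (ι → F) → (ι → F) → F) (σ : F ≃+* F) (ζ : F) (P : GL ι F) : Subgroup (GL ι F) :=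
  Subgroup.closure {g | ∃ w c, Rt σ P w ∧ σ c = c ∧ g = eg f w 0 (c * ζ)}

include hζ in
omit [Fintype ι] [DecidableEq ι] in
theorem skew_cζ {c : F} (hc : σ c = c) : c * ζ + σ (c * ζ) = 0 := by
  rw [map_mul, hc]
  linear_combination c * hζ

include hf hζ hR halt

theorem ratG_gen_rat {w v : VV} {c : F} (hw : Rt σ P w) (hc : σ c = c) (hv : Rt σ P v) :
    Rt σ P ((eg f w 0 (c * ζ) : MM) *ᵥ v) := by
  have hwQ := halt w hw
  rw [eg_apply hf hwQ (zero_right hf w) (skew_ok hf (skew_cζ hζ hc))]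
  unfold egFun
  rw [zero_right hf]
  have e : v + f v w • (0 : VV) - (0 : F) • w + (c * ζ * f v w) • w = v + (c * (ζ * f v w)) • w := by
    rw [mul_assoc]
    module
  rw [e]
  refine hv.add (hw.smul ?_)
  rw [map_mul, hc, hR v w hv hw]

theorem gen_inv {w : VV} {c : F} (hw : Rt σ P w) (hc : σ c = c) :
    (eg f w 0 (c * ζ))⁻¹ = eg f w 0 ((-c) * ζ) := by
  have hwQ := halt w hw
  rw [eg_inv hf hwQ (zero_right hf w) (skew_ok hf (skew_cζ hζ hc)), neg_zero, map_mul, hc]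
  congr 1
  linear_combination c * hζ

theorem ratG_rat {g : GG} (hg : g ∈ ratG f σ ζ P) {v : VV} (hv : Rt σ P v) : Rt σ P ((g : MM) *ᵥ v) := by
  have key : (∀ v, Rt σ P v → Rt σ P ((g : MM) *ᵥ v)) ∧ (∀ v, Rt σ P v → Rt σ P (((g⁻¹ : GG) : MM) *ᵥ v)) := by
    induction hg using Subgroup.closure_induction with
    | mem g h0 =>
      obtain ⟨w, c, hw, hc, rfl⟩ := h0
      refine ⟨fun v hv => ratG_gen_rat hf hζ hR halt hw hc hv, fun v hv => ?_⟩
      rw [gen_inv hf hζ hR halt hw hc]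
      have hc' : σ (-c) = -c := by rw [map_neg, hc]
      exact ratG_gen_rat hf hζ hR halt hw hc' hv
    | one => simp
    | mul a b _ _ ha hb =>
      constructor
      · intro v hv
        rw [Units.val_mul, ← Matrix.mulVec_mulVec]
        exact ha.1 _ (hb.1 _ hv)
      · intro v hv
        rw [_root_.mul_inv_rev, Units.val_mul, ← Matrix.mulVec_mulVec]
        exact hb.2 _ (ha.2 _ hv)
    | inv a _ ha =>
      rw [inv_inv]
      exact ⟨ha.2, ha.1⟩
  exact key.1 v hv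

theorem ratG_iso {g : GG} (hg : g ∈ ratG f σ ζ P) : ∀ v w, f ((g : MM) *ᵥ v) ((g : MM) *ᵥ w) = f v w := by
  induction hg using Subgroup.closure_induction with
  | mem g h0 =>
    obtain ⟨w, c, hw, hc, rfl⟩ := h0
    exact eg_iso hf (halt w hw) (zero_right hf w) (skew_ok hf (skew_cζ hζ hc))
  | one => intro v w; simp
  | mul a b _ _ ha hb => exact iso_mul ha hb
  | inv a _ ha => exact iso_inv ha

/-- Every vector has a rational non-orthogonal partner. -/
theorem exists_rat_nonorth {x : VV} (hx0 : x ≠ 0) : ∃ r, Rt σ P r ∧ f x r ≠ 0 := by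
  obtain ⟨y, hy⟩ := (hf.nondegenerate x hx0).2
  obtain ⟨ε, hε⟩ : ∃ ε, σ ε ≠ ε := by
    by_contra hcon
    push Not at hcon
    apply hf.ne_refl
    ext a
    exact hcon a
  obtain ⟨y₁, y₂, h1, h2, rfl⟩ := rt_decomp (P := P) hf.involutive hε y
  by_cases h3 : f x y₁ = 0
  · by_cases h4 : f x y₂ = 0
    · exfalso
      apply hy
      rw [add_right hf, smul_right hf, h3, h4]
      ring
    · exact ⟨y₂, h2, h4⟩
  · exact ⟨y₁, h1, h3⟩

/-- Common rational partner. -/
theorem exists_rat_common {x x' : VV} (hx0 : x ≠ 0) (hx'0 : x' ≠ 0) : ∃ r, Rt σ P r ∧ f x r ≠ 0 ∧ f x' r ≠ 0 := by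
  obtain ⟨a, ha, h1⟩ := exists_rat_nonorth hf hζ hR halt hx0
  obtain ⟨b, hb, h2⟩ := exists_rat_nonorth hf hζ hR halt hx'0
  by_cases h3 : f x' a = 0
  · by_cases h4 : f x b = 0
    · refine ⟨a + b, ha.add hb, ?_, ?_⟩
      · rw [add_right hf, h4, add_zero]; exact h1
      · rw [add_right hf, h3, zero_add]; exact h2
    · exact ⟨b, hb, h4, h2⟩
  · exact ⟨a, ha, h1, h3⟩

include hζ0

/-- A rational transvection moving one vector to another, fixing what is orthogonal to the difference. -/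
theorem step_rat {x y : VV} (hx : Rt σ P x) (hy : Rt σ P y) (hxy : f x y ≠ 0) :
    ∃ t ∈ ratG f σ ζ P, (t : MM) *ᵥ x = y ∧ ∀ v, f v x = 0 → f v y = 0 → (t : MM) *ᵥ v = v := by
  have hw : Rt σ P (y - x) := hy.sub hx
  have hwQ := halt _ hw
  have h1 : f x (y - x) = f x y := by rw [sub_right hf, halt x hx, sub_zero]
  have hb : ζ * f x y ≠ 0 := mul_ne_zero hζ0 hxy
  have hfix : σ (ζ * f x y) = ζ * f x y := by
    have := hR x (y - x) hx hw
    rwa [h1] at this
  have hc : σ ((ζ * f x y)⁻¹) = (ζ * f x y)⁻¹ := by rw [map_inv₀, hfix]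
  refine ⟨eg f (y - x) 0 ((ζ * f x y)⁻¹ * ζ), Subgroup.subset_closure ⟨_, _, hw, hc, rfl⟩, ?_, ?_⟩
  · rw [eg_apply hf hwQ (zero_right hf _) (skew_ok hf (skew_cζ hζ hc))]
    unfold egFun
    rw [zero_right hf, h1]
    have e : (ζ * f x y)⁻¹ * ζ * f x y = 1 := by field_simp
    rw [e]
    module
  · intro v h2 h3
    apply eg_fix hf hwQ (zero_right hf _) (skew_ok hf (skew_cζ hζ hc)) _ (zero_right hf _)
    rw [sub_right hf, h2, h3, sub_zero]

/-- Transitivity on non-zero rational vectors. -/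
theorem trans_vec {x y : VV} (hx : Rt σ P x) (hy : Rt σ P y) (hx0 : x ≠ 0) (hy0 : y ≠ 0) :
    ∃ t ∈ ratG f σ ζ P, (t : MM) *ᵥ x = y := by
  by_cases hxy : f x y = 0
  · obtain ⟨r, hr, h1, h2⟩ := exists_rat_common hf hζ hR halt hx0 hy0
    have h3 : f r y ≠ 0 := fun h0 => h2 (by rw [hf.herm, h0, map_zero])
    obtain ⟨t₁, ht₁, e₁, -⟩ := step_rat hf hζ0 hζ hR halt hx hr h1
    obtain ⟨t₂, ht₂, e₂, -⟩ := step_rat hf hζ0 hζ hR halt hr hy h3
    refine ⟨t₂ * t₁, mul_mem ht₂ ht₁, ?_⟩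
    rw [Units.val_mul, ← Matrix.mulVec_mulVec, e₁, e₂]
  · obtain ⟨t, ht, e, -⟩ := step_rat hf hζ0 hζ hR halt hx hy hxy
    exact ⟨t, ht, e⟩

/-- A rational vector in the perpendicular of `x` not orthogonal to `y`. -/
theorem exists_rat_perp {x y : VV} (hx : Rt σ P x) (hy : ∀ t : F, y ≠ t • x) : ∃ a, Rt σ P a ∧ f x a = 0 ∧ f y a ≠ 0 := by
  obtain ⟨ε, hε⟩ : ∃ ε, σ ε ≠ ε := by
    by_contra hcon
    push Not at hcon
    apply hf.ne_refl
    ext a
    exact hcon a
  have hn : y ∉ Submodule.span F {x} := by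
    intro hin
    obtain ⟨t, rfl⟩ := Submodule.mem_span_singleton.mp hin
    exact hy t rfl
  obtain ⟨τ, h1, h2⟩ := exists_sep hf hn
  have h3 : f x τ = 0 := h1 x (Submodule.mem_span_singleton_self x)
  obtain ⟨τ₁, τ₂, h4, h5, rfl⟩ := rt_decomp (P := P) hf.involutive hε τ
  rw [add_right hf, smul_right hf] at h3 h2
  -- the two components are orthogonal to `x`
  have e1 := hR x τ₁ hx h4
  have e2 := hR x τ₂ hx h5
  have e3 : ζ * f x τ₁ + σ ε * (ζ * f x τ₂) = 0 := by linear_combination ζ * h3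
  have e4 : ζ * f x τ₁ + ε * (ζ * f x τ₂) = 0 := by
    have := congrArg σ e3
    rw [map_add, map_zero, e1, map_mul, e2, hf.involutive] at this
    exact this
  have e5 : (ε - σ ε) * (ζ * f x τ₂) = 0 := by linear_combination e4 - e3
  have hne : ε - σ ε ≠ 0 := sub_ne_zero.mpr (Ne.symm hε)
  have e6 : f x τ₂ = 0 := by
    rcases mul_eq_zero.mp e5 with h | h
    · exact absurd h hne
    · exact (mul_eq_zero.mp h).resolve_left hζ0
  have e7 : f x τ₁ = 0 := by
    rw [e6, mul_zero, add_zero] at h3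
    exact h3
  by_cases h6 : f y τ₁ = 0
  · refine ⟨τ₂, h5, e6, fun h7 => ?_⟩
    rw [h6, h7] at h2
    simp at h2
  · exact ⟨τ₁, h4, e7, h6⟩

/-- Transitivity on independent orthogonal pairs. -/
theorem trans_pair {x₀ y₀ x₁ y₁ : VV} (hx₀ : Rt σ P x₀) (hy₀ : Rt σ P y₀) (hx₁ : Rt σ P x₁) (hy₁ : Rt σ P y₁)
    (h0 : f x₀ y₀ = 0) (h1 : f x₁ y₁ = 0) (hi₀ : ∀ a b : F, a • x₀ + b • y₀ = 0 → a = 0 ∧ b = 0)
    (hi₁ : ∀ a b : F, a • x₁ + b • y₁ = 0 → a = 0 ∧ b = 0) :
    ∃ h ∈ ratG f σ ζ P, (h : MM) *ᵥ x₀ = x₁ ∧ (h : MM) *ᵥ y₀ = y₁ := by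
  have hx₀0 : x₀ ≠ 0 := by
    rintro rfl
    have := (hi₀ 1 0 (by simp)).1
    exact one_ne_zero this
  have hx₁0 : x₁ ≠ 0 := by
    rintro rfl
    have := (hi₁ 1 0 (by simp)).1
    exact one_ne_zero this
  obtain ⟨t, ht, e⟩ := trans_vec hf hζ0 hζ hR halt hx₀ hx₁ hx₀0 hx₁0
  have htiso := ratG_iso hf hζ hR halt ht
  set y₂ := (t : MM) *ᵥ y₀ with hy₂
  have hRy₂ : Rt σ P y₂ := ratG_rat hf hζ hR halt ht hy₀
  have h2 : f x₁ y₂ = 0 := by rw [← e, hy₂, htiso, h0]
  have hn₂ : ∀ s : F, y₂ ≠ s • x₁ := by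
    intro s hs
    have h3 : (t : MM) *ᵥ ((-s) • x₀ + (1 : F) • y₀) = 0 := by
      rw [Matrix.mulVec_add, Matrix.mulVec_smul, Matrix.mulVec_smul, e, ← hy₂, hs]
      module
    have h4 : (-s) • x₀ + (1 : F) • y₀ = 0 := by
      have := congrArg (fun w => ((t⁻¹ : GG) : MM) *ᵥ w) h3
      simpa [Matrix.mulVec_mulVec] using this
    exact one_ne_zero (hi₀ _ _ h4).2
  have hn₁ : ∀ s : F, y₁ ≠ s • x₁ := by
    intro s hs
    have h3 : (-s) • x₁ + (1 : F) • y₁ = 0 := by
      rw [hs]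
      module
    exact one_ne_zero (hi₁ _ _ h3).2
  -- moving `y₂` to `y₁` fixing `x₁`
  have h10 : f y₁ x₁ = 0 := by rw [hf.herm, h1, map_zero]
  have h20 : f y₂ x₁ = 0 := by rw [hf.herm, h2, map_zero]
  have hx₁x₁ := halt x₁ hx₁
  obtain ⟨t₂, ht₂, e₂, e₃⟩ : ∃ t₂ ∈ ratG f σ ζ P, (t₂ : MM) *ᵥ y₂ = y₁ ∧ (t₂ : MM) *ᵥ x₁ = x₁ := by
    by_cases h3 : f y₂ y₁ = 0
    · obtain ⟨a, ha, h4, h5⟩ := exists_rat_perp hf hζ0 hζ hR halt hx₁ hn₂
      obtain ⟨b, hb, h6, h7⟩ := exists_rat_perp hf hζ0 hζ hR halt hx₁ hn₁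
      obtain ⟨r, hr, h8, h9, h11⟩ : ∃ r, Rt σ P r ∧ f x₁ r = 0 ∧ f y₂ r ≠ 0 ∧ f y₁ r ≠ 0 := by
        by_cases h12 : f y₁ a = 0
        · by_cases h13 : f y₂ b = 0
          · refine ⟨a + b, ha.add hb, ?_, ?_, ?_⟩
            · rw [add_right hf, h4, h6, add_zero]
            · rw [add_right hf, h13, add_zero]; exact h5
            · rw [add_right hf, h12, zero_add]; exact h7
          · exact ⟨b, hb, h6, h13, h7⟩
        · exact ⟨a, ha, h4, h5, h12⟩
      have h14 : f r y₁ ≠ 0 := fun h0 => h11 (by rw [hf.herm, h0, map_zero])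
      have h15 : f x₁ r = 0 := h8
      obtain ⟨t₃, ht₃, e₃, e₄⟩ := step_rat hf hζ0 hζ hR halt hRy₂ hr h9
      obtain ⟨t₄, ht₄, e₅, e₆⟩ := step_rat hf hζ0 hζ hR halt hr hy₁ h14
      refine ⟨t₄ * t₃, mul_mem ht₄ ht₃, ?_, ?_⟩
      · rw [Units.val_mul, ← Matrix.mulVec_mulVec, e₃, e₅]
      · rw [Units.val_mul, ← Matrix.mulVec_mulVec, e₄ x₁ h2 h15, e₆ x₁ h15 h1]
    · obtain ⟨t₃, ht₃, e₃, e₄⟩ := step_rat hf hζ0 hζ hR halt hRy₂ hy₁ h3
      exact ⟨t₃, ht₃, e₃, e₄ x₁ h2 h1⟩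
  refine ⟨t₂ * t, mul_mem ht₂ ht, ?_, ?_⟩
  · rw [Units.val_mul, ← Matrix.mulVec_mulVec, e, e₃]
  · rw [Units.val_mul, ← Matrix.mulVec_mulVec, ← hy₂, e₂]

/-- Isotropic vectors have orthogonal rational components. -/
theorem orth_of_iso {ε : F} (hε : σ ε ≠ ε) {x y : VV} (hx : Rt σ P x) (hy : Rt σ P y) (h : f (x + ε • y) (x + ε • y) = 0) :
    f x y = 0 := by
  simp only [hf.add_left, add_right hf, hf.smul_left, smul_right hf, halt x hx, halt y hy] at h
  have e1 := hR x y hx hy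
  have e2 : f y x = σ (f x y) := hf.herm y x
  rw [map_mul] at e1
  have hσζ : σ ζ = -ζ := by linear_combination hζ
  rw [hσζ] at e1
  -- `σ (f x y) = - f x y`
  have e3 : σ (f x y) = - f x y := by
    apply mul_left_cancel₀ hζ0
    linear_combination -e1
  rw [e2, e3] at h
  have h5 : (σ ε - ε) * f x y = 0 := by linear_combination h
  have hne : σ ε - ε ≠ 0 := sub_ne_zero.mpr hε
  exact (mul_eq_zero.mp h5).resolve_left hne

end Main

section Indep

variable (hf : IsUnitaryForm σ f) {P : GL ι F}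

include hf in
/-- Components of a vector which is not a multiple of a rational vector are independent. -/
theorem indep_of_notRat {ε : F} (hε : σ ε ≠ ε) {x y : VV} (hx : Rt σ P x) (hy : Rt σ P y)
    (h : ∀ (c : F) r, Rt σ P r → x + ε • y ≠ c • r) : ∀ a b : F, a • x + b • y = 0 → a = 0 ∧ b = 0 := by
  have hx0 : x ≠ 0 := by
    rintro rfl
    exact h ε y hy (by simp)
  intro a b e
  by_cases hb : b = 0
  · subst hb
    rw [zero_smul, add_zero] at e
    exact ⟨(smul_eq_zero.mp e).resolve_right hx0, rfl⟩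
  · exfalso
    set t := - a / b with ht
    have e1 : y = t • x := by
      have : b • y = (-a) • x := by
        rw [neg_smul]
        exact eq_neg_of_add_eq_zero_right e
      have h2 : y = b⁻¹ • (b • y) := by rw [smul_smul, inv_mul_cancel₀ hb, one_smul]
      rw [h2, this, smul_smul, ht]
      congr 1
      field_simp
    have e2 := congrArg (tau σ P) e1
    rw [tau_smul, hy, hx] at e2
    have e3 : (t - σ t) • x = 0 := by
      rw [sub_smul, ← e1, ← e2, sub_self]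
    have e4 : σ t = t := by
      rcases smul_eq_zero.mp e3 with h3 | h3
      · exact (sub_eq_zero.mp h3).symm
      · exact absurd h3 hx0
    apply h (1 + ε * t) x hx
    rw [e1, add_smul, one_smul, mul_smul]

end Indep

section Final

variable [Fintype F] (hf : IsUnitaryForm σ f) {ζ : F} (hζ0 : ζ ≠ 0) (hζ : ζ + σ ζ = 0) {P : GL ι F}
  (hR : ∀ u v, Rt σ P u → Rt σ P v → σ (ζ * f u v) = ζ * f u v) (halt : ∀ u, Rt σ P u → f u u = 0)
  {F₀ : Subfield F} (hF₀ : ∀ a : F, a ∈ F₀ ↔ σ a = a)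

include hf hζ0 hζ hR halt hF₀

theorem isMaximal_sp (hn : 6 ≤ Fintype.card ι) :
    IsMaximalIn (uiso f ⊓ specialLinear ι F) (subfieldSubgroup F₀ P ⊓ (uiso f ⊓ specialLinear ι F)) := by
  have hn6 := hn
  haveI : Nonempty ι := Fintype.card_pos_iff.mp (by omega)
  obtain ⟨ε, hε⟩ : ∃ ε, σ ε ≠ ε := by
    by_contra hcon
    push Not at hcon
    apply hf.ne_refl
    ext a
    exact hcon a
  have hσζ : σ ζ = -ζ := by linear_combination hζ
  -- transvections with rational centre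
  have hTrat : ∀ {w : VV} {a : F}, Rt σ P w → a + σ a = 0 → eg f w 0 a ∈ subfieldSubgroup F₀ P ⊓ (uiso f ⊓ specialLinear ι F) := by
    intro w a hw ha
    have hwQ := halt w hw
    have hc : σ (a / ζ) = a / ζ := by
      rw [map_div₀, hσζ]
      have hσa : σ a = -a := by linear_combination ha
      rw [hσa]
      field_simp
    have e : a = (a / ζ) * ζ := by field_simp
    refine ⟨?_, eg_mem_su hf hn6 hwQ (zero_right hf w) (skew_ok hf ha)⟩
    apply mem_subfield_of_rat hF₀ (one_ne_zero)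
    intro v hv
    rw [one_smul]
    conv => rw [e]
    exact ratG_gen_rat hf hζ hR halt hw hc hv
  have hstrict : subfieldSubgroup F₀ P ⊓ (uiso f ⊓ specialLinear ι F) < uiso f ⊓ specialLinear ι F := by
    refine lt_of_le_of_ne inf_le_right ?_
    intro heq
    -- a rational vector
    obtain ⟨i₀⟩ := ‹Nonempty ι›
    set x : VV := (P : MM) *ᵥ Pi.single i₀ 1 with hx
    have hRx : Rt σ P x := rt_column i₀
    have hx0 : x ≠ 0 := by
      intro h0
      have := congrArg (fun w => ((P⁻¹ : GG) : MM) *ᵥ w) h0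
      simp only [hx, Matrix.mulVec_mulVec, ← Units.val_mul, inv_mul_cancel, Units.val_one, Matrix.one_mulVec, Matrix.mulVec_zero] at this
      have h2 := congrFun this i₀
      simp at h2
    obtain ⟨v, hRv, hxv⟩ := exists_rat_nonorth hf hζ hR halt hx0
    have hvx : f v x ≠ 0 := fun h0 => hxv (by rw [hf.herm, h0, map_zero])
    -- a rational vector orthogonal to both
    obtain ⟨y, hRy, hy0, hyx, hyv⟩ : ∃ y, Rt σ P y ∧ y ≠ 0 ∧ f x y = 0 ∧ f v y = 0 := by
      obtain ⟨τ, h1, h2⟩ := HermOver.exists_perp_not_mem hf (k := 2) (l := 0) ![x, v] ![] (by simp; omega)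
      have hτ0 : τ ≠ 0 := by
        rintro rfl
        apply h2
        exact Submodule.zero_mem _
      obtain ⟨τ₁, τ₂, h4, h5, e⟩ := rt_decomp (P := P) hf.involutive hε τ
      have hperp : ∀ {w : VV}, Rt σ P w → f w τ = 0 → f w τ₁ = 0 ∧ f w τ₂ = 0 := by
        intro w hw h3
        rw [e, add_right hf, smul_right hf] at h3
        have e1 := hR w τ₁ hw h4
        have e2 := hR w τ₂ hw h5
        have e3 : ζ * f w τ₁ + σ ε * (ζ * f w τ₂) = 0 := by linear_combination ζ * h3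
        have e4 : ζ * f w τ₁ + ε * (ζ * f w τ₂) = 0 := by
          have := congrArg σ e3
          rw [map_add, map_zero, e1, map_mul, e2, hf.involutive] at this
          exact this
        have e5 : (ε - σ ε) * (ζ * f w τ₂) = 0 := by linear_combination e4 - e3
        have hne : ε - σ ε ≠ 0 := sub_ne_zero.mpr (Ne.symm hε)
        have e6 : f w τ₂ = 0 := by
          rcases mul_eq_zero.mp e5 with h | h
          · exact absurd h hne
          · exact (mul_eq_zero.mp h).resolve_left hζ0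
        have e7 : f w τ₁ = 0 := by
          rw [e6, mul_zero, add_zero] at h3
          exact h3
        exact ⟨e7, e6⟩
      obtain ⟨a1, a2⟩ := hperp hRx (h1 0)
      obtain ⟨a3, a4⟩ := hperp hRv (h1 1)
      by_cases h6 : τ₁ = 0
      · refine ⟨τ₂, h5, ?_, a2, a4⟩
        rintro rfl
        apply hτ0
        rw [e, h6]
        simp
      · exact ⟨τ₁, h4, h6, a1, a3⟩
    have hyxr : f y x = 0 := by rw [hf.herm, hyx, map_zero]
    have hvyr : f y v = 0 := by rw [hf.herm, hyv, map_zero]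
    set z := x + ε • y with hz
    have hzQ : f z z = 0 := by
      simp only [hz, hf.add_left, add_right hf, hf.smul_left, smul_right hf, halt x hRx, halt y hRy, hyx, hyxr]
      ring
    have hmem : eg f z 0 ζ ∈ subfieldSubgroup F₀ P ⊓ (uiso f ⊓ specialLinear ι F) := by
      rw [heq]
      exact eg_mem_su hf hn6 hzQ (zero_right hf z) (skew_ok hf hζ)
    obtain ⟨c, hc, hc'⟩ := rat_of_mem_subfield hF₀ hmem.1
    have hRc := hc' v hRv
    rw [eg_apply hf hzQ (zero_right hf z) (skew_ok hf hζ)] at hRc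
    unfold egFun at hRc
    have h1 : f v z = f v x := by
      rw [hz, add_right hf, smul_right hf, hyv]; ring
    rw [h1, zero_right hf] at hRc
    set β := ζ * f v x with hβ
    have hβfix : σ β = β := hR v x hRv hRx
    have hβ0 : β ≠ 0 := mul_ne_zero hζ0 hvx
    set r := c • (v + f v x • (0 : VV) - (0 : F) • z + β • z) with hr
    have e1 : v + f v x • (0 : VV) - (0 : F) • z + β • z = (v + β • x) + ε • (β • y) := by
      rw [hz]
      module
    have e2 : (v + β • x) + ε • (β • y) = c⁻¹ • r := by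
      rw [hr, inv_smul_smul₀ hc, e1]
    obtain ⟨c₁, c₂, h3, h4, h5⟩ := scalar_decomp hf.involutive hε c⁻¹
    have e3 : c⁻¹ • r = c₁ • r + ε • (c₂ • r) := by
      rw [h5, add_smul, mul_smul]
    rw [e3] at e2
    obtain ⟨h6, h7⟩ := rt_unique hε (hRv.add (hRx.smul hβfix)) (hRy.smul hβfix) (hRc.smul h3) (hRc.smul h4) e2
    have hc₂ : c₂ ≠ 0 := by
      rintro rfl
      rw [zero_smul] at h7
      rcases smul_eq_zero.mp h7 with h8 | h8
      · exact hβ0 h8
      · exact hy0 h8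
    have h8 : r = (β / c₂) • y := by
      have : r = c₂⁻¹ • (c₂ • r) := by rw [smul_smul, inv_mul_cancel₀ hc₂, one_smul]
      rw [this, ← h7, smul_smul]
      congr 1
      field_simp
    have h9 := congrArg (fun w => f w x) h6
    simp only [hf.add_left, hf.smul_left, halt x hRx] at h9
    rw [h8, hf.smul_left, hyxr] at h9
    simp only [mul_zero, add_zero] at h9
    exact hvx h9
  refine ⟨hstrict, fun M hHM hMO => ?_⟩
  by_cases hle : M ≤ subfieldSubgroup F₀ P ⊓ (uiso f ⊓ specialLinear ι F)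
  · exact Or.inl (le_antisymm hle hHM)
  right
  apply le_antisymm hMO
  obtain ⟨g, hgM, hgH⟩ := SetLike.not_le_iff_exists.mp hle
  have hgS := hMO hgM
  have hgiso : ∀ v w, f ((g : MM) *ᵥ v) ((g : MM) *ᵥ w) = f v w := hgS.1
  have hgnot : ¬ ∃ c : F, c ≠ 0 ∧ ∀ v, Rt σ P v → Rt σ P (c • ((g : MM) *ᵥ v)) := by
    rintro ⟨c, hc, h⟩
    exact hgH ⟨mem_subfield_of_rat hF₀ hc h, hgS⟩
  obtain ⟨x, hRx, hx⟩ := exists_notRat hgnot
  have hxQ := halt x hRx
  set z' := (g : MM) *ᵥ x with hz'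
  have hz'Q : f z' z' = 0 := by rw [hz', hgiso, hxQ]
  have hTz' : ∀ {a : F}, a + σ a = 0 → eg f z' 0 a ∈ M := by
    intro a ha
    have h1 := eg_conj hf hgiso hxQ (zero_right hf x) (skew_ok hf ha)
    rw [Matrix.mulVec_zero] at h1
    rw [← h1]
    exact M.mul_mem (M.mul_mem hgM (hHM (hTrat hRx ha))) (M.inv_mem hgM)
  obtain ⟨x₀, y₀, hx₀, hy₀, e₀⟩ := rt_decomp (P := P) hf.involutive hε z'
  have hi₀ := indep_of_notRat hf hε hx₀ hy₀ (fun c r hr => by rw [← e₀]; exact hx c r hr)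
  have h0 : f x₀ y₀ = 0 := by
    apply orth_of_iso hf hζ0 hζ hR halt hε hx₀ hy₀
    rw [← e₀]
    exact hz'Q
  -- all transvections
  refine su_le_of_tv hf hn6 fun z a hz ha => ?_
  obtain ⟨x₁, y₁, hx₁, hy₁, e₁⟩ := rt_decomp (P := P) hf.involutive hε z
  by_cases hcase : ∃ (c : F) (r : VV), Rt σ P r ∧ x₁ + ε • y₁ = c • r
  · obtain ⟨c, r, hr, e⟩ := hcase
    rw [e₁, e, eg_smul_left hf c (halt r hr) (zero_right hf r) (skew_ok hf ha), smul_zero]
    apply hHM
    apply hTrat hr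
    simp only [map_mul, hf.involutive]
    linear_combination (c * σ c) * ha
  · push Not at hcase
    have hi₁ := indep_of_notRat hf hε hx₁ hy₁ hcase
    have h1 : f x₁ y₁ = 0 := by
      apply orth_of_iso hf hζ0 hζ hR halt hε hx₁ hy₁
      rw [← e₁]
      exact hz
    obtain ⟨h, hh, e₂, e₃⟩ := trans_pair hf hζ0 hζ hR halt hx₀ hy₀ hx₁ hy₁ h0 h1 hi₀ hi₁
    have hiso := ratG_iso hf hζ hR halt hh
    have hhz : (h : MM) *ᵥ z' = z := by
      rw [e₀, Matrix.mulVec_add, Matrix.mulVec_smul, e₂, e₃, e₁]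
    have hhM : h ∈ M := by
      apply hHM
      refine ⟨?_, ?_⟩
      · apply mem_subfield_of_rat hF₀ one_ne_zero
        intro v hv
        rw [one_smul]
        exact ratG_rat hf hζ hR halt hh hv
      · -- products of rational transvections lie in `SU`
        have hle2 : ratG f σ ζ P ≤ uiso f ⊓ specialLinear ι F := by
          rw [ratG, Subgroup.closure_le]
          rintro k ⟨w, c, hw, hc, rfl⟩
          exact eg_mem_su hf hn6 (halt w hw) (zero_right hf w) (skew_ok hf (skew_cζ hζ hc))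
        exact hle2 hh
    have h2 := eg_conj hf hiso hz'Q (zero_right hf z') (skew_ok hf ha)
    rw [Matrix.mulVec_zero, hhz] at h2
    rw [← h2]
    exact M.mul_mem (M.mul_mem hhM (hTz' ha)) (M.inv_mem hhM)

end Final

end Cfsg.Agent.Lib.ClassMax.UnitCore
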