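import Mathlib
import Cfsg.Agent.Lib.ClassMax.OmegaDec2
import Cfsg.Agent.Lib.ClassMax.UnitCrit

/-! Pairs of complementary totally isotropic half spaces in a unitary space. -/

set_option autoImplicit false

namespace Cfsg.Agent.Lib.ClassMax.UnitCore

open Matrix Cfsg.Geo Cfsg.Agent.Lib.ClassMax Cfsg.Agent.Lib.ClassMax.QuadOver
open Cfsg.Agent.Lib.ClassMax.HermOver

variable {ι : Type} [Fintype ι] [DecidableEq ι] {F : Type*} [Field F] {σ : F ≃+* F} {f : (ι → F) → (ι → F) → F}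

local notation "VV" => (ι → F)
local notation "MM" => Matrix ι ι F
local notation "GG" => GL ι F

/-- A pair of complementary totally isotropic subspaces. -/
structure TIPair (f : (ι → F) → (ι → F) → F) (U W : Submodule F (ι → F)) : Prop where
  compl : IsCompl U W
  tsU : IsTotallySingularFor f U
  tsW : IsTotallySingularFor f W

theorem TIPair.symm {U W : Submodule F VV} (h : TIPair f U W) : TIPair f W U :=
  ⟨h.compl.symm, h.tsW, h.tsU⟩

theorem TIPair.decomp {U W : Submodule F VV} (h : TIPair f U W) (v : VV) : ∃ u ∈ U, ∃ w ∈ W, u + w = v := by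
  have : v ∈ U ⊔ W := by rw [h.compl.sup_eq_top]; trivial
  exact Submodule.mem_sup.mp this

theorem TIPair.inter {U W : Submodule F VV} (h : TIPair f U W) {x : VV} (h1 : x ∈ U) (h2 : x ∈ W) : x = 0 := by
  have := h.compl.disjoint.le_bot (Submodule.mem_inf.mpr ⟨h1, h2⟩)
  simpa using this

/-- Independence modulo `W`. -/
def IndepModW (W : Submodule F (ι → F)) (x y : ι → F) : Prop :=
  ∀ α β : F, α • x + β • y ∈ W → α = 0 ∧ β = 0

/-- If `g` maps `A` into `T` and the dimensions agree, its inverse maps `T` into `A`. -/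
theorem inv_mem_of_map' {A T : Submodule F VV} (g : GG) (hg : ∀ x ∈ A, (g : MM) *ᵥ x ∈ T) (hfin : Module.finrank F T ≤ Module.finrank F A)
    {y : VV} (hy : y ∈ T) : ((g⁻¹ : GG) : MM) *ᵥ y ∈ A := by
  let e : VV ≃ₗ[F] VV := Matrix.toLin'OfInv (M := ((g⁻¹ : GG) : MM)) (M' := (g : MM))
    (by rw [← Units.val_mul, inv_mul_cancel, Units.val_one]) (by rw [← Units.val_mul, mul_inv_cancel, Units.val_one])
  have he : ∀ x, e x = (g : MM) *ᵥ x := fun x => rfl
  have hs : A.map (e : VV →ₗ[F] VV) = T := by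
    apply Submodule.eq_of_le_of_finrank_le
    · rintro _ ⟨x, hx, rfl⟩
      exact hg x hx
    · rw [LinearEquiv.finrank_map_eq]
      exact hfin
  rw [← hs] at hy
  obtain ⟨x, hx, rfl⟩ := hy
  have e1 : ((g⁻¹ : GG) : MM) *ᵥ ((g : MM) *ᵥ x) = x := by
    rw [Matrix.mulVec_mulVec, ← Units.val_mul, inv_mul_cancel, Units.val_one, Matrix.one_mulVec]
  change ((g⁻¹ : GG) : MM) *ᵥ ((g : MM) *ᵥ x) ∈ _
  rw [e1]
  exact hx

section Form

variable (hf : IsUnitaryForm σ f)
include hf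

theorem zero_ok' {b : VV} (hb : f b b = 0) : (0 : F) + σ 0 = - f b b := by
  rw [hb]; simp

/-- A vector orthogonal to `W` lies in `W`. -/
theorem TIPair.mem_of_perp {U W : Submodule F VV} (h : TIPair f U W) {z : VV} (hz : ∀ w ∈ W, f w z = 0) : z ∈ W := by
  obtain ⟨u, hu, w, hw, rfl⟩ := h.decomp z
  have hu0 : u = 0 := by
    by_contra h0
    obtain ⟨x, hx⟩ := (hf.nondegenerate u h0).1
    apply hx
    obtain ⟨u', hu', w', hw', rfl⟩ := h.decomp x
    have h3 := hz w' hw'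
    rw [add_right hf, h.tsW w' hw' w hw, add_zero] at h3
    rw [hf.add_left, h.tsU u' hu' u hu, h3, add_zero]
  rw [hu0, zero_add]
  exact hw

/-- Separation inside `W`. -/
theorem TIPair.exists_sep {U W : Submodule F VV} (h : TIPair f U W) {S : Submodule F VV} {y : VV} (hy : y ∉ W ⊔ S) :
    ∃ b ∈ W, (∀ s ∈ S, f s b = 0) ∧ f y b = 1 := by
  obtain ⟨z, hz, hz1⟩ := HermOver.exists_sep hf hy
  exact ⟨z, h.mem_of_perp hf (fun w hw => hz w (Submodule.mem_sup_left hw)), fun s hs => hz s (Submodule.mem_sup_right hs), hz1⟩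

/-- A non-zero vector of `U` orthogonal to a short list of vectors. -/
theorem exists_perp_mem {U : Submodule F VV} {k : ℕ} (c : Fin k → VV) (hk : k < Module.finrank F U) :
    ∃ a ∈ U, a ≠ 0 ∧ ∀ i, f (c i) a = 0 := by
  let L : U →ₗ[F] (Fin k → F) :=
    { toFun := fun v i => f (v : VV) (c i)
      map_add' := fun a b => by funext i; exact hf.add_left _ _ _
      map_smul' := fun c' a => by funext i; simpa using hf.smul_left c' _ _ }
  have hker : LinearMap.ker L ≠ ⊥ := by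
    apply LinearMap.ker_ne_bot_of_finrank_lt
    simpa using hk
  obtain ⟨a, ha, ha0⟩ := Submodule.exists_mem_ne_zero_of_ne_bot hker
  refine ⟨a, a.2, fun h0 => ha0 (Subtype.ext h0), fun i => ?_⟩
  have h1 : f (a : VV) (c i) = 0 := congrFun (LinearMap.mem_ker.mp ha) i
  rw [hf.herm, h1, map_zero]

theorem eg_swap {x u : VV} (hx : f x x = 0) (hu : f u u = 0) (hxu : f x u = 0) : eg f x u 0 = eg f u (-x) 0 := by
  have hux : f u x = 0 := by rw [hf.herm, hxu, map_zero]
  apply gl_ext_mulVec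
  intro v
  rw [eg_apply hf hx hxu (zero_ok' hf hu), eg_apply hf hu (by rw [neg_right hf, hux, neg_zero]) (zero_ok' hf (by rw [neg_left hf, neg_right hf, hx]; simp))]
  unfold egFun
  rw [neg_right hf]
  module

/-- The basic commutator with an isometry fixing `a`. -/
theorem comm_fix {A : GG} (hA : ∀ v w, f ((A : MM) *ᵥ v) ((A : MM) *ᵥ w) = f v w) {a b : VV} (hAa : (A : MM) *ᵥ a = a)
    (ha : f a a = 0) (hb : f b b = 0) (hba : f b a = 0) :
    A * eg f b a 0 * A⁻¹ * (eg f b a 0)⁻¹ = eg f a (b - (A : MM) *ᵥ b) (f b ((A : MM) *ᵥ b)) := by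
  have hab : f a b = 0 := by rw [hf.herm, hba, map_zero]
  have h1 := eg_conj hf hA hb hba (zero_ok' hf ha)
  rw [hAa] at h1
  rw [h1]
  have hAb : f ((A : MM) *ᵥ b) ((A : MM) *ᵥ b) = 0 := by rw [hA, hb]
  have hAba : f a ((A : MM) *ᵥ b) = 0 := by
    have := hA a b
    rw [hAa, hab] at this
    exact this
  have hAba' : f ((A : MM) *ᵥ b) a = 0 := by rw [hf.herm, hAba, map_zero]
  have e3 : (eg f b a 0)⁻¹ = eg f a b 0 := by
    rw [eg_swap hf hb ha hba, eg_inv hf ha (by rw [neg_right hf, hab, neg_zero]) (zero_ok' hf (by rw [neg_left hf, neg_right hf, hb]; simp)), neg_neg, map_zero]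
  rw [e3, eg_swap hf hAb ha hAba']
  have e2 : (0 : F) + 0 - f b (-((A : MM) *ᵥ b)) = f b ((A : MM) *ᵥ b) := by
    rw [neg_right hf]; ring
  rw [eg_mul hf ha (by rw [neg_right hf, hAba, neg_zero]) hab (zero_ok' hf (by rw [neg_left hf, neg_right hf, hAb]; simp)) (zero_ok' hf hb), e2]
  congr 1
  abel

theorem eg_rank2 {a e : VV} (ha : f a a = 0) (he : f e e = 0) (hae : f a e = 0) (l : F) :
    eg f (a + e) (l • a + e) 0 = eg f a ((1 - σ l) • e) (l - σ l) := by
  have hea : f e a = 0 := by rw [hf.herm, hae, map_zero]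
  have h1 : f (a + e) (a + e) = 0 := by
    simp only [hf.add_left, add_right hf, ha, he, hae, hea, add_zero]
  have h2 : f (a + e) (l • a + e) = 0 := by
    simp only [hf.add_left, add_right hf, smul_right hf, ha, he, hae, hea, mul_zero, add_zero]
  have h3 : f (l • a + e) (l • a + e) = 0 := by
    simp only [hf.add_left, add_right hf, smul_right hf, hf.smul_left, ha, he, hae, hea, mul_zero, add_zero]
  have h4 : f a ((1 - σ l) • e) = 0 := by rw [smul_right hf, hae, mul_zero]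
  have h5 : (l - σ l) + σ (l - σ l) = - f ((1 - σ l) • e) ((1 - σ l) • e) := by
    rw [map_sub, hf.involutive, smul_right hf, hf.smul_left, he]
    ring
  apply gl_ext_mulVec
  intro v
  rw [eg_apply hf h1 h2 (zero_ok' hf h3), eg_apply hf ha h4 h5]
  unfold egFun
  simp only [add_right hf, smul_right hf, map_sub, map_one, hf.involutive]
  module

theorem sum_left' {κ : Type*} (s : Finset κ) (c : κ → VV) (v : VV) : f (∑ i ∈ s, c i) v = ∑ i ∈ s, f (c i) v := by
  classical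
  induction s using Finset.induction_on with
  | empty => simp [zero_left hf]
  | insert a s ha ih => rw [Finset.sum_insert ha, Finset.sum_insert ha, hf.add_left, ih]

theorem sum_right' {κ : Type*} (s : Finset κ) (c : κ → VV) (v : VV) : f v (∑ i ∈ s, c i) = ∑ i ∈ s, f v (c i) := by
  classical
  induction s using Finset.induction_on with
  | empty => simp [zero_right hf]
  | insert a s ha ih => rw [Finset.sum_insert ha, Finset.sum_insert ha, add_right hf, ih]

/-- The skew elements are the `l - σ l`. -/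
theorem exists_sub_sig [Fintype F] {t : F} (ht : t + σ t = 0) : ∃ l, l - σ l = t := by
  obtain ⟨a₀, ha₀, ha₀'⟩ := exists_skew' hf
  have hfix : σ (t * a₀⁻¹) = t * a₀⁻¹ := by
    have h1 : σ t = - t := by linear_combination ht
    have h2 : σ a₀ = - a₀ := by linear_combination ha₀'
    rw [map_mul, map_inv₀, h1, h2]
    field_simp
  obtain ⟨κ, hκ⟩ := exists_trace hf _ hfix
  refine ⟨a₀ * κ, ?_⟩
  have h2 : σ a₀ = - a₀ := by linear_combination ha₀'
  rw [map_mul, h2]
  have : t = a₀ * (t * a₀⁻¹) := by field_simp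
  rw [this, ← hκ]
  ring

variable {U W : Submodule F (ι → F)} (h : TIPair f U W)
include h

theorem TIPair.eg_mem {M : Subgroup GG} (hS : ∀ g ∈ uiso f ⊓ specialLinear ι F, (∀ x ∈ U, (g : MM) *ᵥ x ∈ U) → (∀ x ∈ W, (g : MM) *ᵥ x ∈ W) → g ∈ M)
    [Fintype F] (hn : 6 ≤ Fintype.card ι) {a b : VV} (ha : a ∈ U) (hb : b ∈ W) (hab : f a b = 0) : eg f a b 0 ∈ M := by
  have haQ := h.tsU a ha a ha
  have hbQ := h.tsW b hb b hb
  apply hS _ (eg_mem_su hf hn haQ hab (zero_ok' hf hbQ))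
  · intro x hx
    rw [eg_apply hf haQ hab (zero_ok' hf hbQ)]
    unfold egFun
    rw [h.tsU x hx a ha]
    simp only [zero_smul, add_zero, mul_zero]
    exact U.sub_mem hx (U.smul_mem _ ha)
  · intro x hx
    rw [eg_apply hf haQ hab (zero_ok' hf hbQ)]
    unfold egFun
    rw [h.tsW x hx b hb]
    simp only [zero_smul, sub_zero, zero_mul, add_zero]
    exact W.add_mem hx (W.smul_mem _ hb)

theorem TIPair.eg_mem' {M : Subgroup GG} (hS : ∀ g ∈ uiso f ⊓ specialLinear ι F, (∀ x ∈ U, (g : MM) *ᵥ x ∈ U) → (∀ x ∈ W, (g : MM) *ᵥ x ∈ W) → g ∈ M)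
    [Fintype F] (hn : 6 ≤ Fintype.card ι) {a b : VV} (hb : b ∈ W) (ha : a ∈ U) (hab : f b a = 0) : eg f b a 0 ∈ M := by
  have hab' : f a b = 0 := by rw [hf.herm, hab, map_zero]
  rw [eg_swap hf (h.tsW b hb b hb) (h.tsU a ha a ha) hab]
  exact h.eg_mem hf hS hn ha (W.neg_mem hb) (by rw [neg_right hf, hab', neg_zero])

/-- If every orthogonal pair has dependent images mod `W`, then `g` moves `U` or `W` into `W`. -/
theorem TIPair.struct_claim (hU : 2 * Module.finrank F U = Fintype.card ι) (hW : 2 * Module.finrank F W = Fintype.card ι)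
    (hm : 5 ≤ Module.finrank F U) (g : GG)
    (hdep : ∀ u ∈ U, ∀ w ∈ W, f u w = 0 → ¬ IndepModW W ((g : MM) *ᵥ u) ((g : MM) *ᵥ w)) :
    (∀ u ∈ U, (g : MM) *ᵥ u ∈ W) ∨ (∀ w ∈ W, (g : MM) *ᵥ w ∈ W) := by
  by_contra hcon
  push Not at hcon
  obtain ⟨⟨u₀, hu₀, hgu₀⟩, ⟨w₀, hw₀, hgw₀⟩⟩ := hcon
  have hu₀W : u₀ ∉ W := by
    intro hin
    apply hgu₀
    rw [h.inter hu₀ hin, Matrix.mulVec_zero]
    exact W.zero_mem
  have hw₀U : w₀ ∉ U := by
    intro hin
    apply hgw₀
    rw [h.inter hin hw₀, Matrix.mulVec_zero]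
    exact W.zero_mem
  obtain ⟨w₁, hw₁, -, hw₁1⟩ := h.exists_sep hf (S := ⊥) (y := u₀) (by simpa using hu₀W)
  obtain ⟨u₁, hu₁, -, hu₁1⟩ := h.symm.exists_sep hf (S := ⊥) (y := w₀) (by simpa using hw₀U)
  have hu₁1' : f u₁ w₀ = 1 := by rw [hf.herm, hu₁1, map_one]
  set S : Submodule F VV := W ⊔ Submodule.span F (Set.range ![(g : MM) *ᵥ u₀, (g : MM) *ᵥ w₁, (g : MM) *ᵥ w₀, (g : MM) *ᵥ u₁]) with hS
  have hWS : W ≤ S := le_sup_left
  have h1S : (g : MM) *ᵥ u₀ ∈ S := Submodule.mem_sup_right (Submodule.subset_span ⟨0, rfl⟩)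
  have h2S : (g : MM) *ᵥ w₁ ∈ S := Submodule.mem_sup_right (Submodule.subset_span ⟨1, rfl⟩)
  have h3S : (g : MM) *ᵥ w₀ ∈ S := Submodule.mem_sup_right (Submodule.subset_span ⟨2, rfl⟩)
  have h4S : (g : MM) *ᵥ u₁ ∈ S := Submodule.mem_sup_right (Submodule.subset_span ⟨3, rfl⟩)
  have hWall : ∀ w ∈ W, (g : MM) *ᵥ w ∈ S := by
    intro w hw
    obtain ⟨t, ht⟩ : ∃ t, t = σ (f u₀ w) := ⟨_, rfl⟩
    have hw' : w - t • w₁ ∈ W := W.sub_mem hw (W.smul_mem _ hw₁)
    have hperp : f u₀ (w - t • w₁) = 0 := by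
      rw [sub_right hf, smul_right hf, hw₁1, ht, hf.involutive]
      ring
    have hd := hdep u₀ hu₀ _ hw' hperp
    unfold IndepModW at hd
    push Not at hd
    obtain ⟨α, β, hab, hne⟩ := hd
    have hβ : β ≠ 0 := by
      intro hβ
      have hα : α ≠ 0 := fun hα => (hne hα) hβ
      rw [hβ, zero_smul, add_zero] at hab
      apply hgu₀
      have := W.smul_mem α⁻¹ hab
      rwa [smul_smul, inv_mul_cancel₀ hα, one_smul] at this
    have e : (g : MM) *ᵥ w = β⁻¹ • (α • (g : MM) *ᵥ u₀ + β • (g : MM) *ᵥ (w - t • w₁)) + (-(β⁻¹ * α)) • (g : MM) *ᵥ u₀ + t • (g : MM) *ᵥ w₁ := by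
      rw [Matrix.mulVec_sub, Matrix.mulVec_smul, smul_add, smul_smul, smul_smul, inv_mul_cancel₀ hβ, one_smul]
      module
    rw [e]
    exact S.add_mem (S.add_mem (S.smul_mem _ (hWS hab)) (S.smul_mem _ h1S)) (S.smul_mem _ h2S)
  have hUall : ∀ u ∈ U, (g : MM) *ᵥ u ∈ S := by
    intro u hu
    obtain ⟨t, ht⟩ : ∃ t, t = f u w₀ := ⟨_, rfl⟩
    have hu' : u - t • u₁ ∈ U := U.sub_mem hu (U.smul_mem _ hu₁)
    have hperp : f (u - t • u₁) w₀ = 0 := by
      rw [sub_left hf, hf.smul_left, hu₁1', ← ht]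
      ring
    have hd := hdep _ hu' w₀ hw₀ hperp
    unfold IndepModW at hd
    push Not at hd
    obtain ⟨α, β, hab, hne⟩ := hd
    have hα : α ≠ 0 := by
      intro hα
      have hβ : β ≠ 0 := hne hα
      rw [hα, zero_smul, zero_add] at hab
      apply hgw₀
      have := W.smul_mem β⁻¹ hab
      rwa [smul_smul, inv_mul_cancel₀ hβ, one_smul] at this
    have e : (g : MM) *ᵥ u = α⁻¹ • (α • (g : MM) *ᵥ (u - t • u₁) + β • (g : MM) *ᵥ w₀) + (-(α⁻¹ * β)) • (g : MM) *ᵥ w₀ + t • (g : MM) *ᵥ u₁ := by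
      rw [Matrix.mulVec_sub, Matrix.mulVec_smul, smul_add, smul_smul, smul_smul, inv_mul_cancel₀ hα, one_smul]
      module
    rw [e]
    exact S.add_mem (S.add_mem (S.smul_mem _ (hWS hab)) (S.smul_mem _ h3S)) (S.smul_mem _ h4S)
  have htop : S = ⊤ := by
    rw [eq_top_iff]
    intro x _
    obtain ⟨u, hu, w, hw, huw⟩ := h.decomp (((g⁻¹ : GG) : MM) *ᵥ x)
    have : x = (g : MM) *ᵥ (u + w) := by
      rw [huw, Matrix.mulVec_mulVec, ← Units.val_mul, mul_inv_cancel, Units.val_one, Matrix.one_mulVec]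
    rw [this, Matrix.mulVec_add]
    exact S.add_mem (hUall u hu) (hWall w hw)
  have hfin : Module.finrank F S ≤ Module.finrank F W + 4 := by
    refine (Submodule.finrank_add_le_finrank_add_finrank _ _).trans ?_
    have : Module.finrank F (Submodule.span F (Set.range ![(g : MM) *ᵥ u₀, (g : MM) *ᵥ w₁, (g : MM) *ᵥ w₀, (g : MM) *ᵥ u₁])) ≤ 4 := by
      refine (finrank_range_le_card _).trans ?_
      simp
    omega
  rw [htop, finrank_top, Module.finrank_fintype_fun_eq_card] at hfin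
  omega

/-- From a pair with independent images, a first element inside `U`. -/
theorem TIPair.first_centre [Fintype F] (hU : 2 * Module.finrank F U = Fintype.card ι) (hn : 13 ≤ Fintype.card ι) {M : Subgroup GG}
    (hS : ∀ g ∈ uiso f ⊓ specialLinear ι F, (∀ x ∈ U, (g : MM) *ᵥ x ∈ U) → (∀ x ∈ W, (g : MM) *ᵥ x ∈ W) → g ∈ M)
    {g : GG} (hg : ∀ v w, f ((g : MM) *ᵥ v) ((g : MM) *ᵥ w) = f v w) (hgM : g ∈ M) {u w : VV} (hu : u ∈ U) (hw : w ∈ W) (huw : f u w = 0)
    (hind : IndepModW W ((g : MM) *ᵥ u) ((g : MM) *ᵥ w)) :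
    ∃ a ∈ U, ∃ x ∈ U, ∃ b₁ ∈ W, ∃ s : F, s + σ s = 0 ∧ f x b₁ = 1 ∧ f a b₁ = 0 ∧ a ≠ 0 ∧ eg f a x s ∈ M := by
  have hE : ∀ {a b : VV}, a ∈ U → b ∈ W → f a b = 0 → eg f a b 0 ∈ M := fun ha hb hab => h.eg_mem hf hS (by omega) ha hb hab
  have hE' : ∀ {b a : VV}, b ∈ W → a ∈ U → f b a = 0 → eg f b a 0 ∈ M := fun hb ha hab => h.eg_mem' hf hS (by omega) hb ha hab
  obtain ⟨x, hx⟩ : ∃ x, x = (g : MM) *ᵥ u := ⟨_, rfl⟩
  obtain ⟨y, hy⟩ : ∃ y, y = (g : MM) *ᵥ w := ⟨_, rfl⟩
  rw [← hx, ← hy] at hind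
  have hxQ : f x x = 0 := by rw [hx, hg, h.tsU u hu u hu]
  have hyQ : f y y = 0 := by rw [hy, hg, h.tsW w hw w hw]
  have hxy : f x y = 0 := by rw [hx, hy, hg, huw]
  have hExy : eg f x y 0 ∈ M := by
    have huQ := h.tsU u hu u hu
    have hwQ := h.tsW w hw w hw
    rw [hx, hy, ← eg_conj hf hg huQ huw (zero_ok' hf hwQ)]
    exact M.mul_mem (M.mul_mem hgM (hE hu hw huw)) (M.inv_mem hgM)
  have hy1 : y ∉ W ⊔ Submodule.span F {x} := by
    intro hin
    obtain ⟨w', hw', s, hs, e⟩ := Submodule.mem_sup.mp hin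
    obtain ⟨t, rfl⟩ := Submodule.mem_span_singleton.mp hs
    have : (-t) • x + (1 : F) • y ∈ W := by
      rw [← e]
      convert hw' using 1
      module
    have := (hind (-t) 1 this).2
    exact one_ne_zero this
  obtain ⟨b, hbW, hbx, hby⟩ := h.exists_sep hf hy1
  have hbx' : f x b = 0 := hbx x (Submodule.mem_span_singleton_self x)
  have hbx'' : f b x = 0 := by rw [hf.herm, hbx', map_zero]
  have hby' : f b y = 1 := by rw [hf.herm, hby, map_one]
  have hx1 : x ∉ W ⊔ (⊥ : Submodule F VV) := by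
    rw [sup_bot_eq]
    intro hin
    have : (1 : F) • x + (0 : F) • y ∈ W := by simpa using hin
    exact one_ne_zero (hind 1 0 this).1
  obtain ⟨b₁, hb₁, -, hxb₁⟩ := h.exists_sep hf hx1
  obtain ⟨a, ha, ha0, hperp⟩ := exists_perp_mem hf (U := U) ![x, y, b, b₁] (by simp; omega)
  have h1 : f x a = 0 := hperp 0
  have h2 : f y a = 0 := hperp 1
  have h3 : f b a = 0 := hperp 2
  have h4 : f b₁ a = 0 := hperp 3
  have h1' : f a x = 0 := by rw [hf.herm, h1, map_zero]
  have h2' : f a y = 0 := by rw [hf.herm, h2, map_zero]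
  have h4' : f a b₁ = 0 := by rw [hf.herm, h4, map_zero]
  have haQ := h.tsU a ha a ha
  have hbQ := h.tsW b hbW b hbW
  have hA := eg_iso hf hxQ hxy (zero_ok' hf hyQ)
  have hAa : (eg f x y 0 : MM) *ᵥ a = a := eg_fix hf hxQ hxy (zero_ok' hf hyQ) h1' h2'
  have hAb : (eg f x y 0 : MM) *ᵥ b = b - x := by
    rw [eg_apply hf hxQ hxy (zero_ok' hf hyQ)]
    unfold egFun
    rw [hbx'', hby']
    simp
  have e := comm_fix hf hA hAa haQ hbQ h3
  rw [hAb, sub_sub_cancel, sub_right hf, hbQ, hbx'', sub_zero] at e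
  have hm : eg f a x 0 ∈ M := by
    rw [← e]
    have := hE' hbW ha h3
    exact M.mul_mem (M.mul_mem (M.mul_mem hExy this) (M.inv_mem hExy)) (M.inv_mem this)
  obtain ⟨x₀, hx₀, x₁, hx₁, e'⟩ := h.decomp x
  have hax₀ : f a x₀ = 0 := h.tsU a ha x₀ hx₀
  have hax₁ : f a x₁ = 0 := by
    rw [← e', add_right hf, hax₀, zero_add] at h1'
    exact h1'
  have hx₀b₁ : f x₀ b₁ = 1 := by
    rw [← e', hf.add_left, h.tsW x₁ hx₁ b₁ hb₁, add_zero] at hxb₁
    exact hxb₁
  have hskew : f x₁ x₀ + σ (f x₁ x₀) = 0 := by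
    rw [sig_f hf]
    have := hxQ
    rw [← e'] at this
    simp only [hf.add_left, add_right hf, h.tsU x₀ hx₀ x₀ hx₀, h.tsW x₁ hx₁ x₁ hx₁] at this
    linear_combination this
  have hx₁Q := h.tsW x₁ hx₁ x₁ hx₁
  have hx₀Q := h.tsU x₀ hx₀ x₀ hx₀
  refine ⟨a, ha, x₀, hx₀, b₁, hb₁, f x₁ x₀, hskew, hx₀b₁, h4', ha0, ?_⟩
  have e2 := eg_mul hf haQ hax₀ hax₁ (γ := f x₁ x₀) (γ' := 0) (by rw [hx₀Q, neg_zero]; exact hskew) (zero_ok' hf hx₁Q)
  have e3 : f x₁ x₀ + 0 - f x₁ x₀ = 0 := by ring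
  rw [e3, e'] at e2
  have := M.mul_mem hm (M.inv_mem (hE ha hx₁ hax₁))
  rwa [← e2, mul_inv_cancel_right] at this

/-- Spreading. -/
theorem TIPair.spread [Fintype F] (hU : 2 * Module.finrank F U = Fintype.card ι) (hn : 13 ≤ Fintype.card ι) {M : Subgroup GG}
    (hS : ∀ g ∈ uiso f ⊓ specialLinear ι F, (∀ x ∈ U, (g : MM) *ᵥ x ∈ U) → (∀ x ∈ W, (g : MM) *ᵥ x ∈ W) → g ∈ M)
    {a₀ x₀ b₀ : VV} {s₀ : F} (hs₀ : s₀ + σ s₀ = 0) (ha₀ : a₀ ∈ U) (hx₀ : x₀ ∈ U) (hb₀ : b₀ ∈ W) (h1 : f x₀ b₀ = 1) (h2 : f a₀ b₀ = 0) (ha₀0 : a₀ ≠ 0)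
    (hm : eg f a₀ x₀ s₀ ∈ M) : ∀ a ∈ U, UFull σ f M a := by
  have hE : ∀ {a b : VV}, a ∈ U → b ∈ W → f a b = 0 → eg f a b 0 ∈ M := fun ha hb hab => h.eg_mem hf hS (by omega) ha hb hab
  have hE' : ∀ {b a : VV}, b ∈ W → a ∈ U → f b a = 0 → eg f b a 0 ∈ M := fun hb ha hab => h.eg_mem' hf hS (by omega) hb ha hab
  have hts : ∀ {x y : VV}, x ∈ U → y ∈ U → f x y = 0 := fun hx hy => h.tsU _ hx _ hy
  have hskew0 : ∀ {s : F}, s + σ s = 0 → ∀ {x : VV}, x ∈ U → s + σ s = - f x x := by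
    intro s hs x hx
    rw [hs, hts hx hx, neg_zero]
  have hzero' : ∀ {x : VV}, x ∈ U → (0 : F) + σ 0 = - f x x := fun hx => zero_ok' hf (hts hx hx)
  -- the basic commutator
  have hstep : ∀ {a x b : VV} {t : F}, t + σ t = 0 → a ∈ U → x ∈ U → b ∈ W → f x b = 1 → f a b = 0 → eg f a x t ∈ M →
      ∀ w ∈ U, f b w = 0 → eg f a w 0 ∈ M := by
    intro a x b t ht ha hx hbW hxb hab hin w hw hbw
    have haQ := hts ha ha
    have hax := hts ha hx
    have hht := hskew0 ht hx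
    have hA := eg_iso hf haQ hax hht
    have hwb : f w b = 0 := by rw [hf.herm, hbw, map_zero]
    have hba : f b a = 0 := by rw [hf.herm, hab, map_zero]
    have hbx : f b x = 1 := by rw [hf.herm, hxb, map_one]
    have hAw : (eg f a x t : MM) *ᵥ (-w) = -w := by
      rw [eg_apply hf haQ hax hht]
      unfold egFun
      simp only [neg_left hf, hts hw ha, hts hw hx]
      simp
    have hAb : (eg f a x t : MM) *ᵥ b = b - a := by
      rw [eg_apply hf haQ hax hht]
      unfold egFun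
      rw [hba, hbx]
      simp
    have hbQ := h.tsW b hbW b hbW
    have hbw' : f b (-w) = 0 := by rw [neg_right hf, hbw, neg_zero]
    have e := comm_fix hf hA hAw (by rw [neg_left hf, neg_right hf, hts hw hw]; simp) hbQ hbw'
    rw [hAb, sub_sub_cancel, sub_right hf, hbQ, hba, sub_zero] at e
    have hm1 : eg f (-w) a 0 ∈ M := by
      rw [← e]
      have := hE' hbW (U.neg_mem hw) hbw'
      exact M.mul_mem (M.mul_mem (M.mul_mem hin this) (M.inv_mem hin)) (M.inv_mem this)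
    rw [eg_swap hf (by rw [neg_left hf, neg_right hf, hts hw hw]; simp) haQ (by rw [neg_left hf, hts hw ha, neg_zero]), neg_neg] at hm1
    exact hm1
  have hzero : ∀ {a : VV}, a ∈ U → eg f a 0 0 ∈ M := by
    intro a ha
    rw [eg_zero hf a (hts ha ha)]
    exact M.one_mem
  -- all parameters in `U`
  have hcentre : ∀ {a x b : VV} {t : F}, t + σ t = 0 → a ∈ U → x ∈ U → b ∈ W → f x b = 1 → f a b = 0 → a ≠ 0 → eg f a x t ∈ M →
      ∀ w ∈ U, eg f a w 0 ∈ M := by
    intro a x b t ht ha hx hbW hxb hab ha0 hin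
    have hax : a ∉ W ⊔ Submodule.span F {x} := by
      intro hmem
      obtain ⟨w', hw', s, hs, e⟩ := Submodule.mem_sup.mp hmem
      obtain ⟨l, rfl⟩ := Submodule.mem_span_singleton.mp hs
      have hw'U : w' ∈ U := by
        have : w' = a - l • x := eq_sub_of_add_eq e
        rw [this]
        exact U.sub_mem ha (U.smul_mem _ hx)
      have hw0 : w' = 0 := h.inter hw'U hw'
      rw [hw0, zero_add] at e
      rw [← e, hf.smul_left, hxb, mul_one] at hab
      rw [hab, zero_smul] at e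
      exact ha0 e.symm
    obtain ⟨β, hβ, hβx, hβa⟩ := h.exists_sep hf hax
    have hxβ : f x β = 0 := hβx x (Submodule.mem_span_singleton_self x)
    obtain ⟨x₂, hx₂, hx₂0, hperp⟩ := exists_perp_mem hf (U := U) ![b, β] (by simp; omega)
    have hbx₂ : f b x₂ = 0 := hperp 0
    have hβx₂ : f β x₂ = 0 := hperp 1
    have hx₂b : f x₂ b = 0 := by rw [hf.herm, hbx₂, map_zero]
    have hx₂β : f x₂ β = 0 := by rw [hf.herm, hβx₂, map_zero]
    have hx₂' : x₂ ∉ W ⊔ (Submodule.span F {a} ⊔ Submodule.span F {x}) := by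
      intro hmem
      obtain ⟨w', hw', s, hs, e⟩ := Submodule.mem_sup.mp hmem
      obtain ⟨r, hr, r', hr', rfl⟩ := Submodule.mem_sup.mp hs
      obtain ⟨α, rfl⟩ := Submodule.mem_span_singleton.mp hr
      obtain ⟨γ, rfl⟩ := Submodule.mem_span_singleton.mp hr'
      have hw'U : w' ∈ U := by
        have : w' = x₂ - (α • a + γ • x) := eq_sub_of_add_eq e
        rw [this]
        exact U.sub_mem hx₂ (U.add_mem (U.smul_mem _ ha) (U.smul_mem _ hx))
      have hw0 : w' = 0 := h.inter hw'U hw'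
      rw [hw0, zero_add] at e
      have e1 : f x₂ b = γ := by
        rw [← e, hf.add_left, hf.smul_left, hf.smul_left, hab, hxb]
        ring
      have e2 : f x₂ β = α := by
        rw [← e, hf.add_left, hf.smul_left, hf.smul_left, hβa, hxβ]
        ring
      rw [hx₂b] at e1
      rw [hx₂β] at e2
      rw [← e1, ← e2] at e
      apply hx₂0
      rw [← e]
      simp
    obtain ⟨b₂, hb₂, hb₂s, hx₂b₂⟩ := h.exists_sep hf hx₂'
    have hab₂ : f a b₂ = 0 := hb₂s a (Submodule.mem_sup_left (Submodule.mem_span_singleton_self a))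
    have hxb₂ : f x b₂ = 0 := hb₂s x (Submodule.mem_sup_right (Submodule.mem_span_singleton_self x))
    have hsmul : ∀ l : F, eg f a (l • x) 0 ∈ M := by
      intro l
      by_cases hl : l = 0
      · rw [hl, zero_smul]
        exact hzero ha
      have m1 : eg f a (l • x₂) 0 ∈ M :=
        hstep ht ha hx hbW hxb hab hin _ (U.smul_mem _ hx₂) (by rw [smul_right hf, hbx₂, mul_zero])
      refine hstep (by simp) ha (U.smul_mem l hx₂) (W.smul_mem (σ l)⁻¹ hb₂) ?_ ?_ m1 _ (U.smul_mem _ hx) ?_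
      · rw [hf.smul_left, smul_right hf, hx₂b₂, map_inv₀, hf.involutive]
        field_simp
      · rw [smul_right hf, hab₂, mul_zero]
      · rw [hf.smul_left, smul_right hf, hf.herm, hxb₂, map_zero]
        ring
    intro w hw
    have hbx : f b x = 1 := by rw [hf.herm, hxb, map_one]
    have e1 : f b (w - (f w b) • x) = 0 := by
      rw [sub_right hf, smul_right hf, hbx, sig_f hf w b]
      ring
    have m1 := hstep ht ha hx hbW hxb hab hin _ (U.sub_mem hw (U.smul_mem _ hx)) e1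
    have := M.mul_mem m1 (hsmul (f w b))
    rw [eg_mul hf (hts ha ha) (hts ha (U.sub_mem hw (U.smul_mem _ hx))) (hts ha (U.smul_mem _ hx)) (hzero' (U.sub_mem hw (U.smul_mem _ hx))) (hzero' (U.smul_mem _ hx)),
      sub_add_cancel, hts (U.smul_mem _ hx) (U.sub_mem hw (U.smul_mem _ hx))] at this
    simpa using this
  have h0 := hcentre hs₀ ha₀ hx₀ hb₀ h1 h2 ha₀0 hm
  -- moving the centre
  have hmove : ∀ {a x : VV}, a ∈ U → a ≠ 0 → x ∈ U → x ∉ Submodule.span F {a} → (∀ w ∈ U, eg f a w 0 ∈ M) → ∀ w ∈ U, eg f x w 0 ∈ M := by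
    intro a x ha ha0 hx hxa hin
    have hx0 : x ≠ 0 := fun e => hxa (e ▸ Submodule.zero_mem _)
    have hax : a ∉ W ⊔ Submodule.span F {x} := by
      intro hmem
      obtain ⟨w', hw', s, hs, e⟩ := Submodule.mem_sup.mp hmem
      obtain ⟨l, rfl⟩ := Submodule.mem_span_singleton.mp hs
      have hw'U : w' ∈ U := by
        have : w' = a - l • x := eq_sub_of_add_eq e
        rw [this]
        exact U.sub_mem ha (U.smul_mem _ hx)
      have hw0 : w' = 0 := h.inter hw'U hw'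
      rw [hw0, zero_add] at e
      have hl : l ≠ 0 := by
        rintro rfl
        rw [zero_smul] at e
        exact ha0 e.symm
      apply hxa
      rw [Submodule.mem_span_singleton]
      exact ⟨l⁻¹, by rw [← e, smul_smul, inv_mul_cancel₀ hl, one_smul]⟩
    obtain ⟨β, hβ, hβx, hβa⟩ := h.exists_sep hf hax
    have hxβ : f x β = 0 := hβx x (Submodule.mem_span_singleton_self x)
    have hm' : eg f x a 0 ∈ M := by
      rw [eg_swap hf (hts hx hx) (hts ha ha) (hts hx ha)]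
      exact hin _ (U.neg_mem hx)
    exact hcentre (by simp) hx ha hβ hβa hxβ hx0 hm'
  have hall : ∀ a ∈ U, ∀ w ∈ U, eg f a w 0 ∈ M := by
    intro a ha
    by_cases ha0 : a = 0
    · intro w hw
      rw [ha0, eg_zero_left hf (zero_ok' hf (hts hw hw))]
      exact M.one_mem
    by_cases hin : a ∈ Submodule.span F {a₀}
    · -- an intermediate vector
      have ha₀W : a₀ ∉ W ⊔ (⊥ : Submodule F VV) := by
        rw [sup_bot_eq]
        exact fun hin' => ha₀0 (h.inter ha₀ hin')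
      obtain ⟨β, hβ, -, hβ1⟩ := h.exists_sep hf ha₀W
      obtain ⟨x₃, hx₃, hx₃0, hperp⟩ := exists_perp_mem hf (U := U) ![β] (by simp; omega)
      have hβx₃ : f β x₃ = 0 := hperp 0
      have hx₃β : f x₃ β = 0 := by rw [hf.herm, hβx₃, map_zero]
      have hx₃n : x₃ ∉ Submodule.span F {a₀} := by
        intro hh
        obtain ⟨l, rfl⟩ := Submodule.mem_span_singleton.mp hh
        rw [hf.smul_left, hβ1, mul_one] at hx₃β
        rw [hx₃β, zero_smul] at hx₃0
        exact hx₃0 rfl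
      have hc₃ := hmove ha₀ ha₀0 hx₃ hx₃n h0
      have han : a ∉ Submodule.span F {x₃} := by
        intro hh
        obtain ⟨l, rfl⟩ := Submodule.mem_span_singleton.mp hh
        obtain ⟨r, hr⟩ := Submodule.mem_span_singleton.mp hin
        have e1 : f (l • x₃) β = r := by
          rw [← hr, hf.smul_left, hβ1, mul_one]
        rw [hf.smul_left, hx₃β, mul_zero] at e1
        rw [← e1, zero_smul] at hr
        exact ha0 hr.symm
      exact hmove hx₃ hx₃0 ha han hc₃
    · exact hmove ha₀ ha₀0 ha hin h0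
  -- the transvections
  have htv : ∀ a ∈ U, ∀ t : F, t + σ t = 0 → eg f a 0 t ∈ M := by
    intro a ha t ht
    by_cases ha0 : a = 0
    · rw [ha0, eg_zero_left hf (skew_ok hf ht)]
      exact M.one_mem
    have haW : a ∉ W ⊔ (⊥ : Submodule F VV) := by
      rw [sup_bot_eq]
      exact fun hin' => ha0 (h.inter ha hin')
    obtain ⟨β, hβ, -, hβ1⟩ := h.exists_sep hf haW
    obtain ⟨e, he, he0, hperp⟩ := exists_perp_mem hf (U := U) ![β] (by simp; omega)
    obtain ⟨l, hl⟩ := exists_sub_sig hf ht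
    have h3 := eg_rank2 hf (hts ha ha) (hts he he) (hts ha he) l
    have h4 := hall (a + e) (U.add_mem ha he) (l • a + e) (U.add_mem (U.smul_mem _ ha) he)
    rw [h3, hl] at h4
    have h5 := hall a ha ((1 - σ l) • e) (U.smul_mem _ he)
    have h6 := eg_mul hf (hts ha ha) (zero_right hf a) (hts ha (U.smul_mem (1 - σ l) he)) (skew_ok hf ht) (hzero' (U.smul_mem (1 - σ l) he))
    rw [zero_add, zero_right hf, add_zero, sub_zero] at h6
    rw [← h6] at h4
    have := M.mul_mem h4 (M.inv_mem h5)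
    rwa [mul_inv_cancel_right] at this
  intro a ha x γ hax hγ
  obtain ⟨x₀', hx₀', x₁, hx₁, rfl⟩ := h.decomp x
  have h3 : f a x₀' = 0 := hts ha hx₀'
  have h4 : f a x₁ = 0 := by
    rw [add_right hf, h3, zero_add] at hax
    exact hax
  have hx₁Q := h.tsW x₁ hx₁ x₁ hx₁
  have hx₀Q := hts hx₀' hx₀'
  have h5 := eg_mul hf (hts ha ha) h3 h4 (zero_ok' hf hx₀Q) (zero_ok' hf hx₁Q)
  have hsum : f a (x₀' + x₁) = 0 := hax
  have hsumQ : f (x₀' + x₁) (x₀' + x₁) = f x₀' x₁ + f x₁ x₀' := by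
    simp only [hf.add_left, add_right hf, hx₀Q, hx₁Q]
    ring
  have ht : (γ + f x₁ x₀') + σ (γ + f x₁ x₀') = 0 := by
    rw [map_add, sig_f hf]
    rw [hsumQ] at hγ
    linear_combination hγ
  have hγ' : (0 + 0 - f x₁ x₀') + σ (0 + 0 - f x₁ x₀') = - f (x₀' + x₁) (x₀' + x₁) := by
    rw [hsumQ, map_sub, map_add, map_zero, sig_f hf]
    ring
  have h6 := eg_mul hf (hts ha ha) (zero_right hf a) hsum (skew_ok hf ht) hγ'
  have e4 : γ + f x₁ x₀' + (0 + 0 - f x₁ x₀') - f (x₀' + x₁) 0 = γ := by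
    rw [zero_right hf]
    ring
  have h6' : eg f a 0 (γ + f x₁ x₀') * eg f a (x₀' + x₁) (0 + 0 - f x₁ x₀') = eg f a (x₀' + x₁) γ := by
    rw [h6, e4, zero_add]
  rw [← h6', ← h5]
  exact M.mul_mem (htv a ha _ ht) (M.mul_mem (hall a ha x₀' hx₀') (hE ha hx₁ h4))

/-- Dual families for a pair of complementary totally isotropic subspaces. -/
theorem TIPair.exists_dual :
    ∃ (u w : Fin (Module.finrank F U) → VV), (∀ i, u i ∈ U) ∧ (∀ i, w i ∈ W) ∧ (∀ i j, f (u i) (w j) = if i = j then 1 else 0) ∧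
      (∀ x ∈ U, x = ∑ i, (f x (w i)) • u i) ∧ ∀ y ∈ W, y = ∑ i, (f y (u i)) • w i := by
  classical
  let b : Module.Basis (Fin (Module.finrank F U)) F U := Module.finBasisOfFinrankEq F U rfl
  let πU : VV →ₗ[F] U := Submodule.linearProjOfIsCompl U W h.compl
  have hπU : ∀ x ∈ U, ((πU x : U) : VV) = x := fun x hx =>
    congrArg Subtype.val (Submodule.linearProjOfIsCompl_apply_left h.compl ⟨x, hx⟩)
  have hπW : ∀ x ∈ W, πU x = 0 := fun x hx => by
    exact (Submodule.linearProjOfIsCompl_apply_right h.compl ⟨x, hx⟩)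
  have hex : ∀ i, ∃ z : VV, ∀ v, f v z = b.coord i (πU v) := by
    intro i
    obtain ⟨φ, hφ⟩ := exists_dotProduct_eq ((b.coord i).comp πU)
    obtain ⟨z, rfl⟩ := HermOver.exists_fdual hf φ
    refine ⟨z, fun v => ?_⟩
    rw [← dual_dot hf, ← hφ]
    rfl
  choose w hw using hex
  let u : Fin (Module.finrank F U) → VV := fun i => (b i : VV)
  have huU : ∀ i, u i ∈ U := fun i => (b i).2
  have hwW : ∀ i, w i ∈ W := fun i => h.mem_of_perp hf (fun x hx => by rw [hw, hπW x hx, map_zero])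
  have hdual : ∀ i j, f (u i) (w j) = if i = j then 1 else 0 := by
    intro i j
    rw [hw]
    have : πU (u i) = b i := Subtype.ext (hπU _ (huU i))
    rw [this, Module.Basis.coord_apply, Module.Basis.repr_self, Finsupp.single_apply]
  have hexpU : ∀ x ∈ U, x = ∑ i, (f x (w i)) • u i := by
    intro x hx
    have h1 : πU x = ⟨x, hx⟩ := Subtype.ext (hπU x hx)
    have := b.sum_repr ⟨x, hx⟩
    have e := congrArg Subtype.val this
    simp only [Submodule.coe_sum, Submodule.coe_smul] at e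
    conv_lhs => rw [← e]
    refine Finset.sum_congr rfl (fun i _ => ?_)
    rw [hw, h1, Module.Basis.coord_apply]
  refine ⟨u, w, huU, hwW, hdual, hexpU, fun y hy => ?_⟩
  have hmem : y - ∑ i, (f y (u i)) • w i ∈ W := W.sub_mem hy (W.sum_mem fun i _ => W.smul_mem _ (hwW i))
  have hdual' : ∀ i j, f (w i) (u j) = if j = i then 1 else 0 := by
    intro i j
    rw [hf.herm, hdual]
    split_ifs <;> simp
  have hperp : ∀ j, f (y - ∑ i, (f y (u i)) • w i) (u j) = 0 := by
    intro j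
    rw [sub_left hf, sum_left' hf]
    simp only [hf.smul_left, hdual']
    simp only [mul_ite, mul_one, mul_zero, Finset.sum_ite_eq, Finset.mem_univ, if_true]
    rw [sub_self]
  have h0 : y - ∑ i, (f y (u i)) • w i = 0 := by
    by_contra h0
    obtain ⟨x, hx⟩ := (hf.nondegenerate _ h0).2
    apply hx
    obtain ⟨u', hu', w', hw', rfl⟩ := h.decomp x
    rw [add_right hf, h.tsW _ hmem _ hw', add_zero]
    rw [hexpU u' hu', sum_right' hf]
    simp only [smul_right hf, hperp]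
    simp
  exact sub_eq_zero.mp h0

/-- There is an element of `SU` swapping `U` and `W`. -/
theorem TIPair.exists_swap [Fintype F] (hn : 6 ≤ Fintype.card ι) :
    ∃ s : GG, s ∈ uiso f ⊓ specialLinear ι F ∧ (∀ x ∈ U, (s : MM) *ᵥ x ∈ W) ∧ (∀ x ∈ W, (s : MM) *ᵥ x ∈ U) := by
  classical
  obtain ⟨u, w, huU, hwW, hdual, hexpU, hexpW⟩ := h.exists_dual hf
  obtain ⟨t, ht0, ht⟩ := exists_skew' hf
  have hr : (-t⁻¹) + σ (-t⁻¹) = 0 := by
    have h1 : σ t = - t := by linear_combination ht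
    rw [map_neg, map_inv₀, h1]
    field_simp
    ring
  have huQ : ∀ i, f (u i) (u i) = 0 := fun i => h.tsU _ (huU i) _ (huU i)
  have hwQ : ∀ i, f (w i) (w i) = 0 := fun i => h.tsW _ (hwW i) _ (hwW i)
  have huu : ∀ i j, f (u i) (u j) = 0 := fun i j => h.tsU _ (huU i) _ (huU j)
  have hww : ∀ i j, f (w i) (w j) = 0 := fun i j => h.tsW _ (hwW i) _ (hwW j)
  have hdual' : ∀ i j, f (w i) (u j) = if j = i then 1 else 0 := by
    intro i j
    rw [hf.herm, hdual]
    split_ifs <;> simp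
  -- the Weyl elements
  let S : Fin (Module.finrank F U) → GG := fun i => eg f (u i) 0 t * eg f (w i) 0 (-t⁻¹) * eg f (u i) 0 t
  have hTu : ∀ i v, (eg f (u i) 0 t : MM) *ᵥ v = v + (t * f v (u i)) • u i := by
    intro i v
    rw [eg_apply hf (huQ i) (zero_right hf _) (skew_ok hf ht)]
    unfold egFun
    rw [zero_right hf]
    module
  have hTw : ∀ i v, (eg f (w i) 0 (-t⁻¹) : MM) *ᵥ v = v + ((-t⁻¹) * f v (w i)) • w i := by
    intro i v
    rw [eg_apply hf (hwQ i) (zero_right hf _) (skew_ok hf hr)]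
    unfold egFun
    rw [zero_right hf]
    module
  have hSact : ∀ i v, (S i : MM) *ᵥ v = (eg f (u i) 0 t : MM) *ᵥ ((eg f (w i) 0 (-t⁻¹) : MM) *ᵥ ((eg f (u i) 0 t : MM) *ᵥ v)) := by
    intro i v
    simp only [S, Units.val_mul, Matrix.mulVec_mulVec, mul_assoc]
  have hS1 : ∀ i, (S i : MM) *ᵥ u i = (-t⁻¹) • w i := by
    intro i
    have a1 : (eg f (u i) 0 t : MM) *ᵥ u i = u i := by
      rw [hTu, huQ]
      simp
    have a2 : (eg f (w i) 0 (-t⁻¹) : MM) *ᵥ u i = u i + (-t⁻¹) • w i := by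
      rw [hTw, hdual i i, if_pos rfl, mul_one]
    have a3 : (eg f (u i) 0 t : MM) *ᵥ (u i + (-t⁻¹) • w i) = (-t⁻¹) • w i := by
      rw [hTu, hf.add_left, hf.smul_left, huQ, hdual' i i, if_pos rfl]
      have e : t * (0 + (-t⁻¹) * 1) = -1 := by field_simp; ring
      rw [e]
      module
    rw [hSact, a1, a2, a3]
  have hS2 : ∀ i, (S i : MM) *ᵥ w i = t • u i := by
    intro i
    have a1 : (eg f (u i) 0 t : MM) *ᵥ w i = w i + t • u i := by
      rw [hTu, hdual' i i, if_pos rfl, mul_one]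
    have a2 : (eg f (w i) 0 (-t⁻¹) : MM) *ᵥ (w i + t • u i) = t • u i := by
      rw [hTw, hf.add_left, hf.smul_left, hwQ, hdual i i, if_pos rfl]
      have e : (-t⁻¹) * (0 + t * 1) = -1 := by field_simp; ring
      rw [e]
      module
    have a3 : (eg f (u i) 0 t : MM) *ᵥ (t • u i) = t • u i := by
      rw [hTu, hf.smul_left, huQ]
      simp
    rw [hSact, a1, a2, a3]
  have hS3 : ∀ i j, j ≠ i → (S i : MM) *ᵥ u j = u j := by
    intro i j hji
    have h1 : (eg f (u i) 0 t : MM) *ᵥ u j = u j := by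
      rw [hTu, huu]
      simp
    have h2 : (eg f (w i) 0 (-t⁻¹) : MM) *ᵥ u j = u j := by
      rw [hTw, hdual, if_neg hji]
      simp
    rw [hSact, h1, h2, h1]
  have hS4 : ∀ i j, j ≠ i → (S i : MM) *ᵥ w j = w j := by
    intro i j hji
    have h1 : (eg f (u i) 0 t : MM) *ᵥ w j = w j := by
      rw [hTu, hdual', if_neg (Ne.symm hji)]
      simp
    have h2 : (eg f (w i) 0 (-t⁻¹) : MM) *ᵥ w j = w j := by
      rw [hTw, hww]
      simp
    rw [hSact, h1, h2, h1]
  have hSmem : ∀ i, S i ∈ uiso f ⊓ specialLinear ι F := by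
    intro i
    exact mul_mem (mul_mem (eg_mem_su hf hn (huQ i) (zero_right hf _) (skew_ok hf ht))
      (eg_mem_su hf hn (hwQ i) (zero_right hf _) (skew_ok hf hr))) (eg_mem_su hf hn (huQ i) (zero_right hf _) (skew_ok hf ht))
  have hact : ∀ L : List (Fin (Module.finrank F U)), L.Nodup → ∀ j,
      (j ∉ L → ((L.map S).prod : GG).1 *ᵥ u j = u j ∧ ((L.map S).prod : GG).1 *ᵥ w j = w j) ∧
      (j ∈ L → ((L.map S).prod : GG).1 *ᵥ u j = (-t⁻¹) • w j ∧ ((L.map S).prod : GG).1 *ᵥ w j = t • u j) := by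
    intro L
    induction L with
    | nil =>
      intro _ j
      simp
    | cons i L ih =>
      intro hnd j
      have hi := (List.nodup_cons.mp hnd).1
      have hL := (List.nodup_cons.mp hnd).2
      obtain ⟨h1, h2⟩ := ih hL j
      simp only [List.map_cons, List.prod_cons, Units.val_mul, ← Matrix.mulVec_mulVec]
      constructor
      · intro hj
        have hji : j ≠ i := fun e => hj (e ▸ List.mem_cons_self)
        have hjL : j ∉ L := fun e => hj (List.mem_cons_of_mem _ e)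
        obtain ⟨h3, h4⟩ := h1 hjL
        rw [h3, h4, hS3 i j hji, hS4 i j hji]
        exact ⟨rfl, rfl⟩
      · intro hj
        by_cases hji : j = i
        · subst hji
          obtain ⟨h3, h4⟩ := h1 hi
          rw [h3, h4, hS1, hS2]
          exact ⟨rfl, rfl⟩
        · have hjL : j ∈ L := (List.mem_cons.mp hj).resolve_left hji
          obtain ⟨h3, h4⟩ := h2 hjL
          rw [h3, h4, Matrix.mulVec_smul, Matrix.mulVec_smul, hS3 i j hji, hS4 i j hji]
          exact ⟨rfl, rfl⟩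
  let L := List.finRange (Module.finrank F U)
  refine ⟨(L.map S).prod, Subgroup.list_prod_mem _ ?_, ?_, ?_⟩
  · intro x hx
    obtain ⟨i, -, rfl⟩ := List.mem_map.mp hx
    exact hSmem i
  · intro x hx
    rw [hexpU x hx, Matrix.mulVec_sum]
    refine W.sum_mem fun i _ => ?_
    rw [Matrix.mulVec_smul]
    refine W.smul_mem _ ?_
    rw [((hact L (List.nodup_finRange _) i).2 (List.mem_finRange i)).1]
    exact W.smul_mem _ (hwW i)
  · intro x hx
    rw [hexpW x hx, Matrix.mulVec_sum]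
    refine U.sum_mem fun i _ => ?_
    rw [Matrix.mulVec_smul]
    refine U.smul_mem _ ?_
    rw [((hact L (List.nodup_finRange _) i).2 (List.mem_finRange i)).2]
    exact U.smul_mem _ (huU i)

end Form

/-- The stabiliser in `SU` of a pair of complementary totally isotropic half spaces is maximal. -/
theorem isMaximal_tiPair (hf : IsUnitaryForm σ f) [Fintype F] (hn : 13 ≤ Fintype.card ι) {k : ℕ} (hk : 2 * k = Fintype.card ι) {D : Fin 2 → Submodule F (ι → F)} (hD : IsMDecomposition k D)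
    (hts : ∀ i, IsTotallySingularFor f (D i)) :
    IsMaximalIn (uiso f ⊓ specialLinear ι F) (decompositionStabilizer D ⊓ (uiso f ⊓ specialLinear ι F)) := by
  classical
  have h : TIPair f (D 0) (D 1) := ⟨OmegaCore.decomp2_compl hD, hts 0, hts 1⟩
  have hf0 := hD.finrank_eq 0
  have hf1 := hD.finrank_eq 1
  have hU : 2 * Module.finrank F (D 0) = Fintype.card ι := by rw [hf0, hk]
  have hW : 2 * Module.finrank F (D 1) = Fintype.card ι := by rw [hf1, hk]
  have hne : ∀ i, D i ≠ ⊥ := by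
    intro i hbot
    have := hD.finrank_eq i
    rw [hbot, finrank_bot] at this
    omega
  obtain ⟨a₀, ha₀, ha₀'⟩ := exists_skew' hf
  -- strictness
  have hstrict : decompositionStabilizer D ⊓ (uiso f ⊓ specialLinear ι F) < uiso f ⊓ specialLinear ι F := by
    refine lt_of_le_of_ne inf_le_right ?_
    intro heq
    obtain ⟨x, hx, hx0⟩ := Submodule.exists_mem_ne_zero_of_ne_bot (hne 0)
    have hxW : x ∉ D 1 ⊔ (⊥ : Submodule F (ι → F)) := by
      rw [sup_bot_eq]
      exact fun hin => hx0 (h.inter hx hin)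
    obtain ⟨w, hw, -, hw1⟩ := h.exists_sep hf hxW
    have hxQ := hts 0 x hx x hx
    have hwx : f w x = 1 := by rw [hf.herm, hw1, map_one]
    have hin : eg f x 0 a₀ ∈ decompositionStabilizer D ⊓ (uiso f ⊓ specialLinear ι F) := by
      rw [heq]
      exact eg_mem_su hf (by omega) hxQ (zero_right hf x) (skew_ok hf ha₀')
    have hact : ∀ v, (eg f x 0 a₀ : Matrix ι ι F) *ᵥ v = v + (a₀ * f v x) • x := by
      intro v
      rw [eg_apply hf hxQ (zero_right hf _) (skew_ok hf ha₀')]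
      unfold egFun
      rw [zero_right hf]
      module
    rcases OmegaCore.decomp2_act hin.1 with ⟨-, h1⟩ | ⟨h0, -⟩
    · have h3 := h1 w hw
      rw [hact, hwx, mul_one] at h3
      have h4 := (D 1).sub_mem h3 hw
      rw [add_sub_cancel_left] at h4
      have h5 := (D 1).smul_mem a₀⁻¹ h4
      rw [smul_smul, inv_mul_cancel₀ ha₀, one_smul] at h5
      exact hx0 (h.inter hx h5)
    · have h3 := h0 x hx
      rw [hact, hxQ, mul_zero, zero_smul, add_zero] at h3
      exact hx0 (h.inter hx h3)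
  refine ⟨hstrict, fun M hHM hMO => ?_⟩
  by_cases hle : M ≤ decompositionStabilizer D ⊓ (uiso f ⊓ specialLinear ι F)
  · exact Or.inl (le_antisymm hle hHM)
  right
  apply le_antisymm hMO
  obtain ⟨g, hgM, hgH⟩ := SetLike.not_le_iff_exists.mp hle
  have hgS := hMO hgM
  have hg : ∀ v w, f ((g : Matrix ι ι F) *ᵥ v) ((g : Matrix ι ι F) *ᵥ w) = f v w := hgS.1
  have hgD : g ∉ decompositionStabilizer D := fun hh => hgH ⟨hh, hgS⟩
  have hH : ∀ g ∈ uiso f ⊓ specialLinear ι F, (∀ x ∈ D 0, (g : Matrix ι ι F) *ᵥ x ∈ D 0) → (∀ x ∈ D 1, (g : Matrix ι ι F) *ᵥ x ∈ D 1) → g ∈ M :=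
    fun g hg h0 h1 => hHM ⟨OmegaCore.decomp2_mem_fix hD h0 h1, hg⟩
  have hH' : ∀ g ∈ uiso f ⊓ specialLinear ι F, (∀ x ∈ D 1, (g : Matrix ι ι F) *ᵥ x ∈ D 1) → (∀ x ∈ D 0, (g : Matrix ι ι F) *ᵥ x ∈ D 0) → g ∈ M :=
    fun g hg h0 h1 => hH g hg h1 h0
  obtain ⟨s, hsS, hs0, hs1⟩ := h.exists_swap hf (by omega)
  have hsM : s ∈ M := hHM ⟨OmegaCore.decomp2_mem_swap hD hs0 hs1, hsS⟩
  have hsiso : ∀ v w, f ((s : Matrix ι ι F) *ᵥ v) ((s : Matrix ι ι F) *ᵥ w) = f v w := hsS.1
  have hfinish : (∀ a ∈ D 0, UFull σ f M a) ∨ (∀ a ∈ D 1, UFull σ f M a) := by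
    by_cases hc1 : ∃ u ∈ D 0, ∃ w ∈ D 1, f u w = 0 ∧ IndepModW (D 1) ((g : Matrix ι ι F) *ᵥ u) ((g : Matrix ι ι F) *ᵥ w)
    · obtain ⟨u, hu, w, hw, huw, hind⟩ := hc1
      obtain ⟨a, ha, x, hx, b, hbW, s', hs', h1, h2, ha0, hin⟩ := h.first_centre hf hU hn hH hg hgM hu hw huw hind
      exact Or.inl (h.spread hf hU hn hH hs' ha hx hbW h1 h2 ha0 hin)
    by_cases hc2 : ∃ w ∈ D 1, ∃ u ∈ D 0, f w u = 0 ∧ IndepModW (D 0) ((g : Matrix ι ι F) *ᵥ w) ((g : Matrix ι ι F) *ᵥ u)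
    · obtain ⟨w, hw, u, hu, hwu, hind⟩ := hc2
      obtain ⟨a, ha, x, hx, b, hbW, s', hs', h1, h2, ha0, hin⟩ := h.symm.first_centre hf hW hn hH' hg hgM hw hu hwu hind
      exact Or.inr (h.symm.spread hf hW hn hH' hs' ha hx hbW h1 h2 ha0 hin)
    exfalso
    push Not at hc1 hc2
    have hA := h.struct_claim hf hU hW (by omega) g hc1
    have hB := h.symm.struct_claim hf hW hU (by omega) g hc2
    have hinj : ∀ x, x ≠ 0 → (g : Matrix ι ι F) *ᵥ x ≠ 0 := by
      intro x hx h0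
      apply hx
      have := gl_inv_apply h0
      rw [Matrix.mulVec_zero] at this
      exact this.symm
    rcases hA with hA | hA <;> rcases hB with hB | hB
    · exact hgD (OmegaCore.decomp2_mem_swap hD hA hB)
    · obtain ⟨z, hz, hz0⟩ := Submodule.exists_mem_ne_zero_of_ne_bot (hne 0)
      exact hinj z hz0 (h.inter (hB z hz) (hA z hz))
    · obtain ⟨z, hz, hz0⟩ := Submodule.exists_mem_ne_zero_of_ne_bot (hne 1)
      exact hinj z hz0 (h.inter (hB z hz) (hA z hz))
    · exact hgD (OmegaCore.decomp2_mem_fix hD hB hA)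
  -- transfer by the swap
  have htrans : ∀ {A B : Submodule F (ι → F)}, (∀ x ∈ A, (s : Matrix ι ι F) *ᵥ x ∈ B) → Module.finrank F B ≤ Module.finrank F A →
      IsTotallySingularFor f A → (∀ a ∈ A, UFull σ f M a) → ∀ b ∈ B, UFull σ f M b := by
    intro A B hAB hfin htsA hA b hb'
    have h1 := inv_mem_of_map' s hAB hfin hb'
    have h2 := UFull.map hf (htsA _ h1 _ h1) (hA _ h1) hsiso hsM
    rwa [Matrix.mulVec_mulVec, ← Units.val_mul, mul_inv_cancel, Units.val_one, Matrix.one_mulVec] at h2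
  have hboth : (∀ a ∈ D 0, UFull σ f M a) ∧ (∀ a ∈ D 1, UFull σ f M a) := by
    rcases hfinish with h0 | h1
    · exact ⟨h0, htrans hs0 (by omega) (hts 0) h0⟩
    · exact ⟨htrans hs1 (by omega) (hts 1) h1, h1⟩
  obtain ⟨x, hx, hx0⟩ := Submodule.exists_mem_ne_zero_of_ne_bot (hne 0)
  have hxW : x ∉ D 1 ⊔ (⊥ : Submodule F (ι → F)) := by
    rw [sup_bot_eq]
    exact fun hin => hx0 (h.inter hx hin)
  obtain ⟨w, hw, -, hw1⟩ := h.exists_sep hf hxW
  exact su_le_of_centres hf (by omega) (hts 0 x hx x hx) (hts 1 w hw w hw) (hboth.1 x hx) (hboth.2 w hw) (by rw [hw1]; exact one_ne_zero)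

end Cfsg.Agent.Lib.ClassMax.UnitCore
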