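import Mathlib
import Cfsg.Agent.Lib.ClassMax.UnitSp
import Cfsg.Agent.Lib.ClassMax.UnitTS
import Cfsg.Agent.Lib.ClassMax.UnitField

/-! The orthogonal subgroups of the special unitary groups are maximal. -/

set_option autoImplicit false

namespace Cfsg.Agent.Lib.ClassMax.UnitCore

open Matrix Cfsg.Geo Cfsg.Agent.Lib.ClassMax Cfsg.Agent.Lib.ClassMax.QuadOver
open Cfsg.Agent.Lib.ClassMax.HermOver

variable {ι : Type} [Fintype ι] [DecidableEq ι] {F : Type*} [Field F] {σ : F ≃+* F} {f : (ι → F) → (ι → F) → F}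

local notation "VV" => (ι → F)
local notation "MM" => Matrix ι ι F
local notation "GG" => GL ι F

section Dict

variable (P : GL ι F) (F₀ : Subfield F)

/-- Rational vectors in coordinates. -/
def ratEmb (w : ι → F₀) : ι → F := (P : Matrix ι ι F) *ᵥ fun i => (w i : F)

theorem ratEmb_add (u v : ι → F₀) : ratEmb P F₀ (u + v) = ratEmb P F₀ u + ratEmb P F₀ v := by
  unfold ratEmb
  rw [← Matrix.mulVec_add]
  congr 1

theorem ratEmb_smul (c : F₀) (v : ι → F₀) : ratEmb P F₀ (c • v) = (c : F) • ratEmb P F₀ v := by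
  unfold ratEmb
  rw [← Matrix.mulVec_smul]
  congr 1

theorem ratEmb_zero : ratEmb P F₀ 0 = 0 := by
  unfold ratEmb
  have : (fun i => ((0 : ι → F₀) i : F)) = 0 := by
    funext i
    simp
  rw [this, Matrix.mulVec_zero]

theorem ratEmb_inj {u v : ι → F₀} (h : ratEmb P F₀ u = ratEmb P F₀ v) : u = v := by
  have h1 := congrArg (fun w => ((P⁻¹ : GG) : MM) *ᵥ w) h
  simp only [ratEmb, Matrix.mulVec_mulVec, ← Units.val_mul, inv_mul_cancel, Units.val_one, Matrix.one_mulVec] at h1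
  funext i
  exact Subtype.ext (congrFun h1 i)

variable {P F₀} (hF₀ : ∀ a : F, a ∈ F₀ ↔ σ a = a)
include hF₀

theorem rt_ratEmb (w : ι → F₀) : Rt σ P (ratEmb P F₀ w) :=
  rt_P fun i => (hF₀ _).mp (w i).2

theorem exists_ratEmb {v : VV} (h : Rt σ P v) : ∃ w : ι → F₀, v = ratEmb P F₀ w := by
  refine ⟨fun i => ⟨(((P⁻¹ : GG) : MM) *ᵥ v) i, (hF₀ _).mpr (rt_iff.mp h i)⟩, ?_⟩
  unfold ratEmb
  simp only
  rw [Matrix.mulVec_mulVec, ← Units.val_mul, mul_inv_cancel, Units.val_one, Matrix.one_mulVec]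

end Dict

section RatForm

variable (hf : IsUnitaryForm σ f) {P : GL ι F} (hR : ∀ u v, Rt σ P u → Rt σ P v → σ (f u v) = f u v)
  {F₀ : Subfield F} (hF₀ : ∀ a : F, a ∈ F₀ ↔ σ a = a) (h2 : (2 : F) ≠ 0)

include hf hR hF₀ h2 in
/-- The rational quadratic form. -/
theorem exists_ratQ [Fintype F] : ∃ Q₀ : (ι → F₀) → F₀, IsNondegenerateQuadraticForm Q₀ ∧
    (∀ u v, ((QuadraticMap.polar Q₀ u v : F₀) : F) = f (ratEmb P F₀ u) (ratEmb P F₀ v)) ∧
    ∀ w, ((Q₀ w : F₀) : F) = 2⁻¹ * f (ratEmb P F₀ w) (ratEmb P F₀ w) := by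
  have hval : ∀ w : ι → F₀, 2⁻¹ * f (ratEmb P F₀ w) (ratEmb P F₀ w) ∈ F₀ := by
    intro w
    rw [hF₀, map_mul, hR _ _ (rt_ratEmb hF₀ w) (rt_ratEmb hF₀ w), map_inv₀, map_ofNat]
  let Q₀ : (ι → F₀) → F₀ := fun w => ⟨_, hval w⟩
  have hQ₀ : ∀ w, ((Q₀ w : F₀) : F) = 2⁻¹ * f (ratEmb P F₀ w) (ratEmb P F₀ w) := fun w => rfl
  have hsymm : ∀ u v : ι → F₀, f (ratEmb P F₀ v) (ratEmb P F₀ u) = f (ratEmb P F₀ u) (ratEmb P F₀ v) := by
    intro u v
    rw [hf.herm, hR _ _ (rt_ratEmb hF₀ u) (rt_ratEmb hF₀ v)]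
  have hpol : ∀ u v, ((QuadraticMap.polar Q₀ u v : F₀) : F) = f (ratEmb P F₀ u) (ratEmb P F₀ v) := by
    intro u v
    rw [QuadraticMap.polar]
    push_cast
    rw [hQ₀, hQ₀, hQ₀, ratEmb_add]
    simp only [hf.add_left, add_right hf]
    rw [hsymm u v]
    field_simp
    ring
  have hbil : IsBilinearForm (QuadraticMap.polar Q₀) := by
    refine ⟨?_, ?_, ?_, ?_⟩
    · intro x y v
      apply Subtype.ext
      push_cast
      rw [hpol, hpol, hpol, ratEmb_add, hf.add_left]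
    · intro c x v
      apply Subtype.ext
      push_cast
      rw [hpol, hpol, ratEmb_smul, hf.smul_left]
    · intro v x y
      apply Subtype.ext
      push_cast
      rw [hpol, hpol, hpol, ratEmb_add, add_right hf]
    · intro c v x
      apply Subtype.ext
      push_cast
      rw [hpol, hpol, ratEmb_smul, smul_right hf, (hF₀ _).mp c.2]
  refine ⟨Q₀, ⟨?_, hbil, ?_⟩, hpol, hQ₀⟩
  · intro c v
    apply Subtype.ext
    push_cast
    rw [hQ₀, hQ₀, ratEmb_smul, hf.smul_left, smul_right hf, (hF₀ _).mp c.2]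
    ring
  · -- non-degeneracy
    have key : ∀ v : ι → F₀, v ≠ 0 → ∃ x, QuadraticMap.polar Q₀ x v ≠ 0 := by
      intro v hv
      have hv' : ratEmb P F₀ v ≠ 0 := by
        intro h0
        apply hv
        apply ratEmb_inj P F₀
        rw [h0, ratEmb_zero]
      obtain ⟨x, hx⟩ := (hf.nondegenerate _ hv').1
      obtain ⟨ε, hε⟩ : ∃ ε, σ ε ≠ ε := by
        by_contra hcon
        push Not at hcon
        apply hf.ne_refl
        ext a
        exact hcon a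
      obtain ⟨x₁, x₂, h1, h3, rfl⟩ := rt_decomp (P := P) hf.involutive hε x
      rw [hf.add_left, hf.smul_left] at hx
      obtain ⟨w₁, rfl⟩ := exists_ratEmb hF₀ h1
      obtain ⟨w₂, rfl⟩ := exists_ratEmb hF₀ h3
      by_cases h4 : f (ratEmb P F₀ w₁) (ratEmb P F₀ v) = 0
      · refine ⟨w₂, fun h5 => hx ?_⟩
        have := congrArg (fun z : F₀ => (z : F)) h5
        simp only [hpol, ZeroMemClass.coe_zero] at this
        rw [h4, this]
        ring
      · refine ⟨w₁, fun h5 => h4 ?_⟩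
        have := congrArg (fun z : F₀ => (z : F)) h5
        simpa only [hpol, ZeroMemClass.coe_zero] using this
    intro v hv
    obtain ⟨x, hx⟩ := key v hv
    refine ⟨⟨x, hx⟩, ⟨x, ?_⟩⟩
    rwa [QuadraticMap.polar_comm]

variable [Fintype F]

include hf hR hF₀ h2

private theorem odd_F₀ [Fintype F₀] : Odd (Fintype.card F₀) := by
  have h : (2 : F₀) ≠ 0 := fun h0 => h2 (by
    have h3 := congrArg (fun z : F₀ => (z : F)) h0
    push_cast at h3
    exact h3)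
  have h3 : ringChar F₀ ≠ 2 := by
    intro h4
    apply h
    have := ringChar.Nat.cast_ringChar (R := F₀)
    rw [h4] at this
    exact_mod_cast this
  exact Nat.odd_iff.mpr (FiniteField.odd_card_of_char_ne_two h3)

/-- Rational hyperbolic pairs orthogonal to given rational vectors. -/
theorem rat_hyp {k : ℕ} (c : Fin k → VV) (hc : ∀ i, Rt σ P (c i)) (hk : 2 * k + 2 < Fintype.card ι) :
    ∃ b b', Rt σ P b ∧ Rt σ P b' ∧ f b b = 0 ∧ f b' b' = 0 ∧ f b b' = 1 ∧ (∀ i, f (c i) b = 0) ∧ ∀ i, f (c i) b' = 0 := by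
  classical
  haveI : Fintype F₀ := Fintype.ofFinite _
  obtain ⟨Q₀, hQ₀, hpol, hq⟩ := exists_ratQ hf hR hF₀ h2 (P := P)
  have hodd := odd_F₀ hf hR hF₀ h2 (P := P)
  choose c₀ hc₀ using fun i => exists_ratEmb hF₀ (hc i)
  obtain ⟨b, b', h1, h3, h4, h5, h6⟩ := QuadOver.exists_hyp_pair hQ₀ hodd c₀ hk
  have hs : ∀ {w : ι → F₀}, Q₀ w = 0 → f (ratEmb P F₀ w) (ratEmb P F₀ w) = 0 := by
    intro w hw
    have := hq w
    rw [hw, ZeroMemClass.coe_zero] at this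
    have h7 : (2 : F)⁻¹ ≠ 0 := inv_ne_zero h2
    exact (mul_eq_zero.mp this.symm).resolve_left h7
  refine ⟨ratEmb P F₀ b, ratEmb P F₀ b', rt_ratEmb hF₀ b, rt_ratEmb hF₀ b', hs h1, hs h3, ?_, fun i => ?_, fun i => ?_⟩
  · rw [← hpol, h4]
    rfl
  · rw [hc₀, ← hpol, h5]
    rfl
  · rw [hc₀, ← hpol, h6]
    rfl

/-- Rational singular vectors orthogonal to given rational vectors and off rational combinations of others. -/
theorem rat_sing {k l : ℕ} (c : Fin k → VV) (hc : ∀ i, Rt σ P (c i)) (e : Fin l → VV) (he : ∀ i, Rt σ P (e i))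
    (hkl : k + l + 4 < Fintype.card ι) :
    ∃ w, Rt σ P w ∧ f w w = 0 ∧ (∀ i, f (c i) w = 0) ∧ ∀ t : Fin l → F, (∀ j, σ (t j) = t j) → w ≠ ∑ j, t j • e j := by
  classical
  haveI : Fintype F₀ := Fintype.ofFinite _
  obtain ⟨Q₀, hQ₀, hpol, hq⟩ := exists_ratQ hf hR hF₀ h2 (P := P)
  have hodd := odd_F₀ hf hR hF₀ h2 (P := P)
  choose c₀ hc₀ using fun i => exists_ratEmb hF₀ (hc i)
  choose e₀ he₀ using fun i => exists_ratEmb hF₀ (he i)
  obtain ⟨w, h1, h3, h4⟩ := QuadOver.exists_sing_perp hQ₀ hodd c₀ e₀ hkl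
  have hs : ∀ {w : ι → F₀}, Q₀ w = 0 → f (ratEmb P F₀ w) (ratEmb P F₀ w) = 0 := by
    intro w hw
    have := hq w
    rw [hw, ZeroMemClass.coe_zero] at this
    have h7 : (2 : F)⁻¹ ≠ 0 := inv_ne_zero h2
    exact (mul_eq_zero.mp this.symm).resolve_left h7
  refine ⟨ratEmb P F₀ w, rt_ratEmb hF₀ w, hs h1, fun i => ?_, fun t ht e1 => ?_⟩
  · rw [hc₀, ← hpol, h3]
    rfl
  · apply h4
    rw [Submodule.mem_span_range_iff_exists_fun]
    refine ⟨fun j => ⟨t j, (hF₀ _).mpr (ht j)⟩, ?_⟩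
    apply ratEmb_inj P F₀
    rw [e1]
    have hsum : ∀ s : Finset (Fin l), ratEmb P F₀ (∑ j ∈ s, (⟨t j, (hF₀ _).mpr (ht j)⟩ : F₀) • e₀ j) = ∑ j ∈ s, t j • e j := by
      intro s
      induction s using Finset.induction_on with
      | empty => simp [ratEmb_zero]
      | insert a s ha ih =>
        rw [Finset.sum_insert ha, Finset.sum_insert ha, ratEmb_add, ih, ratEmb_smul, ← he₀]
    rw [hsum]

/-- Every rational vector is a sum of three rational singular vectors. -/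
theorem rat_three {k : ℕ} (c : Fin k → VV) (hc : ∀ i, Rt σ P (c i)) {v : VV} (hv : Rt σ P v) (hk : 2 * (k + 1) + 2 < Fintype.card ι)
    (hperp : ∀ i, f (c i) v = 0) :
    ∃ z₁ z₂ z₃, Rt σ P z₁ ∧ Rt σ P z₂ ∧ Rt σ P z₃ ∧ f z₁ z₁ = 0 ∧ f z₂ z₂ = 0 ∧ f z₃ z₃ = 0 ∧ z₁ + z₂ + z₃ = v ∧
      (∀ i, f (c i) z₁ = 0) ∧ (∀ i, f (c i) z₂ = 0) ∧ ∀ i, f (c i) z₃ = 0 := by
  classical
  haveI : Fintype F₀ := Fintype.ofFinite _
  obtain ⟨Q₀, hQ₀, hpol, hq⟩ := exists_ratQ hf hR hF₀ h2 (P := P)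
  have hodd := odd_F₀ hf hR hF₀ h2 (P := P)
  choose c₀ hc₀ using fun i => exists_ratEmb hF₀ (hc i)
  obtain ⟨v₀, rfl⟩ := exists_ratEmb hF₀ hv
  have hs : ∀ {w : ι → F₀}, Q₀ w = 0 → f (ratEmb P F₀ w) (ratEmb P F₀ w) = 0 := by
    intro w hw
    have := hq w
    rw [hw, ZeroMemClass.coe_zero] at this
    have h7 : (2 : F)⁻¹ ≠ 0 := inv_ne_zero h2
    exact (mul_eq_zero.mp this.symm).resolve_left h7
  have hp0 : ∀ i, QuadraticMap.polar Q₀ (c₀ i) v₀ = 0 := by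
    intro i
    apply Subtype.ext
    rw [hpol, ← hc₀]
    exact hperp i
  obtain ⟨z₁, z₂, z₃, h1, h3, h4, h5, h6, h7, h8⟩ := QuadOver.exists_three_sing hQ₀ hodd c₀ v₀ hk hp0
  refine ⟨_, _, _, rt_ratEmb hF₀ z₁, rt_ratEmb hF₀ z₂, rt_ratEmb hF₀ z₃, hs h1, hs h3, hs h4, ?_, fun i => ?_, fun i => ?_, fun i => ?_⟩
  · rw [← ratEmb_add, ← ratEmb_add, h5]
  · rw [hc₀, ← hpol, h6]
    rfl
  · rw [hc₀, ← hpol, h7]
    rfl
  · rw [hc₀, ← hpol, h8]
    rfl

omit hf hR hF₀ h2 in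
theorem fix_of_smul {x : VV} {t : F} (hx : Rt σ P x) (hx0 : x ≠ 0) (h : Rt σ P (t • x)) : σ t = t := by
  unfold Rt at h
  rw [tau_smul, hx] at h
  have e : (σ t - t) • x = 0 := by rw [sub_smul, h, sub_self]
  rcases smul_eq_zero.mp e with h1 | h1
  · exact sub_eq_zero.mp h1
  · exact absurd h1 hx0

omit hF₀ h2 [Fintype F] in
theorem rat_comp_zero {ε : F} (hε : σ ε ≠ ε) {a y₀ y₁ : VV} (ha : Rt σ P a) (h0 : Rt σ P y₀) (h1 : Rt σ P y₁)
    (h : f a (y₀ + ε • y₁) = 0) : f a y₀ = 0 ∧ f a y₁ = 0 := by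
  rw [add_right hf, smul_right hf] at h
  have e1 := hR a y₀ ha h0
  have e2 := hR a y₁ ha h1
  have e3 : f a y₀ + ε * f a y₁ = 0 := by
    have := congrArg σ h
    rwa [map_add, map_zero, e1, map_mul, e2, hf.involutive] at this
  have e4 : (ε - σ ε) * f a y₁ = 0 := by linear_combination e3 - h
  have hne : ε - σ ε ≠ 0 := sub_ne_zero.mpr (Ne.symm hε)
  have e5 : f a y₁ = 0 := (mul_eq_zero.mp e4).resolve_left hne
  refine ⟨?_, e5⟩
  rw [e5, mul_zero, add_zero] at h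
  exact h

omit hF₀ h2 [Fintype F] in
/-- A rational vector separating `y` from the span of rational vectors. -/
theorem exists_rat_sep {k : ℕ} (e : Fin k → VV) (he : ∀ i, Rt σ P (e i)) {y : VV} (hy : y ∉ Submodule.span F (Set.range e)) :
    ∃ τ, Rt σ P τ ∧ (∀ i, f (e i) τ = 0) ∧ f y τ ≠ 0 := by
  obtain ⟨ε, hε⟩ : ∃ ε, σ ε ≠ ε := by
    by_contra hcon
    push Not at hcon
    apply hf.ne_refl
    ext a
    exact hcon a
  obtain ⟨τ, h1, h3⟩ := HermOver.exists_sep hf hy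
  obtain ⟨τ₁, τ₂, h4, h5, rfl⟩ := rt_decomp (P := P) hf.involutive hε τ
  have hperp : ∀ i, f (e i) τ₁ = 0 ∧ f (e i) τ₂ = 0 := fun i =>
    rat_comp_zero hf hR hε (he i) h4 h5 (h1 _ (Submodule.subset_span ⟨i, rfl⟩))
  by_cases h6 : f y τ₁ = 0
  · refine ⟨τ₂, h5, fun i => (hperp i).2, fun h7 => ?_⟩
    rw [add_right hf, smul_right hf, h6, h7] at h3
    simp at h3
  · exact ⟨τ₁, h4, fun i => (hperp i).1, h6⟩

/-- A rational singular vector separating `y` from the span of rational vectors. -/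
theorem rat_sing_sep {k : ℕ} (e : Fin k → VV) (he : ∀ i, Rt σ P (e i)) {y : VV} (hy : y ∉ Submodule.span F (Set.range e))
    (hk : 2 * (k + 3) + 2 < Fintype.card ι) : ∃ w, Rt σ P w ∧ f w w = 0 ∧ (∀ i, f (e i) w = 0) ∧ f y w ≠ 0 := by
  obtain ⟨ε, hε⟩ : ∃ ε, σ ε ≠ ε := by
    by_contra hcon
    push Not at hcon
    apply hf.ne_refl
    ext a
    exact hcon a
  obtain ⟨τ, hτ, h1, h3⟩ := exists_rat_sep hf hR e he hy
  obtain ⟨y₀, y₁, h4, h5, e₀⟩ := rt_decomp (P := P) hf.involutive hε y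
  have hc : ∀ i, Rt σ P (Fin.append e ![τ, y₀, y₁] i) := by
    intro i
    refine Fin.addCases (fun j => ?_) (fun j => ?_) i
    · rw [Fin.append_left]
      exact he j
    · rw [Fin.append_right]
      fin_cases j
      · exact hτ
      · exact h4
      · exact h5
  obtain ⟨b, b', hb, hb', hbb, hbb', hbb1, h6, h7⟩ := rat_hyp hf hR hF₀ h2 (Fin.append e ![τ, y₀, y₁]) hc hk
  have h8 : ∀ i, f (e i) b = 0 := fun i => by simpa using h6 (Fin.castAdd 3 i)
  have h9 : ∀ i, f (e i) b' = 0 := fun i => by simpa using h7 (Fin.castAdd 3 i)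
  have hτb : f τ b = 0 := by simpa using h6 (Fin.natAdd k 0)
  have hτb' : f τ b' = 0 := by simpa using h7 (Fin.natAdd k 0)
  have hy₀b : f y₀ b = 0 := by simpa using h6 (Fin.natAdd k 1)
  have hy₀b' : f y₀ b' = 0 := by simpa using h7 (Fin.natAdd k 1)
  have hy₁b : f y₁ b = 0 := by simpa using h6 (Fin.natAdd k 2)
  have hy₁b' : f y₁ b' = 0 := by simpa using h7 (Fin.natAdd k 2)
  have hbτ : f b τ = 0 := by rw [hf.herm, hτb, map_zero]
  have hb'τ : f b' τ = 0 := by rw [hf.herm, hτb', map_zero]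
  have hb'b : f b' b = 1 := by rw [hf.herm, hbb1, map_one]
  obtain ⟨α, hα⟩ : ∃ α, α = - (2⁻¹ * f τ τ) := ⟨_, rfl⟩
  have hαfix : σ α = α := by
    rw [hα, map_neg, map_mul, map_inv₀, map_ofNat, hR _ _ hτ hτ]
  refine ⟨τ + α • b + b', (hτ.add (hb.smul hαfix)).add hb', ?_, fun i => ?_, ?_⟩
  · simp only [hf.add_left, add_right hf, hf.smul_left, smul_right hf, hτb, hτb', hbτ, hb'τ, hbb, hbb', hbb1, hb'b, hαfix]
    rw [hα]
    field_simp
    ring
  · simp only [add_right hf, smul_right hf, h1 i, h8 i, h9 i]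
    ring
  · have hyb : f y b = 0 := by
      rw [e₀, hf.add_left, hf.smul_left, hy₀b, hy₁b]
      ring
    have hyb' : f y b' = 0 := by
      rw [e₀, hf.add_left, hf.smul_left, hy₀b', hy₁b']
      ring
    simp only [add_right hf, smul_right hf, hyb, hyb']
    simpa using h3

omit hf hR hF₀ h2 in
/-- Independence of a rational vector and a non-multiple. -/
theorem indep_rat {a b : VV} (ha : Rt σ P a) (hb : Rt σ P b) (ha0 : a ≠ 0) (h : ∀ t : F, σ t = t → b ≠ t • a) :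
    ∀ α β : F, α • b + β • a = 0 → α = 0 ∧ β = 0 := by
  intro α β e
  have hα : α = 0 := by
    by_contra hα
    have e1 : b = (-(β / α)) • a := by
      have h1 : α • b = (-β) • a := by
        rw [neg_smul]
        exact eq_neg_of_add_eq_zero_left e
      have h3 : b = α⁻¹ • (α • b) := by rw [smul_smul, inv_mul_cancel₀ hα, one_smul]
      rw [h3, h1, smul_smul]
      congr 1
      field_simp
    have e2 : σ (-(β / α)) = -(β / α) := by
      apply fix_of_smul ha ha0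
      rw [← e1]
      exact hb
    exact h _ e2 e1
  subst hα
  rw [zero_smul, zero_add] at e
  exact ⟨rfl, (smul_eq_zero.mp e).resolve_right ha0⟩

/-- If no scalar multiple of `g` preserves the rational vectors, `g` moves a rational singular vector off the rational
points. -/
theorem exists_sing_notRat (hn : 13 ≤ Fintype.card ι) {g : GG}
    (hg : ¬ ∃ c : F, c ≠ 0 ∧ ∀ v, Rt σ P v → Rt σ P (c • ((g : MM) *ᵥ v))) :
    ∃ x, Rt σ P x ∧ f x x = 0 ∧ ∀ (c : F) r, Rt σ P r → (g : MM) *ᵥ x ≠ c • r := by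
  by_contra hcon
  push Not at hcon
  apply hg
  have hinj : ∀ {z : VV}, (g : MM) *ᵥ z = 0 → z = 0 := by
    intro z h0
    have := gl_inv_apply h0
    rw [Matrix.mulVec_zero] at this
    exact this.symm
  have hstep : ∀ {x₁ y : VV} {c₀ : F}, c₀ ≠ 0 → Rt σ P x₁ → f x₁ x₁ = 0 → Rt σ P y → f y y = 0 → f x₁ y = 0 →
      (∀ a b : F, a • y + b • x₁ = 0 → a = 0 ∧ b = 0) → Rt σ P (c₀⁻¹ • ((g : MM) *ᵥ x₁)) → Rt σ P (c₀⁻¹ • ((g : MM) *ᵥ y)) := by
    intro x₁ y c₀ hc₀ hx₁ hx₁Q hy hyQ hx₁y hind hr₀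
    obtain ⟨c₁, r₁, hr₁, e₁⟩ := hcon y hy hyQ
    have hy₁ : f y x₁ = 0 := by rw [hf.herm, hx₁y, map_zero]
    obtain ⟨c₃, r₃, hr₃, e₃⟩ := hcon (y + x₁) (hy.add hx₁) (by
      simp only [hf.add_left, add_right hf, hx₁Q, hyQ, hx₁y, hy₁, add_zero])
    obtain ⟨r₀, hr₀'⟩ : ∃ r₀, r₀ = c₀⁻¹ • ((g : MM) *ᵥ x₁) := ⟨_, rfl⟩
    rw [← hr₀'] at hr₀
    have e₀ : (g : MM) *ᵥ x₁ = c₀ • r₀ := by rw [hr₀', smul_smul, mul_inv_cancel₀ hc₀, one_smul]
    have hy0 : y ≠ 0 := by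
      rintro rfl
      have := (hind 1 0 (by simp)).1
      exact one_ne_zero this
    have hc₁ : c₁ ≠ 0 := by
      rintro rfl
      rw [zero_smul] at e₁
      exact hy0 (hinj e₁)
    have hrel : c₁ • r₁ + c₀ • r₀ = c₃ • r₃ := by
      rw [← e₁, ← e₀, ← e₃, Matrix.mulVec_add]
    have hind' : ∀ a d : F, a • r₁ + d • r₀ = 0 → a = 0 ∧ d = 0 := by
      intro a d e
      have h1 : (a / c₁) • y + (d / c₀) • x₁ = 0 := by
        apply hinj
        rw [Matrix.mulVec_add, Matrix.mulVec_smul, Matrix.mulVec_smul, e₁, e₀, smul_smul, smul_smul]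
        have e1 : a / c₁ * c₁ = a := by field_simp
        have e2 : d / c₀ * c₀ = d := by field_simp
        rw [e1, e2, e]
      obtain ⟨h3, h4⟩ := hind _ _ h1
      exact ⟨(div_eq_zero_iff.mp h3).resolve_right hc₁, (div_eq_zero_iff.mp h4).resolve_right hc₀⟩
    have hc₃ : c₃ ≠ 0 := by
      rintro rfl
      rw [zero_smul] at e₃
      have h1 := hinj e₃
      have := (hind 1 1 (by simpa using h1)).1
      exact one_ne_zero this
    obtain ⟨h5, h6⟩ := ratio_fix hr₁ hr₀ hr₃ hrel hc₃ hind'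
    have h7 : c₀⁻¹ * c₁ = (c₁ / c₃) / (c₀ / c₃) := by field_simp
    have h8 : σ (c₀⁻¹ * c₁) = c₀⁻¹ * c₁ := by
      rw [h7, map_div₀, h5, h6]
    rw [e₁, smul_smul]
    exact hr₁.smul h8
  -- a base point
  obtain ⟨x₀, hx₀, hx₀Q, -, hx₀0⟩ := rat_sing hf hR hF₀ h2 (k := 0) (l := 0) Fin.elim0 (fun i => i.elim0) Fin.elim0 (fun i => i.elim0) (by omega)
  have hx₀ne : x₀ ≠ 0 := by simpa using hx₀0 (fun i => i.elim0) (fun i => i.elim0)
  obtain ⟨c₀, r₀, hr₀, e₀⟩ := hcon x₀ hx₀ hx₀Q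
  have hc₀ : c₀ ≠ 0 := by
    rintro rfl
    rw [zero_smul] at e₀
    exact hx₀ne (hinj e₀)
  have hbase : Rt σ P (c₀⁻¹ • ((g : MM) *ᵥ x₀)) := by
    rw [e₀, smul_smul, inv_mul_cancel₀ hc₀, one_smul]
    exact hr₀
  have hsing : ∀ y, Rt σ P y → f y y = 0 → Rt σ P (c₀⁻¹ • ((g : MM) *ᵥ y)) := by
    intro y hy hyQ
    by_cases hy0 : y = 0
    · subst hy0
      rw [Matrix.mulVec_zero, smul_zero]
      exact Rt.zero
    have hc : ∀ i, Rt σ P (![x₀, y] i) := by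
      intro i
      fin_cases i
      · exact hx₀
      · exact hy
    obtain ⟨z, hz, hzQ, hperp, hnot⟩ := rat_sing hf hR hF₀ h2 (k := 2) (l := 2) ![x₀, y] hc ![x₀, y] hc (by omega)
    have h1 : f x₀ z = 0 := hperp 0
    have h3 : f y z = 0 := hperp 1
    have h4 : f z y = 0 := by rw [hf.herm, h3, map_zero]
    have hn1 : ∀ t : F, σ t = t → z ≠ t • x₀ := by
      intro t ht e
      apply hnot ![t, 0]
      · intro j
        fin_cases j
        · exact ht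
        · simp
      · rw [Fin.sum_univ_two]
        simpa using e
    have hn2 : ∀ t : F, σ t = t → z ≠ t • y := by
      intro t ht e
      apply hnot ![0, t]
      · intro j
        fin_cases j
        · simp
        · exact ht
      · rw [Fin.sum_univ_two]
        simpa using e
    have hRz := hstep hc₀ hx₀ hx₀Q hz hzQ h1 (indep_rat hx₀ hz hx₀ne hn1) hbase
    have hind2 : ∀ a b : F, a • y + b • z = 0 → a = 0 ∧ b = 0 := by
      intro a b e
      have := indep_rat hy hz hy0 hn2 b a (by rw [add_comm]; exact e)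
      exact ⟨this.2, this.1⟩
    exact hstep hc₀ hz hzQ hy hyQ h4 hind2 hRz
  refine ⟨c₀⁻¹, inv_ne_zero hc₀, fun v hv => ?_⟩
  obtain ⟨z₁, z₂, z₃, h1, h3, h4, h5, h6, h7, rfl, -⟩ := rat_three hf hR hF₀ h2 (k := 0) Fin.elim0 (fun i => i.elim0) hv (by omega) (fun i => i.elim0)
  rw [Matrix.mulVec_add, Matrix.mulVec_add, smul_add, smul_add]
  exact ((hsing _ h1 h5).add (hsing _ h3 h6)).add (hsing _ h4 h7)

/-- Rational parameters give elements of the subgroup. -/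
theorem eg_rat_mem (hn : 6 ≤ Fintype.card ι) {z u : VV} {γ : F} (hz : Rt σ P z) (hu : Rt σ P u) (hγfix : σ γ = γ)
    (hzz : f z z = 0) (hzu : f z u = 0) (hγ : γ + σ γ = - f u u) :
    eg f z u γ ∈ subfieldSubgroup F₀ P ⊓ (uiso f ⊓ specialLinear ι F) := by
  refine ⟨mem_subfield_of_rat hF₀ one_ne_zero fun v hv => ?_, eg_mem_su hf hn hzz hzu hγ⟩
  rw [one_smul, eg_apply hf hzz hzu hγ]
  unfold egFun
  exact ((hv.add (hu.smul (hR v z hv hz))).sub (hz.smul (hR v u hv hu))).add (hz.smul (by rw [map_mul, hγfix, hR v z hv hz]))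

omit hF₀ [Fintype F] in
theorem half_fix {u : VV} (hu : Rt σ P u) : σ (-(2⁻¹ * f u u)) = -(2⁻¹ * f u u) := by
  rw [map_neg, map_mul, map_inv₀, map_ofNat, hR _ _ hu hu]

omit hF₀ [Fintype F] in
theorem half_ok {u : VV} (hu : Rt σ P u) : -(2⁻¹ * f u u) + σ (-(2⁻¹ * f u u)) = - f u u := by
  rw [half_fix hf hR h2 hu]
  field_simp
  ring

/-- The commutator of `E(a,εc,γ)` with rational elements gives the transvections at `a`. -/
theorem tv_of_ok (hn : 13 ≤ Fintype.card ι) {M : Subgroup GG} (hHM : subfieldSubgroup F₀ P ⊓ (uiso f ⊓ specialLinear ι F) ≤ M)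
    {ε : F} (hε : ε + σ ε = 0) (hε0 : ε ≠ 0) {a c : VV} {γ : F} (ha : Rt σ P a) (haa : f a a = 0) (hc : Rt σ P c) (hac : f a c = 0)
    (hnc : ∀ t : F, c ≠ t • a) (hγ : γ + σ γ = - f (ε • c) (ε • c)) (hm : eg f a (ε • c) γ ∈ M) (t : F) (ht : t + σ t = 0) :
    eg f a 0 t ∈ M := by
  have hσε : σ ε = -ε := by linear_combination hε
  have hσt : σ t = -t := by linear_combination ht
  have hsep : c ∉ Submodule.span F (Set.range ![a]) := by
    intro hin
    obtain ⟨s, hs⟩ := (Submodule.mem_span_range_iff_exists_fun F).mp hin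
    apply hnc (s 0)
    rw [← hs]
    simp
  obtain ⟨u, hu, h1, h3⟩ := exists_rat_sep hf hR (k := 1) ![a] (fun i => by fin_cases i; exact ha) hsep
  have hau : f a u = 0 := h1 0
  obtain ⟨β, hβ⟩ : ∃ β, β = f c u := ⟨_, rfl⟩
  rw [← hβ] at h3
  have hβfix : σ β = β := by rw [hβ]; exact hR c u hc hu
  obtain ⟨κ, hκ⟩ : ∃ κ, κ = (t / ε) / (2 * β) := ⟨_, rfl⟩
  have hκfix : σ κ = κ := by
    rw [hκ, map_div₀, map_div₀, map_mul, hβfix, map_ofNat, hσt, hσε]
    field_simp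
  have hu' : Rt σ P (κ • u) := hu.smul hκfix
  have hau' : f a (κ • u) = 0 := by rw [smul_right hf, hau, mul_zero]
  have hcu' : f c (κ • u) = κ * β := by rw [smul_right hf, hκfix, hβ]
  have hu'c : f (κ • u) c = κ * β := by rw [hf.herm, hcu', map_mul, hκfix, hβfix]
  obtain ⟨γ', hγ'⟩ : ∃ γ', γ' = -(2⁻¹ * f (κ • u) (κ • u)) := ⟨_, rfl⟩
  have hγ'fix : σ γ' = γ' := by rw [hγ']; exact half_fix hf hR h2 hu'
  have hγ'ok : γ' + σ γ' = - f (κ • u) (κ • u) := by rw [hγ']; exact half_ok hf hR h2 hu'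
  have hB : eg f a (κ • u) γ' ∈ M := hHM (eg_rat_mem hf hR hF₀ h2 (by omega) ha hu' hγ'fix haa hau' hγ'ok)
  have hεc : f a (ε • c) = 0 := by rw [smul_right hf, hac, mul_zero]
  have e1 := eg_mul hf haa hεc hau' hγ hγ'ok
  have e2 := eg_mul hf haa hau' hεc hγ'ok hγ
  have e3 : f (ε • c) (κ • u) - f (κ • u) (ε • c) = t := by
    have e30 : f (ε • c) (κ • u) = ε * (κ * β) := by rw [hf.smul_left, hcu']
    have e31 : f (κ • u) (ε • c) = σ ε * (κ * β) := by rw [smul_right hf, hu'c]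
    rw [e30, e31, hσε, hκ]
    have hβ0 : β ≠ 0 := h3
    field_simp
    ring
  have hsum0 : (γ' + γ - f (ε • c) (κ • u)) + σ (γ' + γ - f (ε • c) (κ • u)) = - f (κ • u + ε • c) (κ • u + ε • c) := by
    rw [map_sub, map_add, sig_f hf (ε • c) (κ • u), hf.add_left, add_right hf, add_right hf]
    linear_combination hγ'ok + hγ
  have e4 := eg_mul hf haa (zero_right hf a) (by rw [add_right hf, hau', hεc, add_zero] : f a (κ • u + ε • c) = 0) (skew_ok hf ht) hsum0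
  have e5 : eg f a 0 t * (eg f a (κ • u) γ' * eg f a (ε • c) γ) = eg f a (ε • c) γ * eg f a (κ • u) γ' := by
    rw [e1, e2, e4, zero_add, zero_right hf, add_comm (ε • c) (κ • u)]
    congr 1
    linear_combination -e3
  have e6 : eg f a 0 t = (eg f a (ε • c) γ * eg f a (κ • u) γ') * (eg f a (κ • u) γ' * eg f a (ε • c) γ)⁻¹ := by
    rw [← e5, mul_inv_cancel_right]
  rw [e6]
  exact M.mul_mem (M.mul_mem hm hB) (M.inv_mem (M.mul_mem hB hm))

/-- Spreading: from one element `E(a, εc, γ)` to all Eichler transformations with centre `a`. -/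
theorem full_of_ok (hn : 13 ≤ Fintype.card ι) {M : Subgroup GG} (hHM : subfieldSubgroup F₀ P ⊓ (uiso f ⊓ specialLinear ι F) ≤ M)
    (hMS : M ≤ uiso f ⊓ specialLinear ι F)
    {ε : F} (hε : ε + σ ε = 0) (hε0 : ε ≠ 0) {a c₀ : VV} {γ₀ : F} (ha : Rt σ P a) (haa : f a a = 0) (hc₀ : Rt σ P c₀) (hac₀ : f a c₀ = 0)
    (hnc : ∀ t : F, c₀ ≠ t • a) (hγ₀ : γ₀ + σ γ₀ = - f (ε • c₀) (ε • c₀)) (hm : eg f a (ε • c₀) γ₀ ∈ M) : UFull σ f M a := by
  have hσε : σ ε = -ε := by linear_combination hε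
  have hε' : σ ε ≠ ε := by
    rw [hσε]
    intro h0
    have : 2 * ε = 0 := by linear_combination -h0
    exact (mul_ne_zero h2 hε0) this
  have hT := tv_of_ok hf hR hF₀ h2 hn hHM hε hε0 ha haa hc₀ hac₀ hnc hγ₀ hm
  have hH6 : ∀ {z u : VV} {γ : F}, Rt σ P z → Rt σ P u → σ γ = γ → f z z = 0 → f z u = 0 → γ + σ γ = - f u u → eg f z u γ ∈ M :=
    fun h1 h3 h4 h5 h6 h7 => hHM (eg_rat_mem hf hR hF₀ h2 (by omega) h1 h3 h4 h5 h6 h7)
  -- the set of good parameters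
  let Ok : VV → Prop := fun c => ∃ γ, γ + σ γ = - f (ε • c) (ε • c) ∧ eg f a (ε • c) γ ∈ M
  have hεperp : ∀ {c : VV}, f a c = 0 → f a (ε • c) = 0 := fun h => by rw [smul_right hf, h, mul_zero]
  have hfull : ∀ {c : VV}, f a c = 0 → Ok c → ∀ γ, γ + σ γ = - f (ε • c) (ε • c) → eg f a (ε • c) γ ∈ M := by
    rintro c hc ⟨γ₁, h1, h3⟩ γ hγ
    have hs : (γ - γ₁) + σ (γ - γ₁) = 0 := by
      rw [map_sub]
      linear_combination hγ - h1
    have e := eg_mul hf haa (zero_right hf a) (hεperp hc) (skew_ok hf hs) h1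
    rw [zero_add, zero_right hf] at e
    have e2 : γ - γ₁ + γ₁ - 0 = γ := by ring
    rw [e2] at e
    rw [← e]
    exact M.mul_mem (hT _ hs) h3
  have hadd : ∀ {c c' : VV}, f a c = 0 → f a c' = 0 → Ok c → Ok c' → Ok (c + c') := by
    rintro c c' hc hc' ⟨γ₁, h1, h3⟩ ⟨γ₂, h4, h5⟩
    have e := eg_mul hf haa (hεperp hc) (hεperp hc') h1 h4
    refine ⟨γ₁ + γ₂ - f (ε • c') (ε • c), ?_, ?_⟩
    · rw [map_sub, map_add, sig_f hf (ε • c') (ε • c), smul_add, hf.add_left, add_right hf, add_right hf]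
      linear_combination h1 + h4
    · rw [smul_add, ← e]
      exact M.mul_mem h3 h5
  have hneg : ∀ {c : VV}, f a c = 0 → Ok c → Ok (-c) := by
    rintro c hc ⟨γ₁, h1, h3⟩
    refine ⟨σ γ₁, ?_, ?_⟩
    · rw [hf.involutive, smul_neg, neg_left hf, neg_right hf, neg_neg, add_comm]
      exact h1
    · rw [smul_neg, ← eg_inv hf haa (hεperp hc) h1]
      exact M.inv_mem h3
  have hmap : ∀ {h : GG}, h ∈ M → (h : MM) *ᵥ a = a → ∀ {c : VV}, f a c = 0 → Ok c → Ok ((h : MM) *ᵥ c) := by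
    rintro h hh hha c hc ⟨γ₁, h1, h3⟩
    have hiso : ∀ v w, f ((h : MM) *ᵥ v) ((h : MM) *ᵥ w) = f v w := (hMS hh).1
    have e := eg_conj hf hiso haa (hεperp hc) h1
    rw [hha, Matrix.mulVec_smul] at e
    refine ⟨γ₁, ?_, ?_⟩
    · rw [← Matrix.mulVec_smul, hiso]
      exact h1
    · rw [← e]
      exact M.mul_mem (M.mul_mem hh h3) (M.inv_mem hh)
  -- the basic step
  have hstep : ∀ {c u z : VV}, Rt σ P c → f a c = 0 → Ok c → Rt σ P u → f u u = 0 → f a u = 0 → f c u = 0 → Rt σ P z → f z z = 0 →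
      f a z = 0 → f z u = 0 → f c z ≠ 0 → Ok u := by
    intro c u z hc hac hok hu huu hau hcu hz hzz haz hzu hcz
    obtain ⟨κ, hκ⟩ : ∃ κ, κ = (f c z)⁻¹ := ⟨_, rfl⟩
    have hκfix : σ κ = κ := by rw [hκ, map_inv₀, hR c z hc hz]
    have hz' : Rt σ P (κ • z) := hz.smul hκfix
    have hz'z' : f (κ • z) (κ • z) = 0 := by rw [hf.smul_left, smul_right hf, hzz]; ring
    have hz'u : f (κ • z) u = 0 := by rw [hf.smul_left, hzu, mul_zero]
    have haz' : f a (κ • z) = 0 := by rw [smul_right hf, haz, mul_zero]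
    have hcz' : f c (κ • z) = 1 := by
      rw [smul_right hf, hκfix, hκ]
      exact inv_mul_cancel₀ hcz
    have hh := hH6 hz' hu (map_zero σ) hz'z' hz'u (zero_ok' hf huu)
    have h1 : (eg f (κ • z) u 0 : MM) *ᵥ a = a := eg_fix hf hz'z' hz'u (zero_ok' hf huu) haz' hau
    have h3 : (eg f (κ • z) u 0 : MM) *ᵥ c = c + u := by
      rw [eg_apply hf hz'z' hz'u (zero_ok' hf huu)]
      unfold egFun
      rw [hcz', hcu]
      simp
    have h4 := hmap hh h1 hac hok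
    rw [h3] at h4
    have h5 := hadd (by rw [add_right hf, hac, hau, add_zero]) (by rw [neg_right hf, hac, neg_zero]) h4 (hneg hac hok)
    have e : c + u + -c = u := by abel
    rwa [e] at h5
  have hsing : ∀ v, Rt σ P v → f v v = 0 → f a v = 0 → Ok v := by
    intro v hv hvv hav
    have hsep₀ : c₀ ∉ Submodule.span F (Set.range ![a]) := by
      intro hin
      obtain ⟨s, hs⟩ := (Submodule.mem_span_range_iff_exists_fun F).mp hin
      apply hnc (s 0)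
      rw [← hs]
      simp
    obtain ⟨z₁, hz₁, hz₁z₁, h1, h3⟩ := rat_sing_sep hf hR hF₀ h2 (k := 1) ![a] (fun i => by fin_cases i; exact ha) hsep₀ (by omega)
    have haz₁ : f a z₁ = 0 := h1 0
    obtain ⟨u₁, hu₁, hu₁u₁, h4, h5⟩ := rat_sing hf hR hF₀ h2 (k := 4) (l := 2) ![a, c₀, z₁, v]
      (fun i => by fin_cases i <;> first | exact ha | exact hc₀ | exact hz₁ | exact hv) ![a, v]
      (fun i => by fin_cases i <;> first | exact ha | exact hv) (by omega)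
    have hau₁ : f a u₁ = 0 := h4 0
    have hc₀u₁ : f c₀ u₁ = 0 := h4 1
    have hz₁u₁ : f z₁ u₁ = 0 := h4 2
    have hvu₁ : f v u₁ = 0 := h4 3
    have hok₀ : Ok c₀ := ⟨γ₀, hγ₀, hm⟩
    have hok₁ : Ok u₁ := hstep hc₀ hac₀ hok₀ hu₁ hu₁u₁ hau₁ hc₀u₁ hz₁ hz₁z₁ haz₁ hz₁u₁ h3
    have hsep₁ : u₁ ∉ Submodule.span F (Set.range ![a, v]) := by
      intro hin
      obtain ⟨s, hs⟩ := (Submodule.mem_span_range_iff_exists_fun F).mp hin
      rw [Fin.sum_univ_two] at hs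
      obtain ⟨p₀, r₀, h6, h7, h8⟩ := scalar_decomp hf.involutive hε' (s 0)
      obtain ⟨p₁, r₁, h9, h10, h11⟩ := scalar_decomp hf.involutive hε' (s 1)
      have e1 : u₁ + ε • (0 : VV) = (p₀ • a + p₁ • v) + ε • (r₀ • a + r₁ • v) := by
        rw [smul_zero, add_zero, ← hs]
        simp only [Matrix.cons_val_zero, Matrix.cons_val_one, h8, h11]
        module
      obtain ⟨h12, -⟩ := rt_unique hε' hu₁ Rt.zero ((ha.smul h6).add (hv.smul h9)) ((ha.smul h7).add (hv.smul h10)) e1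
      apply h5 ![p₀, p₁]
      · intro j
        fin_cases j
        · exact h6
        · exact h9
      · rw [Fin.sum_univ_two]
        simpa using h12
    obtain ⟨z₂, hz₂, hz₂z₂, h6, h7⟩ := rat_sing_sep hf hR hF₀ h2 (k := 2) ![a, v] (fun i => by fin_cases i <;> first | exact ha | exact hv) hsep₁ (by omega)
    have haz₂ : f a z₂ = 0 := h6 0
    have hvz₂ : f v z₂ = 0 := h6 1
    have hz₂v : f z₂ v = 0 := by rw [hf.herm, hvz₂, map_zero]
    have hu₁v : f u₁ v = 0 := by rw [hf.herm, hvu₁, map_zero]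
    exact hstep hu₁ hau₁ hok₁ hv hvv hav hu₁v hz₂ hz₂z₂ haz₂ hz₂v h7
  have hall : ∀ c, Rt σ P c → f a c = 0 → Ok c := by
    intro c hc hac
    obtain ⟨z₁, z₂, z₃, h1, h3, h4, h5, h6, h7, rfl, h8, h9, h10⟩ := rat_three hf hR hF₀ h2 (k := 1) ![a] (fun i => by fin_cases i; exact ha) hc (by omega)
      (fun i => by fin_cases i; exact hac)
    have h11 : f a z₁ = 0 := h8 0
    have h12 : f a z₂ = 0 := h9 0
    have h13 : f a z₃ = 0 := h10 0
    exact hadd (by rw [add_right hf, h11, h12, add_zero]) h13 (hadd h11 h12 (hsing _ h1 h5 h11) (hsing _ h3 h6 h12)) (hsing _ h4 h7 h13)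
  -- conclusion
  intro y γ hay hγ
  obtain ⟨y₀, y₁, h1, h3, rfl⟩ := rt_decomp (P := P) hf.involutive hε' y
  obtain ⟨h4, h5⟩ := rat_comp_zero hf hR hε' ha h1 h3 hay
  obtain ⟨γ', hγ'⟩ : ∃ γ', γ' = -(2⁻¹ * f y₀ y₀) := ⟨_, rfl⟩
  have hγ'fix : σ γ' = γ' := by rw [hγ']; exact half_fix hf hR h2 h1
  have hγ'ok : γ' + σ γ' = - f y₀ y₀ := by rw [hγ']; exact half_ok hf hR h2 h1
  have hB := hH6 ha h1 hγ'fix haa h4 hγ'ok
  have hγ₁ : (γ - γ' + f (ε • y₁) y₀) + σ (γ - γ' + f (ε • y₁) y₀) = - f (ε • y₁) (ε • y₁) := by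
    rw [map_add, map_sub, sig_f hf (ε • y₁) y₀]
    simp only [hf.add_left, add_right hf] at hγ
    linear_combination hγ - hγ'ok
  have e := eg_mul hf haa h4 (hεperp h5) hγ'ok hγ₁
  have e2 : γ' + (γ - γ' + f (ε • y₁) y₀) - f (ε • y₁) y₀ = γ := by ring
  rw [e2] at e
  rw [← e]
  exact M.mul_mem hB (hfull h5 (hall y₁ h3 h5) _ hγ₁)

/-- The first non-rational element. -/
theorem first_ok (hn : 13 ≤ Fintype.card ι) {M : Subgroup GG} (hHM : subfieldSubgroup F₀ P ⊓ (uiso f ⊓ specialLinear ι F) ≤ M)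
    {ε : F} (hε : ε + σ ε = 0) (hε0 : ε ≠ 0) {g : GG} (hgM : g ∈ M) (hg : ∀ v w, f ((g : MM) *ᵥ v) ((g : MM) *ᵥ w) = f v w)
    {x : VV} (hRx : Rt σ P x) (hxx : f x x = 0) (hx : ∀ (c : F) r, Rt σ P r → (g : MM) *ᵥ x ≠ c • r) :
    ∃ a c₀ γ₀, Rt σ P a ∧ f a a = 0 ∧ a ≠ 0 ∧ Rt σ P c₀ ∧ f a c₀ = 0 ∧ (∀ t : F, c₀ ≠ t • a) ∧ γ₀ + σ γ₀ = - f (ε • c₀) (ε • c₀) ∧
      eg f a (ε • c₀) γ₀ ∈ M := by
  have hσε : σ ε = -ε := by linear_combination hε
  have hε' : σ ε ≠ ε := by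
    rw [hσε]
    intro h0
    have : 2 * ε = 0 := by linear_combination -h0
    exact (mul_ne_zero h2 hε0) this
  have hH6 : ∀ {z u : VV} {γ : F}, Rt σ P z → Rt σ P u → σ γ = γ → f z z = 0 → f z u = 0 → γ + σ γ = - f u u → eg f z u γ ∈ M :=
    fun h1 h3 h4 h5 h6 h7 => hHM (eg_rat_mem hf hR hF₀ h2 (by omega) h1 h3 h4 h5 h6 h7)
  obtain ⟨X, hX⟩ : ∃ X, X = (g : MM) *ᵥ x := ⟨_, rfl⟩
  obtain ⟨X₀, X₁, hX₀, hX₁, eX⟩ := rt_decomp (P := P) hf.involutive hε' X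
  have hi := indep_of_notRat hf hε' hX₀ hX₁ (fun c r hr => by rw [← eX, hX]; exact hx c r hr)
  have hXX : f X X = 0 := by rw [hX, hg, hxx]
  -- the vector `b`
  obtain ⟨b, hb, hbb, h1, h3⟩ := rat_sing hf hR hF₀ h2 (k := 2) (l := 0) ![X₀, X₁] (fun i => by fin_cases i <;> first | exact hX₀ | exact hX₁)
    Fin.elim0 (fun i => i.elim0) (by omega)
  have hb0 : b ≠ 0 := by simpa using h3 (fun i => i.elim0) (fun i => i.elim0)
  have hX₀b : f X₀ b = 0 := h1 0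
  have hX₁b : f X₁ b = 0 := h1 1
  have hbX₀ : f b X₀ = 0 := by rw [hf.herm, hX₀b, map_zero]
  have hbX₁ : f b X₁ = 0 := by rw [hf.herm, hX₁b, map_zero]
  have hbX : f b X = 0 := by rw [eX, add_right hf, smul_right hf, hbX₀, hbX₁]; ring
  -- its preimage
  obtain ⟨y, hy⟩ : ∃ y, y = ((g⁻¹ : GG) : MM) *ᵥ b := ⟨_, rfl⟩
  have hgy : (g : MM) *ᵥ y = b := by
    rw [hy, Matrix.mulVec_mulVec, ← Units.val_mul, mul_inv_cancel, Units.val_one, Matrix.one_mulVec]
  have hsep : y ∉ Submodule.span F (Set.range ![x]) := by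
    intro hin
    obtain ⟨s, hs⟩ := (Submodule.mem_span_range_iff_exists_fun F).mp hin
    have e1 : y = s 0 • x := by
      rw [← hs]
      simp
    have e2 : b = s 0 • X := by rw [← hgy, e1, Matrix.mulVec_smul, hX]
    have hs0 : s 0 ≠ 0 := by
      intro h0
      rw [h0, zero_smul] at e2
      exact hb0 e2
    apply hx (s 0)⁻¹ b hb
    rw [e2, smul_smul, inv_mul_cancel₀ hs0, one_smul, hX]
  obtain ⟨w, hw, hww, h4, h5⟩ := rat_sing_sep hf hR hF₀ h2 (k := 1) ![x] (fun i => by fin_cases i; exact hRx) hsep (by omega)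
  have hxw : f x w = 0 := h4 0
  obtain ⟨W, hW⟩ : ∃ W, W = (g : MM) *ᵥ w := ⟨_, rfl⟩
  have hXW : f X W = 0 := by rw [hX, hW, hg, hxw]
  have hWW : f W W = 0 := by rw [hW, hg, hww]
  obtain ⟨r, hr⟩ : ∃ r, r = f b W := ⟨_, rfl⟩
  have hr0 : r ≠ 0 := by
    rw [hr, hW, ← hgy, hg]
    exact h5
  obtain ⟨W₀, W₁, hW₀, hW₁, eW⟩ := rt_decomp (P := P) hf.involutive hε' W
  -- the vector `a`
  obtain ⟨a, ha, haa, h6, h7⟩ := rat_sing hf hR hF₀ h2 (k := 5) (l := 2) ![X₀, X₁, W₀, W₁, b]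
    (fun i => by fin_cases i <;> first | exact hX₀ | exact hX₁ | exact hW₀ | exact hW₁ | exact hb) ![X₀, X₁]
    (fun i => by fin_cases i <;> first | exact hX₀ | exact hX₁) (by omega)
  have ha0 : a ≠ 0 := by
    intro h0
    apply h7 ![0, 0]
    · intro j
      fin_cases j <;> simp
    · rw [Fin.sum_univ_two, h0]
      simp
  have hX₀a : f X₀ a = 0 := h6 0
  have hX₁a : f X₁ a = 0 := h6 1
  have hW₀a : f W₀ a = 0 := h6 2
  have hW₁a : f W₁ a = 0 := h6 3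
  have hba : f b a = 0 := h6 4
  have haX₀ : f a X₀ = 0 := by rw [hf.herm, hX₀a, map_zero]
  have haX₁ : f a X₁ = 0 := by rw [hf.herm, hX₁a, map_zero]
  have haX : f a X = 0 := by rw [eX, add_right hf, smul_right hf, haX₀, haX₁]; ring
  have haW : f a W = 0 := by
    have h8 : f a W₀ = 0 := by rw [hf.herm, hW₀a, map_zero]
    have h9 : f a W₁ = 0 := by rw [hf.herm, hW₁a, map_zero]
    rw [eW, add_right hf, smul_right hf, h8, h9]; ring
  -- the element
  have hA : eg f X W 0 ∈ M := by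
    have e := eg_conj hf hg hxx hxw (zero_ok' hf hww)
    rw [← hX, ← hW] at e
    rw [← e]
    exact M.mul_mem (M.mul_mem hgM (hH6 hRx hw (map_zero σ) hxx hxw (zero_ok' hf hww))) (M.inv_mem hgM)
  have hAiso := eg_iso hf hXX hXW (zero_ok' hf hWW)
  have hAa : (eg f X W 0 : MM) *ᵥ a = a := eg_fix hf hXX hXW (zero_ok' hf hWW) haX haW
  have hAb : (eg f X W 0 : MM) *ᵥ b = b - r • X := by
    rw [eg_apply hf hXX hXW (zero_ok' hf hWW)]
    unfold egFun
    rw [hbX, ← hr]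
    simp
  have hE : eg f b a 0 ∈ M := hH6 hb ha (map_zero σ) hbb hba (zero_ok' hf haa)
  have hcomm := comm_fix hf hAiso hAa haa hbb hba
  rw [hAb, sub_sub_cancel, sub_right hf, hbb, smul_right hf, hbX, mul_zero, sub_zero] at hcomm
  have hM1 : eg f a (r • X) 0 ∈ M := by
    rw [← hcomm]
    exact M.mul_mem (M.mul_mem (M.mul_mem hA hE) (M.inv_mem hA)) (M.inv_mem hE)
  obtain ⟨r₀, r₁, hr₀, hr₁, er⟩ := scalar_decomp hf.involutive hε' r
  have hδ : σ (ε * ε) = ε * ε := by rw [map_mul, hσε]; ring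
  obtain ⟨X₀', hX₀'⟩ : ∃ X₀', X₀' = r₀ • X₀ + (ε * ε * r₁) • X₁ := ⟨_, rfl⟩
  obtain ⟨c₀, hc₀⟩ : ∃ c₀, c₀ = r₁ • X₀ + r₀ • X₁ := ⟨_, rfl⟩
  have eR : r • X = X₀' + ε • c₀ := by
    rw [hX₀', hc₀, eX, er]
    module
  have hRX₀' : Rt σ P X₀' := by
    rw [hX₀']
    exact (hX₀.smul hr₀).add (hX₁.smul (by rw [map_mul, hδ, hr₁]))
  have hRc₀ : Rt σ P c₀ := by
    rw [hc₀]
    exact (hX₀.smul hr₁).add (hX₁.smul hr₀)
  have haX₀' : f a X₀' = 0 := by
    rw [hX₀', add_right hf, smul_right hf, smul_right hf, haX₀, haX₁]; ring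
  have hac₀ : f a c₀ = 0 := by
    rw [hc₀, add_right hf, smul_right hf, smul_right hf, haX₀, haX₁]; ring
  have hc₀0 : c₀ ≠ 0 := by
    intro h0
    rw [hc₀] at h0
    obtain ⟨h8, h9⟩ := hi r₁ r₀ h0
    apply hr0
    rw [er, h8, h9]
    ring
  have hnc : ∀ t : F, c₀ ≠ t • a := by
    intro t e
    have ht0 : t ≠ 0 := by
      rintro rfl
      rw [zero_smul] at e
      exact hc₀0 e
    have htfix : σ t = t := by
      apply fix_of_smul ha ha0
      rw [← e]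
      exact hRc₀
    apply h7 ![t⁻¹ * r₁, t⁻¹ * r₀]
    · intro j
      fin_cases j
      · show σ (t⁻¹ * r₁) = t⁻¹ * r₁
        rw [map_mul, map_inv₀, htfix, hr₁]
      · show σ (t⁻¹ * r₀) = t⁻¹ * r₀
        rw [map_mul, map_inv₀, htfix, hr₀]
    · rw [Fin.sum_univ_two]
      have e1 : a = t⁻¹ • c₀ := by rw [e, smul_smul, inv_mul_cancel₀ ht0, one_smul]
      rw [e1, hc₀]
      simp only [Matrix.cons_val_zero, Matrix.cons_val_one]
      module
  obtain ⟨γ', hγ'⟩ : ∃ γ', γ' = -(2⁻¹ * f X₀' X₀') := ⟨_, rfl⟩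
  have hγ'fix : σ γ' = γ' := by rw [hγ']; exact half_fix hf hR h2 hRX₀'
  have hγ'ok : γ' + σ γ' = - f X₀' X₀' := by rw [hγ']; exact half_ok hf hR h2 hRX₀'
  have hB := hH6 ha hRX₀' hγ'fix haa haX₀' hγ'ok
  have hRR : f (X₀' + ε • c₀) (X₀' + ε • c₀) = 0 := by
    rw [← eR, hf.smul_left, smul_right hf, hXX]
    ring
  have hγ₁ : (f (ε • c₀) X₀' - γ') + σ (f (ε • c₀) X₀' - γ') = - f (ε • c₀) (ε • c₀) := by
    rw [map_sub, sig_f hf (ε • c₀) X₀']
    simp only [hf.add_left, add_right hf] at hRR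
    linear_combination hRR - hγ'ok
  refine ⟨a, c₀, _, ha, haa, ha0, hRc₀, hac₀, hnc, hγ₁, ?_⟩
  have hεc : f a (ε • c₀) = 0 := by rw [smul_right hf, hac₀, mul_zero]
  have e := eg_mul hf haa haX₀' hεc hγ'ok hγ₁
  have e2 : γ' + (f (ε • c₀) X₀' - γ') - f (ε • c₀) X₀' = 0 := by ring
  rw [e2, ← eR] at e
  have h8 := M.mul_mem (M.inv_mem hB) hM1
  rwa [← e, inv_mul_cancel_left] at h8

/-- The orthogonal subgroups of the special unitary groups are maximal. -/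
theorem isMaximal_orth (hn : 13 ≤ Fintype.card ι) :
    IsMaximalIn (uiso f ⊓ specialLinear ι F) (subfieldSubgroup F₀ P ⊓ (uiso f ⊓ specialLinear ι F)) := by
  haveI : Nonempty ι := Fintype.card_pos_iff.mp (by omega)
  obtain ⟨ε, hε0, hε⟩ := exists_skew' hf
  have hσε : σ ε = -ε := by linear_combination hε
  have hε' : σ ε ≠ ε := by
    rw [hσε]
    intro h0
    have : 2 * ε = 0 := by linear_combination -h0
    exact (mul_ne_zero h2 hε0) this
  obtain ⟨a, ha, haa, -, ha0'⟩ := rat_sing hf hR hF₀ h2 (k := 0) (l := 0) Fin.elim0 (fun i => i.elim0) Fin.elim0 (fun i => i.elim0) (by omega)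
  have ha0 : a ≠ 0 := by simpa using ha0' (fun i => i.elim0) (fun i => i.elim0)
  have hsep0 : a ∉ Submodule.span F (Set.range (Fin.elim0 : Fin 0 → VV)) := by
    intro hin
    obtain ⟨s, hs⟩ := (Submodule.mem_span_range_iff_exists_fun F).mp hin
    apply ha0
    rw [← hs]
    simp
  have hstrict : subfieldSubgroup F₀ P ⊓ (uiso f ⊓ specialLinear ι F) < uiso f ⊓ specialLinear ι F := by
    refine lt_of_le_of_ne inf_le_right ?_
    intro heq
    obtain ⟨v, hv, -, hav⟩ := exists_rat_sep hf hR (k := 0) Fin.elim0 (fun i => i.elim0) hsep0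
    have hva : f v a ≠ 0 := fun h0 => hav (by rw [hf.herm, h0, map_zero])
    have hmem : eg f a 0 ε ∈ subfieldSubgroup F₀ P ⊓ (uiso f ⊓ specialLinear ι F) := by
      rw [heq]
      exact eg_mem_su hf (by omega) haa (zero_right hf a) (skew_ok hf hε)
    obtain ⟨c, hc, hc'⟩ := rat_of_mem_subfield hF₀ hmem.1
    have hact : ∀ w, (eg f a 0 ε : MM) *ᵥ w = w + (ε * f w a) • a := by
      intro w
      rw [eg_apply hf haa (zero_right hf a) (skew_ok hf hε)]
      unfold egFun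
      rw [zero_right hf]
      module
    have h1 := hc' a ha
    rw [hact, haa, mul_zero, zero_smul, add_zero] at h1
    have hcfix : σ c = c := fix_of_smul ha ha0 h1
    have h3 := hc' v hv
    rw [hact] at h3
    have h4 : Rt σ P ((c * (ε * f v a)) • a) := by
      have e : (c * (ε * f v a)) • a = c • (v + (ε * f v a) • a) - c • v := by module
      rw [e]
      exact h3.sub (hv.smul hcfix)
    have h5 := fix_of_smul ha ha0 h4
    rw [map_mul, map_mul, hcfix, hσε, hR v a hv ha] at h5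
    have h6 : 2 * (c * (ε * f v a)) = 0 := by linear_combination -h5
    exact mul_ne_zero h2 (mul_ne_zero hc (mul_ne_zero hε0 hva)) h6
  refine ⟨hstrict, fun M hHM hMO => ?_⟩
  by_cases hle : M ≤ subfieldSubgroup F₀ P ⊓ (uiso f ⊓ specialLinear ι F)
  · exact Or.inl (le_antisymm hle hHM)
  right
  apply le_antisymm hMO
  obtain ⟨g, hgM, hgH⟩ := SetLike.not_le_iff_exists.mp hle
  have hgS := hMO hgM
  have hgiso : ∀ v w, f ((g : MM) *ᵥ v) ((g : MM) *ᵥ w) = f v w := hgS.1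
  have hgnot : ¬ ∃ c : F, c ≠ 0 ∧ ∀ v, Rt σ P v → Rt σ P (c • ((g : MM) *ᵥ v)) := by
    rintro ⟨c, hc, h⟩
    exact hgH ⟨mem_subfield_of_rat hF₀ hc h, hgS⟩
  obtain ⟨x, hRx, hxx, hx⟩ := exists_sing_notRat hf hR hF₀ h2 hn hgnot
  obtain ⟨b, c₀, γ₀, hb, hbb, hb0, hc₀, hbc₀, hnc, hγ₀, hm⟩ := first_ok hf hR hF₀ h2 hn hHM hε hε0 hgM hgiso hRx hxx hx
  have hFb := full_of_ok hf hR hF₀ h2 hn hHM hMO hε hε0 hb hbb hc₀ hbc₀ hnc hγ₀ hm
  -- a second centre
  have hsep1 : b ∉ Submodule.span F (Set.range (Fin.elim0 : Fin 0 → VV)) := by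
    intro hin
    obtain ⟨s, hs⟩ := (Submodule.mem_span_range_iff_exists_fun F).mp hin
    apply hb0
    rw [← hs]
    simp
  obtain ⟨z, hz, hzz, -, hbz⟩ := rat_sing_sep hf hR hF₀ h2 (k := 0) Fin.elim0 (fun i => i.elim0) hsep1 (by omega)
  obtain ⟨κ, hκ⟩ : ∃ κ, κ = (f b z)⁻¹ := ⟨_, rfl⟩
  have hκfix : σ κ = κ := by rw [hκ, map_inv₀, hR b z hb hz]
  have hz' : Rt σ P (κ • z) := hz.smul hκfix
  have hz'z' : f (κ • z) (κ • z) = 0 := by rw [hf.smul_left, smul_right hf, hzz]; ring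
  have hbz' : f b (κ • z) = 1 := by
    rw [smul_right hf, hκfix, hκ]
    exact inv_mul_cancel₀ hbz
  obtain ⟨p, p', hp, hp', hpp, hp'p', hpp', h1, h3⟩ := rat_hyp hf hR hF₀ h2 (k := 2) ![κ • z, b]
    (fun i => by fin_cases i <;> first | exact hz' | exact hb) (by omega)
  have h4 : f (κ • z) p = 0 := h1 0
  have h5 : f (κ • z) p' = 0 := h3 0
  have h6 : f b p = 0 := h1 1
  have h7 : f b p' = 0 := h3 1
  have hp'p : f p' p = 1 := by rw [hf.herm, hpp', map_one]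
  have huu : f (p + p') (p + p') = 2 := by
    simp only [hf.add_left, add_right hf, hpp, hp'p', hpp', hp'p]
    ring
  have hRu : Rt σ P (p + p') := hp.add hp'
  have hzu : f (κ • z) (p + p') = 0 := by rw [add_right hf, h4, h5, add_zero]
  have hbu : f b (p + p') = 0 := by rw [add_right hf, h6, h7, add_zero]
  have hfix1 : σ (-1 : F) = -1 := by simp
  have hok1 : (-1 : F) + σ (-1) = - f (p + p') (p + p') := by
    rw [hfix1, huu]
    ring
  have hE : eg f (κ • z) (p + p') (-1) ∈ M := hHM (eg_rat_mem hf hR hF₀ h2 (by omega) hz' hRu hfix1 hz'z' hzu hok1)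
  have hFb' := UFull.map hf hbb hFb (eg_iso hf hz'z' hzu hok1) hE
  have hb'eq : (eg f (κ • z) (p + p') (-1) : MM) *ᵥ b = b + (p + p') - κ • z := by
    rw [eg_apply hf hz'z' hzu hok1]
    unfold egFun
    rw [hbz', hbu]
    module
  have hne : f b ((eg f (κ • z) (p + p') (-1) : MM) *ᵥ b) ≠ 0 := by
    rw [hb'eq, sub_right hf, add_right hf, hbb, hbu, hbz']
    simp
  have hb'Q : f ((eg f (κ • z) (p + p') (-1) : MM) *ᵥ b) ((eg f (κ • z) (p + p') (-1) : MM) *ᵥ b) = 0 := by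
    rw [eg_iso hf hz'z' hzu hok1, hbb]
  exact su_le_of_centres hf (by omega) hbb hb'Q hFb hFb' hne

end RatForm

end Cfsg.Agent.Lib.ClassMax.UnitCore
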